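import Cfsg.Agent.MaxSub.SubfieldMax.Basic

/-!
Monomial matrices, root subgroups inside a subgroup of `GL`, and generation of `SL` from one
elementary transvection together with the monomial matrices of determinant one.
-/

set_option autoImplicit false
set_option linter.style.haveILetI false
set_option linter.unusedSectionVars false

namespace Cfsg.Agent.DecompMax.Lin

open Matrix Cfsg.Geo Cfsg.Agent.MaxSub.SubfieldMax
open scoped MatrixGroups Matrix

variable {ι : Type} [Fintype ι] [DecidableEq ι] {F : Type*} [Field F]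

/-- The monomial matrix sending the `i`th basis vector to `d i` times the `π i`th one. -/
def monMat (π : Equiv.Perm ι) (d : ι → Fˣ) : Matrix ι ι F :=
  Matrix.of fun x y => if x = π y then (d y : F) else 0

theorem monMat_mulVec_apply (π : Equiv.Perm ι) (d : ι → Fˣ) (v : ι → F) (i : ι) :
    (monMat π d *ᵥ v) (π i) = d i * v i := by
  simp only [monMat, Matrix.mulVec, dotProduct, Matrix.of_apply]
  rw [Finset.sum_eq_single i (fun y _ hy => by rw [if_neg (fun h => hy (π.injective h).symm), zero_mul])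
    (by simp), if_pos rfl]

theorem vecMul_monMat_apply (π : Equiv.Perm ι) (d : ι → Fˣ) (a : ι → F) (i : ι) :
    (a ᵥ* monMat π d) i = a (π i) * d i := by
  simp only [monMat, Matrix.vecMul, dotProduct, Matrix.of_apply]
  rw [Finset.sum_eq_single (π i) (fun y _ hy => by rw [if_neg hy, mul_zero]) (by simp), if_pos rfl]

theorem monMat_mul (π π' : Equiv.Perm ι) (d d' : ι → Fˣ) :
    monMat π d * monMat π' d' = monMat (π * π') (fun i => d (π' i) * d' i) := by
  refine Matrix.ext_of_mulVec_single fun i => funext fun x => ?_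
  obtain ⟨x, rfl⟩ := (π * π').surjective x
  rw [monMat_mulVec_apply, ← Matrix.mulVec_mulVec, Equiv.Perm.mul_apply, monMat_mulVec_apply,
    monMat_mulVec_apply, Units.val_mul, mul_assoc]

theorem monMat_one : monMat (1 : Equiv.Perm ι) (fun _ => (1 : Fˣ)) = 1 := by
  ext x y
  simp only [monMat, Matrix.of_apply, Matrix.one_apply, Equiv.Perm.one_apply, Units.val_one]
  by_cases h : x = y <;> simp [h]

/-- The monomial matrix as an element of `GL`. -/
def monGL (π : Equiv.Perm ι) (d : ι → Fˣ) : GL ι F where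
  val := monMat π d
  inv := monMat π⁻¹ fun i => (d (π⁻¹ i))⁻¹
  val_inv := by rw [monMat_mul, mul_inv_cancel, ← monMat_one]; simp
  inv_val := by rw [monMat_mul, inv_mul_cancel, ← monMat_one]; simp

theorem monGL_mulVec (π : Equiv.Perm ι) (d : ι → Fˣ) (v : ι → F) (i : ι) :
    ((monGL π d : GL ι F) : Matrix ι ι F).mulVec v (π i) = d i * v i :=
  monMat_mulVec_apply π d v i

theorem monGL_mulVec_ev (π : Equiv.Perm ι) (d : ι → Fˣ) (i : ι) :
    ((monGL π d : GL ι F) : Matrix ι ι F) *ᵥ ev F i = (d i : F) • ev F (π i) := by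
  funext x
  obtain ⟨x, rfl⟩ := π.surjective x
  rw [monGL_mulVec, Pi.smul_apply, smul_eq_mul, ev, ev]
  rcases eq_or_ne x i with rfl | h
  · simp
  · simp [Pi.single_eq_of_ne h, Pi.single_eq_of_ne (π.injective.ne h)]

theorem vecMul_inv_monGL (π : Equiv.Perm ι) (d : ι → Fˣ) (a : ι → F) (i : ι) :
    (a ᵥ* ((monGL π d)⁻¹ : GL ι F).1) (π i) = a i * ((d i)⁻¹ : Fˣ) := by
  show (a ᵥ* monMat π⁻¹ _) (π i) = _
  rw [vecMul_monMat_apply]
  simp

theorem det_monGL (π : Equiv.Perm ι) (d : ι → Fˣ) :
    ((monGL π d : GL ι F) : Matrix ι ι F).det = ((Equiv.Perm.sign π : ℤˣ) : F) * ∏ i, (d i : F) := by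
  have : ((monGL π d : GL ι F) : Matrix ι ι F) =
      (Matrix.diagonal fun i => (d i : F)).submatrix π.symm id := by
    ext x y
    show monMat π d x y = _
    simp [monMat, Matrix.diagonal_apply, Equiv.symm_apply_eq]
    split_ifs with h1 <;> simp [h1]
  rw [this, Matrix.det_permute, Matrix.det_diagonal, Equiv.Perm.sign_symm]

theorem monGL_mem_specialLinear {π : Equiv.Perm ι} {d : ι → Fˣ}
    (h : ((Equiv.Perm.sign π : ℤˣ) : F) * ∏ i, (d i : F) = 1) :
    monGL π d ∈ specialLinear ι F := by
  rw [GeoClasses.mem_specialLinear_iff, det_monGL, h]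

/-- Every column has a single non-zero entry. -/
def IsMon (g : GL ι F) : Prop := ∀ i, ∃ j, ∀ l, l ≠ j → (g : Matrix ι ι F) l i = 0

theorem isMon_monGL (π : Equiv.Perm ι) (d : ι → Fˣ) : IsMon (monGL π d : GL ι F) :=
  fun i => ⟨π i, fun l hl => by show monMat π d l i = 0; simp [monMat, hl]⟩

theorem IsMon.exists_eq {g : GL ι F} (h : IsMon g) : ∃ π d, g = monGL π d := by
  classical
  choose σ hσ using h
  have hne : ∀ i, (g : Matrix ι ι F) (σ i) i ≠ 0 := by
    intro i h0
    have hc : (g : Matrix ι ι F) *ᵥ ev F i = 0 := by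
      funext l
      rw [Matrix.mulVec_single_one, Matrix.col_apply]
      rcases eq_or_ne l (σ i) with rfl | hl
      · exact h0
      · exact hσ i l hl
    have := GeoClasses.mulVec_injective g (a₁ := ev F i) (a₂ := 0) (by simpa using hc)
    simpa [ev] using congrFun this i
  have hinj : Function.Injective σ := by
    intro i j hij
    by_contra hne'
    have : (g : Matrix ι ι F) *ᵥ ((g : Matrix ι ι F) (σ i) j • ev F i) =
        (g : Matrix ι ι F) *ᵥ ((g : Matrix ι ι F) (σ i) i • ev F j) := by
      funext l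
      simp only [Matrix.mulVec_smul, Matrix.mulVec_single_one, Pi.smul_apply, Matrix.col_apply, smul_eq_mul]
      rcases eq_or_ne l (σ i) with rfl | hl
      · ring
      · rw [hσ i l hl, hσ j l (hij ▸ hl)]; ring
    have := congrFun (GeoClasses.mulVec_injective g this) j
    simp [ev, Pi.single_eq_of_ne (Ne.symm hne')] at this
    exact hne i this.symm
  refine ⟨Equiv.ofBijective σ (Finite.injective_iff_bijective.mp hinj), fun i => Units.mk0 _ (hne i),
    Units.ext ?_⟩
  ext x y
  show _ = monMat _ _ x y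
  simp only [monMat, Matrix.of_apply, Equiv.ofBijective_apply, Units.val_mk0]
  split_ifs with hx
  · rw [hx]
  · exact hσ y x hx

/-- The root subgroup with centre `u` and axis `a` lies in `M`. -/
def Root (M : Subgroup (GL ι F)) (u a : ι → F) : Prop := a ⬝ᵥ u = 0 ∧ ∀ c : F, InM M (c • u) a

variable {M : Subgroup (GL ι F)}

theorem Root.add_left {u w a : ι → F} (h : Root M u a) (h' : Root M w a) : Root M (u + w) a := by
  refine ⟨by rw [dotProduct_add, h.1, h'.1, add_zero], fun c => ?_⟩
  exact (h.2 c).mul (h'.2 c) (by rw [dotProduct_smul, h'.1, smul_zero])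
    (by rw [smul_add, add_vecMulVec])

theorem Root.add_right {u a b : ι → F} (h : Root M u a) (h' : Root M u b) : Root M u (a + b) := by
  refine ⟨by rw [add_dotProduct, h.1, h'.1, add_zero], fun c => ?_⟩
  exact (h.2 c).add_right (h'.2 c) (by rw [dotProduct_smul, h.1, smul_zero])

theorem Root.smul_left {u a : ι → F} (h : Root M u a) (k : F) : Root M (k • u) a :=
  ⟨by rw [dotProduct_smul, h.1, smul_zero], fun c => by rw [smul_smul]; exact h.2 _⟩

theorem Root.smul_right {u a : ι → F} (h : Root M u a) (k : F) : Root M u (k • a) :=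
  ⟨by rw [smul_dotProduct, h.1, smul_zero], fun c => inM_smul_left.2 (by
    rw [smul_smul]; exact inM_smul_left.1 (h.2 _))⟩

theorem Root.sub_left {u w a : ι → F} (h : Root M u a) (h' : Root M w a) : Root M (u - w) a := by
  simpa [sub_eq_add_neg] using h.add_left (h'.smul_left (-1))

theorem Root.sub_right {u a b : ι → F} (h : Root M u a) (h' : Root M u b) : Root M u (a - b) := by
  simpa [sub_eq_add_neg] using h.add_right (h'.smul_right (-1))

theorem Root.of_smul_left {u a : ι → F} {k : F} (hk : k ≠ 0) (h : Root M (k • u) a) : Root M u a := by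
  simpa [smul_smul, inv_mul_cancel₀ hk] using h.smul_left k⁻¹

theorem Root.of_smul_right {u a : ι → F} {k : F} (hk : k ≠ 0) (h : Root M u (k • a)) : Root M u a := by
  simpa [smul_smul, inv_mul_cancel₀ hk] using h.smul_right k⁻¹

/-- Linking two root subgroups. -/
theorem Root.link {u a w b : ι → F} (h : Root M u a) (h' : Root M w b) (hbu : b ⬝ᵥ u = 0)
    (haw : a ⬝ᵥ w ≠ 0) : Root M u b := by
  refine ⟨hbu, fun c => ?_⟩
  have := (h.2 (c / (a ⬝ᵥ w))).comm (h'.2 1) (by rw [dotProduct_smul, h.1, smul_zero])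
    (by rw [one_smul, h'.1]) (by rw [dotProduct_smul, hbu, smul_zero])
  rwa [one_smul, smul_smul, mul_div_cancel₀ _ haw] at this

theorem Root.conj {u a : ι → F} (h : Root M u a) {g : GL ι F} (hg : g ∈ M) :
    Root M ((g : Matrix ι ι F) *ᵥ u) (a ᵥ* (g⁻¹ : GL ι F).1) := by
  refine ⟨?_, fun c => ?_⟩
  · rw [← Matrix.dotProduct_mulVec, Matrix.mulVec_mulVec, ← Units.val_mul, inv_mul_cancel, Units.val_one,
      Matrix.one_mulVec, h.1]
  · rw [← Matrix.mulVec_smul]
    exact (h.2 c).conj hg

/-- Conjugation of a root subgroup by an element of another. -/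
theorem Root.conj_root {u a w b : ι → F} (h : Root M w b) (h' : Root M u a) (s : F) :
    Root M (w + (s * (a ⬝ᵥ w)) • u) (b - (s * (b ⬝ᵥ u)) • a) := by
  obtain ⟨g, hg, e⟩ := h'.2 s
  have hinv : ((g⁻¹ : GL ι F) : Matrix ι ι F) = 1 - vecMulVec (s • u) a :=
    inv_val_of_sq e (vmv_mul_vmv_zero (by rw [dotProduct_smul, h'.1, smul_zero]) _ _)
  have := h.conj hg
  rw [e, hinv] at this
  convert this using 1
  · rw [Matrix.add_mulVec, Matrix.one_mulVec, Matrix.vecMulVec_mulVec]
    ext x; simp; ring
  · rw [Matrix.vecMul_sub, Matrix.vecMul_one, Matrix.vecMul_vecMulVec, dotProduct_smul, smul_eq_mul]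

theorem ev_dot_self (i : ι) : ev F i ⬝ᵥ ev F i = 1 := by simp [ev]

theorem root_smul_smul_iff {u a : ι → F} {k l : F} (hk : k ≠ 0) (hl : l ≠ 0) :
    Root M (k • u) (l • a) ↔ Root M u a :=
  ⟨fun h => (h.of_smul_left hk).of_smul_right hl, fun h => (h.smul_left k).smul_right l⟩

/-- Conjugating an elementary transvection by a monomial matrix. -/
theorem inM_ev_conj {x y : ι} {c : F} (h : InM M (c • ev F x) (ev F y)) {π : Equiv.Perm ι} {d : ι → Fˣ}
    (hg : monGL π d ∈ M) :
    InM M ((c * d x * ((d y)⁻¹ : Fˣ)) • ev F (π x)) (ev F (π y)) := by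
  have := h.conj hg
  rw [Matrix.mulVec_smul, monGL_mulVec_ev] at this
  refine this.congr ?_
  have e : ev F y ᵥ* ((monGL π d)⁻¹ : GL ι F).1 = (((d y)⁻¹ : Fˣ) : F) • ev F (π y) := by
    funext z
    obtain ⟨z, rfl⟩ := π.surjective z
    rw [vecMul_inv_monGL, Pi.smul_apply, smul_eq_mul]
    rcases eq_or_ne z y with rfl | hz
    · simp [ev]
    · simp [ev, Pi.single_eq_of_ne hz, Pi.single_eq_of_ne (π.injective.ne hz)]
  rw [e, vecMulVec_smul, ← smul_vecMulVec]
  congr 1
  ext z; simp; ring

/-- A subgroup containing all elementary transvections contains `SL`. -/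
theorem specialLinear_le_of_elementary [Nontrivial ι]
    (h : ∀ i j : ι, i ≠ j → ∀ c : F, InM M (c • ev F i) (ev F j)) : specialLinear ι F ≤ M := by
  intro g hg
  rw [GeoClasses.mem_specialLinear_iff] at hg
  have key : ∀ A : Matrix.SpecialLinearGroup ι F, Matrix.SpecialLinearGroup.toGL A ∈ M := by
    intro A
    refine Cfsg.Agent.Linear.transvection_induction
      (fun A => Matrix.SpecialLinearGroup.toGL A ∈ M) (fun i j hij x => ?_) (fun A B hA hB => ?_) A
    · obtain ⟨g', hg', e⟩ := h i j hij x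
      convert hg' using 1
      refine Units.ext ?_
      rw [e]
      ext a b
      simp [Matrix.SpecialLinearGroup.transvection_coe, vecMulVec_apply, Matrix.single, ev,
        Pi.single_apply, eq_comm, ite_and]
      split_ifs <;> rfl
    · rw [map_mul]; exact mul_mem hA hB
  convert key ⟨(g : Matrix ι ι F), hg⟩ using 1
  exact Units.ext rfl

theorem coe_sign_mul_self (π : Equiv.Perm ι) :
    ((Equiv.Perm.sign π : ℤˣ) : F) * ((Equiv.Perm.sign π : ℤˣ) : F) = 1 := by
  rcases Int.units_eq_one_or (Equiv.Perm.sign π) with h | h <;> simp [h]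

theorem coe_sign_ne_zero (π : Equiv.Perm ι) : ((Equiv.Perm.sign π : ℤˣ) : F) ≠ 0 := fun h => by
  have := coe_sign_mul_self (F := F) π
  rw [h, zero_mul] at this
  exact zero_ne_one this

/-- A monomial matrix can be given determinant one by changing a single entry. -/
theorem exists_adjust (π : Equiv.Perm ι) (d : ι → Fˣ) (z : ι) :
    ∃ d' : ι → Fˣ, (∀ i, i ≠ z → d' i = d i) ∧
      ((Equiv.Perm.sign π : ℤˣ) : F) * ∏ i, (d' i : F) = 1 := by
  have hp : ((Equiv.Perm.sign π : ℤˣ) : F) * ∏ i ∈ Finset.univ.erase z, (d i : F) ≠ 0 :=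
    mul_ne_zero (coe_sign_ne_zero π) (Finset.prod_ne_zero_iff.2 fun i _ => Units.ne_zero _)
  refine ⟨Function.update d z (Units.mk0 _ (inv_ne_zero hp)), fun i hi => Function.update_of_ne hi _ _, ?_⟩
  rw [← Finset.mul_prod_erase _ _ (Finset.mem_univ z), Function.update_self, Units.val_mk0]
  rw [Finset.prod_congr (g := fun i => (d i : F)) rfl fun i hi =>
    congrArg Units.val (Function.update_of_ne (Finset.ne_of_mem_erase hi) _ d)]
  field_simp
  exact div_self hp

/-- One elementary transvection and all monomial matrices of determinant one generate `SL`. -/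
theorem specialLinear_le_of_one_elementary (h3 : 3 ≤ Fintype.card ι)
    (hmon : ∀ π d, monGL π d ∈ specialLinear ι F → monGL π d ∈ M)
    {x y : ι} (hxy : x ≠ y) {c : F} (hc : c ≠ 0) (h : InM M (c • ev F x) (ev F y)) :
    specialLinear ι F ≤ M := by
  classical
  haveI : Nontrivial ι := Fintype.one_lt_card_iff_nontrivial.1 (by omega)
  refine specialLinear_le_of_elementary fun i j hij c' => ?_
  rcases eq_or_ne c' 0 with rfl | hc'
  · exact ⟨1, one_mem _, by simp⟩
  obtain ⟨z, hz⟩ := exists_avoid {x, y} (Finset.card_le_two.trans_lt h3)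
  simp only [Finset.mem_insert, Finset.mem_singleton, not_or] at hz
  obtain ⟨π, hπx, hπy⟩ : ∃ π : Equiv.Perm ι, π x = i ∧ π y = j := by
    refine ⟨Equiv.swap (Equiv.swap x i y) j * Equiv.swap x i, ?_, ?_⟩
    · rw [Equiv.Perm.mul_apply, Equiv.swap_apply_left]
      refine Equiv.swap_apply_of_ne_of_ne (fun e => ?_) hij
      have := congrArg (Equiv.swap x i) e
      rw [Equiv.swap_apply_self, Equiv.swap_apply_right] at this
      exact hxy this
    · rw [Equiv.Perm.mul_apply, Equiv.swap_apply_left]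
  obtain ⟨d, hd, hdet⟩ := exists_adjust π (Function.update (fun _ => 1) x (Units.mk0 (c' / c)
    (div_ne_zero hc' hc))) z
  have := inM_ev_conj h (hmon π d (monGL_mem_specialLinear hdet))
  rw [hπx, hπy, hd x (Ne.symm hz.1), hd y (Ne.symm hz.2), Function.update_self,
    Function.update_of_ne hxy.symm] at this
  simpa [mul_div_cancel₀ c' hc] using this

end Cfsg.Agent.DecompMax.Lin
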