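import Cfsg.Agent.DecompMax.UnitSpread

/-!
Overgroups of the monomial special unitary group with a transvection centre contain the special unitary
group.
-/

set_option autoImplicit false
set_option linter.style.haveILetI false
set_option linter.unusedSectionVars false

namespace Cfsg.Agent.DecompMax.UF

open Matrix Cfsg.Geo Module Cfsg.Agent.Classical.U Cfsg.Agent.DecompMax.UCount Cfsg.Agent.DecompMax.UN
open scoped MatrixGroups Matrix

universe u

variable {F : Type u} [Field F] {n q : ℕ}
variable {M : Subgroup (UG n F q)} (hF : SqField F q)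
include hF

theorem ext2_apply {i j : Fin n} (hij : i ≠ j) (g : (Fin 2 → F) → (Fin 2 → F)) (v : Fin n → F) :
    ext2 i j g v i = g ![v i, v j] 0 ∧ ext2 i j g v j = g ![v i, v j] 1 := by
  simp [ext2, Ne.symm hij]

/-- The special unitary group of two coordinates lies in `M` once all centres supported there do. -/
theorem exists_ext {i j : Fin n} (hij : i ≠ j)
    (h2 : ∀ e, herm q e e = 0 → supp e ⊆ {i, j} → e ∈ ctr hF M) (g : UG 2 F q) (hg : g ∈ SUG 2 F q) :
    ∃ p ∈ M, ∀ v, p.1 v = ext2 i j g.1 v := by
  classical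
  rw [SUG_eq_TG hF le_rfl (fun h => by omega)] at hg
  induction hg using Subgroup.closure_induction with
  | one =>
    refine ⟨1, one_mem M, fun v => funext fun x => ?_⟩
    show v x = _
    simp only [ext2]
    split_ifs with h1 h2'
    · rw [h1]; rfl
    · rw [h2']; rfl
    · rfl
  | mul a c _ _ iha ihc =>
    obtain ⟨p, hp, hpv⟩ := iha
    obtain ⟨r, hr, hrv⟩ := ihc
    refine ⟨p * r, mul_mem hp hr, fun v => funext fun x => ?_⟩
    have he : ![ext2 i j c.1 v i, ext2 i j c.1 v j] = c.1 ![v i, v j] := by
      ext y; fin_cases y <;> simp [ext2, Ne.symm hij]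
    rw [Subgroup.coe_mul, LinearEquiv.mul_apply, hpv, hrv]
    show (if x = i then a.1 ![ext2 i j c.1 v i, ext2 i j c.1 v j] 0 else if x = j then
      a.1 ![ext2 i j c.1 v i, ext2 i j c.1 v j] 1 else ext2 i j c.1 v x) = _
    rw [he]
    simp only [ext2, Subgroup.coe_mul, LinearEquiv.mul_apply]
    split_ifs <;> rfl
  | inv a _ iha =>
    obtain ⟨p, hp, hpv⟩ := iha
    refine ⟨p⁻¹, inv_mem hp, fun v => ?_⟩
    have : p.1 (ext2 i j (a⁻¹ : UG 2 F q).1 v) = v := by
      rw [hpv]
      funext x
      have he : ![ext2 i j (a⁻¹ : UG 2 F q).1 v i, ext2 i j (a⁻¹ : UG 2 F q).1 v j] =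
          (a⁻¹ : UG 2 F q).1 ![v i, v j] := by
        ext y; fin_cases y <;> simp [ext2, Ne.symm hij]
      show (if x = i then a.1 ![ext2 i j (a⁻¹ : UG 2 F q).1 v i, ext2 i j (a⁻¹ : UG 2 F q).1 v j] 0 else
        if x = j then a.1 ![ext2 i j (a⁻¹ : UG 2 F q).1 v i, ext2 i j (a⁻¹ : UG 2 F q).1 v j] 1 else
          ext2 i j (a⁻¹ : UG 2 F q).1 v x) = _
      rw [he, app_inv hF]
      simp only [ext2]
      split_ifs with h1 h2'
      · rw [h1]; rfl
      · rw [h2']; rfl
      · rfl
    conv_lhs => rw [← this]
    exact inv_app hF p _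
  | mem a ha =>
    obtain ⟨e, c, hec, ha⟩ := ha
    set E : Fin n → F := fun x => if x = i then e 0 else if x = j then e 1 else 0 with hE
    have hsE : supp E ⊆ {i, j} := fun x hx => by
      by_contra h
      simp only [Finset.mem_insert, Finset.mem_singleton, not_or] at h
      exact mem_supp.1 hx (by simp [hE, h.1, h.2])
    have hh : ∀ v : Fin n → F, herm q v E = herm q ![v i, v j] e := fun v => by
      rw [← hF.herm_symm, herm_of_supp hF hsE, Finset.sum_pair hij, ← hF.herm_symm e,
        herm_def e, Fin.sum_univ_two]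
      simp [hE, Ne.symm hij]
    have hEi : ![E i, E j] = e := by
      ext y; fin_cases y <;> simp [hE, Ne.symm hij]
    have hEE : herm q E E = 0 := by rw [hh, hEi]; exact hec.1
    refine ⟨trv hF (show TrvCond q E c from ⟨hEE, hec.2⟩), (h2 E hEE hsE).2 _ _, fun v => funext fun x => ?_⟩
    rw [trv_apply, hh]
    simp only [ext2, ha, Pi.add_apply, Pi.smul_apply, smul_eq_mul, hE]
    split_ifs with h1 h2'
    · rw [h1]; rfl
    · rw [h2']; rfl
    · simp

/-- A centre with one entry fewer in the same orbit. -/
theorem ctr_of_pair {i j : Fin n} (hij : i ≠ j)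
    (h2 : ∀ e, herm q e e = 0 → supp e ⊆ {i, j} → e ∈ ctr hF M) {v : Fin n → F}
    (hvv : herm q v v = 0) (hvj : v j ≠ 0)
    (hs : v i * v i ^ q + v j * v j ^ q ≠ 0)
    (ih : ∀ u, herm q u u = 0 → (supp u).card < (supp v).card → v i ≠ 0 → u ∈ ctr hF M) (hvi : v i ≠ 0) :
    v ∈ ctr hF M := by
  classical
  set s := v i * v i ^ q + v j * v j ^ q with hsdef
  obtain ⟨r, hr⟩ := hF.exists_norm (c := s) (by rw [hsdef, hF.add_pow, norm_fixed hF, norm_fixed hF])
  have hr0 : r ≠ 0 := fun e => hs (by rw [← hr, e, zero_pow (Nat.succ_ne_zero q)])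
  set u : Fin 2 → F := r⁻¹ • ![v i, v j] with hu
  have huu : herm q u u = 1 := by
    rw [hu, herm_smul_left, herm_smul_right, herm_def, Fin.sum_univ_two]
    simp only [Matrix.cons_val_zero, Matrix.cons_val_one, inv_pow]
    rw [← hsdef, ← hr, pow_succ']
    have := pow_ne_zero q hr0
    field_simp
  obtain ⟨g, hg⟩ := UG_transitive_one hF huu (v := sv F (0 : Fin 2)) (by rw [herm_sv hF]; simp)
  set d : NU F q := NU.mk ((LinearEquiv.det g.1 : Fˣ) : F) (by
    rw [← pow_succ']; exact det_norm_one hF g) with hd
  set g' := dia hF (fun x : Fin 2 => if x = 0 then 1 else d⁻¹) * g with hg'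
  have hS : g' ∈ SUG 2 F q := by
    rw [mem_SUG, hg', Subgroup.coe_mul, map_mul]
    refine Units.ext ?_
    rw [Units.val_mul, dia, det_mon, Fin.prod_univ_two]
    simp [hd]
    rw [← LinearEquiv.coe_det]
    exact inv_mul_cancel₀ (Units.ne_zero _)
  have hg'u : g'.1 ![v i, v j] = r • sv F (0 : Fin 2) := by
    have e : ![v i, v j] = r • u := by rw [hu, smul_inv_smul₀ hr0]
    rw [e, map_smul, hg', Subgroup.coe_mul, LinearEquiv.mul_apply, hg, dia_sv]
    simp
  obtain ⟨p, hp, hpv⟩ := exists_ext hF hij h2 g' hS
  have hpj : p.1 v j = 0 := by rw [hpv, (ext2_apply hF hij _ v).2, hg'u]; simp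
  have hsub : supp (p.1 v) ⊆ (supp v).erase j := fun x hx => by
    have hx' := mem_supp.1 hx
    refine Finset.mem_erase.2 ⟨fun e => hx' (e ▸ hpj), mem_supp.2 ?_⟩
    rcases eq_or_ne x i with rfl | hxi
    · exact hvi
    · have hxj : x ≠ j := fun e => hx' (e ▸ hpj)
      rw [hpv] at hx'
      simpa [ext2, hxi, hxj] using hx'
  have hlt : (supp (p.1 v)).card < (supp v).card := (Finset.card_le_card hsub).trans_lt
    (Finset.card_erase_lt_of_mem (mem_supp.2 hvj))
  have := ctr_map hF (ih _ (by rw [UG_app]; exact hvv) hlt hvi) (inv_mem hp)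
  rwa [inv_app hF] at this

variable (hM : ∀ g ∈ SUG n F q, MonU g → g ∈ M)
include hM

/-- All centres, fields with more than four elements. -/
theorem ctr_all (hn : 3 ≤ n) (hq : 3 ≤ q) {u : Fin n → F} (hu : u ∈ ctr hF M) (hc : (supp u).card = 2) :
    ∀ v, herm q v v = 0 → v ∈ ctr hF M := by
  classical
  haveI : Finite F := hF.1
  haveI : Fintype F := Fintype.ofFinite F
  have h2 : ∀ i j : Fin n, ∀ e, herm q e e = 0 → supp e ⊆ {i, j} → e ∈ ctr hF M := fun i j e he hs =>
    ctr_two_all hF hM hn hu hc he ((Finset.card_le_card hs).trans Finset.card_le_two)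
  suffices ∀ d v, herm q v v = 0 → (supp v).card ≤ d → v ∈ ctr hF M from fun v hv => this _ v hv le_rfl
  intro d
  induction d with
  | zero => intro v hv hc'; exact ctr_two_all hF hM hn hu hc hv (by omega)
  | succ d ih =>
    intro v hv hcard
    rcases Nat.lt_or_ge (supp v).card 3 with h3 | h3
    · exact ctr_two_all hF hM hn hu hc hv (by omega)
    have good : ∀ v', herm q v' v' = 0 → (supp v').card ≤ d + 1 →
        (∃ i j, i ≠ j ∧ v' i ≠ 0 ∧ v' j ≠ 0 ∧ v' i * v' i ^ q + v' j * v' j ^ q ≠ 0) →
        v' ∈ ctr hF M := by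
      rintro v' hv' hcard' ⟨i, j, hij, hi, hj, hs⟩
      exact ctr_of_pair hF hij (h2 i j) hv' hj hs (fun z hz hlt _ => ih z hz (by omega)) hi
    by_cases hgood : ∃ i j, i ≠ j ∧ v i ≠ 0 ∧ v j ≠ 0 ∧ v i * v i ^ q + v j * v j ^ q ≠ 0
    · exact good v hv hcard hgood
    push Not at hgood
    obtain ⟨i, j, k, hi, hj, hk, hij, hik, hjk⟩ := Finset.two_lt_card_iff.1 (show 2 < (supp v).card by omega)
    rw [mem_supp] at hi hj hk
    set c := v i * v i ^ q with hcdef
    have hc0 : c ≠ 0 := mul_ne_zero hi (pow_ne_zero _ hi)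
    have hcj : v j * v j ^ q = -c := by linear_combination hgood i j hij hi hj
    have hck : v k * v k ^ q = -c := by linear_combination hgood i k hik hi hk
    have h20 : (2 : F) = 0 := by
      have h := hgood j k hjk hj hk
      exact (mul_eq_zero.1 (show (2 : F) * c = 0 by linear_combination hcj + hck - h)).resolve_right hc0
    have hck' : v k * v k ^ q = c := by linear_combination hck - c * h20
    obtain ⟨κ, hκ⟩ := exists_norm_one_ne hF
    set ζ := ((κ : Fˣ) : F) with hζ
    set f : Fin n → F := fun x => if x = i then v i else if x = j then ζ * v j else 0 with hf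
    have hfs : supp f ⊆ {i, j} := fun x hx => by
      by_contra h
      simp only [Finset.mem_insert, Finset.mem_singleton, not_or] at h
      exact mem_supp.1 hx (by simp [hf, h.1, h.2])
    have hff : herm q f f = 0 := by
      rw [herm_of_supp hF hfs, Finset.sum_pair hij]
      simp only [hf, if_true, if_neg (Ne.symm hij), mul_pow]
      linear_combination hcj - hcdef + (v j * v j ^ q) * NU.mul_pow_eq κ
    set s := herm q f v with hs
    have hs' : s = c * (1 - ζ) := by
      rw [hs, herm_of_supp hF hfs, Finset.sum_pair hij]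
      simp only [hf, if_true, if_neg (Ne.symm hij)]
      linear_combination ζ * hcj - hcdef
    have hs0 : s ^ q ≠ 0 := pow_ne_zero _ (by rw [hs']; exact mul_ne_zero hc0 (sub_ne_zero.2 (Ne.symm hκ)))
    set X : F → F := fun a => a * s ^ q
    set bad : Finset F := Finset.univ.filter fun a => X a = -1 ∨ (a ≠ 0 ∧ X a + X a ^ q + X a * X a ^ q = 0)
    obtain ⟨a, ha, hab⟩ : ∃ a, (a ^ q = -a ∧ a ≠ 0) ∧ a ∉ bad := by
      by_contra hcon
      push Not at hcon
      exact show False by
        have hsub : bad ⊆ (Finset.univ.filter fun a => X a = -1) ∪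
            (Finset.univ.filter fun a : F => (a ^ q = -a ∧ a ≠ 0) ∧ X a + X a ^ q + X a * X a ^ q = 0) ∪
            (Finset.univ.filter fun a : F => ¬ a ^ q = -a ∧ a ∈ bad) := fun a ha => by
          have ha2 := (Finset.mem_filter.1 ha).2
          simp only [Finset.mem_union, Finset.mem_filter, Finset.mem_univ, true_and]
          by_cases hq' : a ^ q = -a
          · rcases ha2 with h | h
            · exact Or.inl (Or.inl h)
            · exact Or.inl (Or.inr ⟨⟨hq', h.1⟩, h.2⟩)
          · exact Or.inr ⟨hq', ha⟩
        have hone : (Finset.univ.filter fun a : F => (a ^ q = -a ∧ a ≠ 0) ∧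
            X a + X a ^ q + X a * X a ^ q = 0).card ≤ 1 := by
          refine Finset.card_le_one.2 fun a ha a' ha' => ?_
          simp only [Finset.mem_filter, X, mul_pow, hF.pow_pow] at ha ha'
          have e1 : a * (s ^ q - s - a * s ^ q * s) = 0 := by
            have := ha.2.2
            rw [ha.2.1.1] at this
            linear_combination this
          have e2 : a' * (s ^ q - s - a' * s ^ q * s) = 0 := by
            have := ha'.2.2
            rw [ha'.2.1.1] at this
            linear_combination this
          have f1 := (mul_eq_zero.1 e1).resolve_left ha.2.1.2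
          have f2 := (mul_eq_zero.1 e2).resolve_left ha'.2.1.2
          have hs1 : s ≠ 0 := fun e => hs0 (by rw [e, zero_pow hF.q_ne_zero])
          exact mul_right_cancel₀ (mul_ne_zero hs0 hs1) (by linear_combination f2 - f1)
        have hsk : Finset.univ.filter (fun a : F => (a ^ q = -a ∧ a ≠ 0)) ⊆
            (Finset.univ.filter fun a => X a = -1) ∪ (Finset.univ.filter fun a : F => (a ^ q = -a ∧ a ≠ 0) ∧
              X a + X a ^ q + X a * X a ^ q = 0) := fun a ha => by
          simp only [Finset.mem_filter, Finset.mem_univ, true_and] at ha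
          have := (Finset.mem_filter.1 (hcon a ha)).2
          simp only [Finset.mem_union, Finset.mem_filter, Finset.mem_univ, true_and]
          rcases this with h | h
          · exact Or.inl h
          · exact Or.inr ⟨ha, h.2⟩
        exfalso
        obtain ⟨δ, hδ0, hδ⟩ := hF.exists_skew
        have hone' : (Finset.univ.filter fun a => X a = -1).card ≤ 1 := Finset.card_le_one.2 fun a ha a' ha' => by
          simp only [Finset.mem_filter, X] at ha ha'
          exact mul_right_cancel₀ hs0 (ha.2.trans ha'.2.symm)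
        have hl1 : (1 : F) + 1 = 0 := by linear_combination h20
        have h3' : 3 ≤ (Finset.univ.filter fun a : F => a ^ q = -a ∧ a ≠ 0).card := by
          have hq4 : 4 ≤ q := by
            obtain ⟨p, e', hp, hc', he'⟩ := hF.exists_char
            have hp2 : p = 2 := by
              have := (CharP.cast_eq_zero_iff F p 2).1 (by exact_mod_cast h20)
              exact (Nat.prime_dvd_prime_iff_eq hp Nat.prime_two).1 this
            rw [hp2] at he'
            rcases e' with _ | _ | e'
            · simp at he'; omega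
            · simp at he'; omega
            · rw [he', pow_succ, pow_succ]
              have := Nat.one_le_two_pow (n := e')
              omega
          have hk : Nat.card {c : F // c ^ (q - 1) = 1} = q - 1 := hF.card_fixed_units
          rw [Nat.card_eq_fintype_card, Fintype.card_subtype] at hk
          refine le_trans (show 3 ≤ _ from (by omega : 3 ≤ q - 1).trans hk.ge) (Finset.card_le_card fun a ha => ?_)
          simp only [Finset.mem_filter, Finset.mem_univ, true_and] at ha ⊢
          have ha0 : a ≠ 0 := fun e => by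
            rw [e, zero_pow (by omega)] at ha
            exact zero_ne_one ha
          exact ⟨((hF.fixed_iff ha0).2 ha).trans (by linear_combination a * hl1), ha0⟩
        have := (Finset.card_le_card hsk).trans (Finset.card_union_le _ _)
        omega
    have hT : TrvCond q f a := ⟨hff, ha.1⟩
    set p := trv hF hT with hp
    have hpM : p ∈ M := (h2 i j f hff hfs).2 _ hT
    set v' := p.1 v with hv'
    have hv'x : ∀ x, v' x = v x + X a * f x := fun x => by
      rw [hv', hp, trv_apply, Pi.add_apply, Pi.smul_apply, smul_eq_mul, ← hF.herm_symm f v]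
    simp only [bad, Finset.mem_filter, Finset.mem_univ, true_and, not_or, not_and] at hab
    have hv'i : v' i = v i * (1 + X a) := by rw [hv'x]; simp [hf]; ring
    have hv'k : v' k = v k := by rw [hv'x]; simp [hf, Ne.symm hik, Ne.symm hjk]
    have h1X : 1 + X a ≠ 0 := fun e => hab.1 (by linear_combination e)
    have hgood' : v' i * v' i ^ q + v' k * v' k ^ q ≠ 0 := by
      rw [hv'i, hv'k, mul_pow, hF.add_pow, one_pow]
      intro e
      refine hab.2 ha.2 (mul_left_cancel₀ hc0 ?_)
      linear_combination e + (1 + X a + X a ^ q + X a * X a ^ q) * hcdef - hck' - c * h20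
    have hsub : supp v' ⊆ supp v := fun x hx => by
      rw [mem_supp] at hx ⊢
      intro e
      refine hx ?_
      rw [hv'x, e, zero_add]
      have : f x = 0 := by
        rcases eq_or_ne x i with rfl | hxi
        · exact absurd e hi
        rcases eq_or_ne x j with rfl | hxj
        · exact absurd e hj
        · simp [hf, hxi, hxj]
      rw [this, mul_zero]
    have hv'c := good v' (by rw [hv', UG_app]; exact hv) ((Finset.card_le_card hsub).trans hcard)
      ⟨i, k, hik, by rw [hv'i]; exact mul_ne_zero hi h1X, by rw [hv'k]; exact hk, hgood'⟩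
    have := ctr_map hF hv'c (inv_mem hpM)
    rwa [hv', inv_app hF] at this

/-- All centres, four elements. -/
theorem ctr_all_two (hn : 5 ≤ n) (hq : q = 2) {u : Fin n → F} (hu : u ∈ ctr hF M) (hc : (supp u).card = 4) :
    ∀ v, herm q v v = 0 → v ∈ ctr hF M := by
  classical
  haveI : Finite F := hF.1
  haveI : Fintype F := Fintype.ofFinite F
  subst hq
  have h20 : (2 : F) = 0 := by
    obtain ⟨p, e, hp, hc', he⟩ := hF.exists_char
    have hp2 : p = 2 := (Nat.prime_dvd_prime_iff_eq hp Nat.prime_two).1
      (by rw [he]; exact dvd_pow_self p (by rintro rfl; simp at he))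
    subst hp2
    exact CharTwo.two_eq_zero
  have hN : ∀ (w : Fin n → F) x, w x ≠ 0 → w x * w x ^ 2 = 1 := fun w x hx => by
    have h1 : (w x * w x ^ 2) ^ 2 = w x * w x ^ 2 := norm_fixed hF _
    rw [sq] at h1
    exact (mul_eq_right₀ (mul_ne_zero hx (pow_ne_zero 2 hx))).1 h1
  have hcast : ∀ w : Fin n → F, herm 2 w w = ((supp w).card : F) := fun w => by
    rw [herm_of_supp hF (subset_refl (supp w)), Finset.sum_congr rfl (fun x hx => hN w x (mem_supp.1 hx)),
      Finset.sum_const, nsmul_one]
  have four : ∀ v : Fin n → F, (supp v).card = 4 → v ∈ ctr hF M := by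
    intro v hv
    obtain ⟨σ, hσ⟩ := Equiv.Perm.exists_map_finset_eq (supp u) (supp v) (hc.trans hv.symm)
    obtain ⟨m, -, hm⟩ := Finset.exists_mem_notMem_of_card_lt_card (s := supp u) (t := Finset.univ)
      (by rw [Finset.card_univ, Fintype.card_fin]; omega)
    rw [mem_supp, not_not] at hm
    refine ctr_transfer hF hM hu σ m hm fun x => ?_
    have hiff : σ x ∈ supp v ↔ x ∈ supp u := by
      rw [← hσ, Finset.mem_map_equiv, Equiv.symm_apply_apply]
    by_cases hx : u x = 0
    · have : v (σ x) = 0 := by
        by_contra h; exact mem_supp.1 (hiff.1 (mem_supp.2 h)) hx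
      simp [hx, this]
    · rw [hN u x hx, hN v _ (mem_supp.1 (hiff.2 (mem_supp.2 hx)))]
  suffices ∀ d v, herm 2 v v = 0 → (supp v).card ≤ d → v ∈ ctr hF M from fun v hv => this _ v hv le_rfl
  intro d
  induction d with
  | zero => intro v hv h; exact ctr_zero_of_small hF hM hu hv (by omega)
  | succ d ih =>
    intro v hv hcard
    have heven : Even (supp v).card := by
      by_contra hodd
      rw [Nat.not_even_iff_odd] at hodd
      obtain ⟨e, he⟩ := hodd
      rw [hcast, he] at hv
      push_cast at hv
      rw [h20, zero_mul, zero_add] at hv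
      exact one_ne_zero hv
    rcases Nat.lt_or_ge (supp v).card 6 with h6 | h6
    · interval_cases h : (supp v).card
      · exact ctr_zero_of_small hF hM hu hv (by omega)
      · simp [parity_simps] at heven
      · obtain ⟨i, j, hij, hs⟩ := Finset.card_eq_two.1 h
        refine ⟨hv, fun a ha => hM _ (det_uni hF _) fun x => ?_⟩
        have hv0 : ∀ y, y ≠ i → y ≠ j → v y = 0 := fun y a b => by
          by_contra h'; have := mem_supp.2 h'; rw [hs] at this; simp [a, b] at this
        have hcol : ∀ y, (trv hF ha).1 (sv F x) y = sv F x y + a * v x ^ 2 * v y := fun y => by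
          rw [trv_apply, herm_one_single]; simp
        rcases eq_or_ne a 0 with rfl | ha0
        · exact ⟨x, fun y hy => by rw [hcol, show sv F x y = 0 from Pi.single_eq_of_ne hy _]; ring⟩
        have ha1 : a = 1 := by
          have e : a ^ 2 = -a := ha.2
          rw [sq] at e
          exact mul_right_cancel₀ ha0 (by linear_combination e - a * h20)
        subst ha1
        have hvi : v i ≠ 0 := mem_supp.1 (by rw [hs]; simp)
        have hvj : v j ≠ 0 := mem_supp.1 (by rw [hs]; simp)
        rcases eq_or_ne x i with hxi | hxi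
        · refine ⟨j, fun y hy => ?_⟩
          rw [hcol, hxi]
          rcases eq_or_ne y i with hyi | hyi
          · rw [hyi]; simp; linear_combination hN v i hvi + h20
          · rw [hv0 y hyi hy, show sv F i y = 0 from Pi.single_eq_of_ne hyi _]; ring
        rcases eq_or_ne x j with hxj | hxj
        · refine ⟨i, fun y hy => ?_⟩
          rw [hcol, hxj]
          rcases eq_or_ne y j with hyj | hyj
          · rw [hyj]; simp; linear_combination hN v j hvj + h20
          · rw [hv0 y hy hyj, show sv F j y = 0 from Pi.single_eq_of_ne hyj _]; ring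
        · exact ⟨x, fun y hy => by rw [hcol, hv0 x hxi hxj, show sv F x y = 0 from Pi.single_eq_of_ne hy _]; simp⟩
      · simp [parity_simps] at heven
      · exact four v h
      · simp [parity_simps] at heven
    obtain ⟨A, hA, hAc⟩ := Finset.exists_subset_card_eq (show 4 ≤ (supp v).card by omega)
    obtain ⟨a, A', haA, rfl, hA'⟩ := Finset.card_eq_succ.1 hAc
    obtain ⟨b, c, e, hbc, hbe, hce, rfl⟩ := Finset.card_eq_three.1 hA'
    obtain ⟨κ, hκ⟩ := exists_norm_one_ne hF
    set ω := ((κ : Fˣ) : F) with hω
    have hωq : ω * ω ^ 2 = 1 := NU.mul_pow_eq κ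
    have hω2 : ω ^ 2 + ω + 1 = 0 := (mul_eq_zero.1 (show (ω - 1) * (ω ^ 2 + ω + 1) = 0 by
      linear_combination hωq)).resolve_left (sub_ne_zero.2 hκ)
    set T : Finset (Fin n) := insert a {b, c, e} with hT
    set u₂ : Fin n → F := fun x => if x ∈ T then (if x = c then ω * v x else
      if x = e then ω ^ 2 * v x else v x) else 0 with hu₂
    have hω0 : ω ≠ 0 := NU.ne_zero κ
    have hω21 : ω ^ 2 ≠ 1 := fun h => hκ (by rw [h, mul_one] at hωq; exact hωq)
    have hs2 : supp u₂ = T := by
      ext x
      rw [mem_supp]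
      by_cases hx : x ∈ T
      · refine iff_of_true ?_ hx
        simp only [hu₂, if_pos hx]
        have := mem_supp.1 (hA hx)
        split_ifs
        · exact mul_ne_zero hω0 this
        · exact mul_ne_zero (pow_ne_zero _ hω0) this
        · exact this
      · exact iff_of_false (by simp [hu₂, hx]) hx
    simp only [Finset.mem_insert, Finset.mem_singleton, not_or] at haA
    have hc2 : u₂ ∈ ctr hF M := four u₂ (by rw [hs2, hAc])
    have hval : herm 2 u₂ v = 1 := by
      rw [herm_of_supp hF hs2.le, hT, Finset.sum_insert (by simp [haA.1, haA.2.1, haA.2.2]),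
        Finset.sum_insert (by simp [hbc, hbe]), Finset.sum_pair hce]
      simp only [hu₂, hT, Finset.mem_insert, Finset.mem_singleton, true_or, or_true, if_true, if_neg haA.2.1,
        if_neg haA.2.2, if_neg hbc, if_neg hbe, if_neg (Ne.symm hce)]
      have := fun x (hx : x ∈ insert a ({b, c, e} : Finset (Fin n))) => hN v x (mem_supp.1 (hA hx))
      linear_combination this a (by simp) + this b (by simp) + ω * this c (by simp) +
        ω ^ 2 * this e (by simp) + hω2
    have h22 := hc2.1
    have hwiso : herm 2 (v - u₂) (v - u₂) = 0 := by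
      rw [herm_sub_left, hF.herm_sub_right, hF.herm_sub_right, hv, h22, ← hF.herm_symm u₂ v, hval, one_pow]
      linear_combination -h20
    have hsub : supp (v - u₂) ⊆ ((supp v).erase a).erase b := fun x hx => by
      have hx' := mem_supp.1 hx
      refine Finset.mem_erase.2 ⟨fun h => ?_, Finset.mem_erase.2 ⟨fun h => ?_, mem_supp.2 fun h => ?_⟩⟩
      · subst h; apply hx'; simp [hu₂, hT, hbc, hbe]
      · subst h; apply hx'; simp [hu₂, hT, haA.2.1, haA.2.2]
      · apply hx'
        rw [Pi.sub_apply, h, zero_sub, neg_eq_zero]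
        simp [hu₂, h]
    have hlt : (supp (v - u₂)).card ≤ d := by
      refine (Finset.card_le_card hsub).trans ?_
      rw [Finset.card_erase_of_mem (show b ∈ (supp v).erase a from
          Finset.mem_erase.2 ⟨Ne.symm haA.1, hA (by simp [hT])⟩),
        Finset.card_erase_of_mem (show a ∈ supp v from hA (by simp [hT]))]
      omega
    have hw := ih _ hwiso hlt
    have hval2 : herm 2 (v - u₂) u₂ = 1 := by
      rw [herm_sub_left, h22, ← hF.herm_symm u₂ v, hval, one_pow, sub_zero]
    have := ctr_line_add hF hw hc2 (by rw [hval2]; exact one_ne_zero)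
      (by rw [hval2, one_pow]; linear_combination h20)
    rwa [sub_add_cancel] at this

/-- Overgroups with a centre contain the special unitary group. -/
theorem SUG_le_of_centre (hn : 5 ≤ n) {w : Fin n → F} (hw : w ∈ ctr hF M) {b : Fin n} (hb : w b = 0)
    (h2 : 2 ≤ (supp w).card) (h4 : q = 2 → (supp w).card = 4) : SUG n F q ≤ M := by
  have hall : ∀ v, herm q v v = 0 → v ∈ ctr hF M := by
    by_cases hq : q = 2
    · exact ctr_all_two hF hM (by omega) hq hw (h4 hq)
    · have hq3 : 3 ≤ q := by have := hF.one_lt; omega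
      obtain ⟨u, hu, huc⟩ := exists_two_supp hF hM hq3 hw hb h2
      exact ctr_all hF hM (by omega) hq3 hu huc
  rw [SUG_eq_TG hF (by omega) (by omega), TG, Subgroup.closure_le]
  rintro g ⟨e, a, hea, hg⟩
  rw [mem_TG_generator hF hea hg]
  exact (hall e hea.1).2 _ _

end Cfsg.Agent.DecompMax.UF
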