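import Cfsg.Agent.DecompMax.Comp
import Cfsg.Agent.GeoClasses.UnitNondeg
import Cfsg.Agent.Forms.UnitaryGeom

/-!
Transvection centres of a group of isometries of a hermitian form, and vectors with prescribed values
in the members of an orthogonal decomposition.
-/

set_option autoImplicit false
set_option linter.style.haveILetI false
set_option linter.unusedSectionVars false

namespace Cfsg.Agent.DecompMax.UN

open Matrix Cfsg.Geo Module Cfsg.Agent.Classical.U Cfsg.Agent.GeoClasses
open scoped MatrixGroups Matrix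

universe u

variable {F : Type u} [Field F] {n q : ℕ}

theorem det_hrefLin (c : F) (x : Fin n → F) :
    LinearMap.det (hrefLin q c x) = 1 + c * herm q x x := by
  set a : Fin n → F := fun j => c * herm q (Pi.single j (1 : F) : Fin n → F) x with ha
  have hdot : ∀ v, a ⬝ᵥ v = c * herm q v x := fun v => by
    conv_rhs => rw [pi_eq_sum_univ' v]
    simp only [herm_def, Finset.sum_apply, Pi.smul_apply, smul_eq_mul, Finset.sum_mul, Finset.mul_sum, ha,
      dotProduct]
    rw [Finset.sum_comm]
    refine Finset.sum_congr rfl fun i _ => Finset.sum_congr rfl fun j _ => ?_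
    rcases eq_or_ne i j with rfl | hij
    · simp; ring
    · simp [Pi.single_eq_of_ne hij, Pi.single_eq_of_ne (Ne.symm hij)]
  have hmat : LinearMap.toMatrix' (hrefLin q c x) =
      1 + Matrix.replicateCol Unit x * Matrix.replicateRow Unit a := by
    apply Matrix.toLin'.injective
    refine LinearMap.ext fun v => ?_
    rw [Matrix.toLin'_toMatrix', Matrix.toLin'_apply, ← Matrix.vecMulVec_eq, Matrix.add_mulVec,
      Matrix.one_mulVec, Matrix.vecMulVec_mulVec, hdot, hrefLin_apply]
    ext i; simp; ring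
  rw [← LinearMap.det_toMatrix', hmat, Matrix.det_one_add_replicateCol_mul_replicateRow, hdot]

variable (hF : SqField F q)
include hF

theorem det_href {c : F} {x : Fin n → F} (h : c + c ^ q + c * c ^ q * herm q x x = 0) :
    ((LinearEquiv.det (href hF h).1 : Fˣ) : F) = 1 + c * herm q x x := by
  rw [LinearEquiv.coe_det]
  exact det_hrefLin c x

/-- The centres of the transvections all of which lie in `M`. -/
def ctr (M : Subgroup (UG n F q)) : Set (Fin n → F) :=
  {e | herm q e e = 0 ∧ ∀ (a : F) (h : TrvCond q e a), trv hF h ∈ M}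

variable {M : Subgroup (UG n F q)}

theorem ctr_smul {e : Fin n → F} (he : e ∈ ctr hF M) (c : F) : c • e ∈ ctr hF M := by
  refine ⟨by rw [herm_smul_left, herm_smul_right, he.1, mul_zero, mul_zero], fun a h => ?_⟩
  have h' : TrvCond q e (a * (c * c ^ q)) := ⟨he.1, by rw [mul_pow, mul_pow, hF.pow_pow, h.2]; ring⟩
  convert he.2 _ h' using 1
  refine Subtype.ext (LinearEquiv.ext fun w => ?_)
  rw [trv_apply, trv_apply, herm_smul_right, smul_smul]
  congr 2
  ring

theorem ctr_map {e : Fin n → F} (he : e ∈ ctr hF M) {g : UG n F q} (hg : g ∈ M) : g.1 e ∈ ctr hF M := by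
  refine ⟨by rw [UG_app]; exact he.1, fun a h => ?_⟩
  have h' : TrvCond q e a := ⟨he.1, h.2⟩
  convert mul_mem (mul_mem hg (he.2 a h')) (inv_mem hg) using 1
  refine Subtype.ext (LinearEquiv.ext fun w => ?_)
  rw [Subgroup.coe_mul, Subgroup.coe_mul, LinearEquiv.mul_apply, LinearEquiv.mul_apply, trv_apply,
    trv_apply, map_add, map_smul, ← UG_app g ((g⁻¹ : UG n F q).1 w) e]
  simp

/-- Two non-orthogonal centres give every isotropic vector of their line. -/
theorem ctr_line {e y : Fin n → F} (he : e ∈ ctr hF M) (hy : y ∈ ctr hF M) (hey : herm q e y ≠ 0)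
    {α β : F} (hz : herm q (α • e + β • y) (α • e + β • y) = 0) : α • e + β • y ∈ ctr hF M := by
  rcases eq_or_ne α 0 with rfl | hα
  · simpa using ctr_smul hF hy β
  set γ := β / α with hγ
  set d := herm q e y with hd
  have hαγ : α • (e + γ • y) = α • e + β • y := by
    rw [smul_add, smul_smul, hγ, mul_div_cancel₀ _ hα]
  rw [← hαγ] at hz ⊢
  refine ctr_smul hF ?_ α
  rw [herm_smul_left, herm_smul_right] at hz
  replace hz := ((mul_eq_zero.1 hz).resolve_left hα)
  replace hz := (mul_eq_zero.1 hz).resolve_left (pow_ne_zero _ hα)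
  rw [herm_add_left, hF.herm_add_right, hF.herm_add_right, herm_smul_left, herm_smul_left,
    herm_smul_right, herm_smul_right, he.1, hy.1, ← hF.herm_symm e y, ← hd] at hz
  have hcond : TrvCond q y (γ / d) := ⟨hy.1, by
    rw [div_pow, eq_neg_iff_add_eq_zero]
    have := pow_ne_zero q hey
    field_simp
    linear_combination hz⟩
  have := ctr_map hF he (hy.2 _ hcond)
  rwa [trv_apply, ← hd, div_mul_cancel₀ _ hey] at this

theorem ctr_line_add {e y : Fin n → F} (he : e ∈ ctr hF M) (hy : y ∈ ctr hF M) (hey : herm q e y ≠ 0)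
    (htr : herm q e y + herm q e y ^ q = 0) : e + y ∈ ctr hF M := by
  have := ctr_line hF he hy hey (α := 1) (β := 1) (by
    rw [one_smul, one_smul, herm_add_left, hF.herm_add_right, hF.herm_add_right, he.1, hy.1,
      ← hF.herm_symm e y]
    linear_combination htr)
  rwa [one_smul, one_smul] at this

theorem ctr_line_sub {e y : Fin n → F} (he : e ∈ ctr hF M) (hy : y ∈ ctr hF M) (hey : herm q e y ≠ 0)
    (htr : herm q e y + herm q e y ^ q = 0) : e - y ∈ ctr hF M := by
  have hy' : -y ∈ ctr hF M := by simpa using ctr_smul hF hy (-1)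
  rw [sub_eq_add_neg]
  refine ctr_line_add hF he hy' (by rw [hF.herm_neg_right]; simpa using hey) ?_
  rw [hF.herm_neg_right, hF.neg_pow]
  linear_combination -htr

/-- An orthogonal decomposition of the hermitian space into non-degenerate members. -/
structure IsUDec {t : ℕ} (q k : ℕ) (D : Fin t → Submodule F (Fin n → F)) : Prop where
  card : 4 ≤ n
  dec : IsMDecomposition k D
  orth : ∀ i j, i ≠ j → ∀ u ∈ D i, ∀ v ∈ D j, herm q u v = 0
  nd : ∀ i, ∀ x ∈ D i, x ≠ 0 → ∃ y ∈ D i, herm q x y ≠ 0
  two : 2 ≤ k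
  three : q = 2 → 3 ≤ k

variable {t k : ℕ} {D : Fin t → Submodule F (Fin n → F)} (H : IsUDec q k D)
include H

theorem IsUDec.sum_eq (C : Components D) (u v : Fin n → F) :
    herm q u v = ∑ i, herm q (C.proj i u) (C.proj i v) :=
  C.form_eq_sum (fun a b c => herm_add_left a b c) (fun a b c => hF.herm_add_right a b c)
    (fun i j hij a ha b hb => H.orth i j hij a ha b hb) u v

theorem IsUDec.herm_proj (C : Components D) {i : Fin t} {x : Fin n → F} (hx : x ∈ D i) (v : Fin n → F) :
    herm q x v = herm q x (C.proj i v) := by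
  rw [H.sum_eq hF C, Finset.sum_eq_single i (fun r _ hr => by rw [C.of_mem_ne hr.symm hx, herm_zero_left])
    (by simp), C.of_mem hx]

theorem IsUDec.n_eq : n = k * t := by
  obtain ⟨b, -⟩ := ClassicalMax.exists_adapted_basis H.dec
  have := Module.finrank_eq_card_basis b
  rw [Module.finrank_fin_fun, Fintype.card_prod, Fintype.card_fin, Fintype.card_fin] at this
  exact this

/-- An anisotropic vector of a subspace splitting off a member. -/
theorem IsUDec.exists_aniso_in (i : Fin t) (T : Submodule F (Fin n → F)) (hT : T ≤ D i) {s : Fin n → F}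
    (hs : s ∈ T) (hs0 : s ≠ 0)
    (hspan : ∀ y ∈ D i, ∃ y' ∈ T, herm q s y = herm q s y') : ∃ v ∈ T, herm q v v ≠ 0 := by
  by_contra hno
  push Not at hno
  obtain ⟨y, hy, hsy⟩ := H.nd i s (hT hs) hs0
  obtain ⟨y', hy', e⟩ := hspan y hy
  rw [e] at hsy
  obtain ⟨μ, hμ⟩ := hF.exists_trace (c := (1 : F)) (one_pow q)
  have h := hno ((μ / herm q s y') • s + y') (T.add_mem (T.smul_mem _ hs) hy')
  rw [herm_add_left, hF.herm_add_right, hF.herm_add_right, herm_smul_left, herm_smul_left,
    herm_smul_right, herm_smul_right, hno s hs, hno y' hy', ← hF.herm_symm s y', div_pow] at h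
  have := pow_ne_zero q hsy
  field_simp at h
  have h2 : (μ + μ ^ q) * (herm q s y' * herm q s y' ^ q) = 0 := by linear_combination h
  rw [hμ, one_mul] at h2
  exact mul_ne_zero hsy this h2

/-- A member contains an anisotropic vector orthogonal to a given one, unless it is a plane and the
vector is isotropic there. -/
theorem IsUDec.exists_aniso_perp (i : Fin t) {x : Fin n → F} (hx : x ∈ D i)
    (hcond : x = 0 ∨ herm q x x ≠ 0 ∨ 3 ≤ k) : ∃ v ∈ D i, herm q v v ≠ 0 ∧ herm q v x = 0 := by
  have hk := H.two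
  have hfr := H.dec.finrank_eq i
  rcases eq_or_ne x 0 with rfl | hx0
  · obtain ⟨s, hs, hs0⟩ := Submodule.exists_mem_ne_zero_of_ne_bot (p := D i) fun h => by
      rw [h, finrank_bot] at hfr; omega
    obtain ⟨v, hv, hvv⟩ := H.exists_aniso_in hF i (D i) le_rfl hs hs0 fun y hy => ⟨y, hy, rfl⟩
    exact ⟨v, hv, hvv, hF.herm_zero_right v⟩
  replace hcond := hcond.resolve_left hx0
  rcases eq_or_ne (herm q x x) 0 with hxx | hxx
  · have h3 : 3 ≤ k := hcond.resolve_left (fun h => h hxx)
    obtain ⟨y, hy, hxy⟩ := H.nd i x hx hx0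
    obtain ⟨f, hf, hp⟩ := exists_pair_mem hF hx hxx
      ⟨y, hy, fun e => hxy (Forms.herm_comm_zero hF e)⟩
    obtain ⟨-, hff, hxf⟩ := hp
    set T := D i ⊓ LinearMap.ker (ClassicalMax.hermDual q x) ⊓ LinearMap.ker (ClassicalMax.hermDual q f)
    have hfx : herm q f x = 1 := by rw [← hF.herm_symm, hxf, one_pow]
    obtain ⟨s, hs, hs0⟩ : ∃ s ∈ T, s ≠ 0 := Submodule.exists_mem_ne_zero_of_ne_bot fun h => by
      let χ : D i →ₗ[F] F × F :=
        ((ClassicalMax.hermDual q x).prod (ClassicalMax.hermDual q f)) ∘ₗ (D i).subtype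
      have h1 := LinearMap.finrank_range_add_finrank_ker χ
      have h2 := (LinearMap.range χ).finrank_le
      rw [finrank_prod, finrank_self] at h2
      have h4 : LinearMap.ker χ = ⊥ := by
        rw [eq_bot_iff]
        rintro ⟨z, hz⟩ hzk
        have hzk' := Prod.ext_iff.1 (LinearMap.mem_ker.1 hzk)
        have : z ∈ T := ⟨⟨hz, hzk'.1⟩, hzk'.2⟩
        rw [h] at this
        exact Subtype.ext this
      rw [h4, finrank_bot, hfr] at h1
      omega
    obtain ⟨⟨hsD, hsx⟩, hsf⟩ := hs
    replace hsx : herm q s x = 0 := hsx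
    replace hsf : herm q s f = 0 := hsf
    obtain ⟨v, hv, hvv⟩ := H.exists_aniso_in hF i T (inf_le_left.trans inf_le_left)
      ⟨⟨hsD, hsx⟩, hsf⟩ hs0 fun y hy => ⟨y - herm q y f • x - herm q y x • f, ⟨⟨
        (D i).sub_mem ((D i).sub_mem hy ((D i).smul_mem _ hx)) ((D i).smul_mem _ hf),
        show herm q (y - herm q y f • x - herm q y x • f) x = 0 by
          rw [herm_sub_left, herm_sub_left, herm_smul_left, herm_smul_left, hxx, hfx]; ring⟩,
        show herm q (y - herm q y f • x - herm q y x • f) f = 0 by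
          rw [herm_sub_left, herm_sub_left, herm_smul_left, herm_smul_left, hff, hxf]; ring⟩, by
        rw [hF.herm_sub_right, hF.herm_sub_right, herm_smul_right, herm_smul_right, hsx, hsf]; ring⟩
    exact ⟨v, hv.1.1, hvv, hv.1.2⟩
  · set T := D i ⊓ LinearMap.ker (ClassicalMax.hermDual q x)
    obtain ⟨w, hw, hwx⟩ : ∃ w ∈ D i, w ∉ F ∙ x := by
      by_contra h
      push Not at h
      have := (Submodule.finrank_mono (show D i ≤ F ∙ x from h)).trans (finrank_span_singleton hx0).le
      omega
    set s := w - (herm q w x / herm q x x) • x with hsdef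
    have hsx : herm q s x = 0 := by rw [herm_sub_left, herm_smul_left, div_mul_cancel₀ _ hxx, sub_self]
    have hsD : s ∈ D i := (D i).sub_mem hw ((D i).smul_mem _ hx)
    have hs0 : s ≠ 0 := fun e => hwx (Submodule.mem_span_singleton.2 ⟨_, (sub_eq_zero.1 e).symm⟩)
    obtain ⟨v, hv, hvv⟩ := H.exists_aniso_in hF i T inf_le_left ⟨hsD, hsx⟩ hs0 fun y hy =>
      ⟨y - (herm q y x / herm q x x) • x, ⟨(D i).sub_mem hy ((D i).smul_mem _ hx),
        show herm q (y - (herm q y x / herm q x x) • x) x = 0 by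
          rw [herm_sub_left, herm_smul_left, div_mul_cancel₀ _ hxx, sub_self]⟩, by
        rw [hF.herm_sub_right, herm_smul_right, hsx]; ring⟩
    exact ⟨v, hv.1, hvv, hv.2⟩

/-- Vectors with prescribed inner product with a given one and prescribed value. -/
theorem IsUDec.exists_affine (i : Fin t) {x : Fin n → F} (hx : x ∈ D i) (hx0 : x ≠ 0) (σ : F) {β : F}
    (hβ : β ^ q = β) (hc : herm q x x = 0 → σ ≠ 0) :
    ∃ y ∈ D i, herm q x y = σ ∧ herm q y y = β := by
  rcases eq_or_ne (herm q x x) 0 with hxx | hxx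
  · obtain ⟨y, hy, hxy⟩ := H.nd i x hx hx0
    obtain ⟨f, hf, -, hff, hxf⟩ := exists_pair_mem hF hx hxx
      ⟨y, hy, fun e => hxy (Forms.herm_comm_zero hF e)⟩
    have hfx : herm q f x = 1 := by rw [← hF.herm_symm, hxf, one_pow]
    obtain ⟨μ, hμ⟩ := hF.exists_trace (c := β) hβ
    have hσ := hc hxx
    refine ⟨σ ^ q • f + (μ / σ) • x, (D i).add_mem ((D i).smul_mem _ hf) ((D i).smul_mem _ hx), ?_, ?_⟩
    · rw [hF.herm_add_right, herm_smul_right, herm_smul_right, hxf, hxx, hF.pow_pow]; ring
    · simp only [herm_add_left, hF.herm_add_right, herm_smul_left, herm_smul_right, hxx, hff, hxf, hfx,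
        hF.pow_pow, div_pow]
      have := pow_ne_zero q hσ
      field_simp
      linear_combination σ * σ ^ q * hμ
  · obtain ⟨v, hv, hvv, hvx⟩ := H.exists_aniso_perp hF i hx (Or.inr (Or.inl hxx))
    have ha : herm q x x ^ q = herm q x x := hF.herm_symm x x
    have hb : herm q v v ^ q = herm q v v := hF.herm_symm v v
    set c := (σ / herm q x x) ^ q with hcdef
    obtain ⟨l, hl⟩ := hF.exists_norm (c := (β - c * c ^ q * herm q x x) / herm q v v) (by
      rw [div_pow, hF.sub_pow, mul_pow, mul_pow, hF.pow_pow, hβ, ha, hb]; ring)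
    refine ⟨c • x + l • v, (D i).add_mem ((D i).smul_mem _ hx) ((D i).smul_mem _ hv), ?_, ?_⟩
    · rw [hF.herm_add_right, herm_smul_right, herm_smul_right, Forms.herm_comm_zero hF hvx, hcdef,
        hF.pow_pow, div_mul_cancel₀ _ hxx]
      ring
    · simp only [herm_add_left, hF.herm_add_right, herm_smul_left, herm_smul_right, hvx,
        Forms.herm_comm_zero hF hvx]
      rw [pow_succ', eq_div_iff hvv] at hl
      linear_combination hl

end Cfsg.Agent.DecompMax.UN
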