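import Mathlib
import Cfsg.Agent.GeoClasses.Basic
import Cfsg.Agent.GeoClasses.MatrixUnits
import Cfsg.Agent.ClassicalMax.Decomp

/-!
Components of vectors for a decomposition, membership criteria for the stabiliser of a decomposition,
and elements with prescribed action on the blocks.
-/

set_option autoImplicit false
set_option linter.style.haveILetI false

namespace Cfsg.Agent.DecompMax

open Matrix Cfsg.Geo Module Cfsg.Agent.GeoClasses
open scoped MatrixGroups Matrix

variable {ι : Type} [Fintype ι] [DecidableEq ι] {F : Type*} [Field F]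
variable {t m : ℕ} {D : Fin t → Submodule F (ι → F)}

/-- The projections on the members of a decomposition. -/
structure Components (D : Fin t → Submodule F (ι → F)) where
  /-- the projection on a member -/
  proj : Fin t → (ι → F) →ₗ[F] (ι → F)
  mem : ∀ i v, proj i v ∈ D i
  sum_eq : ∀ v, ∑ i, proj i v = v
  of_mem : ∀ {i v}, v ∈ D i → proj i v = v
  of_mem_ne : ∀ {i j v}, i ≠ j → v ∈ D i → proj j v = 0

theorem exists_components (hD : IsMDecomposition m D) : Nonempty (Components D) := by
  classical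
  obtain ⟨b, hb⟩ := ClassicalMax.exists_adapted_basis hD
  let P : Fin t → (ι → F) →ₗ[F] (ι → F) := fun i => b.constr F fun r => if r.2 = i then b r else 0
  have hP : ∀ i r, P i (b r) = if r.2 = i then b r else 0 := fun i r => b.constr_basis F _ r
  refine ⟨⟨P, fun i v => ?_, fun v => ?_, @fun i v hv => ?_, @fun i j v hij hv => ?_⟩⟩
  · have : ∀ r, P i (b r) ∈ D i := fun r => by
      rw [hP]
      split_ifs with h
      · rw [hb]; exact Submodule.subset_span ⟨r.1, by rw [← h]⟩
      · exact zero_mem _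
    rw [← b.sum_equivFun v, map_sum]
    exact Submodule.sum_mem _ fun r _ => by rw [map_smul]; exact Submodule.smul_mem _ _ (this r)
  · have : (∑ i, P i) = LinearMap.id := b.ext fun r => by simp [hP]
    simpa using LinearMap.congr_fun this v
  · rw [hb] at hv
    exact LinearMap.eqOn_span (g := LinearMap.id) (by rintro _ ⟨k, rfl⟩; simp [hP]) hv
  · rw [hb] at hv
    exact LinearMap.eqOn_span (g := 0) (by rintro _ ⟨k, rfl⟩; simp [hP, hij]) hv

variable (C : Components D)

theorem Components.ext_proj {u v : ι → F} (h : ∀ i, C.proj i u = C.proj i v) : u = v := by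
  rw [← C.sum_eq u, ← C.sum_eq v]
  exact Finset.sum_congr rfl fun i _ => h i

theorem Components.mem_of_forall {v : ι → F} {i : Fin t} (h : ∀ j, j ≠ i → C.proj j v = 0) : v ∈ D i := by
  rw [← C.sum_eq v, Finset.sum_eq_single i (fun j _ hj => h j hj) (by simp)]
  exact C.mem i v

theorem Components.proj_proj (i j : Fin t) (v : ι → F) :
    C.proj j (C.proj i v) = if i = j then C.proj i v else 0 := by
  split_ifs with h
  · subst h; exact C.of_mem (C.mem i v)
  · exact C.of_mem_ne h (C.mem i v)

/-- A biadditive map for which the members are orthogonal is the sum of its values on components. -/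
theorem Components.form_eq_sum {f : (ι → F) → (ι → F) → F}
    (hl : ∀ u u' v, f (u + u') v = f u v + f u' v) (hr : ∀ u v v', f u (v + v') = f u v + f u v')
    (ho : ∀ i j, i ≠ j → ∀ u ∈ D i, ∀ v ∈ D j, f u v = 0) (u v : ι → F) :
    f u v = ∑ i, f (C.proj i u) (C.proj i v) := by
  classical
  let L : (ι → F) → ((ι → F) →+ F) := fun u => AddMonoidHom.mk' (f u) (hr u)
  let R : (ι → F) → ((ι → F) →+ F) := fun v => AddMonoidHom.mk' (f · v) fun a b => hl a b v
  conv_lhs => rw [← C.sum_eq u, ← C.sum_eq v]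
  change R (∑ j, C.proj j v) (∑ i, C.proj i u) = _
  rw [map_sum]
  refine Finset.sum_congr rfl fun i _ => ?_
  change L (C.proj i u) (∑ j, C.proj j v) = _
  rw [map_sum]
  exact Finset.sum_eq_single i (fun j _ hj => ho i j hj.symm _ (C.mem i u) _ (C.mem j v)) (by simp)

theorem exists_ne_zero_mem (hD : IsMDecomposition m D) (i : Fin t) : ∃ x ∈ D i, x ≠ 0 :=
  Submodule.exists_mem_ne_zero_of_ne_bot fun h => by
    have := hD.finrank_eq i
    rw [h, finrank_bot] at this
    exact hD.pos.ne this

/-- An element mapping every vector of every member into some member permutes the members. -/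
theorem mem_stabilizer_of_forall_mem (hD : IsMDecomposition m D) {g : GL ι F}
    (h : ∀ i, ∀ x ∈ D i, ∃ j, (g : Matrix ι ι F) *ᵥ x ∈ D j) : g ∈ decompositionStabilizer D := by
  classical
  obtain ⟨C⟩ := exists_components hD
  have hs : ∀ i, ∃ j, ∀ x ∈ D i, (g : Matrix ι ι F) *ᵥ x ∈ D j := by
    intro i
    obtain ⟨x, hx, hx0⟩ := exists_ne_zero_mem hD i
    obtain ⟨j, hj⟩ := h i x hx
    have hgx : (g : Matrix ι ι F) *ᵥ x ≠ 0 := fun e => hx0 (mulVec_injective g (by simpa using e))
    refine ⟨j, fun y hy => ?_⟩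
    obtain ⟨l, hl⟩ := h i y hy
    by_contra hyj
    have hlj : l ≠ j := fun e => hyj (e ▸ hl)
    obtain ⟨r, hr⟩ := h i (x + y) ((D i).add_mem hx hy)
    rw [Matrix.mulVec_add] at hr
    have e1 : C.proj j ((g : Matrix ι ι F) *ᵥ x + (g : Matrix ι ι F) *ᵥ y) = (g : Matrix ι ι F) *ᵥ x := by
      rw [map_add, C.of_mem hj, C.of_mem_ne hlj hl, add_zero]
    by_cases hrj : r = j
    · subst hrj
      have := (D r).sub_mem hr hj
      rw [add_sub_cancel_left] at this
      exact hyj this
    · rw [C.of_mem_ne hrj hr] at e1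
      exact hgx e1.symm
  choose σ hσ using hs
  have hmap : ∀ i, (D i).map (Matrix.toLin' (g : Matrix ι ι F)) = D (σ i) := fun i => by
    refine Submodule.eq_of_le_of_finrank_eq ?_ ?_
    · rintro _ ⟨x, hx, rfl⟩
      rw [Matrix.toLin'_apply]
      exact hσ i x hx
    · rw [← (Submodule.equivMapOfInjective (Matrix.toLin' (g : Matrix ι ι F))
        (fun a b hab => mulVec_injective g (by simpa using hab)) (D i)).finrank_eq,
        hD.finrank_eq, hD.finrank_eq]
  have hinj : Function.Injective σ := by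
    intro i i' he
    by_contra hne
    obtain ⟨x, hx, hx0⟩ := exists_ne_zero_mem hD i
    have hx' : (g : Matrix ι ι F) *ᵥ x ∈ D (σ i') := he ▸ hσ i x hx
    rw [← hmap i'] at hx'
    obtain ⟨y, hy, hyx⟩ := hx'
    rw [Matrix.toLin'_apply] at hyx
    obtain rfl := mulVec_injective g hyx
    exact hx0 ((C.of_mem hx).symm.trans (C.of_mem_ne (Ne.symm hne) hy))
  exact ⟨Equiv.ofBijective σ (Finite.injective_iff_bijective.mp hinj), hmap⟩

/-- An element outside the stabiliser maps a vector of a member to a vector with two components. -/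
theorem exists_two_components (hD : IsMDecomposition m D) {g : GL ι F}
    (hg : g ∉ decompositionStabilizer D) :
    ∃ i, ∃ x ∈ D i, ∃ j l, j ≠ l ∧ C.proj j ((g : Matrix ι ι F) *ᵥ x) ≠ 0 ∧
      C.proj l ((g : Matrix ι ι F) *ᵥ x) ≠ 0 := by
  by_contra hc
  push Not at hc
  refine hg (mem_stabilizer_of_forall_mem hD fun i x hx => ?_)
  by_cases h : ∀ j, C.proj j ((g : Matrix ι ι F) *ᵥ x) = 0
  · exact ⟨i, C.mem_of_forall fun j _ => h j⟩
  · push Not at h
    obtain ⟨j, hj⟩ := h
    exact ⟨j, C.mem_of_forall fun l hl => hc i x hx j l hl.symm hj⟩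

/-- An element with prescribed action on the members. -/
theorem exists_gl_of_blockMaps (hD : IsMDecomposition m D) (σ : Equiv.Perm (Fin t))
    (φ : ∀ i, D i ≃ₗ[F] D (σ i)) :
    ∃ h : GL ι F, h ∈ decompositionStabilizer D ∧
      (∀ i (x : D i), (h : Matrix ι ι F) *ᵥ (x : ι → F) = φ i x) ∧
      ∀ f : (ι → F) → (ι → F) → F, (∀ u u' v, f (u + u') v = f u v + f u' v) →
        (∀ u v v', f u (v + v') = f u v + f u v') →
        (∀ i j, i ≠ j → ∀ u ∈ D i, ∀ v ∈ D j, f u v = 0) →
        (∀ i (x y : D i), f (φ i x) (φ i y) = f x y) →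
        ∀ u v, f ((h : Matrix ι ι F) *ᵥ u) ((h : Matrix ι ι F) *ᵥ v) = f u v := by
  classical
  obtain ⟨C⟩ := exists_components hD
  let p : ∀ i, (ι → F) →ₗ[F] D i := fun i => (C.proj i).codRestrict (D i) (C.mem i)
  let L : (ι → F) →ₗ[F] (ι → F) := ∑ i, (D (σ i)).subtype ∘ₗ (φ i).toLinearMap ∘ₗ p i
  have hL : ∀ v, L v = ∑ i, (φ i (p i v) : ι → F) := fun v => by simp [L]
  have hproj : ∀ v i, C.proj (σ i) (L v) = φ i (p i v) := fun v i => by
    rw [hL, map_sum, Finset.sum_eq_single i (fun j _ hj => C.of_mem_ne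
      (σ.injective.ne hj) (φ j (p j v)).2) (by simp)]
    exact C.of_mem (φ i (p i v)).2
  have hinj : Function.Injective L := by
    intro u v huv
    refine C.ext_proj fun i => ?_
    have := congrArg (C.proj (σ i)) huv
    rw [hproj, hproj] at this
    exact congrArg Subtype.val ((φ i).injective (Subtype.ext this))
  let E : (ι → F) ≃ₗ[F] (ι → F) := LinearEquiv.ofInjectiveEndo L hinj
  have hE : ∀ v, (glOfEquiv E : Matrix ι ι F) *ᵥ v = L v := fun v => by
    rw [glOfEquiv_mulVec]; rfl
  have hx : ∀ i (x : D i), (glOfEquiv E : Matrix ι ι F) *ᵥ (x : ι → F) = φ i x := fun i x => by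
    rw [hE, hL, Finset.sum_eq_single i (fun j _ hj => ?_) (by simp)]
    · congr 2
      exact Subtype.ext (C.of_mem x.2)
    · rw [show p j (x : ι → F) = 0 from Subtype.ext (C.of_mem_ne hj.symm x.2), map_zero]
      rfl
  refine ⟨glOfEquiv E, mem_stabilizer_of_forall_mem hD fun i x hxi => ⟨σ i, ?_⟩, hx,
    fun f hl hr ho hφ u v => ?_⟩
  · rw [hx i ⟨x, hxi⟩]
    exact (φ i _).2
  · rw [C.form_eq_sum hl hr ho, C.form_eq_sum hl hr ho u v, ← Equiv.sum_comp σ]
    refine Finset.sum_congr rfl fun i _ => ?_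
    rw [hE, hE, hproj, hproj, hφ]
    rfl

end Cfsg.Agent.DecompMax
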