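import Cfsg.Agent.DecompMax.LinearFix

/-!
A group strictly above the monomial matrices of determinant one has a non-monomial element fixing a
coordinate line (at least five field elements, dimension at least six).
-/

set_option autoImplicit false
set_option linter.style.haveILetI false
set_option linter.unusedSectionVars false

namespace Cfsg.Agent.DecompMax.Lin

open Matrix Cfsg.Geo Cfsg.Agent.MaxSub.SubfieldMax
open scoped MatrixGroups Matrix

variable {ι : Type} [Fintype ι] [DecidableEq ι] {F : Type*} [Field F]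

theorem monGL_mul (π π' : Equiv.Perm ι) (d d' : ι → Fˣ) :
    (monGL π d * monGL π' d' : GL ι F) = monGL (π * π') fun i => d (π' i) * d' i :=
  Units.ext (monMat_mul π π' d d')

theorem IsMon.mul {a b : GL ι F} (ha : IsMon a) (hb : IsMon b) : IsMon (a * b) := by
  obtain ⟨π, d, rfl⟩ := ha.exists_eq
  obtain ⟨π', d', rfl⟩ := hb.exists_eq
  rw [monGL_mul]; exact isMon_monGL _ _

theorem IsMon.inv {a : GL ι F} (ha : IsMon a) : IsMon a⁻¹ := by
  obtain ⟨π, d, rfl⟩ := ha.exists_eq
  rw [show (monGL π d : GL ι F)⁻¹ = monGL π⁻¹ fun i => (d (π⁻¹ i))⁻¹ from Units.ext rfl]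
  exact isMon_monGL _ _

theorem le_choose {N r : ℕ} (h1 : 1 ≤ r) (h2 : r < N) : N ≤ Nat.choose N r := by
  induction N generalizing r with
  | zero => omega
  | succ N ih =>
    obtain ⟨r, rfl⟩ : ∃ r', r = r' + 1 := ⟨r - 1, by omega⟩
    rw [Nat.choose_succ_succ']
    rcases Nat.eq_zero_or_pos r with rfl | hr
    · simp
    · have := ih hr (by omega)
      have := Nat.choose_pos (show r + 1 ≤ N by omega)
      omega

theorem choose_two_le {N r : ℕ} (h1 : 2 ≤ r) (h2 : r + 2 ≤ N) : Nat.choose N 2 ≤ Nat.choose N r := by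
  induction N generalizing r with
  | zero => omega
  | succ N ih =>
    obtain ⟨r, rfl⟩ : ∃ r', r = r' + 1 := ⟨r - 1, by omega⟩
    rcases Nat.eq_or_lt_of_le h1 with h | h
    · rw [show r + 1 = 2 by omega]
    rcases Nat.eq_or_lt_of_le h2 with h' | h'
    · rw [← Nat.choose_symm (show r + 1 ≤ N + 1 by omega), show N + 1 - (r + 1) = 2 by omega]
    rw [Nat.choose_succ_succ', Nat.choose_succ_succ', Nat.choose_one_right]
    have e1 := ih (show 2 ≤ r + 1 by omega) (by omega)
    have e2 := le_choose (N := N) (show 1 ≤ r by omega) (by omega)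
    show N + N.choose 2 ≤ _
    omega

/-- A permutation preserving a set and mapping a subset of it to another of the same size. -/
theorem exists_perm_on (S C T : Finset ι) (hC : C ⊆ S) (hT : T ⊆ S) (h : C.card = T.card) :
    ∃ π : Equiv.Perm ι, (∀ x, x ∉ S → π x = x) ∧ (∀ x, π x ∈ S ↔ x ∈ S) ∧ ∀ x, π x ∈ T ↔ x ∈ C := by
  classical
  obtain ⟨σ, hσ⟩ := Equiv.Perm.exists_map_finset_eq (C.subtype (· ∈ S)) (T.subtype (· ∈ S))
    (by simp [Finset.card_subtype, Finset.filter_true_of_mem (fun x hx => hC hx),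
      Finset.filter_true_of_mem (fun x hx => hT hx), h])
  refine ⟨Equiv.Perm.ofSubtype σ, fun x hx => Equiv.Perm.ofSubtype_apply_of_not_mem _ hx, fun x => ?_,
    fun x => ?_⟩
  · by_cases hx : x ∈ S
    · simp [Equiv.Perm.ofSubtype_apply_of_mem _ hx, hx]
    · simp [Equiv.Perm.ofSubtype_apply_of_not_mem _ hx, hx]
  · by_cases hx : x ∈ S
    · rw [Equiv.Perm.ofSubtype_apply_of_mem _ hx]
      have := Finset.ext_iff.1 hσ (σ ⟨x, hx⟩)
      simp only [Finset.mem_map_equiv, Equiv.symm_apply_apply, Finset.mem_subtype] at this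
      exact this.symm
    · rw [Equiv.Perm.ofSubtype_apply_of_not_mem _ hx]
      exact ⟨fun e => absurd (hT e) hx, fun e => absurd (hC e) hx⟩

/-- The same with an even permutation. -/
theorem exists_even_perm_on (S C T : Finset ι) (hC : C ⊆ S) (hT : T ⊆ S) (h : C.card = T.card)
    (hS : 4 ≤ S.card) :
    ∃ π : Equiv.Perm ι, Equiv.Perm.sign π = 1 ∧ (∀ x, x ∉ S → π x = x) ∧ (∀ x, π x ∈ S ↔ x ∈ S) ∧
      ∀ x, π x ∈ T ↔ x ∈ C := by
  obtain ⟨π, h1, h2, h3⟩ := exists_perm_on S C T hC hT h
  rcases Int.units_eq_one_or (Equiv.Perm.sign π) with he | he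
  · exact ⟨π, he, h1, h2, h3⟩
  obtain ⟨x, hx, y, hy, hxy, hT'⟩ : ∃ x ∈ S, ∃ y ∈ S, x ≠ y ∧ (x ∈ T ↔ y ∈ T) := by
    rcases le_or_gt 2 T.card with hc | hc
    · obtain ⟨x, hx, y, hy, hne⟩ := Finset.one_lt_card.1 hc
      exact ⟨x, hT hx, y, hT hy, hne, by simp [hx, hy]⟩
    · have : 2 ≤ (S \ T).card := by
        rw [Finset.card_sdiff, Finset.inter_eq_left.2 hT]; omega
      obtain ⟨x, hx, y, hy, hne⟩ := Finset.one_lt_card.1 this
      simp only [Finset.mem_sdiff] at hx hy
      exact ⟨x, hx.1, y, hy.1, hne, by simp [hx.2, hy.2]⟩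
  refine ⟨Equiv.swap x y * π, by simp [he, Equiv.Perm.sign_swap hxy], fun z hz => ?_, fun z => ?_,
    fun z => ?_⟩
  · rw [Equiv.Perm.mul_apply, h1 z hz, Equiv.swap_apply_of_ne_of_ne (fun e : z = x => hz (e ▸ hx))
      (fun e : z = y => hz (e ▸ hy))]
  · rw [Equiv.Perm.mul_apply, ← h2 z]
    rcases eq_or_ne (π z) x with e | e
    · simp [e, hx, hy]
    rcases eq_or_ne (π z) y with e' | e'
    · simp [e', hx, hy]
    · rw [Equiv.swap_apply_of_ne_of_ne e e']
  · rw [Equiv.Perm.mul_apply, ← h3 z]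
    rcases eq_or_ne (π z) x with e | e
    · simp [e, hT']
    rcases eq_or_ne (π z) y with e' | e'
    · simp [e', hT']
    · rw [Equiv.swap_apply_of_ne_of_ne e e']

/-- The standing assumptions for a column of a non-monomial element. -/
structure Setup (M : Subgroup (GL ι F)) (g : GL ι F) : Prop where
  mon : ∀ π d, monGL π d ∈ specialLinear ι F → monGL π d ∈ M
  nofix : ∀ y ∈ M, ∀ o, FixLine o y → IsMon y
  mem : g ∈ M
  notMon : ¬ IsMon g

variable {M : Subgroup (GL ι F)} {g : GL ι F} (H : Setup M g)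
include H

theorem Setup.mon_of_single {y : GL ι F} (hy : y ∈ M) {i j : ι} {k : F}
    (h : (y : Matrix ι ι F) *ᵥ ev F i = k • ev F j) : IsMon y := by
  obtain ⟨d, -, hdet⟩ := exists_adjust (Equiv.swap i j) (fun _ => (1 : Fˣ)) i
  have hz : monGL (Equiv.swap i j) d ∈ M := H.mon _ _ (monGL_mem_specialLinear hdet)
  set z : GL ι F := monGL (Equiv.swap i j) d
  have hfix : FixLine i (z * y) := fun a ha => by
    have : ((z * y : GL ι F) : Matrix ι ι F) *ᵥ ev F i = (k * d j) • ev F i := by
      rw [Units.val_mul, ← Matrix.mulVec_mulVec, h, Matrix.mulVec_smul, monGL_mulVec_ev,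
        Equiv.swap_apply_right, smul_smul]
    have := congrFun this a
    rw [Matrix.mulVec_single_one, Matrix.col_apply] at this
    simpa [ev, ha] using this
  have := (isMon_monGL (Equiv.swap i j) d : IsMon z).inv.mul (H.nofix _ (mul_mem hz hy) i hfix)
  rwa [inv_mul_cancel_left] at this

/-- Every column has two non-zero entries. -/
theorem Setup.exists_ne (j x : ι) : ∃ y, y ≠ x ∧ (g : Matrix ι ι F) y j ≠ 0 := by
  by_contra hc
  push Not at hc
  refine H.notMon (H.mon_of_single H.mem (i := j) (j := x) (k := (g : Matrix ι ι F) x j) ?_)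
  funext y
  rw [Matrix.mulVec_single_one, Matrix.col_apply]
  rcases eq_or_ne y x with rfl | hy
  · simp [ev]
  · simp [ev, hy, hc y hy]

omit H in
/-- The support of a column. -/
def colSupp [DecidableEq F] (g : GL ι F) (i : ι) : Finset ι :=
  Finset.univ.filter fun x => (g : Matrix ι ι F) x i ≠ 0

variable [DecidableEq F] (i : ι)

omit H in
/-- Scaling making the chosen column constant on its support. -/
def wgt (g : GL ι F) (i : ι) (x : ι) : Fˣ :=
  if h : (g : Matrix ι ι F) x i ≠ 0 then Units.mk0 _ h else 1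

omit H in
/-- A column in scaled coordinates. -/
def ucol (g : GL ι F) (i j : ι) (x : ι) : F :=
  (g : Matrix ι ι F) x j * (((wgt g i x)⁻¹ : Fˣ) : F)

omit H in
theorem ucol_eq_zero {j x : ι} : ucol g i j x = 0 ↔ (g : Matrix ι ι F) x j = 0 := by
  simp [ucol]

omit H in
theorem mem_colSupp {x : ι} : x ∈ colSupp g i ↔ (g : Matrix ι ι F) x i ≠ 0 := by
  simp [colSupp]

omit H in
theorem ucol_self {x : ι} (hx : x ∈ colSupp g i) : ucol g i i x = 1 := by
  rw [mem_colSupp] at hx
  simp [ucol, wgt, hx]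

/-- A monomial element preserving the chosen column line permutes the column lines. -/
theorem Setup.image_col {π : Equiv.Perm ι} {c : ι → Fˣ} (hS : ∀ x, π x ∈ colSupp g i ↔ x ∈ colSupp g i)
    (hc : ∃ μ : Fˣ, ∀ x ∈ colSupp g i, c x = μ)
    (hdet : ((Equiv.Perm.sign π : ℤˣ) : F) * ∏ x, (c x : F) = 1) (j : ι) :
    ∃ (j' : ι) (k : F), k ≠ 0 ∧ (∀ x, (c x : F) * ucol g i j x = k * ucol g i j' (π x)) ∧
      (j' = i ↔ j = i) := by
  classical
  set d : ι → Fˣ := fun x => c x * wgt g i (π x) * (wgt g i x)⁻¹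
  have hd : ((Equiv.Perm.sign π : ℤˣ) : F) * ∏ x, (d x : F) = 1 := by
    have : ∏ x, d x = ∏ x, c x := by
      simp only [d, Finset.prod_mul_distrib, Finset.prod_inv_distrib]
      rw [Equiv.prod_comp π (wgt g i), mul_inv_cancel_right]
    rw [← Units.coe_prod, this, Units.coe_prod, hdet]
  have ht : monGL π d ∈ M := H.mon _ _ (monGL_mem_specialLinear hd)
  set t : GL ι F := monGL π d
  obtain ⟨μ, hμ⟩ := hc
  have htw : (t : Matrix ι ι F) *ᵥ ((g : Matrix ι ι F) *ᵥ ev F i) =
      (μ : F) • ((g : Matrix ι ι F) *ᵥ ev F i) := by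
    funext z
    obtain ⟨x, rfl⟩ := π.surjective z
    rw [monGL_mulVec]
    simp only [Matrix.mulVec_single_one, Matrix.col_apply, Pi.smul_apply, smul_eq_mul]
    by_cases hx : x ∈ colSupp g i
    · have h1 := (mem_colSupp i).1 hx
      have h2 := (mem_colSupp i).1 ((hS x).2 hx)
      simp only [d, hμ x hx, wgt, dif_pos h1, dif_pos h2, Units.val_mul, Units.val_inv_eq_inv_val,
        Units.val_mk0]
      field_simp
    · have h1 : (g : Matrix ι ι F) x i = 0 := by simpa [mem_colSupp] using hx
      have h2 : (g : Matrix ι ι F) (π x) i = 0 := by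
        by_contra h; exact hx ((hS x).1 ((mem_colSupp i).2 h))
      rw [h1, h2, mul_zero, mul_zero]
  set y := g⁻¹ * t * g
  have hy : y ∈ M := mul_mem (mul_mem (inv_mem H.mem) ht) H.mem
  have hym : IsMon y := H.mon_of_single hy (i := i) (j := i) (k := (μ : F)) (by
    simp only [y, Units.val_mul, ← Matrix.mulVec_mulVec]
    rw [htw, Matrix.mulVec_smul, Matrix.mulVec_mulVec _ _ (g : Matrix ι ι F), ← Units.val_mul,
      inv_mul_cancel, Units.val_one, Matrix.one_mulVec])
  obtain ⟨σ, e, he⟩ := hym.exists_eq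
  have hcol : ∀ j, (t : Matrix ι ι F) *ᵥ ((g : Matrix ι ι F) *ᵥ ev F j) =
      (e j : F) • ((g : Matrix ι ι F) *ᵥ ev F (σ j)) := fun j => by
    rw [← Matrix.mulVec_smul, ← monGL_mulVec_ev, ← he, Matrix.mulVec_mulVec, Matrix.mulVec_mulVec,
      ← Units.val_mul, ← Units.val_mul]
    simp only [y, mul_assoc, mul_inv_cancel_left]
  have hi : σ i = i := by
    have h1 := (hcol i).symm.trans htw
    rw [← Matrix.mulVec_smul, ← Matrix.mulVec_smul] at h1
    by_contra hne
    have := congrFun (GeoClasses.mulVec_injective g h1) (σ i)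
    simp [ev, hne] at this
  refine ⟨σ j, e j, Units.ne_zero _, fun x => ?_, ⟨fun h => σ.injective (h.trans hi.symm), fun h => h ▸ hi⟩⟩
  have := congrFun (hcol j) (π x)
  rw [monGL_mulVec] at this
  simp only [Matrix.mulVec_single_one, Matrix.col_apply, Pi.smul_apply, smul_eq_mul, d, Units.val_mul] at this
  simp only [ucol]
  have hw : (wgt g i (π x) : F) * (((wgt g i (π x))⁻¹ : Fˣ) : F) = 1 := by simp
  linear_combination (((wgt g i (π x))⁻¹ : Fˣ) : F) * this -
    (c x : F) * (g : Matrix ι ι F) x j * (((wgt g i x)⁻¹ : Fˣ) : F) * hw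

/-- Pairwise non-proportional images of another column are fewer than the dimension. -/
theorem Setup.count {α : Type*} [Fintype α] (π : α → Equiv.Perm ι) (c : α → ι → Fˣ)
    (hS : ∀ a x, π a x ∈ colSupp g i ↔ x ∈ colSupp g i)
    (hc : ∀ a, ∃ μ : Fˣ, ∀ x ∈ colSupp g i, c a x = μ)
    (hdet : ∀ a, ((Equiv.Perm.sign (π a) : ℤˣ) : F) * ∏ x, (c a x : F) = 1) {j : ι} (hj : j ≠ i)
    (hinj : ∀ a b (k : F), k ≠ 0 → (∀ x y, π a x = π b y →
      (c a x : F) * ucol g i j x = k * ((c b y : F) * ucol g i j y)) → a = b) :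
    Fintype.card α < Fintype.card ι := by
  classical
  choose f k hk hf hfi using fun a => H.image_col i (hS a) (hc a) (hdet a) j
  have : Function.Injective f := fun a b e => by
    refine hinj a b (k a / k b) (div_ne_zero (hk a) (hk b)) fun x y hxy => ?_
    rw [hf, hf, e, hxy]
    field_simp [hk b]
  exact Fintype.card_lt_of_injective_of_notMem f this (b := i) fun ⟨a, ha⟩ => hj ((hfi a).1 ha)

/-- Translates of a column by diagonal elements preserving the chosen one are independent. -/
theorem Setup.translates_le {α : Type*} [Fintype α] (R : Finset (ι → F)) (c : α → ι → Fˣ) (j : ι)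
    (hc : ∀ a, ∃ μ : Fˣ, ∀ x ∈ colSupp g i, c a x = μ) (hdet : ∀ a, ∏ x, (c a x : F) = 1)
    (hspan : ∀ a, (fun x => (c a x : F) * ucol g i j x) ∈ Submodule.span F (R : Set (ι → F)))
    (hinj : ∀ a b (k : F), k ≠ 0 →
      (∀ x, (c a x : F) * ucol g i j x = k * ((c b x : F) * ucol g i j x)) → a = b) :
    Fintype.card α ≤ R.card := by
  classical
  choose f k hk hf _hfi using fun a => H.image_col i (π := 1) (c := c a) (fun _ => Iff.rfl) (hc a)
    (by simpa using hdet a) j
  simp only [Equiv.Perm.one_apply] at hf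
  have hfinj : Function.Injective f := fun a b e => by
    refine hinj a b (k a / k b) (div_ne_zero (hk a) (hk b)) fun x => ?_
    rw [hf, hf, e]
    field_simp [hk b]
  have h0 : LinearIndependent F fun (l : ι) (x : ι) => ucol g i l x := by
    rw [Fintype.linearIndependent_iff]
    intro a ha l
    have hz : (g : Matrix ι ι F) *ᵥ a = (g : Matrix ι ι F) *ᵥ 0 := by
      funext x
      have := congrFun ha x
      simp only [Finset.sum_apply, Pi.smul_apply, smul_eq_mul, Pi.zero_apply, ucol, ← mul_assoc,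
        ← Finset.sum_mul, mul_eq_zero, Units.ne_zero, or_false] at this
      rw [Matrix.mulVec_zero, Pi.zero_apply, ← this]
      simp only [Matrix.mulVec, dotProduct, mul_comm]
    exact congrFun (GeoClasses.mulVec_injective g hz) l
  have hli := (h0.comp f hfinj).units_smul fun a => Units.mk0 (k a) (hk a)
  rw [← finrank_span_eq_card hli]
  refine (Submodule.finrank_mono (Submodule.span_le.2 ?_)).trans (finrank_span_finset_le_card R)
  rintro _ ⟨a, rfl⟩
  have e : (((fun a => Units.mk0 (k a) (hk a)) • ((fun l x => ucol g i l x) ∘ f)) a : ι → F) =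
      fun x => (c a x : F) * ucol g i j x := by
    funext x
    simp [Pi.smul_apply', hf, Units.smul_def]
  rw [SetLike.mem_coe, e]
  exact hspan a

/-- Two points outside the support force a column with two entries. -/
theorem Setup.two_outside [Fintype F] (hq : 5 ≤ Fintype.card F)
    (hr : 2 ≤ Fintype.card ι - (colSupp g i).card) :
    Fintype.card ι - (colSupp g i).card = 2 ∧ ∃ j, (colSupp g j).card = 2 := by
  classical
  set S := colSupp g i with hS
  obtain ⟨ζ, hζ⟩ := IsCyclic.exists_ofOrder_eq_natCard (α := Fˣ)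
  have hord : 4 ≤ orderOf ζ := by
    rw [hζ, Nat.card_eq_fintype_card, Fintype.card_units]; omega
  have hN : (Sᶜ).card = Fintype.card ι - S.card := Finset.card_compl S
  obtain ⟨b, hb⟩ : (Sᶜ).Nonempty := Finset.card_pos.1 (by omega)
  obtain ⟨j, hj⟩ : ∃ j, (g : Matrix ι ι F) b j ≠ 0 := by
    by_contra hc
    push Not at hc
    exact Matrix.GeneralLinearGroup.det_ne_zero g (Matrix.det_eq_zero_of_row_eq_zero b hc)
  set u := ucol g i j with hu
  have hub : u b ≠ 0 := fun e => hj ((ucol_eq_zero i).1 e)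
  let cf : ι → ℕ → ι → Fˣ := fun z t x => if x = b then ζ ^ t else if x = z then (ζ ^ t)⁻¹ else 1
  have hS1 : ∀ z ∈ Sᶜ, ∀ t : ℕ, ∃ μ : Fˣ, ∀ x ∈ S, cf z t x = μ := fun z hz t => ⟨1, fun x hx => by
    rw [Finset.mem_compl] at hz hb
    simp [cf, show x ≠ b from fun e => hb (e ▸ hx), show x ≠ z from fun e => hz (e ▸ hx)]⟩
  have hdet : ∀ z, z ≠ b → ∀ t : ℕ, ∏ x, (cf z t x : F) = 1 := fun z hzb t => by
    rw [← Units.coe_prod, Finset.prod_eq_mul b z (Ne.symm hzb) (fun c _ hc => by simp [cf, hc.1, hc.2])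
      (by simp) (by simp)]
    simp [cf, hzb]
  have hinj : ∀ {N : ℕ} (z : ι), N ≤ 4 → (∃ y, y ≠ b ∧ y ≠ z ∧ u y ≠ 0) → ∀ (s t : Fin N) (k : F),
      k ≠ 0 → (∀ x, (cf z s x : F) * u x = k * ((cf z t x : F) * u x)) → s = t := by
    rintro N z hN4 ⟨y, hyb, hyz, hy⟩ s t k - h
    have h1 := h y
    simp only [cf, if_neg hyb, if_neg hyz, Units.val_one, one_mul] at h1
    have hk : k = 1 := (mul_eq_right₀ hy).1 h1.symm
    have h2 := h b
    rw [hk, one_mul] at h2
    simp only [cf, if_pos] at h2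
    exact Fin.ext (pow_injOn_Iio_orderOf (show (s : ℕ) < orderOf ζ by omega)
      (show (t : ℕ) < orderOf ζ by omega) (Units.ext (mul_right_cancel₀ hub h2)))
  obtain ⟨y, hyb, hy⟩ := H.exists_ne j b
  have huy : u y ≠ 0 := fun e => hy ((ucol_eq_zero i).1 e)
  by_cases hA : ∃ z ∈ Sᶜ, z ≠ b ∧ u z = 0
  · obtain ⟨z, hz, hzb, hz0⟩ := hA
    set P : ι → F := Pi.single b (u b) with hP
    have := H.translates_le i {P, u - P} (fun t : Fin 3 => cf z t) j (fun t => hS1 z hz t)
      (fun t => hdet z hzb t) (fun t => ?_)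
      (hinj z (by norm_num) ⟨y, hyb, fun e => huy (e ▸ hz0), huy⟩)
    · rw [Fintype.card_fin] at this
      exact absurd (this.trans Finset.card_le_two) (by norm_num)
    rw [Finset.coe_pair, Submodule.mem_span_pair]
    refine ⟨((ζ ^ (t : ℕ) : Fˣ) : F), 1, funext fun x => ?_⟩
    rcases eq_or_ne x b with rfl | hxb
    · simp [cf, P, hu]
    · rcases eq_or_ne x z with rfl | hxz
      · simp [cf, P, hxb, hz0, hu, (show ucol g i j x = 0 from hz0)]
      · simp [cf, P, hxb, hxz, hu]
  push Not at hA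
  obtain ⟨z, hz, hzb⟩ := Finset.exists_mem_ne (s := Sᶜ) (by omega) b
  by_cases hB : ∃ y, y ≠ b ∧ y ≠ z ∧ u y ≠ 0
  · set P : ι → F := Pi.single b (u b) with hP
    set Q : ι → F := Pi.single z (u z) with hQ
    have := H.translates_le i {P, Q, u - P - Q} (fun t : Fin 4 => cf z t) j (fun t => hS1 z hz t)
      (fun t => hdet z hzb t) (fun t => ?_) (hinj z le_rfl hB)
    · rw [Fintype.card_fin] at this
      exact absurd (this.trans Finset.card_le_three) (by norm_num)
    have he : (fun x => (cf z t x : F) * u x) =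
        ((ζ ^ (t : ℕ) : Fˣ) : F) • P + (((ζ ^ (t : ℕ))⁻¹ : Fˣ) : F) • Q + (u - P - Q) := by
      funext x
      rcases eq_or_ne x b with rfl | hxb
      · simp [cf, P, Q, Ne.symm hzb]
      · rcases eq_or_ne x z with rfl | hxz
        · simp [cf, P, Q, hxb]
        · simp [cf, P, Q, hxb, hxz]
    rw [he]
    refine add_mem (add_mem (Submodule.smul_mem _ _ ?_) (Submodule.smul_mem _ _ ?_)) ?_ <;>
      exact Submodule.subset_span (by simp)
  push Not at hB
  refine ⟨le_antisymm ?_ hr, j, ?_⟩
  · rw [← hN]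
    refine (Finset.card_le_card fun w hw => ?_).trans (Finset.card_le_two (a := b) (b := z))
    by_contra hwn
    simp only [Finset.mem_insert, Finset.mem_singleton, not_or] at hwn
    exact hA w hw hwn.1 (hB w hwn.1 hwn.2)
  · rw [show colSupp g j = {b, z} from ?_, Finset.card_pair (Ne.symm hzb)]
    ext x
    rw [mem_colSupp]
    refine ⟨fun hx => ?_, fun hx => ?_⟩
    · by_contra hxn
      simp only [Finset.mem_insert, Finset.mem_singleton, not_or] at hxn
      exact hx ((ucol_eq_zero i).1 (hB x hxn.1 hxn.2))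
    · rcases Finset.mem_insert.1 hx with rfl | hx
      · exact hj
      · obtain rfl := Finset.mem_singleton.1 hx
        exact fun e => hA x hz hzb ((ucol_eq_zero i).2 e)

/-- At most one point lies outside the support. -/
theorem Setup.supp_large [Fintype F] (hq : 5 ≤ Fintype.card F) (h6 : 5 ≤ Fintype.card ι) :
    Fintype.card ι ≤ (colSupp g i).card + 1 := by
  by_contra hc
  obtain ⟨-, j, hj⟩ := H.two_outside i hq (by omega)
  have h := (H.two_outside j hq (by omega)).1
  omega

/-- In dimension five, all columns but one cannot live inside the support of the chosen column. -/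
theorem Setup.not_all_inside [Fintype F] (hq : 5 ≤ Fintype.card F) (h6 : Fintype.card ι = 5)
    (hS : (colSupp g i).card + 1 = Fintype.card ι) :
    Fintype.card {l : ι // l ≠ i ∧ ∀ x, x ∉ colSupp g i → (g : Matrix ι ι F) x l = 0} + 2 <
      Fintype.card ι := by
  classical
  by_contra hc
  set S := colSupp g i with hSdef
  obtain ⟨o, ho⟩ : ∃ o, o ∉ S := by
    obtain ⟨o, -, ho⟩ := Finset.exists_mem_notMem_of_card_lt_card (s := S) (t := Finset.univ)
      (by rw [Finset.card_univ]; omega)
    exact ⟨o, ho⟩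
  have hout : ∀ b, b ∉ S → b = o := fun b hb =>
    Finset.card_le_one.1 (show (Sᶜ).card ≤ 1 by rw [Finset.card_compl]; omega) b (Finset.mem_compl.2 hb) o
      (Finset.mem_compl.2 ho)
  have hio : (g : Matrix ι ι F) o i = 0 := by simpa [hSdef, mem_colSupp] using ho
  set P : Finset ι := Finset.univ.filter fun l => (g : Matrix ι ι F) o l = 0 with hP
  have hPc : Fintype.card ι ≤ P.card + 1 := by
    have h1 : Fintype.card {l : ι // l ≠ i ∧ ∀ x, x ∉ S → (g : Matrix ι ι F) x l = 0} <
        Fintype.card {l : ι // (g : Matrix ι ι F) o l = 0} :=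
      Fintype.card_lt_of_injective_of_notMem (fun l => ⟨l.1, l.2.2 o ho⟩)
        (fun a b e => Subtype.ext (congrArg Subtype.val e :)) (b := ⟨i, hio⟩)
        (fun ⟨a, ha⟩ => a.2.1 (congrArg Subtype.val ha :))
    have h2 : Fintype.card {l : ι // (g : Matrix ι ι F) o l = 0} = P.card := by
      rw [Fintype.card_subtype, hP]
    omega
  obtain ⟨m, hm⟩ : ∃ m, (g : Matrix ι ι F) o m ≠ 0 := by
    by_contra hall
    push Not at hall
    have : ev F o ᵥ* (g : Matrix ι ι F) = 0 := by
      funext l; simpa [Matrix.single_one_vecMul] using hall l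
    have := congrArg (· ᵥ* ((g⁻¹ : GL ι F) : Matrix ι ι F)) this
    simp only [Matrix.vecMul_vecMul, ← Units.val_mul, mul_inv_cancel, Units.val_one, Matrix.vecMul_one,
      Matrix.zero_vecMul] at this
    simpa [ev] using congrFun this o
  have honly : ∀ w, (g : Matrix ι ι F) o w ≠ 0 → w = m := fun w hw =>
    Finset.card_le_one.1 (show (Pᶜ).card ≤ 1 by rw [Finset.card_compl]; omega) w
      (Finset.mem_compl.2 (by simp [hP, hw])) m (Finset.mem_compl.2 (by simp [hP, hm]))
  obtain ⟨ζ, hζ⟩ : ∃ ζ : Fˣ, ζ ^ 5 ≠ 1 := by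
    by_contra hall
    push Not at hall
    obtain ⟨z, hz⟩ := IsCyclic.exists_ofOrder_eq_natCard (α := Fˣ)
    have hd : Nat.card Fˣ ∣ 5 := hz ▸ orderOf_dvd_of_pow_eq_one (hall z)
    rw [Nat.card_eq_fintype_card, Fintype.card_units] at hd
    have h5 := (Nat.dvd_prime Nat.prime_five).1 hd
    have hp : IsPrimePow (Fintype.card F) := FiniteField.isPrimePow_card F
    rcases h5 with h | h
    · omega
    · rw [show Fintype.card F = 6 by omega] at hp
      obtain ⟨p, k, hp', hk, e⟩ := (isPrimePow_nat_iff _).1 hp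
      have h2 : 2 = p := (Nat.prime_dvd_prime_iff_eq Nat.prime_two hp').1
        (Nat.prime_two.dvd_of_dvd_pow (e ▸ (by norm_num : 2 ∣ 6)))
      have h3 : 3 = p := (Nat.prime_dvd_prime_iff_eq Nat.prime_three hp').1
        (Nat.prime_three.dvd_of_dvd_pow (e ▸ (by norm_num : 3 ∣ 6)))
      omega
  obtain ⟨d, hd, hdet⟩ := exists_adjust (1 : Equiv.Perm ι) (fun _ => ζ) o
  have hdo : (d o : F) * (ζ : F) ^ (Fintype.card ι - 1) = 1 := by
    have h := hdet
    simp only [map_one, Units.val_one, Int.cast_one, one_mul] at h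
    rw [← Finset.mul_prod_erase _ _ (Finset.mem_univ o), Finset.prod_congr rfl fun x hx => by
      rw [hd x (Finset.ne_of_mem_erase hx)], Finset.prod_const, Finset.card_erase_of_mem
        (Finset.mem_univ o), Finset.card_univ] at h
    exact h
  have ht : (monGL 1 d : GL ι F) ∈ M := H.mon _ _ (monGL_mem_specialLinear hdet)
  set t : GL ι F := monGL 1 d
  have htrow : ∀ v : ι → F, ∀ x, ((t : Matrix ι ι F) *ᵥ v) x = d x * v x := fun v x => by
    have := monGL_mulVec (1 : Equiv.Perm ι) d v x
    simpa using this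
  have hdS : ∀ x ∈ S, d x = ζ := fun x hx => hd x (fun e => ho (e ▸ hx))
  have hti : (t : Matrix ι ι F) *ᵥ ((g : Matrix ι ι F) *ᵥ ev F i) =
      (ζ : F) • ((g : Matrix ι ι F) *ᵥ ev F i) := by
    funext x
    rw [htrow, Pi.smul_apply, smul_eq_mul]
    simp only [Matrix.mulVec_single_one, Matrix.col_apply]
    by_cases hx : x ∈ S
    · rw [hdS x hx]
    · rw [hout x hx, hio, mul_zero, mul_zero]
  have hy : g⁻¹ * t * g ∈ M := mul_mem (mul_mem (inv_mem H.mem) ht) H.mem
  obtain ⟨σ, e, he⟩ := (H.mon_of_single hy (i := i) (j := i) (k := (ζ : F)) (by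
    simp only [Units.val_mul, ← Matrix.mulVec_mulVec]
    rw [hti, Matrix.mulVec_smul, Matrix.mulVec_mulVec _ _ (g : Matrix ι ι F), ← Units.val_mul,
      inv_mul_cancel, Units.val_one, Matrix.one_mulVec])).exists_eq
  have hcol : (t : Matrix ι ι F) *ᵥ ((g : Matrix ι ι F) *ᵥ ev F m) =
      (e m : F) • ((g : Matrix ι ι F) *ᵥ ev F (σ m)) := by
    rw [← Matrix.mulVec_smul, ← monGL_mulVec_ev, ← he, Matrix.mulVec_mulVec, Matrix.mulVec_mulVec,
      ← Units.val_mul, ← Units.val_mul]
    simp only [mul_assoc, mul_inv_cancel_left]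
  have hrow : ∀ x, (d x : F) * (g : Matrix ι ι F) x m = e m * (g : Matrix ι ι F) x (σ m) := fun x => by
    have := congrFun hcol x
    rw [htrow, Pi.smul_apply, smul_eq_mul] at this
    simpa [Matrix.mulVec_single_one] using this
  have hσ : σ m = m := honly _ fun h0 => by
    have := hrow o
    rw [h0, mul_zero] at this
    exact mul_ne_zero (Units.ne_zero _) hm this
  have hem : (d o : F) = e m := by
    have := hrow o
    rw [hσ] at this
    exact mul_right_cancel₀ hm this
  obtain ⟨y, hyo, hy⟩ := H.exists_ne m o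
  have h1 := hrow y
  rw [hσ, hdS y (by_contra fun h => hyo (hout y h))] at h1
  have h2 : (ζ : F) = d o := by rw [hem]; exact mul_right_cancel₀ hy h1
  have h5 : (ζ : F) ^ Fintype.card ι = 1 := by
    rw [show Fintype.card ι = Fintype.card ι - 1 + 1 by omega, pow_succ', h2]
    rw [← h2] at hdo ⊢
    exact hdo
  refine hζ (Units.ext ?_)
  rw [Units.val_pow_eq_pow_val, Units.val_one, ← h5]
  congr 1
  omega

/-- Every other column has an entry outside the support. -/
theorem Setup.exists_outside [Fintype F] (hq : 5 ≤ Fintype.card F) (h6 : 5 ≤ Fintype.card ι) {j : ι}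
    (hj : j ≠ i) : ∃ b, b ∉ colSupp g i ∧ (g : Matrix ι ι F) b j ≠ 0 := by
  classical
  by_contra hno
  push Not at hno
  have hlarge := H.supp_large i hq h6
  set S := colSupp g i with hS
  have hs : 4 ≤ S.card := by omega
  let J := {l : ι // l ≠ i ∧ ∀ x, x ∉ S → (g : Matrix ι ι F) x l = 0}
  have hJ : Fintype.card J + 1 ≤ S.card := by
    let K := {l : ι // ∀ x, x ∉ S → (g : Matrix ι ι F) x l = 0}
    have h1 : Fintype.card J < Fintype.card K :=
      Fintype.card_lt_of_injective_of_notMem (fun l : J => (⟨l.1, l.2.2⟩ : K))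
        (fun a b e => Subtype.ext (congrArg Subtype.val e :))
        (b := ⟨i, fun x hx => by_contra fun h => hx ((mem_colSupp i).2 h)⟩)
        (fun ⟨a, ha⟩ => a.2.1 (congrArg Subtype.val ha :))
    have hli : LinearIndependent F (fun (l : K) (x : S) => (g : Matrix ι ι F) x l) := by
      rw [Fintype.linearIndependent_iff]
      intro a ha l
      have h0 : (g : Matrix ι ι F) *ᵥ (∑ m : K, a m • ev F m.1) = 0 := by
        funext x
        simp only [Matrix.mulVec_sum, Matrix.mulVec_smul, Finset.sum_apply, Pi.smul_apply,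
          Matrix.mulVec_single_one, Matrix.col_apply, smul_eq_mul, Pi.zero_apply]
        by_cases hx : x ∈ S
        · simpa [Finset.sum_apply] using congrFun ha ⟨x, hx⟩
        · exact Finset.sum_eq_zero fun m _ => by rw [m.2 x hx, mul_zero]
      have := congrFun (GeoClasses.mulVec_injective g (a₂ := 0) (by simpa using h0)) l.1
      rw [Finset.sum_apply, Finset.sum_eq_single l (fun m _ hm => by
        simp [ev, Pi.single_eq_of_ne (fun e : l.1 = m.1 => hm (Subtype.ext e).symm)]) (by simp)] at this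
      simpa [ev] using this
    have h2 := hli.fintype_card_le_finrank
    rw [Module.finrank_fintype_fun_eq_card, Fintype.card_coe] at h2
    omega
  -- the alternating group acts on these columns
  let c1 : ι → Fˣ := fun _ => 1
  have hok : ∀ σ : alternatingGroup {x // x ∈ S},
      (∀ x, Equiv.Perm.ofSubtype σ.1 x ∈ S ↔ x ∈ S) ∧
        ((Equiv.Perm.sign (Equiv.Perm.ofSubtype σ.1) : ℤˣ) : F) * ∏ x, (c1 x : F) = 1 := fun σ => by
    refine ⟨fun x => ?_, ?_⟩
    · by_cases hx : x ∈ S
      · simp [Equiv.Perm.ofSubtype_apply_of_mem _ hx, hx]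
      · simp [Equiv.Perm.ofSubtype_apply_of_not_mem _ hx, hx]
    · rw [Equiv.Perm.sign_ofSubtype, Equiv.Perm.mem_alternatingGroup.1 σ.2]
      simp [c1]
  have hex : ∀ (σ : alternatingGroup {x // x ∈ S}) (l : J), ∃ l' : J, ∃ k : F, k ≠ 0 ∧
      ∀ x, ucol g i l.1 x = k * ucol g i l'.1 (Equiv.Perm.ofSubtype σ.1 x) := by
    intro σ l
    obtain ⟨l', k, hk, h, hl'⟩ := H.image_col i (c := c1) (hok σ).1 ⟨1, fun _ _ => rfl⟩ (hok σ).2 l.1
    simp only [c1, Units.val_one, one_mul] at h
    refine ⟨⟨l', fun e => l.2.1 (hl'.1 e), fun x hx => (ucol_eq_zero i).1 ?_⟩, k, hk, h⟩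
    have := h x
    rw [Equiv.Perm.ofSubtype_apply_of_not_mem _ hx, (ucol_eq_zero i).2 (l.2.2 x hx)] at this
    exact (mul_eq_zero.1 this.symm).resolve_left hk
  choose f k hk hf using hex
  have huniq : ∀ (a b : J) (r : F), r ≠ 0 → (∀ x, ucol g i a.1 x = r * ucol g i b.1 x) → a = b := by
    intro a b r hr h
    have h' : (g : Matrix ι ι F) *ᵥ ev F a.1 = (g : Matrix ι ι F) *ᵥ (r • ev F b.1) := by
      funext x
      rw [Matrix.mulVec_smul]
      simp only [Matrix.mulVec_single_one, Matrix.col_apply, Pi.smul_apply, smul_eq_mul]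
      exact mul_right_cancel₀ (Units.ne_zero (wgt g i x)⁻¹) (by
        have := h x
        simp only [ucol] at this
        rw [this, mul_assoc])
    by_contra hne
    have := congrFun (GeoClasses.mulVec_injective g h') a.1
    simp [ev, Pi.single_eq_of_ne (fun e : a.1 = b.1 => hne (Subtype.ext e))] at this
  have hmul : ∀ a b l, f (a * b) l = f a (f b l) := by
    intro a b l
    refine huniq _ _ ((k b l * k a (f b l)) / k (a * b) l)
      (div_ne_zero (mul_ne_zero (hk _ _) (hk _ _)) (hk _ _)) fun x => ?_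
    obtain ⟨x, rfl⟩ := (Equiv.Perm.ofSubtype (a * b).1).surjective x
    have h1 := hf (a * b) l x
    have h2 := hf b l x
    rw [hf a (f b l)] at h2
    have e : Equiv.Perm.ofSubtype a.1 (Equiv.Perm.ofSubtype b.1 x) = Equiv.Perm.ofSubtype (a * b).1 x := by
      rw [Subgroup.coe_mul, map_mul]; rfl
    rw [e] at h2
    field_simp [hk (a * b) l]
    linear_combination h2 - h1
  have hone : ∀ l, f 1 l = l := fun l => huniq _ _ (k 1 l)⁻¹ (inv_ne_zero (hk _ _)) fun x => by
    have := hf 1 l x
    simp only [OneMemClass.coe_one, map_one, Equiv.Perm.one_apply] at this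
    rw [this, ← mul_assoc, inv_mul_cancel₀ (hk _ _), one_mul]
  let φ : alternatingGroup {x // x ∈ S} →* Equiv.Perm J := MonoidHom.mk'
    (fun σ => ⟨f σ, f σ⁻¹, fun l => by rw [← hmul, inv_mul_cancel, hone],
      fun l => by rw [← hmul, mul_inv_cancel, hone]⟩)
    (fun a b => Equiv.ext fun l => by simp [hmul])
  have hcardS : Fintype.card {x // x ∈ S} = S.card := Fintype.card_coe S
  -- three-cycles fix the columns
  have hker : ∀ σ : alternatingGroup {x // x ∈ S}, σ ^ 3 = 1 → φ σ = 1 := by
    intro σ hσ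
    rcases Nat.lt_or_ge S.card 5 with hs5 | hs5
    · have hJ2 : Fintype.card J ≤ 2 := by
        have h5 : Fintype.card ι = 5 := by omega
        have := H.not_all_inside i hq h5 (by simp only [← hS]; omega)
        change Fintype.card J + 2 < _ at this
        omega
      have e : φ σ ^ 3 = 1 := by rw [← map_pow, hσ, map_one]
      have e2 : φ σ ^ 2 = 1 := by
        have h2 : (Fintype.card J).factorial ∣ 2 := by
          interval_cases h : Fintype.card J <;> simp [Nat.factorial]
        obtain ⟨c, hc⟩ := h2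
        rw [hc, pow_mul, ← Fintype.card_perm, pow_card_eq_one, one_pow]
      rw [pow_succ, e2, one_mul] at e
      exact e
    · suffices φ.ker = ⊤ from MonoidHom.mem_ker.1 (this ▸ Subgroup.mem_top σ)
      haveI : IsSimpleGroup (alternatingGroup {x // x ∈ S}) :=
        alternatingGroup.isSimpleGroup (by rw [Nat.card_eq_fintype_card, hcardS]; omega)
      refine (φ.normal_ker).eq_bot_or_eq_top.resolve_left fun hbot => ?_
      have h1 : Nat.card (alternatingGroup {x // x ∈ S}) ≤ Nat.card (Equiv.Perm J) :=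
        Nat.card_le_card_of_injective φ ((MonoidHom.ker_eq_bot_iff φ).1 hbot)
      haveI : Nontrivial {x // x ∈ S} := Fintype.one_lt_card_iff_nontrivial.1 (by omega)
      have h2 := two_mul_nat_card_alternatingGroup (α := {x // x ∈ S})
      rw [Nat.card_perm, Nat.card_eq_fintype_card, Nat.card_eq_fintype_card, hcardS] at h2
      rw [Nat.card_perm, Nat.card_eq_fintype_card, Nat.card_eq_fintype_card] at h1
      have h3 : (Fintype.card J).factorial ≤ (S.card - 1).factorial := Nat.factorial_le (by omega)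
      have h4 : S.card.factorial = S.card * (S.card - 1).factorial := by
        conv_lhs => rw [show S.card = (S.card - 1) + 1 by omega, Nat.factorial_succ]
        rw [show S.card - 1 + 1 = S.card by omega]
      have h5 := Nat.factorial_pos (S.card - 1)
      have h6 : 5 * (S.card - 1).factorial ≤ S.card * (S.card - 1).factorial :=
        Nat.mul_le_mul_right _ hs5
      omega
  let l₀ : J := ⟨j, hj, hno⟩
  set u := ucol g i j with hu
  have hfix : ∀ σ : alternatingGroup {x // x ∈ S}, σ ^ 3 = 1 →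
      ∀ x, u x = k σ l₀ * u (Equiv.Perm.ofSubtype σ.1 x) := by
    intro σ hσ x
    have he : f σ l₀ = l₀ := Equiv.congr_fun (hker σ hσ) l₀
    have := hf σ l₀ x
    rwa [he] at this
  -- constant away from any point of the support
  have hconst : ∀ p ∈ S, u p ≠ 0 → ∀ b ∈ S, ∀ c ∈ S, b ≠ p → c ≠ p → b ≠ c → u c = u b := by
    intro p hp hup b hb c hc hbp hcp hbc
    obtain ⟨a, ha, ha'⟩ := Finset.exists_mem_notMem_of_card_lt_card (s := ({p, b, c} : Finset ι))
      (t := S) (Finset.card_le_three.trans_lt (by omega))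
    simp only [Finset.mem_insert, Finset.mem_singleton, not_or] at ha'
    let τ : Equiv.Perm {x // x ∈ S} := Equiv.swap ⟨a, ha⟩ ⟨b, hb⟩ * Equiv.swap ⟨a, ha⟩ ⟨c, hc⟩
    have hτ : τ ∈ alternatingGroup {x // x ∈ S} :=
      Equiv.Perm.mem_alternatingGroup.2 (by simp [τ, Equiv.Perm.sign_swap, ha'.2.1, ha'.2.2])
    have hτ3 : (⟨τ, hτ⟩ : alternatingGroup {x // x ∈ S}) ^ 3 = 1 := by
      have h3 : τ.IsThreeCycle := Equiv.Perm.isThreeCycle_swap_mul_swap_same
        (fun e => ha'.2.1 (congrArg Subtype.val e :)) (fun e => ha'.2.2 (congrArg Subtype.val e :))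
        (fun e => hbc (congrArg Subtype.val e :))
      refine Subtype.ext ?_
      rw [SubmonoidClass.coe_pow, OneMemClass.coe_one, ← h3.orderOf, pow_orderOf_eq_one]
    have h1 := hfix ⟨τ, hτ⟩ hτ3 p
    have h2 := hfix ⟨τ, hτ⟩ hτ3 c
    have e1 : Equiv.Perm.ofSubtype τ p = p := by
      rw [Equiv.Perm.ofSubtype_apply_of_mem _ hp]
      simp [τ, Equiv.swap_apply_def, ha'.1, Ne.symm ha'.1, hcp, hbp, Ne.symm hcp, Ne.symm hbp]
    have e2 : Equiv.Perm.ofSubtype τ c = b := by
      rw [Equiv.Perm.ofSubtype_apply_of_mem _ hc]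
      simp [τ, Equiv.swap_apply_def, ha'.2.2, Ne.symm ha'.2.2]
    rw [e1] at h1
    rw [e2, (mul_eq_right₀ hup).1 h1.symm, one_mul] at h2
    exact h2
  obtain ⟨p, hp, hup⟩ : ∃ p ∈ S, u p ≠ 0 := by
    obtain ⟨y, -, hy⟩ := H.exists_ne j j
    exact ⟨y, by_contra fun h => hy (hno y h), fun e => hy ((ucol_eq_zero i).1 e)⟩
  obtain ⟨q, hq', hqp⟩ := Finset.exists_mem_ne (by omega : 1 < S.card) p
  have hall : ∀ x ∈ S, x ≠ p → u x = u q := fun x hx hxp => by
    rcases eq_or_ne x q with rfl | hxq
    · rfl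
    · exact hconst p hp hup q hq' x hx hqp hxp (Ne.symm hxq)
  by_cases hq0 : u q = 0
  · obtain ⟨y, hyp, hy⟩ := H.exists_ne j p
    have hyS : y ∈ S := by_contra fun h => hy (hno y h)
    exact hy ((ucol_eq_zero i).1 ((hall y hyS hyp).trans hq0))
  obtain ⟨r, hr, hr'⟩ := Finset.exists_mem_notMem_of_card_lt_card (s := ({p, q} : Finset ι))
    (t := S) (Finset.card_le_two.trans_lt (by omega))
  simp only [Finset.mem_insert, Finset.mem_singleton, not_or] at hr'
  have hp' : u p = u q := by
    rw [← hall r hr hr'.1]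
    exact hconst q hq' hq0 r hr p hp hr'.2 hqp.symm hr'.1
  have hfin : (g : Matrix ι ι F) *ᵥ ev F j = (g : Matrix ι ι F) *ᵥ (u q • ev F i) := by
    funext x
    rw [Matrix.mulVec_smul]
    simp only [Matrix.mulVec_single_one, Matrix.col_apply, Pi.smul_apply, smul_eq_mul]
    by_cases hx : x ∈ S
    · have : u x = u q * ucol g i i x := by
        rw [ucol_self i hx, mul_one]
        rcases eq_or_ne x p with rfl | hxp
        · exact hp'
        · exact hall x hx hxp
      simp only [hu, ucol] at this ⊢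
      exact mul_right_cancel₀ (Units.ne_zero (wgt g i x)⁻¹) (by rw [mul_assoc]; exact this)
    · have : (g : Matrix ι ι F) x i = 0 := by simpa [mem_colSupp, hS] using hx
      rw [hno x hx, this, mul_zero]
  have := congrFun (GeoClasses.mulVec_injective g hfin) j
  simp [ev, hj] at this

omit H in
/-- A non-constant function has a class of middle size or a single exception. -/
theorem middle_or_exception {α : Type*} [DecidableEq α] (S : Finset ι) (hS : 4 ≤ S.card) (u : ι → α)
    (hu : ∃ x ∈ S, ∃ y ∈ S, u x ≠ u y) :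
    (∃ V : Finset α, 2 ≤ (S.filter fun x => u x ∈ V).card ∧
      (S.filter fun x => u x ∈ V).card + 2 ≤ S.card) ∨
    ∃ a ∈ S, ∃ β, u a ≠ β ∧ ∀ x ∈ S, x ≠ a → u x = β := by
  refine or_iff_not_imp_left.2 fun hno => ?_
  push Not at hno
  obtain ⟨x, hx, y, hy, hxy⟩ := hu
  by_cases hbig : ∃ z ∈ S, 2 ≤ (S.filter fun w => u w ∈ ({u z} : Finset α)).card
  · obtain ⟨z, hz, hc⟩ := hbig
    have h2 := hno {u z} hc
    obtain ⟨a, ha, hau⟩ : ∃ a ∈ S, u a ≠ u z := by
      by_contra hc'
      push Not at hc'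
      exact hxy ((hc' x hx).trans (hc' y hy).symm)
    refine ⟨a, ha, u z, hau, fun w hw hwa => ?_⟩
    by_contra hwu
    have : ({a, w} : Finset ι).card ≤ (S \ S.filter fun w => u w ∈ ({u z} : Finset α)).card :=
      Finset.card_le_card fun t ht => by
        rcases Finset.mem_insert.1 ht with rfl | ht
        · simp [ha, hau]
        · obtain rfl := Finset.mem_singleton.1 ht
          simp [hw, hwu]
    rw [Finset.card_pair (Ne.symm hwa), Finset.card_sdiff,
      Finset.inter_eq_left.2 (Finset.filter_subset _ _)] at this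
    omega
  · push Not at hbig
    exfalso
    have hsub : (S.filter fun w => u w ∈ ({u x, u y} : Finset α)) = {x, y} := by
      refine Finset.Subset.antisymm (fun w hw => ?_) (fun w hw => ?_)
      · simp only [Finset.mem_filter, Finset.mem_insert, Finset.mem_singleton] at hw ⊢
        rcases hw.2 with e | e
        · exact Or.inl (Finset.card_le_one.1 (Nat.lt_succ_iff.1 (hbig x hx)) w (by simp [hw.1, e]) x (by simp [hx]))
        · exact Or.inr (Finset.card_le_one.1 (Nat.lt_succ_iff.1 (hbig y hy)) w (by simp [hw.1, e]) y (by simp [hy]))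
      · simp only [Finset.mem_filter, Finset.mem_insert, Finset.mem_singleton] at hw ⊢
        rcases hw with rfl | rfl
        · exact ⟨hx, Or.inl rfl⟩
        · exact ⟨hy, Or.inr rfl⟩
    have hne : x ≠ y := fun e => hxy (e ▸ rfl)
    have := hno {u x, u y}
    rw [hsub, Finset.card_pair hne] at this
    omega

/-- Some other column is not constant on the support. -/
theorem Setup.exists_nonconst (hS : 2 ≤ (colSupp g i).card) :
    ∃ j, j ≠ i ∧ ∃ x ∈ colSupp g i, ∃ y ∈ colSupp g i, ucol g i j x ≠ ucol g i j y := by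
  by_contra hno
  push Not at hno
  obtain ⟨a, ha, b, hb, hab⟩ := Finset.one_lt_card.1 hS
  have hall : ∀ j, ucol g i j a = ucol g i j b := fun j => by
    rcases eq_or_ne j i with rfl | hj
    · rw [ucol_self _ ha, ucol_self _ hb]
    · exact hno j hj a ha b hb
  have h : (((wgt g i a)⁻¹ : Fˣ) : F) • ev F a ᵥ* (g : Matrix ι ι F) =
      (((wgt g i b)⁻¹ : Fˣ) : F) • ev F b ᵥ* (g : Matrix ι ι F) := by
    funext j
    have := hall j
    simp only [ucol] at this
    simp only [Matrix.single_one_vecMul, Pi.smul_apply, Matrix.row_apply, smul_eq_mul]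
    linear_combination this
  rw [← Matrix.smul_vecMul, ← Matrix.smul_vecMul] at h
  have := congrArg (· ᵥ* ((g⁻¹ : GL ι F) : Matrix ι ι F)) h
  simp only [Matrix.vecMul_vecMul, ← Units.val_mul, mul_inv_cancel, Units.val_one, Matrix.vecMul_one] at this
  have := congrFun this a
  simp [ev, hab] at this

/-- A column not constant on the support has a single exceptional entry there. -/
theorem Setup.exception [Fintype F] (hq : 5 ≤ Fintype.card F) (h6 : 5 ≤ Fintype.card ι) {j : ι}
    (hj : j ≠ i) (hu : ∃ x ∈ colSupp g i, ∃ y ∈ colSupp g i, ucol g i j x ≠ ucol g i j y) :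
    ∃ a ∈ colSupp g i, ∃ β, ucol g i j a ≠ β ∧ ∀ x ∈ colSupp g i, x ≠ a → ucol g i j x = β := by
  classical
  have hlarge := H.supp_large i hq h6
  obtain ⟨b, hb, hbj⟩ := H.exists_outside i hq h6 hj
  set S := colSupp g i with hS
  have hs : 4 ≤ S.card := by omega
  refine (middle_or_exception S (by omega) _ hu).resolve_left fun ⟨V, h2, h2'⟩ => ?_
  set C := S.filter fun x => ucol g i j x ∈ V with hC
  choose π hπe hπ1 hπ2 hπ3 using fun T : {T // T ∈ S.powersetCard C.card} =>
    exists_even_perm_on S C T.1 (Finset.filter_subset _ _) (Finset.mem_powersetCard.1 T.2).1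
      (Finset.mem_powersetCard.1 T.2).2.symm (by omega)
  have hcard := H.count i π (fun _ _ => 1) hπ2 (fun _ => ⟨1, fun _ _ => rfl⟩) (fun T => by simp [hπe T]) hj
    fun T T' k _ h => ?_
  · rw [Fintype.card_coe, Finset.card_powersetCard] at hcard
    have h3 : Nat.choose S.card 2 ≤ Nat.choose S.card C.card := choose_two_le h2 h2'
    rw [Nat.choose_two_right] at h3
    have h4 : 3 * S.card ≤ S.card * (S.card - 1) := by
      rw [Nat.mul_comm 3]; exact Nat.mul_le_mul_left _ (by omega)
    omega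
  have hk : k = 1 := by
    have := h b b (by rw [hπ1 T b hb, hπ1 T' b hb])
    rw [Units.val_one, one_mul] at this
    exact (mul_eq_right₀ fun e => hbj ((ucol_eq_zero i).1 e)).1 this.symm
  refine Subtype.ext (Finset.ext fun z => ?_)
  by_cases hz : z ∈ S
  · obtain ⟨x, rfl⟩ := (π T).surjective z
    obtain ⟨y, hy⟩ := (π T').surjective (π T x)
    have hxy := h x y hy.symm
    rw [hk, one_mul, Units.val_one, one_mul, one_mul] at hxy
    have e1 := hπ3 T x
    have e2 := hπ3 T' y
    rw [hy] at e2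
    rw [e1, e2, hC, Finset.mem_filter, Finset.mem_filter, hxy]
    have hyS : y ∈ S := (hπ2 T' y).1 (hy ▸ hz)
    simp [(hπ2 T x).1 hz, hyS]
  · exact ⟨fun e => absurd ((Finset.mem_powersetCard.1 T.2).1 e) hz,
      fun e => absurd ((Finset.mem_powersetCard.1 T'.2).1 e) hz⟩

/-- Exactly one entry of a column vanishes. -/
theorem Setup.supp_card [Fintype F] (hq : 5 ≤ Fintype.card F) (h6 : 5 ≤ Fintype.card ι) :
    (colSupp g i).card + 1 = Fintype.card ι := by
  have hlarge := H.supp_large i hq h6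
  obtain ⟨j, hj, -⟩ := H.exists_nonconst i (by omega)
  obtain ⟨b, hb, -⟩ := H.exists_outside i hq h6 hj
  have := Finset.card_lt_univ_of_notMem hb
  omega

omit i

/-- There is no such configuration. -/
theorem Setup.false [Fintype F] (hq : 5 ≤ Fintype.card F) (h6 : 5 ≤ Fintype.card ι) : False := by
  classical
  obtain ⟨i, -⟩ : ∃ i : ι, True := ⟨(Fintype.card_pos_iff.1 (by omega)).some, trivial⟩
  have hcard : ∀ {g' : GL ι F}, Setup M g' → ∀ l, (colSupp g' l).card + 1 = Fintype.card ι := fun H' l =>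
    H'.supp_card l hq h6
  have hs := hcard H i
  obtain ⟨o, ho⟩ : ∃ o, o ∉ colSupp g i := by
    obtain ⟨o, -, ho⟩ := Finset.exists_mem_notMem_of_card_lt_card (s := colSupp g i) (t := Finset.univ)
      (by rw [Finset.card_univ]; omega)
    exact ⟨o, ho⟩
  set S := colSupp g i with hS
  have hout : ∀ b, b ∉ S → b = o := fun b hb =>
    Finset.card_le_one.1 (show (Sᶜ).card ≤ 1 by rw [Finset.card_compl]; omega) b (Finset.mem_compl.2 hb) o
      (Finset.mem_compl.2 ho)
  obtain ⟨j, hj, hu⟩ := H.exists_nonconst i (show 2 ≤ S.card by omega)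
  obtain ⟨b, hb, hbj⟩ := H.exists_outside i hq h6 hj
  rw [hout b hb] at hbj
  obtain ⟨a, ha, β, haβ, hβ⟩ := H.exception i hq h6 hj hu
  -- the exceptional entry vanishes
  have hua : ucol g i j a = 0 ∧ β ≠ 0 := by
    obtain ⟨z, hz⟩ : ∃ z, z ∉ colSupp g j := by
      obtain ⟨z, -, hz⟩ := Finset.exists_mem_notMem_of_card_lt_card (s := colSupp g j) (t := Finset.univ)
        (by rw [Finset.card_univ]; have := hcard H j; omega)
      exact ⟨z, hz⟩
    have hz' : (g : Matrix ι ι F) z j = 0 := by simpa [mem_colSupp] using hz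
    have hzS : z ∈ S := by_contra fun h => hbj (hout z h ▸ hz')
    have hone : ∀ x, x ≠ z → (g : Matrix ι ι F) x j ≠ 0 := fun x hx e => hx <|
      Finset.card_le_one.1 (show (colSupp g j)ᶜ.card ≤ 1 by rw [Finset.card_compl]; have := hcard H j; omega)
        x (Finset.mem_compl.2 (by simpa [mem_colSupp] using e)) z (Finset.mem_compl.2 hz)
    have hz0 := (ucol_eq_zero i).2 hz'
    rcases eq_or_ne z a with rfl | hza
    · exact ⟨hz0, fun e => haβ (hz0.trans e.symm)⟩
    · exfalso
      rw [hβ z hzS hza] at hz0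
      obtain ⟨w, hwS, hw⟩ := Finset.exists_mem_notMem_of_card_lt_card (s := ({a, z} : Finset ι))
        (t := S) (Finset.card_le_two.trans_lt (by omega))
      simp only [Finset.mem_insert, Finset.mem_singleton, not_or] at hw
      exact hone w hw.2 ((ucol_eq_zero i).1 ((hβ w hwS hw.1).trans hz0))
  -- the other columns
  choose π hπe hπ1 hπ2 hπ3 using fun a' : S =>
    exists_even_perm_on S {a} {a'.1} (Finset.singleton_subset_iff.2 ha) (Finset.singleton_subset_iff.2 a'.2)
      rfl (by omega)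
  have hπa : ∀ a', π a' a = a'.1 := fun a' => by simpa using (hπ3 a' a).2 (Finset.mem_singleton_self a)
  have himg : ∀ a' : S, ∃ (j' : ι) (k : F), k ≠ 0 ∧ j' ≠ i ∧ ucol g i j' o = k * ucol g i j o ∧
      ucol g i j' a'.1 = 0 ∧ ∀ x ∈ S, x ≠ a'.1 → ucol g i j' x = k * β := fun a' => by
    obtain ⟨j', k, hk, h, hi⟩ := H.image_col i (π := π a') (c := fun _ => 1) (hπ2 a')
      ⟨1, fun _ _ => rfl⟩ (by simp [hπe a']) j
    simp only [Units.val_one, one_mul] at h
    have hinv : ∀ x, ucol g i j' (π a' x) = k⁻¹ * ucol g i j x := fun x => by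
      rw [h x, ← mul_assoc, inv_mul_cancel₀ hk, one_mul]
    refine ⟨j', k⁻¹, inv_ne_zero hk, fun e => hj (hi.1 e), ?_, ?_, fun x hx hxa => ?_⟩
    · rw [← hinv, hπ1 a' o ho]
    · rw [← hπa a', hinv, hua.1, mul_zero]
    · obtain ⟨y, rfl⟩ := (π a').surjective x
      rw [hinv, hβ y ((hπ2 a' y).1 hx) (fun e => hxa (e ▸ hπa a'))]
  choose f k hk hfi hfo hfa hfx using himg
  have hfinj : Function.Injective f := fun a₁ a₂ e => by
    by_contra hne
    have h1 := hfa a₁
    rw [e, hfx a₂ a₁.1 a₁.2 (fun e' => hne (Subtype.ext e'))] at h1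
    exact mul_ne_zero (hk a₂) hua.2 h1
  have hrange : ∀ l, l ≠ i → ∃ a', f a' = l := by
    intro l hl
    have hbij : Function.Bijective (fun a' => (⟨f a', hfi a'⟩ : {l // l ≠ i})) := by
      refine (Fintype.bijective_iff_injective_and_card _).2 ⟨fun x y e => hfinj (congrArg Subtype.val e :), ?_⟩
      rw [Fintype.card_coe, Fintype.card_subtype_compl]
      simp; omega
    obtain ⟨a', ha'⟩ := hbij.2 ⟨l, hl⟩
    exact ⟨a', congrArg Subtype.val ha'⟩
  -- choose coefficients
  obtain ⟨p, hp, q, hq', hpq⟩ := Finset.one_lt_card.1 (show 1 < S.card by omega)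
  set ε : F := ((S.card - 2 : ℕ) : F) with hε
  obtain ⟨cp, hcp0, hcp1, -, -⟩ := exists_avoiding_four hq 0 (-ε) 0 0
  obtain ⟨cq, hcq0, hcq1, hcq2, hcq3⟩ := exists_avoiding_four hq 0 (-cp - ε) (-ε) (1 - cp - ε)
  let c : S → F := fun a' => if a'.1 = p then cp else if a'.1 = q then cq else 1
  have hY : ∑ a', c a' = cp + cq + ε := by
    have e1 : ∑ a', c a' = ∑ x ∈ S, if x = p then cp else if x = q then cq else 1 :=
      Finset.sum_coe_sort S fun x => if x = p then cp else if x = q then cq else 1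
    rw [e1, ← Finset.add_sum_erase _ _ hp, if_pos rfl,
      ← Finset.add_sum_erase _ _ (Finset.mem_erase.2 ⟨hpq.symm, hq'⟩), if_neg hpq.symm, if_pos rfl,
      Finset.sum_congr rfl fun x hx => by
        simp only [Finset.mem_erase] at hx
        rw [if_neg hx.2.1, if_neg hx.1]]
    rw [Finset.sum_const, Finset.card_erase_of_mem (Finset.mem_erase.2 ⟨hpq.symm, hq'⟩),
      Finset.card_erase_of_mem hp, nsmul_eq_mul, mul_one, hε, Nat.sub_sub]
    ring
  set Y := cp + cq + ε with hYdef
  have hc0 : ∀ a', c a' ≠ 0 ∧ Y ≠ c a' := fun a' => by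
    simp only [c]
    split_ifs
    · exact ⟨hcp0, fun e => hcq2 (by linear_combination e)⟩
    · exact ⟨hcq0, fun e => hcp1 (by linear_combination e)⟩
    · exact ⟨one_ne_zero, fun e => hcq3 (by linear_combination e)⟩
  have hY0 : Y ≠ 0 := fun e => hcq1 (by linear_combination e)
  -- a vector with a single zero entry
  let x : ι → F := ∑ a' : S, (c a' / k a') • ev F (f a')
  have hxi : x i = 0 := by
    simp [x, Finset.sum_apply, ev, Pi.single_eq_of_ne (Ne.symm (hfi _))]
  have hxl : ∀ l, l ≠ i → x l ≠ 0 := by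
    intro l hl
    obtain ⟨a', rfl⟩ := hrange l hl
    simp only [x]
    rw [Finset.sum_apply, Finset.sum_eq_single a' (fun m _ hm => by
      simp [ev, Pi.single_eq_of_ne (hfinj.ne hm.symm)]) (by simp)]
    simp [ev, (hc0 a').1, hk a']
  -- a monomial matrix sending the column to it
  obtain ⟨d, hd, hdet⟩ := exists_adjust (Equiv.swap o i)
    (fun z => if h : x (Equiv.swap o i z) ≠ 0 ∧ (g : Matrix ι ι F) z i ≠ 0 then
      Units.mk0 _ (div_ne_zero h.1 h.2) else 1) o
  have hgo : (g : Matrix ι ι F) o i = 0 := by simpa [mem_colSupp, hS] using ho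
  have hh : (monGL (Equiv.swap o i) d : GL ι F) ∈ M := H.mon _ _ (monGL_mem_specialLinear hdet)
  set h : GL ι F := monGL (Equiv.swap o i) d
  have hgh : (h : Matrix ι ι F) *ᵥ ((g : Matrix ι ι F) *ᵥ ev F i) = x := by
    funext z
    obtain ⟨z, rfl⟩ := (Equiv.swap o i).surjective z
    rw [monGL_mulVec]
    simp only [Matrix.mulVec_single_one, Matrix.col_apply]
    rcases eq_or_ne z o with rfl | hz
    · rw [hgo, mul_zero, Equiv.swap_apply_left, hxi]
    · have h1 : x (Equiv.swap o i z) ≠ 0 := hxl _ fun e => hz ((Equiv.swap o i).injective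
        (e.trans (Equiv.swap_apply_left o i).symm))
      have h2 : (g : Matrix ι ι F) z i ≠ 0 :=
        (mem_colSupp i).1 (by_contra fun hc => hz (hout z hc))
      rw [hd z hz, dif_pos ⟨h1, h2⟩, Units.val_mk0, div_mul_cancel₀ _ h2]
  -- its image has full support
  have hfull : ∀ z, ((g : Matrix ι ι F) *ᵥ x) z ≠ 0 := by
    intro z
    have hsum : ((g : Matrix ι ι F) *ᵥ x) z =
        (wgt g i z : F) * ∑ a', c a' / k a' * ucol g i (f a') z := by
      simp only [x, Matrix.mulVec_sum, Matrix.mulVec_smul, Finset.sum_apply, Pi.smul_apply,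
        Matrix.mulVec_single_one, Matrix.col_apply, smul_eq_mul, Finset.mul_sum, ucol]
      refine Finset.sum_congr rfl fun a' _ => ?_
      field_simp
      simp
    rw [hsum]
    refine mul_ne_zero (Units.ne_zero _) ?_
    by_cases hz : z ∈ S
    · have : ∑ a', c a' / k a' * ucol g i (f a') z = β * (Y - c ⟨z, hz⟩) := by
        rw [← hY, ← Finset.add_sum_erase _ _ (Finset.mem_univ (⟨z, hz⟩ : S)), hfa, mul_zero, zero_add,
          ← Finset.add_sum_erase _ c (Finset.mem_univ (⟨z, hz⟩ : S)), add_sub_cancel_left,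
          Finset.mul_sum]
        refine Finset.sum_congr rfl fun a' ha' => ?_
        rw [hfx a' z hz (fun e => (Finset.ne_of_mem_erase ha') (Subtype.ext e.symm))]
        field_simp [hk a']
      rw [this]
      exact mul_ne_zero hua.2 (sub_ne_zero.2 (hc0 ⟨z, hz⟩).2)
    · rw [hout z hz]
      have : ∑ a', c a' / k a' * ucol g i (f a') o = Y * ucol g i j o := by
        rw [← hY, Finset.sum_mul]
        refine Finset.sum_congr rfl fun a' _ => ?_
        rw [hfo]
        field_simp [hk a']
      rw [this]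
      exact mul_ne_zero hY0 fun e => hbj ((ucol_eq_zero i).1 e)
  have hcol : ∀ z, ((g * h * g : GL ι F) : Matrix ι ι F) z i ≠ 0 := fun z => by
    have := hfull z
    rw [← hgh] at this
    rw [Matrix.mulVec_mulVec, Matrix.mulVec_mulVec, ← Units.val_mul, ← Units.val_mul,
      Matrix.mulVec_single_one, Matrix.col_apply] at this
    exact this
  have hy : ¬ IsMon (g * h * g) := fun hm => by
    obtain ⟨w, hw⟩ := hm i
    obtain ⟨l, hl⟩ := exists_avoid {w} (show ({w} : Finset ι).card < Fintype.card ι by simp; omega)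
    exact hcol l (hw l (by simpa using hl))
  have := hcard ⟨H.mon, H.nofix, mul_mem (mul_mem H.mem hh) H.mem, hy⟩ i
  rw [show colSupp (g * h * g) i = Finset.univ from Finset.eq_univ_of_forall fun z =>
    (mem_colSupp i).2 (hcol z), Finset.card_univ] at this
  omega

omit H

/-- Overgroups of the monomial group of determinant one. -/
theorem specialLinear_le_of_not_mon [Fintype F] (hq : 5 ≤ Fintype.card F) (h6 : 5 ≤ Fintype.card ι)
    (hmon : ∀ π d, monGL π d ∈ specialLinear ι F → monGL π d ∈ M) (hMK : M ≤ specialLinear ι F)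
    {g : GL ι F} (hg : g ∈ M) (hgm : ¬ IsMon g) : specialLinear ι F ≤ M := by
  by_contra hno
  exact Setup.false ⟨hmon, fun y hy o hfix => by_contra fun hym =>
    hno (of_fixLine hmon hq (by omega) hMK hy hfix hym), hg, hgm⟩ hq h6

end Cfsg.Agent.DecompMax.Lin
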