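import Cfsg.Agent.DecompMax.LinearBlock
import Cfsg.Agent.DecompMax.LinearOrbit
import Cfsg.Agent.DecompMax.Comp
import Cfsg.Agent.MaxSub.Proper

/-!
Stabilisers of decompositions are maximal in the special linear group, dimension at least five.
-/

set_option autoImplicit false
set_option linter.style.haveILetI false
set_option linter.unusedSectionVars false

namespace Cfsg.Agent.DecompMax.Lin

open Matrix Cfsg.Geo Cfsg.Agent.MaxSub.SubfieldMax Module
open scoped MatrixGroups Matrix

variable {ι : Type} [Fintype ι] [DecidableEq ι] {F : Type*} [Field F]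
variable {κ : Type} [Fintype κ] [DecidableEq κ]

/-- Matrices in another basis. -/
noncomputable def inBasis (b : Basis κ F (ι → F)) : GL ι F ≃* GL κ F :=
  Units.mapEquiv ((Matrix.toLinAlgEquiv').trans (LinearMap.toMatrixAlgEquiv b)).toMulEquiv

theorem inBasis_val (b : Basis κ F (ι → F)) (g : GL ι F) :
    ((inBasis b g : GL κ F) : Matrix κ κ F) = LinearMap.toMatrix b b (Matrix.toLin' (g : Matrix ι ι F)) := rfl

theorem inBasis_mulVec (b : Basis κ F (ι → F)) (g : GL ι F) (v : ι → F) :
    ((inBasis b g : GL κ F) : Matrix κ κ F) *ᵥ b.equivFun v = b.equivFun ((g : Matrix ι ι F) *ᵥ v) := by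
  rw [inBasis_val, Basis.equivFun_apply, Basis.equivFun_apply, LinearMap.toMatrix_mulVec_repr,
    Matrix.toLin'_apply]

theorem inBasis_mem_specialLinear (b : Basis κ F (ι → F)) (g : GL ι F) :
    inBasis b g ∈ specialLinear κ F ↔ g ∈ specialLinear ι F := by
  rw [GeoClasses.mem_specialLinear_iff, GeoClasses.mem_specialLinear_iff, inBasis_val,
    LinearMap.det_toMatrix, LinearMap.det_toLin']

variable {m t : ℕ} {D : Fin t → Submodule F (ι → F)} {b : Basis (Fin m × Fin t) F (ι → F)}

theorem mem_iff_supp (hb : ∀ i, D i = Submodule.span F (Set.range fun k => b (k, i))) {i : Fin t}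
    {v : ι → F} : v ∈ D i ↔ Supp i (b.equivFun v) := by
  constructor
  · intro hv x hx
    rw [hb] at hv
    induction hv using Submodule.span_induction with
    | mem w hw =>
      obtain ⟨k, rfl⟩ := hw
      have : (k, i) ≠ x := fun e => hx (by rw [← e])
      simp [this]
    | zero => simp
    | add y z _ _ hy hz => rw [map_add, Pi.add_apply, hy, hz, add_zero]
    | smul a y _ hy => rw [map_smul, Pi.smul_apply, hy, smul_zero]
  · intro h
    rw [hb, ← b.sum_equivFun v]
    refine Submodule.sum_mem _ fun x _ => ?_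
    by_cases hx : x.2 = i
    · exact Submodule.smul_mem _ _ (Submodule.subset_span ⟨x.1, by show b (x.1, i) = b x; rw [← hx]⟩)
    · rw [h x hx, zero_smul]; exact zero_mem _

theorem mem_stab_of_supp (hD : IsMDecomposition m D)
    (hb : ∀ i, D i = Submodule.span F (Set.range fun k => b (k, i))) {g : GL ι F}
    (h : ∀ i v, Supp i v → ∃ j, Supp j (((inBasis b g : GL _ F) : Matrix (Fin m × Fin t) (Fin m × Fin t) F) *ᵥ v)) :
    g ∈ decompositionStabilizer D :=
  mem_stabilizer_of_forall_mem hD fun i x hx => by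
    obtain ⟨j, hj⟩ := h i _ ((mem_iff_supp hb).1 hx)
    exact ⟨j, (mem_iff_supp hb).2 (by rwa [inBasis_mulVec] at hj)⟩

/-- A transvection. -/
def vmvGL (u a : κ → F) (h : a ⬝ᵥ u = 0) : GL κ F where
  val := 1 + vecMulVec u a
  inv := 1 - vecMulVec u a
  val_inv := by rw [mul_sub, mul_one, add_mul, one_mul, vmv_mul_vmv_zero h, add_zero, add_sub_cancel_right]
  inv_val := by rw [sub_mul, one_mul, mul_add, mul_one, vmv_mul_vmv_zero h, add_zero, add_sub_cancel_right]

theorem monGL_maps_blocks (hm : 0 < m) (π : Equiv.Perm (Fin m × Fin t)) (d : Fin m × Fin t → Fˣ)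
    (hπ : ∀ x y : Fin m × Fin t, x.2 = y.2 → (π x).2 = (π y).2) (i : Fin t) (v : Fin m × Fin t → F)
    (hv : Supp i v) : Supp (π (⟨0, hm⟩, i)).2 (((monGL π d : GL _ F) : Matrix (Fin m × Fin t) (Fin m × Fin t) F) *ᵥ v) := by
  intro z hz
  obtain ⟨x, rfl⟩ := π.surjective z
  rw [monGL_mulVec, hv x (fun e => hz (hπ x (⟨0, hm⟩, i) e)), mul_zero]

/-- Stabilisers of decompositions are maximal in the special linear group, dimension at least five. -/
theorem specialLinear_decomposition_maximal [Fintype F] (hn : 5 ≤ Fintype.card ι) (hD : IsMDecomposition m D)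
    (h1 : ¬ (m = 1 ∧ Fintype.card F ≤ 4)) (h2 : ¬ (m = 2 ∧ Fintype.card F = 2)) :
    IsMaximalIn (specialLinear ι F) (decompositionStabilizer D ⊓ specialLinear ι F) := by
  classical
  haveI : Nontrivial ι := Fintype.one_lt_card_iff_nontrivial.1 (by omega)
  refine ⟨lt_of_le_not_ge inf_le_right fun hle =>
    MaxSub.not_le_decompositionStabilizer hD (hle.trans inf_le_left), fun M hM hMK => ?_⟩
  by_cases hMW : M ≤ decompositionStabilizer D
  · exact Or.inl (le_antisymm (le_inf hMW hMK) hM)
  refine Or.inr (le_antisymm hMK ?_)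
  obtain ⟨b, hb⟩ := ClassicalMax.exists_adapted_basis hD
  have hcard : Fintype.card ι = m * t := by
    rw [← Module.finrank_fintype_fun_eq_card (R := F), Module.finrank_eq_card_basis b]; simp
  set E := inBasis b
  set M' : Subgroup (GL (Fin m × Fin t) F) := M.map E.toMonoidHom
  suffices hS : specialLinear (Fin m × Fin t) F ≤ M' by
    intro g hg
    obtain ⟨y, hy, e⟩ := hS ((inBasis_mem_specialLinear b g).2 hg)
    rwa [← E.injective e]
  have hlift : ∀ h : GL (Fin m × Fin t) F, h ∈ specialLinear _ F →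
      (∀ i v, Supp i v → ∃ j, Supp j ((h : Matrix (Fin m × Fin t) (Fin m × Fin t) F) *ᵥ v)) → h ∈ M' := fun h hh hst => by
    refine ⟨E.symm h, hM ⟨mem_stab_of_supp hD hb ?_, ?_⟩, E.apply_symm_apply h⟩
    · rw [show inBasis b (E.symm h) = h from E.apply_symm_apply h]; exact hst
    · show E.symm h ∈ specialLinear ι F
      rw [← inBasis_mem_specialLinear b, show inBasis b (E.symm h) = h from E.apply_symm_apply h]
      exact hh
  have hmon : ∀ π d, (∀ x y : Fin m × Fin t, x.2 = y.2 → (π x).2 = (π y).2) →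
      monGL π d ∈ specialLinear (Fin m × Fin t) F → monGL π d ∈ M' := fun π d hπ hh =>
    hlift _ hh fun i v hv => ⟨_, monGL_maps_blocks hD.pos π d hπ i v hv⟩
  obtain ⟨g, hgM, hgD⟩ := SetLike.not_le_iff_exists.1 hMW
  have hg' : E g ∈ M' := ⟨g, hgM, rfl⟩
  rcases Nat.lt_or_ge m 2 with hm | hm
  · obtain rfl : m = 1 := by have := hD.pos; omega
    refine specialLinear_le_of_not_mon (by omega) (by simp; omega)
      (fun π d hh => hmon π d (fun x y e => by rw [show x = y from Prod.ext (Subsingleton.elim _ _) e]) hh)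
      ?_ hg' fun hmn => hgD (mem_stab_of_supp hD hb fun i v hv => ?_)
    · rintro _ ⟨y, hy, rfl⟩
      exact (inBasis_mem_specialLinear b y).2 (hMK hy)
    · obtain ⟨π, d, e⟩ := hmn.exists_eq
      rw [show inBasis b g = monGL π d from e]
      exact ⟨_, monGL_maps_blocks hD.pos π d
        (fun x y e => by rw [show x = y from Prod.ext (Subsingleton.elim _ _) e]) i v hv⟩
  have H : Hyp M' :=
    { two := hm
      mon := hmon
      block := fun i u a hu ha h0 => ⟨h0, fun c => by
        have hc : a ⬝ᵥ (c • u) = 0 := by rw [dotProduct_smul, h0, smul_zero]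
        refine ⟨vmvGL (c • u) a hc, hlift _ ?_ fun j v hv => ⟨j, ?_⟩, rfl⟩
        · rw [GeoClasses.mem_specialLinear_iff]
          show (1 + vecMulVec (c • u) a).det = 1
          rw [det_one_add_vmv, hc, add_zero]
        · show Supp j ((1 + vecMulVec (c • u) a) *ᵥ v)
          rw [Matrix.add_mulVec, Matrix.one_mulVec, Matrix.vecMulVec_mulVec]
          intro x hx
          by_cases hji : j = i
          · simp [hv x hx, hu x (hji ▸ hx)]
          · have h0 : a ⬝ᵥ v = 0 := Finset.sum_eq_zero fun z _ => by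
              by_cases hz : z.2 = i
              · rw [hv z (fun e => hji (e.symm.trans hz)), mul_zero]
              · rw [ha z hz, zero_mul]
            simp [hv x hx, h0]⟩ }
  obtain ⟨i, x, hx, hxall⟩ : ∃ i, ∃ x ∈ D i, ∀ j, (g : Matrix ι ι F) *ᵥ x ∉ D j := by
    by_contra hc
    push Not at hc
    exact hgD (mem_stabilizer_of_forall_mem hD hc)
  set x' := b.equivFun x
  set u := ((E g : GL (Fin m × Fin t) F) : Matrix (Fin m × Fin t) (Fin m × Fin t) F) *ᵥ x' with hu
  have hu0 : u ≠ 0 := fun e => hxall i (by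
    rw [hu, inBasis_mulVec, LinearEquiv.map_eq_zero_iff] at e
    rw [e]; exact zero_mem _)
  have hu2 : TwoBlocks u := (supp_or_twoBlocks u hu0).resolve_left fun ⟨j, hj⟩ =>
    hxall j ((mem_iff_supp hb).2 (by rwa [hu, inBasis_mulVec] at hj))
  obtain ⟨y', hy'⟩ := H.exists_other (⟨0, hD.pos⟩, i)
  set y : Fin m × Fin t := (⟨0, hD.pos⟩, i) with hy
  obtain ⟨a, ha, hax, ha0⟩ : ∃ a, Supp i a ∧ a ⬝ᵥ x' = 0 ∧ a ≠ 0 := by
    by_cases hxy : x' y = 0
    · exact ⟨ev F y, supp_ev y, by rw [ev_dot, hxy], fun e => by simpa [ev] using congrFun e y⟩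
    · refine ⟨x' y' • ev F y - x' y • ev F y', fun z hz => ?_, ?_, fun e => hxy ?_⟩
      · simp [supp_ev y z hz, supp_ev y' z (hy'.2 ▸ hz)]
      · simp [sub_dotProduct, ev_dot, mul_comm]
      · have := congrFun e y'
        simpa [ev, Pi.single_eq_of_ne hy'.1] using this
  have hr := (H.block i x' a ((mem_iff_supp hb).1 hx) ha hax).conj hg'
  have hne : a ᵥ* ((E g)⁻¹ : GL (Fin m × Fin t) F).1 ≠ 0 := fun e => ha0 (by
    have := congrArg (· ᵥ* ((E g : GL (Fin m × Fin t) F) : Matrix (Fin m × Fin t) (Fin m × Fin t) F)) e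
    simpa [Matrix.vecMul_vecMul, ← Units.val_mul] using this)
  rcases Nat.lt_or_ge m 3 with h3 | h3
  · obtain rfl : m = 2 := by omega
    refine H.of_two (by omega) ?_ hr hu2 hne
    obtain ⟨z, -, hz⟩ := Finset.exists_mem_notMem_of_card_lt_card (s := ({0, 1} : Finset F))
      (t := Finset.univ) (by
        rw [Finset.card_univ]
        refine Finset.card_le_two.trans_lt ?_
        have := Fintype.one_lt_card (α := F)
        omega)
    simp only [Finset.mem_insert, Finset.mem_singleton, not_or] at hz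
    exact ⟨z, hz⟩
  · exact H.of_three h3 hr hu2 hne

end Cfsg.Agent.DecompMax.Lin
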