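import Mathlib
import Cfsg.Agent.GeoClasses.OrthMaxBase

/-!
The orthogonal group of the sum of squares: reflections, permutation matrices, monomial elements,
and the central involution of two non-conjugate involutions.
-/

set_option autoImplicit false
set_option linter.style.haveILetI false
set_option linter.unusedSectionVars false

namespace Cfsg.Agent.DecompMax.OF

open QuadraticMap Cfsg.Agent.Classical
open scoped Matrix

universe u

variable {F : Type u} [Field F] {ι : Type} [Fintype ι] [DecidableEq ι]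

/-- The sum of squares. -/
def Qd (ι : Type) [Fintype ι] (F : Type u) [Field F] : QuadraticForm F (ι → F) where
  toFun v := v ⬝ᵥ v
  toFun_smul c v := by simp only [smul_dotProduct, dotProduct_smul, smul_eq_mul]; ring
  exists_companion' := ⟨LinearMap.mk₂ F (fun v w => 2 * (v ⬝ᵥ w))
    (fun a b c => by simp only [add_dotProduct, mul_add])
    (fun r a b => by simp only [smul_dotProduct, smul_eq_mul]; ring)
    (fun a b c => by simp only [dotProduct_add, mul_add])
    (fun r a b => by simp only [dotProduct_smul, smul_eq_mul]; ring),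
    fun x y => by
      simp only [LinearMap.mk₂_apply, add_dotProduct, dotProduct_add, dotProduct_comm y x]; ring⟩

@[simp] theorem Qd_apply (v : ι → F) : Qd ι F v = v ⬝ᵥ v := rfl

theorem polar_Qd (v w : ι → F) : polar (Qd ι F) v w = 2 * (v ⬝ᵥ w) := by
  simp only [polar, Qd_apply, add_dotProduct, dotProduct_add, dotProduct_comm w v]; ring

/-- The orthogonal group of the sum of squares. -/
abbrev OG (ι : Type) [Fintype ι] (F : Type u) [Field F] := ↥(OQ (Qd ι F))

/-- The unit vectors of the standard basis. -/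
abbrev sv (F : Type u) [Field F] {ι : Type} [DecidableEq ι] (i : ι) : ι → F := Pi.single i 1

/-- Two is not zero. -/
abbrev Two (F : Type u) [Field F] : Prop := (2 : F) ≠ 0

theorem bNondeg_Qd (h2 : Two F) : BNondeg (Qd ι F) := fun x hx => funext fun i => by
  have := hx (sv F i)
  rw [polar_Qd, dotProduct_single, mul_one] at this
  exact (mul_eq_zero.1 this).resolve_left h2

theorem OG.dot (h2 : Two F) (g : OG ι F) (v w : ι → F) : g.1 v ⬝ᵥ g.1 w = v ⬝ᵥ w := by
  have := OQ_polar g v w
  rw [polar_Qd, polar_Qd] at this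
  exact mul_left_cancel₀ h2 this

theorem OG.coord (h2 : Two F) (g : OG ι F) {i : ι} (h : g.1 (sv F i) = sv F i) (v : ι → F) :
    g.1 v i = v i := by
  have := OG.dot h2 g v (sv F i)
  rwa [h, dotProduct_single, mul_one, dotProduct_single, mul_one] at this

theorem mul_app (g h : OG ι F) (v : ι → F) : (g * h).1 v = g.1 (h.1 v) := rfl

theorem inv_app (g : OG ι F) (v : ι → F) : (g⁻¹ : OG ι F).1 (g.1 v) = v := by
  rw [← mul_app, inv_mul_cancel]; rfl

theorem app_inv (g : OG ι F) (v : ι → F) : g.1 ((g⁻¹ : OG ι F).1 v) = v := by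
  rw [← mul_app, mul_inv_cancel]; rfl

theorem ext_basis {g h : OG ι F} (e : ∀ i, g.1 (sv F i) = h.1 (sv F i)) : g = h :=
  Subtype.ext (LinearEquiv.toLinearMap_injective ((Pi.basisFun F ι).ext fun i => by
    simpa using e i))

theorem expand (v : ι → F) : v = ∑ i, v i • sv F i := by
  funext j; simp [Finset.sum_apply, Pi.single_apply]

/-! ### Supports -/

/-- The support. -/
noncomputable def supp (v : ι → F) : Finset ι := by
  classical exact Finset.univ.filter fun i => v i ≠ 0

theorem mem_supp {v : ι → F} {i : ι} : i ∈ supp v ↔ v i ≠ 0 := by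
  classical simp [supp]

theorem not_mem_supp {v : ι → F} {i : ι} : i ∉ supp v ↔ v i = 0 := by simp [mem_supp]

theorem supp_eq_empty {v : ι → F} : supp v = ∅ ↔ v = 0 :=
  ⟨fun h => funext fun i => not_mem_supp.1 (by simp [h]), fun h => by
    subst h; ext i; simp [mem_supp]⟩

theorem supp_smul {v : ι → F} {c : F} (hc : c ≠ 0) : supp (c • v) = supp v := by
  ext i; simp [mem_supp, hc]

theorem dot_sum_supp {T : Finset ι} {v : ι → F} (h : supp v ⊆ T) (w : ι → F) :
    v ⬝ᵥ w = ∑ i ∈ T, v i * w i := by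
  refine (Finset.sum_subset (Finset.subset_univ T) fun i _ hi => ?_).symm
  rw [not_mem_supp.1 fun h' => hi (h h'), zero_mul]

/-! ### Reflections -/

/-- The reflection along an anisotropic vector (identity along an isotropic one). -/
noncomputable def refl (x : ι → F) : OG ι F := by
  classical exact if h : x ⬝ᵥ x ≠ 0 then reflQ (Qd ι F) x h else 1

theorem refl_eq {x : ι → F} (h : x ⬝ᵥ x ≠ 0) : refl x = reflQ (Qd ι F) x h := by
  classical simp [refl, h]

theorem refl_app {x : ι → F} (h : x ⬝ᵥ x ≠ 0) (v : ι → F) :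
    (refl x).1 v = v - (2 * (x ⬝ᵥ v) / (x ⬝ᵥ x)) • x := by
  rw [refl_eq h]
  exact (reflQ_apply (Qd ι F) x h v).trans (by rw [polar_Qd, Qd_apply, inv_mul_eq_div])

theorem refl_app_unit {x : ι → F} (h : x ⬝ᵥ x = 1) (v : ι → F) :
    (refl x).1 v = v - (2 * (x ⬝ᵥ v)) • x := by
  rw [refl_app (by rw [h]; exact one_ne_zero), h, div_one]

theorem refl_of_perp {x v : ι → F} (h : x ⬝ᵥ v = 0) : (refl x).1 v = v := by
  by_cases hx : x ⬝ᵥ x ≠ 0
  · rw [refl_app hx, h]; simp
  · simp [refl, hx]

theorem refl_self {x : ι → F} (h : x ⬝ᵥ x ≠ 0) : (refl x).1 x = -x := by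
  rw [refl_app h, mul_div_assoc, div_self h, mul_one]
  module

theorem refl_mul_self (x : ι → F) : refl x * refl x = 1 := by
  by_cases hx : x ⬝ᵥ x ≠ 0
  · rw [refl_eq hx]; exact reflQ_mul_self _ _ _
  · simp [refl, hx]

theorem refl_inv (x : ι → F) : (refl x)⁻¹ = refl x := inv_eq_of_mul_eq_one_right (refl_mul_self x)

theorem refl_smul {c : F} (hc : c ≠ 0) (x : ι → F) : refl (c • x) = refl x := by
  have e : (c • x) ⬝ᵥ (c • x) = c * c * (x ⬝ᵥ x) := by
    simp only [smul_dotProduct, dotProduct_smul, smul_eq_mul]; ring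
  by_cases hx : x ⬝ᵥ x ≠ 0
  · refine Subtype.ext (LinearEquiv.ext fun v => ?_)
    rw [refl_app (by rw [e]; exact mul_ne_zero (mul_ne_zero hc hc) hx), refl_app hx, e, smul_smul,
      smul_dotProduct, smul_eq_mul]
    congr 2
    field_simp
  · rw [not_not] at hx
    simp [refl, e, hx]

theorem refl_conj (h2 : Two F) (g : OG ι F) (x : ι → F) : g * refl x * g⁻¹ = refl (g.1 x) := by
  by_cases hx : x ⬝ᵥ x ≠ 0
  · refine Subtype.ext (LinearEquiv.ext fun v => ?_)
    have hgx : g.1 x ⬝ᵥ g.1 x ≠ 0 := by rwa [OG.dot h2]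
    obtain ⟨w, rfl⟩ : ∃ w, g.1 w = v := ⟨_, app_inv g v⟩
    rw [mul_app, mul_app, inv_app, refl_app hx, refl_app hgx, map_sub, map_smul, OG.dot h2,
      OG.dot h2]
  · simp [refl, OG.dot h2, hx]

/-- An element negating `x` and fixing its perp is the reflection. -/
theorem eq_refl {g : OG ι F} {x : ι → F} (hx : x ⬝ᵥ x ≠ 0) (h1 : g.1 x = -x)
    (h : ∀ v, x ⬝ᵥ v = 0 → g.1 v = v) : g = refl x := by
  refine Subtype.ext (LinearEquiv.ext fun v => ?_)
  set c := (x ⬝ᵥ v) / (x ⬝ᵥ x)
  have hp : x ⬝ᵥ (v - c • x) = 0 := by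
    rw [dotProduct_sub, dotProduct_smul, smul_eq_mul, div_mul_cancel₀ _ hx, sub_self]
  have e : v = (v - c • x) + c • x := by abel
  rw [e, map_add, map_add, h _ hp, refl_of_perp hp, map_smul, map_smul, h1, refl_self hx]

theorem refl_ne_one (h2 : Two F) {x : ι → F} (hx : x ⬝ᵥ x ≠ 0) : refl x ≠ 1 := fun e => by
  have h := refl_self hx
  rw [e] at h
  have : x = -x := h
  have h0 : x = 0 := funext fun i => by
    have := congrFun this i
    rw [Pi.neg_apply] at this
    exact (mul_eq_zero.1 (by linear_combination this : (2 : F) * x i = 0)).resolve_left h2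
  exact hx (by rw [h0, zero_dotProduct])

theorem dot_sv_self (i : ι) : sv F i ⬝ᵥ sv F i = 1 := by simp

theorem dot_sv (i : ι) (v : ι → F) : sv F i ⬝ᵥ v = v i := by simp

theorem refl_sv (h2 : Two F) (a b : ι) :
    (refl (sv F a)).1 (sv F b) = if a = b then -sv F b else sv F b := by
  rcases eq_or_ne a b with rfl | h
  · rw [if_pos rfl, refl_self (by simp)]
  · rw [if_neg h, refl_of_perp (by simp [h.symm])]

/-- The reflection along `e_a` flips one coordinate. -/
theorem refl_sv_app (h2 : Two F) (a : ι) (v : ι → F) (i : ι) :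
    (refl (sv F a)).1 v i = if i = a then -v i else v i := by
  rw [refl_app_unit (dot_sv_self a), dot_sv, Pi.sub_apply, Pi.smul_apply, smul_eq_mul]
  rcases eq_or_ne i a with rfl | h
  · simp; ring
  · simp [h]

/-! ### Sign changes -/

/-- The sign change on a list of coordinates. -/
noncomputable def flips (l : List ι) : OG ι F := (l.map fun i => refl (sv F i)).prod

theorem flips_app (h2 : Two F) {l : List ι} (hl : l.Nodup) (v : ι → F) (i : ι) :
    (flips l : OG ι F).1 v i = if i ∈ l then -v i else v i := by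
  induction l generalizing v with
  | nil => simp [flips]
  | cons a l ih =>
    rw [List.nodup_cons] at hl
    have e : (flips (a :: l) : OG ι F) = refl (sv F a) * flips l := by simp [flips]
    rw [e, mul_app, refl_sv_app h2, ih hl.2]
    rcases eq_or_ne i a with rfl | h
    · simp [hl.1]
    · simp [h]

theorem flips_sq (h2 : Two F) {l : List ι} (hl : l.Nodup) : (flips l : OG ι F) * flips l = 1 :=
  Subtype.ext (LinearEquiv.ext fun v => funext fun i => by
    rw [mul_app, flips_app h2 hl, flips_app h2 hl]; split_ifs <;> simp)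

/-! ### Permutations -/

/-- The permutation matrices. -/
noncomputable def permHom (ι : Type) [Fintype ι] [DecidableEq ι] (F : Type u) [Field F] :
    Equiv.Perm ι →* OG ι F where
  toFun σ := ⟨LinearEquiv.funCongrLeft F F σ.symm, fun v => by
    show (v ∘ σ.symm) ⬝ᵥ (v ∘ σ.symm) = v ⬝ᵥ v
    exact comp_equiv_dotProduct_comp_equiv v v σ.symm⟩
  map_one' := Subtype.ext (LinearEquiv.ext fun v => rfl)
  map_mul' σ τ := Subtype.ext (LinearEquiv.ext fun v => rfl)

theorem perm_app (σ : Equiv.Perm ι) (v : ι → F) (i : ι) : (permHom ι F σ).1 v i = v (σ.symm i) := rfl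

theorem perm_sv (σ : Equiv.Perm ι) (a : ι) : (permHom ι F σ).1 (sv F a) = sv F (σ a) :=
  funext fun i => by
    simp only [perm_app, sv, Pi.single_apply]
    simp only [Equiv.symm_apply_eq]

/-! ### Monomial elements -/

/-- Each frame vector goes to a multiple of a frame vector. -/
def Mon (g : OG ι F) : Prop := ∀ i, ∃ j, ∀ k, k ≠ j → g.1 (sv F i) k = 0

theorem Mon.col (h2 : Two F) {g : OG ι F} (h : Mon g) (i : ι) :
    ∃ j, g.1 (sv F i) = sv F j ∨ g.1 (sv F i) = -sv F j := by
  obtain ⟨j, hj⟩ := h i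
  have e : g.1 (sv F i) = g.1 (sv F i) j • sv F j := funext fun k => by
    rcases eq_or_ne k j with rfl | hk
    · simp
    · simp [hj k hk, hk]
  have hn := OG.dot h2 g (sv F i) (sv F i)
  rw [dot_sv_self, e, smul_dotProduct, dotProduct_smul, dot_sv_self, smul_eq_mul, smul_eq_mul,
    mul_one] at hn
  refine ⟨j, ?_⟩
  rcases mul_self_eq_one_iff.1 hn with h | h <;> rw [e, h] <;> simp

theorem Mon.of_col {g : OG ι F}
    (h : ∀ i, ∃ j, g.1 (sv F i) = sv F j ∨ g.1 (sv F i) = -sv F j) : Mon g := fun i => by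
  obtain ⟨j, hj | hj⟩ := h i <;> exact ⟨j, fun k hk => by simp [hj, hk]⟩

theorem mon_one : Mon (1 : OG ι F) := fun i => ⟨i, fun k hk => by simp [hk]⟩

theorem Mon.mul (h2 : Two F) {g h : OG ι F} (hg : Mon g) (hh : Mon h) : Mon (g * h) :=
  Mon.of_col fun i => by
    obtain ⟨j, hj⟩ := hh.col h2 i
    obtain ⟨k, hk⟩ := hg.col h2 j
    refine ⟨k, ?_⟩
    rw [mul_app]
    rcases hj with hj | hj <;> rcases hk with hk | hk <;> simp [hj, hk]

theorem Mon.inv (h2 : Two F) {g : OG ι F} (hg : Mon g) : Mon g⁻¹ := by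
  choose σ hσ using fun i => hg.col h2 i
  have hi : Function.Injective σ := fun a b e => by
    by_contra hab
    have := OG.dot h2 g (sv F a) (sv F b)
    have ha := hσ a
    rw [e] at ha
    rw [dot_sv, show sv F b a = 0 by simp [hab]] at this
    rcases ha with h | h <;> rcases hσ b with h' | h' <;> simp [h, h'] at this
  refine Mon.of_col fun j => ?_
  obtain ⟨i, rfl⟩ := (Finite.injective_iff_surjective.1 hi) j
  refine ⟨i, ?_⟩
  rcases hσ i with h | h
  · left; rw [← h, inv_app]
  · right
    have h' : sv F (σ i) = -g.1 (sv F i) := by rw [h, neg_neg]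
    rw [h', map_neg, inv_app]

theorem mon_perm (σ : Equiv.Perm ι) : Mon (permHom ι F σ) :=
  Mon.of_col fun i => ⟨σ i, Or.inl (perm_sv σ i)⟩

theorem mon_refl_sv (h2 : Two F) (a : ι) : Mon (refl (sv F a)) :=
  Mon.of_col fun i => ⟨i, by rw [refl_sv h2]; split_ifs <;> simp⟩

theorem mon_flips (h2 : Two F) (l : List ι) : Mon (flips l : OG ι F) := by
  induction l with
  | nil => exact mon_one
  | cons a l ih =>
    rw [flips, List.map_cons, List.prod_cons]
    exact (mon_refl_sv h2 a).mul h2 ih

/-! ### The central involution of two involutions -/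

theorem conj_or_central {G : Type*} [Group G] [Finite G] {e f : G} (he : e * e = 1) (hf : f * f = 1) :
    (∃ w, w ∈ Subgroup.closure ({e, f} : Set G) ∧ w * e * w⁻¹ = f) ∨
      ∃ m : ℕ, (e * f) ^ m ≠ 1 ∧ (e * f) ^ m * (e * f) ^ m = 1 ∧
        e * (e * f) ^ m = (e * f) ^ m * e ∧ f * (e * f) ^ m = (e * f) ^ m * f := by
  set r := e * f with hr
  have hei : e⁻¹ = e := inv_eq_of_mul_eq_one_right he
  have hfi : f⁻¹ = f := inv_eq_of_mul_eq_one_right hf
  have hfe : f = e * r := by rw [hr, ← mul_assoc, he, one_mul]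
  have hinv : e * r * e⁻¹ = r⁻¹ := by
    rw [hr, mul_inv_rev, hei, hfi, ← mul_assoc, he, one_mul]
  have hpow : ∀ k : ℕ, e * r ^ k = (r⁻¹) ^ k * e := fun k => by
    rw [← hinv, conj_pow, inv_mul_cancel_right]
  rcases Nat.even_or_odd (orderOf r) with ⟨m, hm⟩ | ⟨k, hk⟩
  · right
    have hpos := orderOf_pos r
    have h1 : r ^ m * r ^ m = 1 := by rw [← pow_add, ← hm, pow_orderOf_eq_one]
    have hi : (r⁻¹) ^ m = r ^ m := by rw [inv_pow]; exact inv_eq_of_mul_eq_one_right h1
    refine ⟨m, pow_ne_one_of_lt_orderOf (by omega) (by omega), h1, by rw [hpow, hi], ?_⟩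
    rw [hfe, mul_assoc, ← pow_succ', pow_succ, ← mul_assoc, hpow, hi, mul_assoc]
  · left
    refine ⟨(r ^ (k + 1))⁻¹, Subgroup.inv_mem _ (Subgroup.pow_mem _ ?_ _), ?_⟩
    · exact Subgroup.mul_mem _ (Subgroup.subset_closure (by simp)) (Subgroup.subset_closure (by simp))
    · rw [inv_inv, ← inv_pow, ← hpow, mul_assoc, ← pow_add,
        show k + 1 + (k + 1) = orderOf r + 1 by omega, pow_succ, pow_orderOf_eq_one, one_mul, ← hfe]

/-- Powers of `e f` on a vector negated by `e` and fixed by `f`. -/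
theorem pow_sign {e f : OG ι F} {v : ι → F} (he : e.1 v = -v) (hf : f.1 v = v) (m : ℕ) :
    ((e * f) ^ m).1 v = v ∨ ((e * f) ^ m).1 v = -v := by
  induction m with
  | zero => exact Or.inl rfl
  | succ m ih =>
    rw [pow_succ', mul_app, mul_app]
    rcases ih with h | h <;> rw [h]
    · exact Or.inr (by rw [hf, he])
    · exact Or.inl (by rw [map_neg, hf, map_neg, he, neg_neg])

/-- Powers of `e f` on all vectors negated by `e` and fixed by `f` have one sign. -/
theorem pow_sign_uniform (e f : OG ι F) (m : ℕ) :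
    (∀ v, e.1 v = -v → f.1 v = v → ((e * f) ^ m).1 v = v) ∨
      (∀ v, e.1 v = -v → f.1 v = v → ((e * f) ^ m).1 v = -v) := by
  induction m with
  | zero => exact Or.inl fun v _ _ => rfl
  | succ m ih =>
    rcases ih with h | h
    · right; intro v he hf
      rw [pow_succ', mul_app, mul_app, h v he hf, hf, he]
    · left; intro v he hf
      rw [pow_succ', mul_app, mul_app, h v he hf, map_neg, hf, map_neg, he, neg_neg]

theorem pow_fix {e f : OG ι F} {v : ι → F} (he : e.1 v = v) (hf : f.1 v = v) (m : ℕ) :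
    ((e * f) ^ m).1 v = v := by
  induction m with
  | zero => rfl
  | succ m ih => rw [pow_succ', mul_app, mul_app, ih, hf, he]

end Cfsg.Agent.DecompMax.OF
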