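import Cfsg.Agent.DecompMax.FrameSplit

/-!
A good group with one non-monomial element has all unit vectors of its coordinates as centres.
-/

set_option autoImplicit false
set_option linter.style.haveILetI false
set_option linter.unusedSectionVars false
set_option linter.unusedVariables false

namespace Cfsg.Agent.DecompMax.OF

open QuadraticMap Module Cfsg.Agent.Classical
open scoped Matrix

universe u

variable {F : Type u} [Field F] [Finite F] {ι : Type} [Fintype ι] [DecidableEq ι]

omit [Fintype ι] in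
theorem exists_perm_map {κ : Type} {a b : κ → ι} {K : Finset ι} (ha : Function.Injective a)
    (hb : Function.Injective b) (haK : ∀ i, a i ∈ K) (hbK : ∀ i, b i ∈ K) :
    ∃ π : Equiv.Perm ι, (∀ i ∉ K, π i = i) ∧ ∀ i, π (a i) = b i := by
  classical
  let a' : κ → {x // x ∈ K} := fun i => ⟨a i, haK i⟩
  let b' : κ → {x // x ∈ K} := fun i => ⟨b i, hbK i⟩
  have ha' : Function.Injective a' := fun i j h => ha (congrArg Subtype.val h)
  have hb' : Function.Injective b' := fun i j h => hb (congrArg Subtype.val h)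
  let e := (Equiv.ofInjective a' ha').symm.trans (Equiv.ofInjective b' hb')
  refine ⟨Equiv.Perm.ofSubtype e.extendSubtype, fun i hi => Equiv.Perm.ofSubtype_apply_of_not_mem _ hi,
    fun i => ?_⟩
  rw [Equiv.Perm.ofSubtype_apply_of_mem _ (haK i)]
  have := e.extendSubtype_apply_of_mem (a' i) ⟨i, rfl⟩
  simp only [a'] at this
  rw [this]
  simp only [e, Equiv.trans_apply]
  rw [show (⟨⟨a i, haK i⟩, _⟩ : Set.range a') = Equiv.ofInjective a' ha' i from Subtype.ext rfl,
    Equiv.symm_apply_apply]
  rfl

/-! ### Three coordinates inside the space -/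

/-- Put three values on three coordinates. -/
noncomputable def ext3Fun (f : Fin 3 ↪ ι) (g : OG (Fin 3) F) (v : ι → F) : ι → F :=
  Function.extend f (g.1 (v ∘ f)) v

theorem ext3Fun_in (f : Fin 3 ↪ ι) (g : OG (Fin 3) F) (v : ι → F) (a : Fin 3) :
    ext3Fun f g v (f a) = g.1 (v ∘ f) a := f.injective.extend_apply _ _ a

theorem ext3Fun_out (f : Fin 3 ↪ ι) (g : OG (Fin 3) F) (v : ι → F) {i : ι} (h : ∀ a, f a ≠ i) :
    ext3Fun f g v i = v i := Function.extend_apply' _ _ _ fun ⟨a, ha⟩ => h a ha

theorem ext3Fun_comp (f : Fin 3 ↪ ι) (g : OG (Fin 3) F) (v : ι → F) :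
    ext3Fun f g v ∘ f = g.1 (v ∘ f) := funext fun a => ext3Fun_in f g v a

theorem dot_split (f : Fin 3 ↪ ι) (v w : ι → F) :
    v ⬝ᵥ w = (v ∘ f) ⬝ᵥ (w ∘ f) + ∑ i ∈ (Finset.univ.map f)ᶜ, v i * w i := by
  rw [dotProduct, ← Finset.sum_add_sum_compl (Finset.univ.map f), Finset.sum_map]
  rfl

theorem ext3_cases (f : Fin 3 ↪ ι) (i : ι) : (∃ a, f a = i) ∨ ∀ a, f a ≠ i := by
  by_cases h : ∃ a, f a = i
  · exact Or.inl h
  · exact Or.inr fun a ha => h ⟨a, ha⟩

/-- Three coordinates of the whole space. -/
noncomputable def ext3 (f : Fin 3 ↪ ι) : OG (Fin 3) F →* OG ι F where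
  toFun g :=
    ⟨{ toFun := ext3Fun f g
       map_add' := fun v w => funext fun i => by
        rcases ext3_cases f i with ⟨a, rfl⟩ | h
        · simp only [Pi.add_apply, ext3Fun_in, show (v + w) ∘ f = v ∘ f + w ∘ f from rfl, map_add]
        · simp only [Pi.add_apply, ext3Fun_out f g _ h]
       map_smul' := fun c v => funext fun i => by
        rcases ext3_cases f i with ⟨a, rfl⟩ | h
        · simp only [Pi.smul_apply, ext3Fun_in, show (c • v) ∘ f = c • (v ∘ f) from rfl, map_smul,
            RingHom.id_apply]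
        · simp only [Pi.smul_apply, ext3Fun_out f g _ h, RingHom.id_apply]
       invFun := ext3Fun f g⁻¹
       left_inv := fun v => funext fun i => by
        rcases ext3_cases f i with ⟨a, rfl⟩ | h
        · rw [ext3Fun_in, ext3Fun_comp, inv_app, Function.comp_apply]
        · rw [ext3Fun_out f _ _ h, ext3Fun_out f _ _ h]
       right_inv := fun v => funext fun i => by
        rcases ext3_cases f i with ⟨a, rfl⟩ | h
        · rw [ext3Fun_in, ext3Fun_comp, app_inv, Function.comp_apply]
        · rw [ext3Fun_out f _ _ h, ext3Fun_out f _ _ h] },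
      fun v => by
        show ext3Fun f g v ⬝ᵥ ext3Fun f g v = v ⬝ᵥ v
        rw [dot_split f, dot_split f v v, ext3Fun_comp]
        congr 1
        · exact g.2 (v ∘ f)
        · refine Finset.sum_congr rfl fun i hi => ?_
          rw [ext3Fun_out f _ _ fun a ha => by simp [← ha] at hi]⟩
  map_one' := Subtype.ext (LinearEquiv.ext fun v => funext fun i => by
    show ext3Fun f 1 v i = v i
    rcases ext3_cases f i with ⟨a, rfl⟩ | h
    · rw [ext3Fun_in]; rfl
    · rw [ext3Fun_out f _ _ h])
  map_mul' g h := Subtype.ext (LinearEquiv.ext fun v => funext fun i => by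
    show ext3Fun f (g * h) v i = ext3Fun f g (ext3Fun f h v) i
    rcases ext3_cases f i with ⟨a, rfl⟩ | h'
    · rw [ext3Fun_in, ext3Fun_in, ext3Fun_comp]; rfl
    · rw [ext3Fun_out f _ _ h', ext3Fun_out f _ _ h', ext3Fun_out f _ _ h'])

theorem ext3_app (f : Fin 3 ↪ ι) (g : OG (Fin 3) F) (v : ι → F) : (ext3 f g).1 v = ext3Fun f g v := rfl

/-- A vector of three coordinates in the whole space. -/
noncomputable def put (f : Fin 3 ↪ ι) (z : Fin 3 → F) : ι → F := Function.extend f z 0

theorem put_in (f : Fin 3 ↪ ι) (z : Fin 3 → F) (a : Fin 3) : put f z (f a) = z a :=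
  f.injective.extend_apply _ _ a

theorem put_out (f : Fin 3 ↪ ι) (z : Fin 3 → F) {i : ι} (h : ∀ a, f a ≠ i) : put f z i = 0 :=
  Function.extend_apply' _ _ _ fun ⟨a, ha⟩ => h a ha

theorem dot_put (f : Fin 3 ↪ ι) (z : Fin 3 → F) (v : ι → F) : put f z ⬝ᵥ v = z ⬝ᵥ (v ∘ f) := by
  rw [dot_split f, Finset.sum_eq_zero fun i hi => by
    rw [put_out f z fun a ha => by simp [← ha] at hi, zero_mul], add_zero]
  congr 1
  exact funext fun a => put_in f z a

theorem ext3_refl (f : Fin 3 ↪ ι) {z : Fin 3 → F} (hz : z ⬝ᵥ z = 1) :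
    ext3 f (refl z) = refl (put f z) := by
  have hp : put f z ⬝ᵥ put f z = 1 := by
    rw [dot_put, show put f z ∘ f = z from funext fun a => put_in f z a, hz]
  refine eq_refl (by rw [hp]; exact one_ne_zero) (funext fun i => ?_) fun v hv => funext fun i => ?_
  · rw [ext3_app]
    rcases ext3_cases f i with ⟨a, rfl⟩ | h
    · rw [ext3Fun_in, show put f z ∘ f = z from funext fun a => put_in f z a,
        refl_self (by rw [hz]; exact one_ne_zero)]
      simp [put_in]
    · rw [ext3Fun_out f _ _ h, Pi.neg_apply, put_out f z h, neg_zero]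
  · rw [ext3_app]
    rcases ext3_cases f i with ⟨a, rfl⟩ | h
    · rw [ext3Fun_in, refl_of_perp (by rwa [dot_put] at hv)]; rfl
    · rw [ext3Fun_out f _ _ h]

theorem ext3_perm (f : Fin 3 ↪ ι) (σ : Equiv.Perm (Fin 3)) :
    ext3 f (permHom (Fin 3) F σ) = permHom ι F (σ.viaFintypeEmbedding f) := by
  refine Subtype.ext (LinearEquiv.ext fun v => funext fun i => ?_)
  rw [ext3_app, perm_app]
  rcases ext3_cases f i with ⟨a, rfl⟩ | h
  · have : (σ.viaFintypeEmbedding f).symm (f a) = f (σ.symm a) := by
      rw [Equiv.symm_apply_eq, Equiv.Perm.viaFintypeEmbedding_apply_image, Equiv.apply_symm_apply]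
    rw [ext3Fun_in, perm_app, this]; rfl
  · have hn : i ∉ Set.range f := fun ⟨a, ha⟩ => h a ha
    rw [ext3Fun_out f _ _ h, (Equiv.symm_apply_eq _).2
      (Equiv.Perm.viaFintypeEmbedding_apply_notMem_range σ f hn).symm]

/-! ### Descent -/

variable (h2 : Two F) {K : Finset ι} {G : Subgroup (OG ι F)} (hG : Good K G)
include h2 hG

theorem Good.moves {g : OG ι F} (hg : g ∈ G) {v : ι → F} (hv : supp v ⊆ K) : supp (g.1 v) ⊆ K :=
  fun i hi => by
    by_contra h
    exact mem_supp.1 hi (by rw [OG.coord h2 g (hG.fix g hg i h), not_mem_supp.1 fun h' => h (hv h')])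

/-- Centres can be moved by permutations of the coordinates. -/
theorem Good.cen_perm {x : ι → F} (hx : IsCen G x) (hK : (supp x).card + 2 ≤ K.card) (π : Equiv.Perm ι)
    (hπ : ∀ i ∉ K, π i = i) : IsCen G ((permHom ι F π).1 x) := by
  rcases Int.units_eq_one_or (Equiv.Perm.sign π) with h | h
  · exact hx.conj h2 (hG.perm π h hπ)
  have hsub := IsCen.sub h2 hG hx
  obtain ⟨p, hp, q, hq, hpq⟩ := Finset.one_lt_card.1 (show 1 < (K \ supp x).card by
    rw [Finset.card_sdiff_of_subset hsub]; omega)
  simp only [Finset.mem_sdiff, not_mem_supp] at hp hq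
  have hfix : (permHom ι F (Equiv.swap p q)).1 x = x := funext fun i => by
    rw [perm_app, Equiv.symm_swap]
    rcases eq_or_ne i p with rfl | h1
    · rw [Equiv.swap_apply_left, hp.2, hq.2]
    rcases eq_or_ne i q with rfl | h2'
    · rw [Equiv.swap_apply_right, hp.2, hq.2]
    rw [Equiv.swap_apply_of_ne_of_ne h1 h2']
  have := hx.conj h2 (hG.perm (π * Equiv.swap p q) (by rw [map_mul, h, Equiv.Perm.sign_swap hpq]; decide)
    fun i hi => by
      rw [Equiv.Perm.mul_apply, Equiv.swap_apply_of_ne_of_ne (fun e => hi (by rw [e]; exact hp.1))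
        (fun e => hi (by rw [e]; exact hq.1)), hπ i hi])
  rwa [map_mul, mul_app, hfix] at this

omit [Finite F] h2 hG in
theorem not_plain_of_card {x : ι → F} (h : 3 ≤ (supp x).card) : ¬ Plain x := fun hp => by
  have := hp.1; omega

omit h2 hG in
theorem exists_smul_cases (x : ι → F) : (supp x).card ≤ 5 ∨ 6 ≤ (supp x).card := by omega

theorem exists_nonplain_cen (hK : 5 ≤ K.card) {g : OG ι F} (hg : g ∈ G) (hgm : ¬ Mon g) :
    ∃ x, IsCen G x ∧ ¬ Plain x := by
  by_contra hcon
  push Not at hcon
  have hall : ∀ a ∈ K, Plain (g.1 (sv F a)) := fun a ha =>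
    hcon _ (IsCen.conj h2 ⟨dot_sv_self a, hG.flip a ha⟩ hg)
  have hsingle : ∀ {v : ι → F}, v ⬝ᵥ v = 1 → (supp v).card ≤ 1 → ∃ j, ∀ k, k ≠ j → v k = 0 := by
    intro v hv hc
    obtain ⟨j, hj⟩ : (supp v).Nonempty := by
      rw [Finset.nonempty_iff_ne_empty]
      intro h
      rw [supp_eq_empty] at h
      rw [h, zero_dotProduct] at hv
      exact zero_ne_one hv
    exact ⟨j, fun k hk => not_mem_supp.1 fun h => hk (Finset.card_le_one.1 hc k h j hj)⟩
  apply hgm
  intro a
  by_cases haK : a ∈ K
  swap
  · exact ⟨a, fun k hk => by rw [hG.fix g hg a haK]; simp [hk]⟩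
  by_cases hone : (supp (g.1 (sv F a))).card ≤ 1
  · exact hsingle (by rw [OG.dot h2, dot_sv_self]) hone
  exfalso
  set s := g.1 (sv F a)
  have hs : IsCen G s := IsCen.conj h2 ⟨dot_sv_self a, hG.flip a haK⟩ hg
  have hs2 : (supp s).card = 2 := by
    have h1 : (supp s).card ≤ 2 := (hall a haK).1
    have h2' : ¬ (supp s).card ≤ 1 := hone
    omega
  obtain ⟨p, q, hpq, hsupp⟩ := Finset.card_eq_two.1 hs2
  have hp0 : s p ≠ 0 := mem_supp.1 (by rw [hsupp]; simp)
  have hq0 : s q ≠ 0 := mem_supp.1 (by rw [hsupp]; simp)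
  have hsq : s q ^ 2 = s p ^ 2 := (hall a haK).2 q (by rw [hsupp]; simp) p (by rw [hsupp]; simp)
  have hsub := IsCen.sub h2 hG hs
  set η := s p
  have hη : 2 * η * η = 1 := by
    have := hs.1
    rw [dot_sum_supp (le_of_eq hsupp), Finset.sum_pair hpq] at this
    linear_combination this - hsq
  -- sums of two frame vectors are centres
  have hdouble : ∀ c ∈ K, c ≠ a → IsCen G (η • (sv F a + sv F c)) := by
    intro c hc hca
    obtain ⟨π, hπ, hπm⟩ := exists_perm_map (a := ![p, q]) (b := ![a, c]) (K := K)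
      (fun i j h => by fin_cases i <;> fin_cases j <;> first | rfl | (simp at h; exact absurd h hpq) | (simp at h; exact absurd h hpq.symm))
      (fun i j h => by fin_cases i <;> fin_cases j <;> first | rfl | (simp at h; exact absurd h hca.symm) | (simp at h; exact absurd h hca))
      (fun i => by fin_cases i <;> exact hsub (by rw [hsupp]; simp))
      (fun i => by fin_cases i <;> assumption)
    have hpa : π p = a := hπm 0
    have hqc : π q = c := hπm 1
    have h1 := Good.cen_perm h2 hG hs (by rw [hs2]; omega) π hπ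
    set t := (permHom ι F π).1 s
    have ht : ∀ i, t i = if i = a then η else if i = c then s q else 0 := by
      intro i
      show (permHom ι F π).1 s i = _
      rw [perm_app]
      split_ifs with e1 e2
      · rw [e1, ← hpa, Equiv.symm_apply_apply]
      · rw [e2, ← hqc, Equiv.symm_apply_apply]
      · refine not_mem_supp.1 fun h => ?_
        rw [hsupp] at h
        rcases Finset.mem_insert.1 h with h | h
        · exact e1 (by rw [← hpa, ← h, Equiv.apply_symm_apply])
        · exact e2 (by rw [← hqc, ← Finset.mem_singleton.1 h, Equiv.apply_symm_apply])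
    rcases sq_eq_sq_iff_eq_or_eq_neg.1 hsq with e | e
    · convert h1 using 1
      funext i
      rw [ht, e]
      rcases eq_or_ne i a with rfl | e1
      · simp [hca.symm]
      rcases eq_or_ne i c with rfl | e2 <;> simp [*]
    · have h3 : IsCen G ((refl (sv F c)).1 t) := h1.conj h2 (hG.flip c hc)
      convert h3 using 1
      funext i
      rw [refl_sv_app h2, ht, e]
      rcases eq_or_ne i a with rfl | e1
      · simp [hca.symm]
      rcases eq_or_ne i c with rfl | e2 <;> simp [*]
  have hcol : ∀ c ∈ K, c ≠ a → supp (g.1 (sv F c)) ⊆ {p, q} := by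
    intro c hc hca
    set t := g.1 (sv F c)
    have hpl := hall c hc
    have horth : s ⬝ᵥ t = 0 := by rw [OG.dot h2]; simp [hca]
    have hsum := hcon _ ((hdouble c hc hca).conj h2 hg)
    rw [map_smul, map_add] at hsum
    have hη0 : η ≠ 0 := hp0
    have hsm : supp (η • (s + t)) = supp (s + t) := supp_smul hη0
    intro i hi
    by_contra hipq
    have hs_i : s i = 0 := not_mem_supp.1 (by rw [hsupp]; exact hipq)
    have h3 : ∀ T : Finset ι, 3 ≤ T.card → T ⊆ supp (s + t) → False := fun T hT hTs => by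
      have h1 := Finset.card_le_card hTs
      have h2' := hsum.1
      rw [hsm] at h2'
      omega
    by_cases htp : t p = 0 <;> by_cases htq : t q = 0
    · exact h3 {p, q, i} (le_of_eq (Finset.card_eq_three.2
        ⟨p, q, i, hpq, fun e => hipq (by simp [e]), fun e => hipq (by simp [e]), rfl⟩).symm)
        fun j hj => by
          rw [mem_supp, Pi.add_apply]
          simp only [Finset.mem_insert, Finset.mem_singleton] at hj
          rcases hj with rfl | rfl | rfl
          · rw [htp, add_zero]; exact hp0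
          · rw [htq, add_zero]; exact hq0
          · rw [hs_i, zero_add]; exact mem_supp.1 hi
    · rw [dot_sum_supp (le_of_eq hsupp), Finset.sum_pair hpq, htp, mul_zero, zero_add] at horth
      exact mul_ne_zero hq0 htq horth
    · rw [dot_sum_supp (le_of_eq hsupp), Finset.sum_pair hpq, htq, mul_zero, add_zero] at horth
      exact mul_ne_zero hp0 htp horth
    · have : ({p, q, i} : Finset ι) ⊆ supp t := fun j hj => by
        simp only [Finset.mem_insert, Finset.mem_singleton] at hj
        rcases hj with rfl | rfl | rfl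
        · exact mem_supp.2 htp
        · exact mem_supp.2 htq
        · exact hi
      have h1 := Finset.card_le_card this
      rw [show ({p, q, i} : Finset ι).card = 3 from Finset.card_eq_three.2
        ⟨p, q, i, hpq, fun e => hipq (by simp [e]), fun e => hipq (by simp [e]), rfl⟩] at h1
      have : (supp t).card ≤ 2 := hpl.1
      omega
  obtain ⟨c, hc, d, hd, hcd⟩ := Finset.one_lt_card.1 (show 1 < (K.erase a).card by
    rw [Finset.card_erase_of_mem haK]; omega)
  rw [Finset.mem_erase] at hc hd
  have key : ∀ {e : ι}, e ∈ K → e ≠ a → ∃ k : F, g.1 (sv F e) = k • (s q • sv F p - s p • sv F q) := by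
    intro e he hea
    set t := g.1 (sv F e)
    have horth : s ⬝ᵥ t = 0 := by rw [OG.dot h2]; simp [hea]
    rw [dot_sum_supp (le_of_eq hsupp), Finset.sum_pair hpq] at horth
    refine ⟨t p / s q, funext fun i => ?_⟩
    simp only [Pi.smul_apply, Pi.sub_apply, smul_eq_mul]
    rcases eq_or_ne i p with rfl | hip
    · simp [hpq]; field_simp
    rcases eq_or_ne i q with rfl | hiq
    · simp [hip]; field_simp; linear_combination horth
    · simp [hip, hiq]
      exact not_mem_supp.1 fun h => by simpa [hip, hiq] using hcol e he hea h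
  obtain ⟨k, hk⟩ := key hc.2 hc.1
  obtain ⟨k', hk'⟩ := key hd.2 hd.1
  have hcd' : g.1 (sv F c) ⬝ᵥ g.1 (sv F d) = 0 := by rw [OG.dot h2]; simp [hcd.symm]
  have hcc : g.1 (sv F c) ⬝ᵥ g.1 (sv F c) = 1 := by rw [OG.dot h2]; simp
  have hk0 : k' ≠ 0 := fun h => by
    have : g.1 (sv F d) ⬝ᵥ g.1 (sv F d) = 1 := by rw [OG.dot h2]; simp
    rw [hk', h, zero_smul, zero_dotProduct] at this
    exact zero_ne_one this
  rw [hk, hk'] at hcd'
  rw [hk] at hcc
  simp only [smul_dotProduct, dotProduct_smul, smul_eq_mul] at hcd' hcc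
  exact hk0 (by linear_combination (-k') * hcc + k * hcd')

variable (hp : (Nat.card F).Prime)
include hp

omit h2 hG in
theorem natCast_ne_zero {m : ℕ} (h : ¬ Nat.card F ∣ m) : (m : F) ≠ 0 := by
  haveI := Fintype.ofFinite F
  obtain ⟨r, hr⟩ := CharP.exists F
  obtain ⟨k, hrp, hk⟩ := FiniteField.card F r
  rw [← Nat.card_eq_fintype_card] at hk
  rw [hk] at hp
  rw [hk, ((Nat.Prime.pow_eq_iff hp).1 rfl).2, pow_one] at h
  exact fun h0 => h ((CharP.cast_eq_zero_iff F r m).1 h0)

omit h2 hG in
theorem natCast_card_zero : ((Nat.card F : ℕ) : F) = 0 := by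
  haveI := Fintype.ofFinite F
  rw [Nat.card_eq_fintype_card]
  exact Nat.cast_card_eq_zero F

omit h2 hG in
theorem not_sq_of_card_five (h : Nat.card F = 5) (x : F) : 2 * x ^ 2 ≠ 1 := by
  haveI := Fintype.ofFinite F
  intro hx
  have h5 : ((5 : ℕ) : F) = 0 := h ▸ natCast_card_zero hp
  have e4 : x ^ 4 = 1 := by
    have hx0 : x ≠ 0 := by rintro rfl; simp at hx
    have := FiniteField.pow_card_sub_one_eq_one x hx0
    rwa [← Nat.card_eq_fintype_card, h] at this
  have : (4 : F) = 1 := by linear_combination (2 * x ^ 2 + 1) * hx - 4 * e4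
  have h3 : ((3 : ℕ) : F) = 0 := by push_cast; linear_combination this
  exact natCast_ne_zero hp (by rw [h]; decide) h3

/-- For at least five elements there is a small non-plain centre. -/
theorem Good.small (h5 : 5 ≤ Nat.card F) (hK : 7 ≤ K.card) {x₀ : ι → F} (hx₀ : IsCen G x₀)
    (hnp : ¬ Plain x₀) : ∃ x, IsCen G x ∧ ¬ Plain x ∧ (supp x).card ≤ 3 := by
  classical
  by_contra hno
  push Not at hno
  have h3 : (3 : F) ≠ 0 := by
    have := natCast_ne_zero hp (m := 3) (fun h => by have := Nat.le_of_dvd (by norm_num) h; omega)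
    exact_mod_cast this
  -- only the remaining part can be a centre
  have rest : ∀ x, IsCen G x → ∀ S, S ⊆ supp x → S.card = 3 → S ≠ supp x →
      ∃ y, IsCen G y ∧ supp y = supp x \ S ∧ ∃ η : F, η ≠ 0 ∧ y = η • part Sᶜ x := by
    intro x hx S hS hc hne
    rcases Good.split h2 hG hx hS hc hne with ⟨η, hη, h⟩ | ⟨η, hη, h⟩ | ⟨y, hy, hys⟩
    · have hs : (supp (η • part S x)).card = 3 := by
        rw [supp_smul hη, supp_part, Finset.inter_eq_left.2 hS, hc]
      have := hno _ h (not_plain_of_card (by omega))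
      omega
    · refine ⟨_, h, ?_, η, hη, rfl⟩
      rw [supp_smul hη, supp_part]
      ext i; simp [and_comm]
    · have := hno _ hy (not_plain_of_card (by rw [hys, hc]))
      rw [hys] at this
      omega
  -- five non-zero coordinates have equal squares
  have five : ∀ x, IsCen G x → (supp x).card = 5 → ∀ a ∈ supp x, ∀ b ∈ supp x, x a ^ 2 = x b ^ 2 := by
    intro x hx hc a ha b hb
    by_contra hab
    have hne : a ≠ b := fun e => hab (by rw [e])
    have hab' : ({a, b} : Finset ι) ⊆ supp x := by
      intro i hi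
      simp only [Finset.mem_insert, Finset.mem_singleton] at hi
      rcases hi with rfl | rfl <;> assumption
    obtain ⟨y, hy, hys, η, hη, hye⟩ := rest x hx (supp x \ {a, b}) Finset.sdiff_subset
      (by rw [Finset.card_sdiff_of_subset hab', Finset.card_pair hne, hc])
      (fun h => by
        have : a ∈ supp x \ {a, b} := h.symm ▸ ha
        simp at this)
    have hys' : supp y = {a, b} := by rw [hys]; exact Finset.sdiff_sdiff_eq_self hab'
    have hnp : ¬ Plain y := fun hpl => hab (by
      have := hpl.2 a (by rw [hys']; simp) b (by rw [hys']; simp)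
      rw [hye] at this
      simp [part, hη, mul_pow] at this
      exact this)
    have := hno y hy hnp
    rw [hys', Finset.card_pair hne] at this
    omega
  have le5 : ∀ k, ∀ x, IsCen G x → ¬ Plain x → (supp x).card = k → ∃ x, IsCen G x ∧
      (supp x).card ≤ 5 ∧ ¬ Plain x := by
    intro k
    induction k using Nat.strong_induction_on with
    | _ k ih =>
      intro x hx hnp hk
      by_cases hk5 : k ≤ 5
      · exact ⟨x, hx, hk ▸ hk5, hnp⟩
      obtain ⟨S, hS, hSc⟩ := Finset.exists_subset_card_eq (s := supp x) (n := 3) (by omega)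
      obtain ⟨y, hy, hys, -⟩ := rest x hx S hS hSc (fun h => by rw [← h, hSc] at hk; omega)
      have hyc : (supp y).card = k - 3 := by rw [hys, Finset.card_sdiff_of_subset hS, hSc, hk]
      exact ih (k - 3) (by omega) y hy (not_plain_of_card (by omega)) hyc
  obtain ⟨x, hx, hxc, hnp'⟩ := le5 _ x₀ hx₀ hnp rfl
  have hx4 := hno x hx hnp'
  have hxK := IsCen.sub h2 hG hx
  rcases (show (supp x).card = 4 ∨ (supp x).card = 5 by omega) with hc | hc
  · -- four coordinates: overlap with a translate
    have hnorm : ∑ i ∈ supp x, x i ^ 2 = 1 := by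
      rw [← hx.1, dot_sum_supp subset_rfl]; exact Finset.sum_congr rfl fun i _ => pow_two _
    have hcases : ∀ e ∈ supp x, x e ^ 2 = 1 ∨ 2 * x e ^ 2 = 1 ∨
        (2 * x e ^ 2 = 3 ∧ ∀ i ∈ supp x, i ≠ e → 4 * x i ^ 2 = x e ^ 2) := by
      intro e he
      by_contra hcon
      push Not at hcon
      obtain ⟨n1, n2, n3⟩ := hcon
      obtain ⟨d, p, q, hdp, hdq, hpq, hdef⟩ : ∃ d p q, d ≠ p ∧ d ≠ q ∧ p ≠ q ∧
          ∀ i ∈ ({d, p, q} : Finset ι), i ∈ K ∧ i ∉ supp x := by
        obtain ⟨T, hT, hTc⟩ := Finset.exists_subset_card_eq (s := K \ supp x) (n := 3)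
          (by rw [Finset.card_sdiff_of_subset hxK]; omega)
        obtain ⟨d, p, q, h1, h2', h3', rfl⟩ := Finset.card_eq_three.1 hTc
        exact ⟨d, p, q, h1, h2', h3', fun i hi => Finset.mem_sdiff.1 (hT hi)⟩
      have hd := hdef d (by simp)
      have hed : e ≠ d := fun h => hd.2 (h ▸ he)
      have hπ : ∀ i ∉ K, Equiv.swap e d i = i := fun i hi =>
        Equiv.swap_apply_of_ne_of_ne (fun h => hi (h ▸ hxK he)) (fun h => hi (h ▸ hd.1))
      have hx' := Good.cen_perm h2 hG hx (by omega) (Equiv.swap e d) hπ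
      set x' := (permHom ι F (Equiv.swap e d)).1 x
      have hxd : x d = 0 := not_mem_supp.1 hd.2
      have hx'v : ∀ i, x' i = if i = e then 0 else if i = d then x e else x i := by
        intro i
        show (permHom ι F (Equiv.swap e d)).1 x i = _
        rw [perm_app, Equiv.symm_swap]
        split_ifs with e1 e2
        · rw [e1, Equiv.swap_apply_left, hxd]
        · rw [e2, Equiv.swap_apply_right]
        · rw [Equiv.swap_apply_of_ne_of_ne e1 e2]
      have hs : x ⬝ᵥ x' = 1 - x e ^ 2 := by
        rw [dot_sum_supp subset_rfl, ← hnorm,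
          ← Finset.add_sum_erase _ _ he, ← Finset.add_sum_erase _ (fun i => x i ^ 2) he]
        rw [hx'v e, if_pos rfl, mul_zero, zero_add]
        have : ∑ i ∈ (supp x).erase e, x i * x' i = ∑ i ∈ (supp x).erase e, x i ^ 2 :=
          Finset.sum_congr rfl fun i hi => by
            have hi' := Finset.mem_erase.1 hi
            rw [hx'v, if_neg hi'.1, if_neg (fun h : i = d => hd.2 (h ▸ hi'.2)), pow_two]
        rw [this]; ring
      set s := x ⬝ᵥ x'
      have hw := hx'.conj h2 hx.2
      set w := (refl x).1 x'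
      have hwv : ∀ i, w i = x' i - 2 * s * x i := fun i => by
        show (refl x).1 x' i = _
        rw [refl_app_unit hx.1, Pi.sub_apply, Pi.smul_apply, smul_eq_mul]
      have hs0 : s ≠ 0 := fun h => n1 (by rw [hs] at h; linear_combination -h)
      have hs1 : 2 * s ≠ 1 := fun h => n2 (by rw [hs] at h; linear_combination -h)
      have we : w e = -(2 * s * x e) := by rw [hwv, hx'v, if_pos rfl]; ring
      have wd : w d = x e := by rw [hwv, hx'v, if_neg hed.symm, if_pos rfl, hxd]; ring
      have wi : ∀ i ∈ supp x, i ≠ e → w i = (1 - 2 * s) * x i := fun i hi hie => by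
        rw [hwv, hx'v, if_neg hie, if_neg (fun h : i = d => hd.2 (h ▸ hi))]; ring
      have hws : supp w = insert d (supp x) := by
        ext i
        rw [mem_supp, Finset.mem_insert]
        by_cases hid : i = d
        · refine iff_of_true ?_ (Or.inl hid)
          rw [hid, wd]; exact mem_supp.1 he
        by_cases hix : i ∈ supp x
        · refine iff_of_true ?_ (Or.inr hix)
          by_cases hie : i = e
          · rw [hie, we]; exact neg_ne_zero.2 (mul_ne_zero (mul_ne_zero h2 hs0) (mem_supp.1 he))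
          · rw [wi i hix hie]; exact mul_ne_zero (sub_ne_zero.2 (Ne.symm hs1)) (mem_supp.1 hix)
        · refine iff_of_false (not_not.2 ?_) (by tauto)
          have hie : i ≠ e := fun h => hix (h ▸ he)
          rw [hwv, hx'v, if_neg hie, if_neg hid, not_mem_supp.1 hix]; ring
      have heq := five w hw (by rw [hws, Finset.card_insert_of_notMem hd.2, hc])
      have h1 := heq e (by rw [hws]; simp [he]) d (by rw [hws]; simp)
      rw [we, wd] at h1
      have hxe : x e ^ 2 ≠ 0 := pow_ne_zero 2 (mem_supp.1 he)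
      have h4s : 4 * s ^ 2 = 1 := mul_right_cancel₀ hxe (by linear_combination h1)
      have h2s : 2 * s = -1 := by
        rcases mul_self_eq_one_iff.1 (show (2 * s) * (2 * s) = 1 by linear_combination h4s) with h | h
        · exact absurd h hs1
        · exact h
      obtain ⟨i, hi, hie, hne'⟩ := n3 (by rw [hs] at h2s; linear_combination -h2s)
      apply hne'
      have := heq i (by rw [hws]; simp [hi]) d (by rw [hws]; simp)
      rw [wi i hi hie, wd, h2s] at this
      linear_combination this
    by_cases hthird : ∃ e ∈ supp x, 2 * x e ^ 2 = 3 ∧ ∀ i ∈ supp x, i ≠ e → 4 * x i ^ 2 = x e ^ 2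
    · obtain ⟨e, he, he3, hothers⟩ := hthird
      have hsum : 4 * (1 - x e ^ 2) = 3 * x e ^ 2 := by
        have h := Finset.add_sum_erase (supp x) (fun i => x i ^ 2) he
        rw [hnorm] at h
        have h' : ∑ i ∈ (supp x).erase e, 4 * x i ^ 2 = ∑ _i ∈ (supp x).erase e, x e ^ 2 :=
          Finset.sum_congr rfl fun i hi =>
            hothers i (Finset.mem_erase.1 hi).2 (Finset.mem_erase.1 hi).1
        rw [Finset.sum_const, Finset.card_erase_of_mem he, hc, ← Finset.mul_sum, nsmul_eq_mul] at h'
        push_cast at h'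
        linear_combination h' - 4 * h
      have h13 : (13 : F) = 0 := by linear_combination -2 * hsum - 7 * he3
      obtain ⟨i, hi, hie⟩ := Finset.exists_mem_ne (show 1 < (supp x).card by omega) e
      have hi8 : 8 * x i ^ 2 = 3 := by linear_combination 2 * hothers i hi hie + he3
      have h13' : Nat.card F = 13 := by
        by_contra h
        exact natCast_ne_zero hp (m := 13) (fun hd => h ((Nat.prime_dvd_prime_iff_eq hp (by norm_num)).1 hd))
          (by exact_mod_cast h13)
      have hbad : ∀ m : ℕ, 0 < m → m < 13 → (m : F) ≠ 0 := fun m hm hm' =>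
        natCast_ne_zero hp fun hd => by rw [h13'] at hd; have := Nat.le_of_dvd hm hd; omega
      rcases hcases i hi with h | h | ⟨h, -⟩
      · exact hbad 5 (by norm_num) (by norm_num) (by push_cast; linear_combination hi8 - 8 * h)
      · exact hbad 1 (by norm_num) (by norm_num) (by push_cast; linear_combination hi8 - 4 * h)
      · exact hbad 9 (by norm_num) (by norm_num) (by push_cast; linear_combination hi8 - 4 * h)
    · -- every square is one or one half
      push Not at hthird
      have hor : ∀ e ∈ supp x, ∃ y : ℕ, (y = 1 ∨ y = 2) ∧ 2 * x e ^ 2 = (y : F) := by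
        intro e he
        rcases hcases e he with h | h | ⟨h, h'⟩
        · exact ⟨2, Or.inr rfl, by rw [h]; push_cast; ring⟩
        · exact ⟨1, Or.inl rfl, by rw [h, Nat.cast_one]⟩
        · obtain ⟨i, hi, hie, hne⟩ := hthird e he h
          exact absurd (h' i hi hie) hne
      choose! y hy12 hy using hor
      have hlo : 4 ≤ ∑ e ∈ supp x, y e := by
        calc 4 = ∑ _e ∈ supp x, 1 := by simp [hc]
          _ ≤ _ := Finset.sum_le_sum fun e he => by rcases hy12 e he with h | h <;> omega
      have hhi : ∑ e ∈ supp x, y e ≤ 8 := by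
        calc ∑ e ∈ supp x, y e ≤ ∑ _e ∈ supp x, 2 :=
              Finset.sum_le_sum fun e he => by rcases hy12 e he with h | h <;> omega
          _ = 8 := by simp [hc]
      have hval : ((∑ e ∈ supp x, y e : ℕ) : F) = 2 := by
        rw [Nat.cast_sum, ← Finset.sum_congr rfl hy, ← Finset.mul_sum, hnorm, mul_one]
      set Y := ∑ e ∈ supp x, y e with hY
      have hdvd : Nat.card F ∣ Y - 2 := by
        by_contra h
        apply natCast_ne_zero hp h
        rw [Nat.cast_sub (by omega), hval]; simp
      have hp5 : Nat.card F = 5 ∧ Y = 7 := by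
        have h1 := Nat.le_of_dvd (by omega) hdvd
        have : Y - 2 ≤ 6 := by omega
        interval_cases h : Y <;> interval_cases hh : Nat.card F
        all_goals (revert hdvd hp; norm_num)
      obtain ⟨e, he, hye⟩ : ∃ e ∈ supp x, y e = 1 := by
        by_contra h
        push Not at h
        have : Y = ∑ _e ∈ supp x, 2 :=
          Finset.sum_congr rfl fun e he => (hy12 e he).resolve_left (h e he)
        rw [Finset.sum_const, hc, smul_eq_mul] at this
        omega
      exact not_sq_of_card_five hp hp5.1 (x e) (by rw [hy e he, hye, Nat.cast_one])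
  · -- five equal squares
    have heq := five x hx hc
    obtain ⟨c, hcs⟩ := Finset.card_pos.1 (show 0 < (supp x).card by omega)
    have h5A : 5 * x c ^ 2 = 1 := by
      rw [← hx.1, dot_sum_supp subset_rfl,
        Finset.sum_congr rfl (fun i hi => show x i * x i = x c ^ 2 by rw [← pow_two]; exact heq i hi c hcs),
        Finset.sum_const, hc, nsmul_eq_mul]
      norm_num
    have hw := IsCen.conj h2 (show IsCen G (sv F c) from ⟨dot_sv_self c, hG.flip c (hxK hcs)⟩) hx.2
    set w := (refl x).1 (sv F c)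
    have hwv : ∀ i, w i = if i = c then 1 - 2 * x c ^ 2 else -(2 * x c * x i) := by
      intro i
      show (refl x).1 (sv F c) i = _
      rw [refl_app_unit hx.1, dotProduct_single, mul_one, Pi.sub_apply, Pi.smul_apply, smul_eq_mul]
      rcases eq_or_ne i c with rfl | h
      · simp; ring
      · simp [h]
    have hwc : w c ≠ 0 := fun h => by
      rw [hwv, if_pos rfl] at h
      exact h3 (by linear_combination 5 * h + 2 * h5A)
    have hws : supp w = supp x := by
      ext i
      rcases eq_or_ne i c with rfl | hic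
      · simp [mem_supp, hwc, mem_supp.1 hcs]
      · simp [mem_supp, hwv, hic, h2, mem_supp.1 hcs]
    obtain ⟨d, hd, hdc⟩ := Finset.exists_mem_ne (show 1 < (supp x).card by omega) c
    have h := five w hw (by rw [hws, hc]) c (by rw [hws]; exact hcs) d (by rw [hws]; exact hd)
    rw [hwv, hwv, if_pos rfl, if_neg hdc, neg_sq, mul_pow, mul_pow, heq d hd c hcs] at h
    have h4 : 4 * x c ^ 2 = 1 := by linear_combination -h
    exact pow_ne_zero 2 (mem_supp.1 hcs) (by linear_combination h5A - h4)

/-- Transitivity on three coordinates. -/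
theorem Good.trans3 (h5 : 5 ≤ Nat.card F) (hK : 7 ≤ K.card) {g₀ : OG ι F} (hg₀ : g₀ ∈ G)
    (hgm : ¬ Mon g₀) (f : Fin 3 ↪ ι) (hf : ∀ a, f a ∈ K) {v v' : ι → F}
    (hout : ∀ i, (∀ a, f a ≠ i) → v i = v' i) (hn : (v ∘ f) ⬝ᵥ (v ∘ f) = (v' ∘ f) ⬝ᵥ (v' ∘ f))
    (hN : (v ∘ f) ⬝ᵥ (v ∘ f) ≠ 0) : ∃ g ∈ G, g.1 v = v' := by
  classical
  obtain ⟨x₁, hx₁, hnp₁⟩ := exists_nonplain_cen h2 hG (by omega) hg₀ hgm
  obtain ⟨x, hx, hnp, hxc⟩ := Good.small h2 hG hp h5 hK hx₁ hnp₁
  have hxK := IsCen.sub h2 hG hx
  obtain ⟨T, hxT, hTK, hT⟩ := Finset.exists_subsuperset_card_eq hxK hxc (by omega)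
  obtain ⟨a, b, c, hab, hac, hbc, rfl⟩ := Finset.card_eq_three.1 hT
  let f₀ : Fin 3 → ι := ![a, b, c]
  have hf₀ : Function.Injective f₀ := by
    intro i j h
    fin_cases i <;> fin_cases j <;> simp [f₀] at h <;> first | rfl | (exfalso; revert h; simp [hab, hac, hbc, Ne.symm hab, Ne.symm hac, Ne.symm hbc])
  obtain ⟨π, hπ, hπm⟩ := exists_perm_map (a := f₀) (b := f) (K := K) hf₀ f.injective
    (fun i => hTK (by fin_cases i <;> simp [f₀])) hf
  have hy := Good.cen_perm h2 hG hx (by omega) π hπ
  set y := (permHom ι F π).1 x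
  have hyv : ∀ i, y i = x (π.symm i) := fun i => rfl
  have hyout : ∀ i, (∀ a, f a ≠ i) → y i = 0 := by
    intro i hi
    rw [hyv]
    refine not_mem_supp.1 fun h => ?_
    have := hxT h
    simp only [Finset.mem_insert, Finset.mem_singleton] at this
    rcases this with e | e | e
    · exact hi 0 (by rw [← hπm 0]; simp [f₀, ← e])
    · exact hi 1 (by rw [← hπm 1]; simp [f₀, ← e])
    · exact hi 2 (by rw [← hπm 2]; simp [f₀, ← e])
  have hput : put f (y ∘ f) = y := funext fun i => by
    rcases ext3_cases f i with ⟨a, rfl⟩ | h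
    · rw [put_in]; rfl
    · rw [put_out f _ h, hyout i h]
  set G₃ := G.comap (ext3 f)
  have hcen : ∀ z : Fin 3 → F, IsCen G₃ z ↔ IsCen G (put f z) := by
    intro z
    have e : put f z ⬝ᵥ put f z = z ⬝ᵥ z := by
      rw [dot_put, show put f z ∘ f = z from funext fun a => put_in f z a]
    constructor
    · rintro ⟨h1, h⟩
      exact ⟨by rw [e, h1], by rw [← ext3_refl f h1]; exact h⟩
    · rintro ⟨h1, h⟩
      have hz : z ⬝ᵥ z = 1 := e ▸ h1
      exact ⟨hz, by rw [Subgroup.mem_comap, ext3_refl f hz]; exact h⟩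
  have hyc : IsCen G₃ (y ∘ f) := (hcen _).2 (by rw [hput]; exact hy)
  have hynp : ¬ Plain (y ∘ f) := fun hpl => hnp ⟨by
      have hsub : supp x ⊆ (supp (y ∘ f)).image f₀ := by
        intro i hi
        have := hxT hi
        obtain ⟨k, rfl⟩ : ∃ k, f₀ k = i := by
          simp only [Finset.mem_insert, Finset.mem_singleton] at this
          rcases this with rfl | rfl | rfl
          exacts [⟨0, rfl⟩, ⟨1, rfl⟩, ⟨2, rfl⟩]
        refine Finset.mem_image.2 ⟨k, mem_supp.2 ?_, rfl⟩
        show y (f k) ≠ 0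
        rw [hyv, ← hπm k, Equiv.symm_apply_apply]
        exact mem_supp.1 hi
      exact (Finset.card_le_card hsub).trans (Finset.card_image_le.trans hpl.1), fun i hi j hj => by
      have key : ∀ i ∈ supp x, ∃ k ∈ supp (y ∘ f), (y ∘ f) k = x i := by
        intro i hi
        have := hxT hi
        obtain ⟨k, rfl⟩ : ∃ k, f₀ k = i := by
          simp only [Finset.mem_insert, Finset.mem_singleton] at this
          rcases this with rfl | rfl | rfl
          exacts [⟨0, rfl⟩, ⟨1, rfl⟩, ⟨2, rfl⟩]
        have e : (y ∘ f) k = x (f₀ k) := by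
          show y (f k) = _
          rw [hyv, ← hπm k, Equiv.symm_apply_apply]
        exact ⟨k, mem_supp.2 (e ▸ mem_supp.1 hi), e⟩
      obtain ⟨k, hk, ek⟩ := key i hi
      obtain ⟨l, hl, el⟩ := key j hj
      rw [← ek, ← el]
      exact hpl.2 k hk l hl⟩
  have hd : ∀ i, refl (sv F (i : Fin 3)) ∈ G₃ := fun i => by
    rw [Subgroup.mem_comap, ext3_refl f (dot_sv_self i)]
    have : put f (sv F i) = sv F (f i) := funext fun j => by
      rcases ext3_cases f j with ⟨a, rfl⟩ | h
      · rw [put_in]; simp [Pi.single_apply, f.injective.eq_iff]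
      · rw [put_out f _ h]; simp [(h i).symm]
    rw [this]
    exact hG.flip _ (hf i)
  have hrot : permHom (Fin 3) F (finRotate 3) ∈ G₃ := by
    rw [Subgroup.mem_comap, ext3_perm]
    refine hG.perm _ (by rw [Equiv.Perm.viaFintypeEmbedding_sign]; decide) fun i hi => ?_
    exact Equiv.Perm.viaFintypeEmbedding_apply_notMem_range _ _ fun ⟨a, ha⟩ => hi (ha ▸ hf a)
  have hS : ∀ (σ : Equiv.Perm (Fin 3)) (z : Fin 3 → F), IsCen G₃ z → IsCen G₃ (z ∘ σ) := by
    intro σ z hz
    rw [hcen] at hz ⊢
    have hcard : (supp (put f z)).card + 2 ≤ K.card := by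
      have : supp (put f z) ⊆ Finset.univ.map f := fun i hi => by
        rcases ext3_cases f i with ⟨a, rfl⟩ | h
        · simp
        · exact absurd (put_out f z h) (mem_supp.1 hi)
      have := Finset.card_le_card this
      rw [Finset.card_map, Finset.card_univ, Fintype.card_fin] at this
      omega
    have := Good.cen_perm h2 hG hz hcard ((σ⁻¹).viaFintypeEmbedding f) fun i hi =>
      Equiv.Perm.viaFintypeEmbedding_apply_notMem_range _ _ fun ⟨a, ha⟩ => hi (ha ▸ hf a)
    convert this using 1
    funext i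
    rw [perm_app]
    rcases ext3_cases f i with ⟨a, rfl⟩ | h
    · have : ((σ⁻¹).viaFintypeEmbedding f).symm (f a) = f (σ a) := by
        rw [Equiv.symm_apply_eq, Equiv.Perm.viaFintypeEmbedding_apply_image]; simp
      rw [this, put_in, put_in]; rfl
    · rw [put_out f _ h, (Equiv.symm_apply_eq _).2
        (Equiv.Perm.viaFintypeEmbedding_apply_notMem_range (σ⁻¹) f (fun ⟨a, ha⟩ => h a ha)).symm,
        put_out f _ h]
  obtain ⟨k, hk, hkv⟩ := Three.transitive h2 hd hS hrot h5 hp hyc hynp hn hN
  refine ⟨ext3 f k, hk, funext fun i => ?_⟩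
  rw [ext3_app]
  rcases ext3_cases f i with ⟨a, rfl⟩ | h
  · rw [ext3Fun_in, hkv]; rfl
  · rw [ext3Fun_out f _ _ h, hout i h]

end Cfsg.Agent.DecompMax.OF
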