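import Cfsg.Agent.DecompMax.FrameTriple

/-!
A centre and three of its coordinates: the central involution of a sign change and a reflection.
-/

set_option autoImplicit false
set_option linter.style.haveILetI false
set_option linter.unusedSectionVars false
set_option linter.unusedVariables false

namespace Cfsg.Agent.DecompMax.OF

open QuadraticMap Module Cfsg.Agent.Classical
open scoped Matrix

universe u

variable {F : Type u} [Field F] {ι : Type} [Fintype ι] [DecidableEq ι]

/-- A group acting inside a set of coordinates, with the signed even permutations of that set. -/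
structure Good (K : Finset ι) (G : Subgroup (OG ι F)) : Prop where
  fix : ∀ g ∈ G, ∀ i ∉ K, g.1 (sv F i) = sv F i
  flip : ∀ a ∈ K, refl (sv F a) ∈ G
  perm : ∀ σ : Equiv.Perm ι, Equiv.Perm.sign σ = 1 → (∀ i ∉ K, σ i = i) → permHom ι F σ ∈ G
  square : ∀ x : ι → F, x ⬝ᵥ x ≠ 0 → refl x ∈ G → IsSquare (x ⬝ᵥ x)

/-- The part of a vector on a set of coordinates. -/
def part (T : Finset ι) (x : ι → F) : ι → F := fun i => if i ∈ T then x i else 0

theorem part_add_compl (T : Finset ι) (x : ι → F) : part T x + part Tᶜ x = x := funext fun i => by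
  by_cases h : i ∈ T <;> simp [part, h]

theorem supp_part (T : Finset ι) (x : ι → F) : supp (part T x) = T ∩ supp x := by
  ext i; by_cases h : i ∈ T <;> simp [mem_supp, part, h]

theorem dot_part (T : Finset ι) (x v : ι → F) (h : supp v ⊆ T) : part T x ⬝ᵥ v = x ⬝ᵥ v := by
  refine Finset.sum_congr rfl fun i _ => ?_
  by_cases hi : i ∈ T
  · simp [part, hi]
  · rw [not_mem_supp.1 fun h' => hi (h h'), mul_zero, mul_zero]

theorem part_of_sub {T : Finset ι} {v : ι → F} (h : supp v ⊆ T) : part T v = v := funext fun i => by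
  by_cases hi : i ∈ T
  · simp [part, hi]
  · simp [part, hi, not_mem_supp.1 fun h' => hi (h h')]

theorem part_of_disjoint {T : Finset ι} {v : ι → F} (h : supp v ⊆ Tᶜ) : part T v = 0 := funext fun i => by
  by_cases hi : i ∈ T
  · simp only [part, if_pos hi]
    exact not_mem_supp.1 fun h' => Finset.mem_compl.1 (h h') hi
  · simp [part, hi]

theorem part_add (T : Finset ι) (v w : ι → F) : part T (v + w) = part T v + part T w :=
  funext fun i => by by_cases hi : i ∈ T <;> simp [part, hi]

theorem supp_part_subset (T : Finset ι) (x : ι → F) : supp (part T x) ⊆ T := by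
  rw [supp_part]; exact Finset.inter_subset_left

theorem self_eq_neg (h2 : Two F) {v : ι → F} (h : v = -v) : v = 0 := funext fun i => by
  have := congrFun h i
  rw [Pi.neg_apply] at this
  exact (mul_eq_zero.1 (by linear_combination this : (2 : F) * v i = 0)).resolve_left h2

/-- The vectors on `T` orthogonal to those on `T` orthogonal to `x` are multiples of its part. -/
theorem perp_perp_part {T : Finset ι} {x d : ι → F} {c : ι} (hc : c ∈ T) (hxc : x c ≠ 0)
    (hd : supp d ⊆ T) (h : ∀ t : ι → F, supp t ⊆ T → x ⬝ᵥ t = 0 → d ⬝ᵥ t = 0) :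
    ∃ k : F, d = k • part T x := by
  refine ⟨d c / x c, funext fun i => ?_⟩
  by_cases hi : i ∈ T
  · have := h (x c • sv F i - x i • sv F c) (fun j hj => by
      rw [mem_supp] at hj
      by_contra hjT
      exact hj (by
        have h1 : j ≠ i := fun e => hjT (e ▸ hi)
        have h2 : j ≠ c := fun e => hjT (e ▸ hc)
        simp [h1, h2])) (by simp; ring)
    simp only [dotProduct_sub, dotProduct_smul, dotProduct_single, mul_one, smul_eq_mul] at this
    simp only [part, Pi.smul_apply, if_pos hi, smul_eq_mul]
    field_simp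
    linear_combination this
  · simp [part, hi, not_mem_supp.1 fun h' => hi (hd h')]

section Centres

variable (h2 : Two F) {K : Finset ι} {G : Subgroup (OG ι F)} (hG : Good K G)
include h2 hG

theorem IsCen.sub {x : ι → F} (hx : IsCen G x) : supp x ⊆ K := fun i hi => by
  by_contra hK
  have := congrArg (fun w => x ⬝ᵥ w) (hG.fix _ hx.2 i hK)
  simp only [refl_app_unit hx.1, dotProduct_sub, dotProduct_smul, hx.1, smul_eq_mul, mul_one,
    dotProduct_single] at this
  exact mem_supp.1 hi ((mul_eq_zero.1 (by linear_combination -this : (2 : F) * x i = 0)).resolve_left h2)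

theorem Good.scale {x : ι → F} (hx : x ⬝ᵥ x ≠ 0) (h : refl x ∈ G) : ∃ η : F, η ≠ 0 ∧ IsCen G (η • x) := by
  obtain ⟨s, hs⟩ := hG.square x hx h
  have hs0 : s ≠ 0 := by rintro rfl; exact hx (by rw [hs, mul_zero])
  refine ⟨s⁻¹, inv_ne_zero hs0, ?_, by rw [refl_smul (inv_ne_zero hs0)]; exact h⟩
  rw [smul_dotProduct, dotProduct_smul, hs, smul_eq_mul, smul_eq_mul]
  field_simp

theorem Good.flips_mem {l : List ι} (hl : ∀ i ∈ l, i ∈ K) : (flips l : OG ι F) ∈ G :=
  G.list_prod_mem fun g hg => by
    obtain ⟨i, hi, rfl⟩ := List.mem_map.1 hg; exact hG.flip i (hl i hi)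

/-- The splitting lemma. -/
theorem Good.split [Finite F] {x : ι → F} (hx : IsCen G x) {S : Finset ι} (hS : S ⊆ supp x)
    (hcard : S.card = 3) (hne : S ≠ supp x) :
    (∃ η : F, η ≠ 0 ∧ IsCen G (η • part S x)) ∨ (∃ η : F, η ≠ 0 ∧ IsCen G (η • part Sᶜ x)) ∨
      ∃ y, IsCen G y ∧ supp y = S := by
  classical
  have hxK := IsCen.sub h2 hG hx
  set e : OG ι F := flips S.toList
  set f : OG ι F := refl x
  set xs := part S x
  set r := part Sᶜ x
  have hxsr : xs + r = x := part_add_compl S x
  have heG : e ∈ G := hG.flips_mem h2 fun i hi => hxK (hS (Finset.mem_toList.1 hi))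
  have he : ∀ v i, e.1 v i = if i ∈ S then -v i else v i := fun v i => by
    rw [flips_app h2 S.nodup_toList]; simp
  have heS : ∀ v, supp v ⊆ S → e.1 v = -v := fun v hv => funext fun i => by
    rw [he]; split_ifs with h
    · rfl
    · simp [not_mem_supp.1 fun h' => h (hv h')]
  have heO : ∀ v, supp v ⊆ Sᶜ → e.1 v = v := fun v hv => funext fun i => by
    rw [he]; split_ifs with h
    · simp [not_mem_supp.1 fun h' => Finset.mem_compl.1 (hv h') h]
    · rfl
  have hee : e * e = 1 := flips_sq h2 S.nodup_toList
  have hff : f * f = 1 := refl_mul_self x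
  rcases conj_or_central hee hff with ⟨w, -, hw⟩ | ⟨m, hu1, huu, hue, huf⟩
  · exfalso
    have hE : e = refl ((w⁻¹ : OG ι F).1 x) := by
      rw [← refl_conj h2]
      show e = w⁻¹ * f * (w⁻¹)⁻¹
      rw [← hw]; group
    set x' := (w⁻¹ : OG ι F).1 x
    have hx' : x' ⬝ᵥ x' = 1 := by rw [OG.dot h2, hx.1]
    obtain ⟨a, b, c, hab, -, -, rfl⟩ := Finset.card_eq_three.1 hcard
    have key : ∀ i ∈ ({a, b, c} : Finset ι), x' i ≠ 0 ∧ ∀ j, j ≠ i → x' i * x' j = 0 := by
      intro i hi
      have h := heS (sv F i) (fun j hj => by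
        rw [mem_supp] at hj
        by_cases h : j = i
        · exact h ▸ hi
        · exact absurd (by simp [h]) hj)
      rw [hE, refl_app_unit hx', dotProduct_single, mul_one] at h
      refine ⟨fun h0 => ?_, fun j hj => ?_⟩
      · have := congrFun h i
        simp [h0] at this
        exact h2 (by linear_combination this)
      · have := congrFun h j
        simp [hj] at this
        rcases this with h' | h'
        · rcases h' with h' | h'
          · exact absurd h' h2
          · rw [h', zero_mul]
        · rw [h', mul_zero]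
    exact mul_ne_zero (key a (by simp)).1 (key b (by simp)).1 ((key a (by simp)).2 b hab.symm)
  set u := (e * f) ^ m
  have huG : u ∈ G := G.pow_mem (G.mul_mem heG hx.2) m
  have huinv : ∀ v, u.1 (u.1 v) = v := fun v => by rw [← mul_app, huu]; rfl
  have huS : ∀ v, supp v ⊆ S → supp (u.1 v) ⊆ S := fun v hv i hi => by
    by_contra h
    have h' : e.1 (u.1 v) = u.1 (e.1 v) := by rw [← mul_app, hue, mul_app]
    rw [heS v hv, map_neg] at h'
    have := congrFun h' i
    rw [he, if_neg h, Pi.neg_apply] at this
    exact mem_supp.1 hi ((mul_eq_zero.1 (by linear_combination this : (2 : F) * u.1 v i = 0)).resolve_left h2)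
  have huO : ∀ v, supp v ⊆ Sᶜ → supp (u.1 v) ⊆ Sᶜ := fun v hv i hi => by
    rw [Finset.mem_compl]
    intro h
    have h' : e.1 (u.1 v) = u.1 (e.1 v) := by rw [← mul_app, hue, mul_app]
    rw [heO v hv] at h'
    have := congrFun h' i
    rw [he, if_pos h] at this
    exact mem_supp.1 hi ((mul_eq_zero.1 (by linear_combination -this : (2 : F) * u.1 v i = 0)).resolve_left h2)
  have hxs : supp xs ⊆ S := supp_part_subset _ _
  have hr : supp r ⊆ Sᶜ := supp_part_subset _ _
  have hux : u.1 x = x ∨ u.1 x = -x := by
    refine eq_or_neg_of_refl_eq h2 hx.1 (by rw [OG.dot h2, hx.1]) ?_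
    rw [← refl_conj h2]
    show f = u * f * u⁻¹
    rw [← huf, mul_assoc, mul_inv_cancel, mul_one]
  have hparts : ∀ {c : F}, u.1 x = c • x → u.1 xs = c • xs ∧ u.1 r = c • r := by
    intro c h
    rw [← hxsr, map_add, smul_add] at h
    have h1 := congrArg (part S) h
    have h1' := congrArg (part Sᶜ) h
    have t1 : ∀ {v : ι → F}, supp v ⊆ S → supp (c • v) ⊆ S := fun hv i hi => hv (mem_supp.2 fun h0 =>
      mem_supp.1 hi (by simp [h0]))
    have t2 : ∀ {v : ι → F}, supp v ⊆ Sᶜ → supp (c • v) ⊆ Sᶜ := fun hv i hi => hv (mem_supp.2 fun h0 =>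
      mem_supp.1 hi (by simp [h0]))
    rw [part_add, part_add, part_of_sub (huS _ hxs), part_of_disjoint (huO _ hr), part_of_sub (t1 hxs),
      part_of_disjoint (t2 hr), add_zero, add_zero] at h1
    rw [part_add, part_add, part_of_sub (huO _ hr), part_of_disjoint (by simpa using huS _ hxs),
      part_of_sub (t2 hr), part_of_disjoint (by simpa using t1 hxs), zero_add, zero_add] at h1'
    exact ⟨h1, h1'⟩
  have hfixO : ∀ v, supp v ⊆ Sᶜ → x ⬝ᵥ v = 0 → u.1 v = v := fun v hv hxv =>
    pow_fix (heO v hv) (refl_of_perp hxv) m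
  obtain ⟨c₀, hc₀S, hc₀⟩ : ∃ c, c ∈ S ∧ x c ≠ 0 := by
    obtain ⟨c, hc⟩ := Finset.card_pos.1 (by omega : 0 < S.card)
    exact ⟨c, hc, mem_supp.1 (hS hc)⟩
  obtain ⟨c₁, hc₁S, hc₁⟩ : ∃ c, c ∈ Sᶜ ∧ x c ≠ 0 := by
    obtain ⟨c, hc, hcS⟩ := Finset.exists_of_ssubset (lt_of_le_of_ne hS hne)
    exact ⟨c, Finset.mem_compl.2 hcS, mem_supp.1 hc⟩
  have hr0 : r ≠ 0 := fun h => hc₁ (by
    have := congrFun h c₁
    simpa [r, part, Finset.mem_compl.1 hc₁S] using this)
  have hxs0 : xs ≠ 0 := fun h => hc₀ (by
    have := congrFun h c₀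
    simpa [xs, part, hc₀S] using this)
  have hxsx : x ⬝ᵥ xs = xs ⬝ᵥ xs := (dot_part S x xs hxs).symm
  have hrx : x ⬝ᵥ r = r ⬝ᵥ r := (dot_part Sᶜ x r hr).symm
  rcases hux with hux | hux
  · -- `x` is fixed
    obtain ⟨hus, hur⟩ := hparts (c := 1) (by rw [one_smul]; exact hux)
    rw [one_smul] at hus hur
    have hall : ∀ v, supp v ⊆ Sᶜ → u.1 v = v := by
      intro v hv
      have hd : supp (v - u.1 v) ⊆ Sᶜ := fun i hi => by
        by_contra h
        exact mem_supp.1 hi (by
          rw [Pi.sub_apply, not_mem_supp.1 fun h' => h (hv h'), not_mem_supp.1 fun h' => h (huO v hv h'),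
            sub_zero])
      obtain ⟨k, hk⟩ := perp_perp_part hc₁S hc₁ hd fun t ht hxt => by
        conv_lhs => rw [sub_dotProduct]
        have := OG.dot h2 u v t
        rw [hfixO t ht hxt] at this
        rw [this, sub_self]
      have e1 : u.1 (v - u.1 v) = v - u.1 v := by rw [hk, map_smul]; exact congrArg (k • ·) hur
      rw [map_sub, huinv] at e1
      exact (sub_eq_zero.1 (self_eq_neg h2 (by rw [neg_sub]; exact e1.symm))).symm
    rcases pow_sign_uniform e f m with hp | hn
    · exfalso
      refine hu1 (ext_basis fun i => ?_)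
      show u.1 (sv F i) = sv F i
      have hs : ∀ j, j ∈ supp (sv F i : ι → F) → j = i := fun j hj => by
        by_contra hj'; exact mem_supp.1 hj (by simp [hj'])
      by_cases hi : i ∈ S
      · have hv : supp (sv F i : ι → F) ⊆ S := fun j hj => hs j hj ▸ hi
        have hd : supp (sv F i - u.1 (sv F i)) ⊆ S := fun j hj => by
          by_contra h
          exact mem_supp.1 hj (by
            rw [Pi.sub_apply, not_mem_supp.1 fun h' => h (hv h'),
              not_mem_supp.1 fun h' => h (huS _ hv h'), sub_zero])
        obtain ⟨k, hk⟩ := perp_perp_part hc₀S hc₀ hd fun t ht hxt => by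
          conv_lhs => rw [sub_dotProduct]
          have := OG.dot h2 u (sv F i) t
          rw [hp t (heS t ht) (refl_of_perp hxt)] at this
          rw [this, sub_self]
        have e1 : u.1 (sv F i - u.1 (sv F i)) = sv F i - u.1 (sv F i) := by
          rw [hk, map_smul]; exact congrArg (k • ·) hus
        rw [map_sub, huinv] at e1
        exact (sub_eq_zero.1 (self_eq_neg h2 (by rw [neg_sub]; exact e1.symm))).symm
      · exact hall _ fun j hj => Finset.mem_compl.2 (hs j hj ▸ hi)
    · left
      have hQs : xs ⬝ᵥ xs ≠ 0 := fun h => hxs0 (self_eq_neg h2 (by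
        have := hn xs (heS xs hxs) (refl_of_perp (hxsx.trans h))
        change u.1 xs = -xs at this
        rwa [hus] at this))
      have hrefl : e * u = refl xs := by
        refine eq_refl hQs (by rw [mul_app, hus, heS xs hxs]) fun v hv => ?_
        have h1 : x ⬝ᵥ part S v = 0 := by
          rw [← dot_part S x _ (supp_part_subset S v), dotProduct_comm, dot_part S v xs hxs,
            dotProduct_comm, hv]
        have hn' : u.1 (part S v) = -part S v :=
          hn (part S v) (heS _ (supp_part_subset S v)) (refl_of_perp h1)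
        rw [mul_app]
        conv_lhs => rw [← part_add_compl S v]
        rw [map_add, hn', hall _ (supp_part_subset _ v), map_add, map_neg, heS _ (supp_part_subset S v),
          heO _ (supp_part_subset _ v), neg_neg, part_add_compl]
      exact hG.scale h2 hQs (hrefl ▸ G.mul_mem heG huG)
  · -- `x` is negated
    obtain ⟨hus, hur⟩ := hparts (c := -1) (by rw [neg_one_smul]; exact hux)
    rw [neg_one_smul] at hus hur
    rcases pow_sign_uniform e f m with hp | hn
    · right; right
      have hQs : xs ⬝ᵥ xs ≠ 0 := fun h => hxs0 (self_eq_neg h2 (by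
        have := hp xs (heS xs hxs) (refl_of_perp (hxsx.trans h))
        change u.1 xs = xs at this
        rw [hus] at this
        exact this.symm))
      obtain ⟨c, hc, hcne⟩ : ∃ c ∈ S, 2 * x c ^ 2 ≠ xs ⬝ᵥ xs := by
        by_contra h
        push Not at h
        have e1 : xs ⬝ᵥ xs = ∑ i ∈ S, x i ^ 2 := by
          rw [dot_sum_supp hxs]
          exact Finset.sum_congr rfl fun i hi => by simp only [xs, part, if_pos hi]; ring
        have e2 : ∑ i ∈ S, 2 * x i ^ 2 = ∑ _i ∈ S, xs ⬝ᵥ xs := Finset.sum_congr rfl h
        rw [Finset.sum_const, hcard, ← Finset.mul_sum, ← e1, nsmul_eq_mul] at e2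
        push_cast at e2
        exact hQs (by linear_combination -e2)
      have hue' : IsCen G ((u * e).1 (sv F c)) :=
        IsCen.conj h2 ⟨dot_sv_self c, hG.flip c (hxK (hS hc))⟩ (G.mul_mem huG heG)
      refine ⟨_, hue', ?_⟩
      set k := x c / (xs ⬝ᵥ xs)
      have hv0 : supp (sv F c - k • xs) ⊆ S := fun j hj => by
        by_contra h
        exact mem_supp.1 hj (by
          have : j ≠ c := fun e => h (e ▸ hc)
          simp [this, not_mem_supp.1 fun h' => h (hxs h')])
      have hval : (u * e).1 (sv F c) = -sv F c + (2 * k) • xs := by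
        have hsplit : sv F c = (sv F c - k • xs) + k • xs := by abel
        have hperp : x ⬝ᵥ (sv F c - k • xs) = 0 := by
          rw [dotProduct_sub, dotProduct_smul, hxsx, dotProduct_single, smul_eq_mul, mul_one]
          simp only [k]; field_simp; ring
        have hp' : u.1 (sv F c - k • xs) = sv F c - k • xs :=
          hp _ (heS _ hv0) (refl_of_perp hperp)
        rw [mul_app, heS (sv F c) (fun j hj => by
          by_contra h; exact mem_supp.1 hj (by simp [show j ≠ c from fun e => h (e ▸ hc)])), map_neg]
        conv_lhs => rw [hsplit, map_add, hp', map_smul, hus]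
        module
      rw [hval]
      ext j
      rw [mem_supp, Pi.add_apply, Pi.neg_apply, Pi.smul_apply, smul_eq_mul]
      by_cases hjS : j ∈ S
      · refine iff_of_true ?_ hjS
        simp only [xs, part, if_pos hjS]
        rcases eq_or_ne j c with rfl | hjc
        · simp only [Pi.single_eq_same, k]
          intro h
          field_simp at h
          exact hcne (by linear_combination h)
        · simp only [Pi.single_eq_of_ne hjc, neg_zero, zero_add, k]
          exact mul_ne_zero (mul_ne_zero h2 (div_ne_zero (mem_supp.1 (hS hc)) hQs)) (mem_supp.1 (hS hjS))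
      · refine iff_of_false (not_not.2 ?_) hjS
        simp [show j ≠ c from fun e => hjS (e ▸ hc), xs, part, hjS]
    · right; left
      have hneg : ∀ v, supp v ⊆ S → u.1 v = -v := by
        intro v hv
        have hd : supp (v + u.1 v) ⊆ S := fun i hi => by
          by_contra h
          exact mem_supp.1 hi (by
            rw [Pi.add_apply, not_mem_supp.1 fun h' => h (hv h'), not_mem_supp.1 fun h' => h (huS v hv h'),
              add_zero])
        obtain ⟨k, hk⟩ := perp_perp_part hc₀S hc₀ hd fun t ht hxt => by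
          conv_lhs => rw [add_dotProduct]
          have := OG.dot h2 u v t
          rw [hn t (heS t ht) (refl_of_perp hxt), dotProduct_neg] at this
          rw [← this, neg_add_cancel]
        have e1 : u.1 (v + u.1 v) = -(v + u.1 v) := by
          rw [hk, map_smul, ← smul_neg]; exact congrArg (k • ·) hus
        rw [map_add, huinv, add_comm] at e1
        exact eq_neg_of_add_eq_zero_right (self_eq_neg h2 e1)
      have hQr : r ⬝ᵥ r ≠ 0 := fun h => hr0 (self_eq_neg h2 (by
        have := hfixO r hr (hrx.trans h)
        rw [hur] at this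
        exact this.symm))
      have hrefl : u * e = refl r := by
        refine eq_refl hQr (by rw [mul_app, heO r hr, hur]) fun v hv => ?_
        have h1 : x ⬝ᵥ part Sᶜ v = 0 := by
          rw [← dot_part Sᶜ x _ (supp_part_subset Sᶜ v), dotProduct_comm, dot_part Sᶜ v r hr,
            dotProduct_comm, hv]
        rw [mul_app]
        conv_lhs => rw [← part_add_compl S v]
        rw [map_add, heS _ (supp_part_subset S v), heO _ (supp_part_subset _ v), map_add, map_neg,
          hneg _ (supp_part_subset S v), hfixO _ (supp_part_subset _ v) h1, neg_neg, part_add_compl]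
      exact hG.scale h2 hQr (hrefl ▸ G.mul_mem huG heG)

end Centres

end Cfsg.Agent.DecompMax.OF
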