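import Cfsg.Agent.DecompMax.FrameRigid
import Cfsg.Agent.DecompMax.FrameSplit

/-!
A subgroup above the monomial part of `Ω` in which only monomial elements fix a frame line is monomial:
the central involution of a sign change on four coordinates and a conjugate of one on two coordinates.
-/

set_option autoImplicit false
set_option linter.style.haveILetI false
set_option linter.unusedSectionVars false
set_option linter.unusedVariables false

namespace Cfsg.Agent.DecompMax.OF

open QuadraticMap Module Cfsg.Agent.Classical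
open scoped Matrix

universe u

variable {F : Type u} [Field F] [Finite F] {ι : Type} [Fintype ι] [DecidableEq ι]

/-- The two by two minors of two columns. -/
def det2 (x y : ι → F) (i j : ι) : F := x i * y j - x j * y i

omit [Fintype ι] [DecidableEq ι] [Finite F] in
theorem det2_swap (x y : ι → F) (i j : ι) : det2 x y i j = -det2 x y j i := by simp [det2]

/-- The vectors on `T` orthogonal to those orthogonal to `x` and `y` combine their parts. -/
theorem perp_perp_two {T : Finset ι} {x y d : ι → F} {a b : ι} (ha : a ∈ T) (hb : b ∈ T)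
    (hab : det2 x y a b ≠ 0) (hd : supp d ⊆ T)
    (h : ∀ t : ι → F, supp t ⊆ T → x ⬝ᵥ t = 0 → y ⬝ᵥ t = 0 → d ⬝ᵥ t = 0) :
    ∃ α β : F, d = α • part T x + β • part T y := by
  refine ⟨(d a * y b - d b * y a) / det2 x y a b, (x a * d b - x b * d a) / det2 x y a b, funext fun i => ?_⟩
  by_cases hi : i ∈ T
  · have := h (det2 x y a b • sv F i + det2 x y b i • sv F a + det2 x y i a • sv F b) (fun j hj => by
        by_contra hjT
        exact mem_supp.1 hj (by
          simp [show j ≠ i from fun e => hjT (e ▸ hi), show j ≠ a from fun e => hjT (e ▸ ha),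
            show j ≠ b from fun e => hjT (e ▸ hb)]))
      (by simp only [dotProduct_add, dotProduct_smul, dotProduct_single, mul_one, smul_eq_mul, det2]; ring)
      (by simp only [dotProduct_add, dotProduct_smul, dotProduct_single, mul_one, smul_eq_mul, det2]; ring)
    simp only [dotProduct_add, dotProduct_smul, dotProduct_single, mul_one, smul_eq_mul] at this
    simp only [part, Pi.add_apply, Pi.smul_apply, smul_eq_mul, if_pos hi]
    field_simp
    simp only [det2] at this ⊢
    linear_combination this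
  · simp [part, hi, not_mem_supp.1 fun h' => hi (hd h')]

variable (h2 : Two F)
include h2

theorem cast_two_four : (4 : F) ≠ 0 := by
  rw [show (4 : F) = 2 * 2 by norm_num]; exact mul_ne_zero h2 h2

variable {M : Subgroup (OG ι F)} (H : NoFix M)
include H

/-- Elements preserving a small set of coordinates are monomial. -/
theorem NoFix.mon_of_stab (hn : 10 ≤ Fintype.card ι) {k : OG ι F} (hk : k ∈ M) {S : Finset ι}
    (hS : S.Nonempty) (hS4 : S.card ≤ 4)
    (hpres : ∀ v : ι → F, supp v ⊆ S → supp ((k⁻¹ : OG ι F).1 v) ⊆ S) : Mon k := by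
  obtain ⟨c, hc⟩ := hS
  refine H.mon_of_pairs h2 hk (Z := Sᶜ) (by omega) ?_ ?_ fun p hp q hq hpq => ?_
  · rw [Finset.card_compl]; omega
  · rw [Finset.card_compl]; omega
  rw [Finset.mem_compl] at hp hq
  refine H.fix _ (M.mul_mem (M.mul_mem hk (H.mon _ (flip_pair_mem h2 p q)
    ((mon_refl_sv h2 p).mul h2 (mon_refl_sv h2 q)))) (M.inv_mem hk)) c (Or.inl ?_)
  have hv := hpres (sv F c) (by rw [supp_sv]; simpa using hc)
  have hp0 : ((k⁻¹ : OG ι F).1 (sv F c)) p = 0 := not_mem_supp.1 fun h => hp (hv h)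
  have hq0 : ((k⁻¹ : OG ι F).1 (sv F c)) q = 0 := not_mem_supp.1 fun h => hq (hv h)
  rw [mul_app, mul_app, mul_app, refl_of_perp (x := sv F q) (by rw [dot_sv, hq0]),
    refl_of_perp (x := sv F p) (by rw [dot_sv, hp0]), app_inv]

/-- A column with two zero entries forces the element to be monomial. -/
theorem NoFix.mon_of_zeros (hn : 10 ≤ Fintype.card ι) {g : OG ι F} (hg : g ∈ M) {a c d : ι} (hcd : c ≠ d)
    (hc : g.1 (sv F a) c = 0) (hd : g.1 (sv F a) d = 0) : Mon g := by
  classical
  set k := g⁻¹ * (refl (sv F c) * refl (sv F d)) * g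
  have hk : k ∈ M := M.mul_mem (M.mul_mem (M.inv_mem hg) (H.mon _ (flip_pair_mem h2 c d)
    ((mon_refl_sv h2 c).mul h2 (mon_refl_sv h2 d)))) hg
  have hfix : k.1 (sv F a) = sv F a := by
    rw [mul_app, mul_app, mul_app, refl_of_perp (x := sv F d) (by rw [dot_sv, hd]),
      refl_of_perp (x := sv F c) (by rw [dot_sv, hc]), inv_app]
  have hkm := H.fix k hk a (Or.inl hfix)
  set s := (g⁻¹ : OG ι F).1 (sv F c)
  set t := (g⁻¹ : OG ι F).1 (sv F d)
  have hk' : k = refl s * refl t := by
    show g⁻¹ * (refl (sv F c) * refl (sv F d)) * g = _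
    rw [← refl_conj h2 g⁻¹, ← refl_conj h2 g⁻¹]
    group
  obtain ⟨v₁, v₂, p1, p2, -, ⟨α, β, hs⟩, -⟩ := plane_basis h2 (s := s) (t := t) (by rw [OG.dot h2]; simp)
    (by rw [OG.dot h2]; simp) (by rw [OG.dot h2]; simp [hcd.symm]) (hk' ▸ hkm)
  have hsub : supp s ⊆ supp v₁ ∪ supp v₂ := fun l hl => by
    rw [Finset.mem_union]
    by_contra hn'
    push Not at hn'
    exact mem_supp.1 hl (by rw [hs]; simp [not_mem_supp.1 hn'.1, not_mem_supp.1 hn'.2])
  have hs4 : (supp s).card ≤ 4 := by
    have := (Finset.card_le_card hsub).trans (Finset.card_union_le _ _)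
    have := p1.1; have := p2.1; omega
  refine H.mon_of_pairs h2 hg (Z := (supp s)ᶜ) (by omega) ?_ ?_ fun p hp q hq hpq => ?_
  · rw [Finset.card_compl]; omega
  · rw [Finset.card_compl]; omega
  rw [Finset.mem_compl, not_mem_supp] at hp hq
  refine H.fix _ (M.mul_mem (M.mul_mem hg (H.mon _ (flip_pair_mem h2 p q)
    ((mon_refl_sv h2 p).mul h2 (mon_refl_sv h2 q)))) (M.inv_mem hg)) c (Or.inl ?_)
  rw [mul_app, mul_app, mul_app]
  change g.1 ((refl (sv F p)).1 ((refl (sv F q)).1 s)) = _
  rw [refl_of_perp (x := sv F q) (by rw [dot_sv, hq]), refl_of_perp (x := sv F p) (by rw [dot_sv, hp]),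
    app_inv]

set_option maxRecDepth 20000 in
theorem pairing_four (σ : Fin 4 → Fin 4) (h : ∀ i, σ (σ i) = i) :
    ((σ 0 = 1 ∧ σ 2 = 3) ∨ (σ 0 = 2 ∧ σ 1 = 3) ∨ (σ 0 = 3 ∧ σ 1 = 2)) ∨
      ∃ i j, i ≠ j ∧ σ i = i ∧ σ j = j := by
  revert h; revert σ; decide

omit H in
theorem exists_indep {x y : ι → F} (hx : x ⬝ᵥ x = 1) (hy : y ⬝ᵥ y = 1) (hxy : x ⬝ᵥ y = 0) :
    ∃ i j, det2 x y i j ≠ 0 := by
  by_contra hcon
  push Not at hcon
  obtain ⟨c, hc⟩ : ∃ c, x c ≠ 0 := by
    by_contra h
    push Not at h
    rw [show x = 0 from funext h, zero_dotProduct] at hx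
    exact zero_ne_one hx
  have e : x c • y = y c • x := funext fun t => by
    have := hcon c t
    simp only [det2] at this
    simp only [Pi.smul_apply, smul_eq_mul]
    linear_combination this
  have e1 := congrArg (fun w => x ⬝ᵥ w) e
  simp only [dotProduct_smul, hx, hxy, smul_eq_mul, mul_zero, mul_one] at e1
  rw [← e1, zero_smul, smul_eq_zero] at e
  rw [e.resolve_left hc, zero_dotProduct] at hy
  exact zero_ne_one hy

/-- Only monomial elements. -/
theorem NoFix.eq_mon (hn : 10 ≤ Fintype.card ι) : ∀ g ∈ M, Mon g := by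
  classical
  intro g hg
  by_contra hgm
  obtain ⟨a, b, hab⟩ := Fintype.exists_pair_of_one_lt_card (show 1 < Fintype.card ι by omega)
  set x := g.1 (sv F a)
  set y := g.1 (sv F b)
  have hxx : x ⬝ᵥ x = 1 := by rw [OG.dot h2]; simp
  have hyy : y ⬝ᵥ y = 1 := by rw [OG.dot h2]; simp
  have hxy : x ⬝ᵥ y = 0 := by rw [OG.dot h2]; simp [hab.symm]
  have hzero : ∀ c, Fintype.card ι ≤ (supp (g.1 (sv F c))).card + 1 := fun c => by
    by_contra h
    obtain ⟨p, hp, q, hq, hpq⟩ := Finset.one_lt_card.1 (show 1 < ((supp (g.1 (sv F c)))ᶜ).card by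
      rw [Finset.card_compl]; omega)
    rw [Finset.mem_compl, not_mem_supp] at hp hq
    exact hgm (H.mon_of_zeros h2 hn hg hpq hp hq)
  have hsx : Fintype.card ι ≤ (supp x).card + 1 := hzero a
  have hsy : Fintype.card ι ≤ (supp y).card + 1 := hzero b
  -- no row of two zeros
  have hrowne : ∀ c, x c ≠ 0 ∨ y c ≠ 0 := fun c => by
    by_contra h
    push Not at h
    have key : ∀ t, (g⁻¹ : OG ι F).1 (sv F c) t = g.1 (sv F t) c := fun t => by
      have := OG.dot h2 g (sv F t) ((g⁻¹ : OG ι F).1 (sv F c))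
      rw [app_inv, dotProduct_single, mul_one, dot_sv] at this
      exact this.symm
    have := (H.mon_of_zeros h2 hn (g := g⁻¹) (M.inv_mem hg) (a := c) hab (by rw [key]; exact h.1)
      (by rw [key]; exact h.2)).inv h2
    rw [inv_inv] at this
    exact hgm this
  let Eqv : ι → ι → Prop := fun i j => (x i = x j ∧ y i = y j) ∨ (x i = -x j ∧ y i = -y j)
  -- the four coordinates
  obtain ⟨f, hne, hgood⟩ : ∃ f : Fin 4 ↪ ι, (∀ i, x (f i) ≠ 0 ∨ y (f i) ≠ 0) ∧
      (((∃ i j, det2 x y (f i) (f j) ≠ 0) ∧
        ¬ ((Eqv (f 0) (f 1) ∧ Eqv (f 2) (f 3)) ∨ (Eqv (f 0) (f 2) ∧ Eqv (f 1) (f 3)) ∨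
          (Eqv (f 0) (f 3) ∧ Eqv (f 1) (f 2))) ∧
        ∀ δ : F, (δ = 1 ∨ δ = -1) → 7 ≤ (supp (x - δ • y)).card) ∨
       ∃ δ : F, (δ = 1 ∨ δ = -1) ∧ (supp (x - δ • y)).card ≤ 6 ∧
        (supp (x - δ • y)).card ≤ (supp (x - (-δ) • y)).card ∧
        ∀ i, x (f i) ≠ 0 ∧ x (f i) = δ * y (f i)) := by
    by_cases hsmall : ∃ δ : F, (δ = 1 ∨ δ = -1) ∧ (supp (x - δ • y)).card ≤ 6
    · obtain ⟨δ, hδ, hc, hmin⟩ : ∃ δ : F, (δ = 1 ∨ δ = -1) ∧ (supp (x - δ • y)).card ≤ 6 ∧
          (supp (x - δ • y)).card ≤ (supp (x - (-δ) • y)).card := by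
        obtain ⟨δ, hδ, hc⟩ := hsmall
        by_cases hle : (supp (x - δ • y)).card ≤ (supp (x - (-δ) • y)).card
        · exact ⟨δ, hδ, hc, hle⟩
        · refine ⟨-δ, ?_, by omega, by rw [neg_neg]; omega⟩
          rcases hδ with rfl | rfl
          · exact Or.inr rfl
          · exact Or.inl (neg_neg _)
      obtain ⟨U, hU, hUc⟩ := Finset.exists_subset_card_eq (s := (supp (x - δ • y))ᶜ) (n := 4)
        (by rw [Finset.card_compl]; omega)
      let f : Fin 4 ↪ ι := ⟨fun i => ((Finset.equivFinOfCardEq hUc).symm i).1,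
        fun i j h => (Finset.equivFinOfCardEq hUc).symm.injective (Subtype.ext h)⟩
      have hf : ∀ i, x (f i) ≠ 0 ∧ x (f i) = δ * y (f i) := fun i => by
        have h0 := not_mem_supp.1 (Finset.mem_compl.1 (hU ((Finset.equivFinOfCardEq hUc).symm i).2))
        simp only [Pi.sub_apply, Pi.smul_apply, smul_eq_mul] at h0
        have he : x (f i) = δ * y (f i) := sub_eq_zero.1 h0
        refine ⟨fun hx0 => ?_, he⟩
        rcases hrowne (f i) with h | h
        · exact h hx0
        · exact h ((mul_eq_zero.1 (he.symm.trans hx0)).resolve_left (by rcases hδ with rfl | rfl <;> simp))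
      exact ⟨f, fun i => Or.inl (hf i).1, Or.inr ⟨δ, hδ, hc, hmin, hf⟩⟩
    · push Not at hsmall
      obtain ⟨i, j, hij⟩ := exists_indep h2 hxx hyy hxy
      have hine : i ≠ j := fun e => hij (by simp [det2, e])
      have hrows : ∀ t, t = i ∨ t = j → x t ≠ 0 ∨ y t ≠ 0 := by
        intro t ht
        by_contra h
        push Not at h
        rcases ht with rfl | rfl <;> exact hij (by simp [det2, h.1, h.2])
      obtain ⟨T, hT, hTc⟩ := Finset.exists_subset_card_eq (s := supp x \ {i, j}) (n := 3)
        (by have := Finset.le_card_sdiff ({i, j} : Finset ι) (supp x)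
            rw [Finset.card_pair hine] at this; omega)
      obtain ⟨k₁, k₂, k₃, h12, h13, h23, rfl⟩ := Finset.card_eq_three.1 hTc
      have esymm : ∀ {p q}, Eqv p q → Eqv q p := fun {p q} h => by
        rcases h with ⟨h1, h1'⟩ | ⟨h1, h1'⟩
        · exact Or.inl ⟨h1.symm, h1'.symm⟩
        · exact Or.inr ⟨by rw [h1, neg_neg], by rw [h1', neg_neg]⟩
      have etrans : ∀ {p q r}, Eqv p q → Eqv q r → Eqv p r := fun {p q r} h h' => by
        rcases h with ⟨h1, h1'⟩ | ⟨h1, h1'⟩ <;> rcases h' with ⟨g1, g1'⟩ | ⟨g1, g1'⟩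
        · exact Or.inl ⟨h1.trans g1, h1'.trans g1'⟩
        · exact Or.inr ⟨h1.trans g1, h1'.trans g1'⟩
        · exact Or.inr ⟨by rw [h1, g1], by rw [h1', g1']⟩
        · exact Or.inl ⟨by rw [h1, g1, neg_neg], by rw [h1', g1', neg_neg]⟩
      have hEij : ¬ Eqv i j := fun h => hij (by
        rcases h with ⟨e, e'⟩ | ⟨e, e'⟩ <;> simp only [det2, e, e'] <;> ring)
      let P : ι → ι → Prop := fun k l => (Eqv i j ∧ Eqv k l) ∨ (Eqv i k ∧ Eqv j l) ∨ (Eqv i l ∧ Eqv j k)
      have hpick : ¬ P k₁ k₂ ∨ ¬ P k₁ k₃ ∨ ¬ P k₂ k₃ := by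
        by_contra hall
        push Not at hall
        obtain ⟨hA, hB, hC⟩ := hall
        simp only [P, hEij, false_and, false_or] at hA hB hC
        rcases hA with ⟨a1, a2⟩ | ⟨a1, a2⟩ <;> rcases hB with ⟨b1, b2⟩ | ⟨b1, b2⟩ <;>
          rcases hC with ⟨c1, c2⟩ | ⟨c1, c2⟩
        all_goals
          first
          | exact hEij (etrans a1 (esymm b2))
          | exact hEij (etrans b1 (esymm a2))
          | exact hEij (etrans c1 (esymm a2))
          | exact hEij (etrans a1 (esymm c2))
          | exact hEij (etrans c1 (esymm b2))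
          | exact hEij (etrans b1 (esymm c2))
      have mk : ∀ k l, k ≠ l → k ∈ supp x \ {i, j} → l ∈ supp x \ {i, j} → ¬ P k l → _ :=
        fun k l hkl hk hl hP => by
        rw [Finset.mem_sdiff, Finset.mem_insert, Finset.mem_singleton, not_or] at hk hl
        refine (⟨⟨![i, j, k, l], ?_⟩, ?_, Or.inl ⟨⟨0, 1, hij⟩, hP, hsmall⟩⟩ :
          ∃ f : Fin 4 ↪ ι, (∀ i, x (f i) ≠ 0 ∨ y (f i) ≠ 0) ∧
            (((∃ i j, det2 x y (f i) (f j) ≠ 0) ∧
              ¬ ((Eqv (f 0) (f 1) ∧ Eqv (f 2) (f 3)) ∨ (Eqv (f 0) (f 2) ∧ Eqv (f 1) (f 3)) ∨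
                (Eqv (f 0) (f 3) ∧ Eqv (f 1) (f 2))) ∧
              ∀ δ : F, (δ = 1 ∨ δ = -1) → 7 ≤ (supp (x - δ • y)).card) ∨
             ∃ δ : F, (δ = 1 ∨ δ = -1) ∧ (supp (x - δ • y)).card ≤ 6 ∧
              (supp (x - δ • y)).card ≤ (supp (x - (-δ) • y)).card ∧
              ∀ i, x (f i) ≠ 0 ∧ x (f i) = δ * y (f i)))
        · intro p q e
          fin_cases p <;> fin_cases q <;> simp at e ⊢
          all_goals first
            | exact hine e | exact hine e.symm | exact hkl e | exact hkl e.symm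
            | exact hk.2.1 e | exact hk.2.1 e.symm | exact hk.2.2 e | exact hk.2.2 e.symm
            | exact hl.2.1 e | exact hl.2.1 e.symm | exact hl.2.2 e | exact hl.2.2 e.symm
        · intro p
          fin_cases p
          exacts [hrows i (Or.inl rfl), hrows j (Or.inr rfl), Or.inl (mem_supp.1 hk.1),
            Or.inl (mem_supp.1 hl.1)]
      have m1 := hT (show k₁ ∈ ({k₁, k₂, k₃} : Finset ι) by simp)
      have m2 := hT (show k₂ ∈ ({k₁, k₂, k₃} : Finset ι) by simp)
      have m3 := hT (show k₃ ∈ ({k₁, k₂, k₃} : Finset ι) by simp)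
      rcases hpick with h | h | h
      exacts [mk k₁ k₂ h12 m1 m2 h, mk k₁ k₃ h13 m1 m3 h, mk k₂ k₃ h23 m2 m3 h]
  set U : Finset ι := Finset.univ.map f
  have hUc : U.card = 4 := by simp [U]
  have hUf : ∀ i, f i ∈ U := fun i => by simp [U]
  have hUex : ∀ t ∈ U, ∃ i, f i = t := fun t ht => by simpa [U] using ht
  set e : OG ι F := flips U.toList
  set f' : OG ι F := g * (refl (sv F a) * refl (sv F b)) * g⁻¹ with hf'
  have hee : e * e = 1 := flips_sq h2 U.nodup_toList
  have hfl : e ∈ M := H.mon _ (flips_mem_omega h2 (by rw [Finset.length_toList, hUc]; decide)) (mon_flips h2 _)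
  have hab' : refl (sv F a) * refl (sv F b) ∈ M :=
    H.mon _ (flip_pair_mem h2 a b) ((mon_refl_sv h2 a).mul h2 (mon_refl_sv h2 b))
  have hfM : f' ∈ M := M.mul_mem (M.mul_mem hg hab') (M.inv_mem hg)
  have hfr : f' = refl x * refl y := by
    show g * (refl (sv F a) * refl (sv F b)) * g⁻¹ = refl (g.1 (sv F a)) * refl (g.1 (sv F b))
    rw [← refl_conj h2, ← refl_conj h2]; group
  have habab : refl (sv F a) * refl (sv F b) * (refl (sv F a) * refl (sv F b)) = (1 : OG ι F) := by
    refine ext_basis fun i => ?_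
    simp only [mul_app, refl_sv h2]
    by_cases hai : a = i <;> by_cases hbi : b = i <;> simp [hai, hbi, refl_sv h2] <;>
      exact absurd (hai.trans hbi.symm) hab
  have hff : f' * f' = 1 := by
    rw [hf', show g * (refl (sv F a) * refl (sv F b)) * g⁻¹ * (g * (refl (sv F a) * refl (sv F b)) * g⁻¹) =
      g * (refl (sv F a) * refl (sv F b) * (refl (sv F a) * refl (sv F b))) * g⁻¹ by group, habab, mul_one,
      mul_inv_cancel]
  have he : ∀ v i, e.1 v i = if i ∈ U then -v i else v i := fun v i => by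
    rw [flips_app h2 U.nodup_toList]; simp
  have heU : ∀ v, supp v ⊆ U → e.1 v = -v := fun v hv => funext fun i => by
    rw [he]; split_ifs with h
    · rfl
    · simp [not_mem_supp.1 fun h' => h (hv h')]
  have heO : ∀ v, supp v ⊆ Uᶜ → e.1 v = v := fun v hv => funext fun i => by
    rw [he]; split_ifs with h
    · simp [not_mem_supp.1 fun h' => Finset.mem_compl.1 (hv h') h]
    · rfl
  have hf'fix : ∀ v, x ⬝ᵥ v = 0 → y ⬝ᵥ v = 0 → f'.1 v = v := fun v hx hy => by
    rw [hfr, mul_app, refl_of_perp hy, refl_of_perp hx]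
  rcases conj_or_central hee hff with ⟨w, -, hw⟩ | ⟨m, hu1, huu, hue, huf⟩
  · -- a conjugate of a sign change on two coordinates does not negate four coordinates
    set x' := (w⁻¹ : OG ι F).1 x
    set y' := (w⁻¹ : OG ι F).1 y
    have hE : e = refl x' * refl y' := by
      show e = refl ((w⁻¹ : OG ι F).1 x) * refl ((w⁻¹ : OG ι F).1 y)
      rw [← refl_conj h2 w⁻¹ x, ← refl_conj h2 w⁻¹ y,
        show w⁻¹ * refl x * w⁻¹⁻¹ * (w⁻¹ * refl y * w⁻¹⁻¹) = w⁻¹ * (refl x * refl y) * w by group,
        ← hfr, ← hw]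
      group
    have hxy' : x' ⬝ᵥ y' = 0 := by rw [OG.dot h2, hxy]
    have hneg : ∀ v, supp v ⊆ U → v = (x' ⬝ᵥ v) • x' + (y' ⬝ᵥ v) • y' := by
      intro v hv
      have h := heU v hv
      rw [hE, mul_app, refl_app_unit (by rw [OG.dot h2, hxx]), refl_app_unit (by rw [OG.dot h2, hyy]),
        dotProduct_sub, dotProduct_smul, hxy', smul_zero, sub_zero] at h
      funext i
      have := congrFun h i
      simp only [Pi.sub_apply, Pi.add_apply, Pi.smul_apply, Pi.neg_apply, smul_eq_mul] at this ⊢
      exact mul_left_cancel₀ h2 (by linear_combination this)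
    have hle : Submodule.span F (Set.range fun i : Fin 4 => sv F (f i)) ≤
        Submodule.span F (Set.range ![x', y']) := by
      rw [Submodule.span_le]
      rintro _ ⟨i, rfl⟩
      show sv F (f i) ∈ Submodule.span F (Set.range ![x', y'])
      rw [hneg (sv F (f i)) (by rw [supp_sv]; simpa using hUf i)]
      exact add_mem (Submodule.smul_mem _ _ (Submodule.subset_span ⟨0, rfl⟩))
        (Submodule.smul_mem _ _ (Submodule.subset_span ⟨1, rfl⟩))
    have h4 : LinearIndependent F fun i : Fin 4 => sv F (f i) := by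
      rw [Fintype.linearIndependent_iff]
      intro c hc i
      have := congrFun hc (f i)
      simpa [Finset.sum_apply, Pi.single_apply, f.injective.eq_iff] using this
    have := Submodule.finrank_mono hle
    rw [finrank_span_eq_card h4, Fintype.card_fin] at this
    have := this.trans (finrank_range_le_card ![x', y'])
    simp at this
  set u := (e * f') ^ m
  have huM : u ∈ M := M.pow_mem (M.mul_mem hfl hfM) m
  have huinv : ∀ v, u.1 (u.1 v) = v := fun v => by rw [← mul_app, huu]; rfl
  have hui : u⁻¹ = u := inv_eq_of_mul_eq_one_right huu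
  have huU : ∀ v, supp v ⊆ U → supp (u.1 v) ⊆ U := fun v hv i hi => by
    by_contra h
    have h' : e.1 (u.1 v) = u.1 (e.1 v) := by rw [← mul_app, hue, mul_app]
    rw [heU v hv, map_neg] at h'
    have := congrFun h' i
    rw [he, if_neg h, Pi.neg_apply] at this
    exact mem_supp.1 hi ((mul_eq_zero.1 (by linear_combination this : (2 : F) * u.1 v i = 0)).resolve_left h2)
  have huO : ∀ v, supp v ⊆ Uᶜ → supp (u.1 v) ⊆ Uᶜ := fun v hv i hi => by
    rw [Finset.mem_compl]
    intro h
    have h' : e.1 (u.1 v) = u.1 (e.1 v) := by rw [← mul_app, hue, mul_app]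
    rw [heO v hv] at h'
    have := congrFun h' i
    rw [he, if_pos h] at this
    exact mem_supp.1 hi ((mul_eq_zero.1 (by linear_combination -this : (2 : F) * u.1 v i = 0)).resolve_left h2)
  have humon : Mon u := H.mon_of_stab h2 hn huM ⟨f 0, hUf 0⟩ (le_of_eq hUc) fun v hv => by
    rw [hui]; exact huU v hv
  have hfixO : ∀ v, supp v ⊆ Uᶜ → x ⬝ᵥ v = 0 → y ⬝ᵥ v = 0 → u.1 v = v := fun v hv h1 h1' =>
    pow_fix (heO v hv) (hf'fix v h1 h1') m
  -- the action on the two columns
  set u' := g⁻¹ * u * g
  have hu'M : u' ∈ M := M.mul_mem (M.mul_mem (M.inv_mem hg) huM) hg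
  have hu'i : ∀ v, u'.1 (u'.1 v) = v := fun v => by
    simp only [u', mul_app, app_inv, huinv, inv_app]
  have hu'c : refl (sv F a) * refl (sv F b) * u' = u' * (refl (sv F a) * refl (sv F b)) := by
    calc refl (sv F a) * refl (sv F b) * u' = g⁻¹ * (f' * u) * g := by simp only [u', hf']; group
      _ = g⁻¹ * (u * f') * g := by rw [huf]
      _ = _ := by simp only [u', hf']; group
  have hu'sub : ∀ v : ι → F, supp v ⊆ {a, b} → supp (u'.1 v) ⊆ {a, b} := fun v hv i hi => by
    by_contra h
    simp only [Finset.mem_insert, Finset.mem_singleton, not_or] at h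
    have hv' : (refl (sv F a)).1 ((refl (sv F b)).1 v) = -v := funext fun l => by
      rw [refl_sv_app h2, refl_sv_app h2, Pi.neg_apply]
      by_cases hla : l = a
      · simp [hla, hab]
      by_cases hlb : l = b
      · simp [hlb, hab.symm]
      have : v l = 0 := not_mem_supp.1 fun h' => by simpa [hla, hlb] using hv h'
      simp [hla, hlb, this]
    have h' : (refl (sv F a) * refl (sv F b)).1 (u'.1 v) = -(u'.1 v) := by
      rw [← mul_app, hu'c, mul_app, show (refl (sv F a) * refl (sv F b)).1 v = -v from hv', map_neg]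
    have := congrFun h' i
    rw [mul_app, refl_sv_app h2, if_neg h.1, refl_sv_app h2, if_neg h.2, Pi.neg_apply] at this
    exact mem_supp.1 hi ((mul_eq_zero.1 (by linear_combination this : (2 : F) * u'.1 v i = 0)).resolve_left h2)
  have hu'm : Mon u' := H.mon_of_stab h2 hn hu'M (S := {a, b}) ⟨a, by simp⟩
    ((Finset.card_le_two).trans (by norm_num)) fun v hv => by
      rw [show u'⁻¹ = u' from inv_eq_of_mul_eq_one_right (Subtype.ext (LinearEquiv.ext fun v => hu'i v))]
      exact hu'sub v hv
  have hgu : ∀ v, u.1 (g.1 v) = g.1 (u'.1 v) := fun v => by simp only [u', mul_app, app_inv]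
  -- the moved coordinates outside the four
  obtain ⟨c₀, hc₀, hc₀x⟩ : ∃ c, c ∈ Uᶜ ∧ x c ≠ 0 := by
    obtain ⟨c, hc, hcU⟩ := Finset.exists_mem_notMem_of_card_lt_card (s := U) (t := supp x) (by omega)
    exact ⟨c, Finset.mem_compl.2 hcU, mem_supp.1 hc⟩
  set V : ι → (ι → F) := fun i => sv F i - u.1 (sv F i)
  have hVneg : ∀ i, u.1 (V i) = -V i := fun i => by simp only [V, map_sub, huinv]; abel
  have hVU : ∀ i ∈ U, supp (V i) ⊆ U := fun i hi l hl => by
    by_contra h
    exact mem_supp.1 hl (by
      show sv F i l - u.1 (sv F i) l = 0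
      rw [not_mem_supp.1 (show l ∉ supp (sv F i) by rw [supp_sv]; simp; rintro rfl; exact h hi),
        not_mem_supp.1 fun h' => h (huU _ (by rw [supp_sv]; simpa using hi) h'), sub_zero])
  have hVO : ∀ i ∉ U, supp (V i) ⊆ Uᶜ := fun i hi l hl => by
    by_contra h
    exact mem_supp.1 hl (by
      show sv F i l - u.1 (sv F i) l = 0
      rw [not_mem_supp.1 (show l ∉ supp (sv F i) by
          rw [supp_sv]; simp; rintro rfl; exact h (Finset.mem_compl.2 hi)),
        not_mem_supp.1 fun h' => h (huO _ (by rw [supp_sv]; simpa using hi) h'), sub_zero])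
  have hVspan : ∀ i ∉ U, ∃ α β : F, V i = α • part Uᶜ x + β • part Uᶜ y := by
    intro i hi
    have hperp : ∀ t, supp t ⊆ Uᶜ → x ⬝ᵥ t = 0 → y ⬝ᵥ t = 0 → V i ⬝ᵥ t = 0 := fun t ht h1 h1' => by
      simp only [V, sub_dotProduct]
      have := OG.dot h2 u (sv F i) t
      rw [hfixO t ht h1 h1'] at this
      rw [this, sub_self]
    by_cases hdet : ∃ c d, c ∈ Uᶜ ∧ d ∈ Uᶜ ∧ det2 x y c d ≠ 0
    · obtain ⟨c, d, hc, hd, hcd⟩ := hdet
      exact perp_perp_two hc hd hcd (hVO i hi) hperp
    · push Not at hdet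
      obtain ⟨k, hk⟩ := perp_perp_part hc₀ hc₀x (hVO i hi) fun t ht h1 => hperp t ht h1 (by
        have e : x c₀ • part Uᶜ y = y c₀ • part Uᶜ x := funext fun l => by
          simp only [Pi.smul_apply, smul_eq_mul, part]
          split_ifs with hl
          · have := hdet c₀ l hc₀ hl
            simp only [det2] at this
            linear_combination this
          · simp
        have := congrArg (fun w => w ⬝ᵥ t) e
        simp only [smul_dotProduct, smul_eq_mul, dot_part Uᶜ y t ht, dot_part Uᶜ x t ht, h1, mul_zero] at this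
        exact (mul_eq_zero.1 this).resolve_left hc₀x)
      exact ⟨k, 0, by rw [hk, zero_smul, add_zero]⟩
  have hone : ∀ i ∉ U, V i ≠ 0 → ∀ l ∉ U, V l ≠ 0 → l ∈ supp (V i) := by
    intro i hiU hi l hlU hl
    by_contra hnot
    obtain ⟨j, -, hp1, hfull⟩ := monomial_sub h2 humon huu i
    obtain ⟨hs, c, hc⟩ := hfull hi
    obtain ⟨j', -, hp2, hfull'⟩ := monomial_sub h2 humon huu l
    obtain ⟨hs', c', hc'⟩ := hfull' hl
    have hs1 : supp (V i) = {i, j} := hs
    have hs2 : supp (V l) = {l, j'} := hs'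
    rw [hs1] at hnot
    simp only [Finset.mem_insert, Finset.mem_singleton, not_or] at hnot
    have hc1 : V j = c • V i := hc
    have hc2 : V j' = c' • V l := hc'
    have hjl : j' ≠ i := fun e => by
      have hcn : c' ≠ 0 := fun h0 => by rw [h0, zero_smul, e] at hc2; exact hi hc2
      have : l ∈ supp (V i) := by rw [← e, hc2, supp_smul hcn, hs2]; simp
      rw [hs1] at this; simp [hnot.1, hnot.2] at this
    have hjj : j' ≠ j := fun e => by
      by_cases hcn : c' = 0
      · rw [hcn, zero_smul, e] at hc2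
        have hh : u.1 (sv F j) = sv F j := (sub_eq_zero.1 hc2).symm
        have := OG.coord h2 u hh (sv F i)
        exact mem_supp.1 (show j ∈ supp (V i) by rw [hs1]; simp) (by
          show sv F i j - u.1 (sv F i) j = 0; rw [this, sub_self])
      · have : l ∈ supp (V j) := by rw [← e, hc2, supp_smul hcn, hs2]; simp
        rw [hc1] at this
        have h' : l ∈ supp (V i) := mem_supp.2 fun h0 => mem_supp.1 this (by simp [h0])
        rw [hs1] at h'; simp [hnot.1, hnot.2] at h'
    have hd1 : V l i = 0 := not_mem_supp.1 (by rw [hs2]; simp [Ne.symm hnot.1, hjl.symm])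
    have hd2 : V l j = 0 := not_mem_supp.1 (by rw [hs2]; simp [Ne.symm hnot.2, hjj.symm])
    have hd3 : V i l = 0 := not_mem_supp.1 (by rw [hs1]; simp [hnot.1, hnot.2])
    obtain ⟨α, β, h1⟩ := hVspan i hiU
    obtain ⟨γ, η, h1'⟩ := hVspan l hlU
    have hdet : α * η - β * γ ≠ 0 := by
      intro h0
      have e1 : η • V i - β • V l = 0 := by
        rw [h1, h1']
        rw [show η • (α • part Uᶜ x + β • part Uᶜ y) - β • (γ • part Uᶜ x + η • part Uᶜ y) =
          (α * η - β * γ) • part Uᶜ x by module, h0, zero_smul]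
      have e2 : γ • V i - α • V l = 0 := by
        rw [h1, h1']
        rw [show γ • (α • part Uᶜ x + β • part Uᶜ y) - α • (γ • part Uᶜ x + η • part Uᶜ y) =
          -((α * η - β * γ) • part Uᶜ y) by module, h0, zero_smul, neg_zero]
      have hVii : V i i ≠ 0 := mem_supp.1 (by rw [hs1]; simp)
      have hη : η = 0 := by
        have := congrFun e1 i
        simp [hd1] at this
        exact this.resolve_right hVii
      have hγ : γ = 0 := by
        have := congrFun e2 i
        simp [hd1] at this
        exact this.resolve_right hVii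
      exact hl (by rw [h1', hη, hγ, zero_smul, zero_smul, add_zero])
    have hpx : supp (part Uᶜ x) ⊆ supp (V i) ∪ supp (V l) := fun t ht => by
      rw [Finset.mem_union]
      by_contra hn'
      push Not at hn'
      have e1 := not_mem_supp.1 hn'.1
      have e2 := not_mem_supp.1 hn'.2
      rw [h1, Pi.add_apply, Pi.smul_apply, Pi.smul_apply, smul_eq_mul, smul_eq_mul] at e1
      rw [h1', Pi.add_apply, Pi.smul_apply, Pi.smul_apply, smul_eq_mul, smul_eq_mul] at e2
      have : (α * η - β * γ) * part Uᶜ x t = 0 := by linear_combination η * e1 - β * e2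
      exact mem_supp.1 ht ((mul_eq_zero.1 this).resolve_left hdet)
    have h8 := (Finset.card_le_card hpx).trans (Finset.card_union_le _ _)
    rw [supp_part, hs1, hs2] at h8
    have : (supp x).card ≤ (Uᶜ ∩ supp x).card + U.card := by
      refine (Finset.card_le_card fun t ht => ?_).trans (Finset.card_union_le _ _)
      by_cases htU : t ∈ U <;> simp [htU, ht]
    have := Finset.card_le_two (a := i) (b := j)
    have := Finset.card_le_two (a := l) (b := j')
    omega
  have hnegO : ∀ v, supp v ⊆ Uᶜ → u.1 v = -v → (supp v).card ≤ 2 := by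
    intro v hv hu
    by_cases h0 : supp v = ∅
    · simp [h0]
    obtain ⟨i, hi⟩ := Finset.nonempty_iff_ne_empty.2 h0
    have hVne : ∀ t ∈ supp v, V t ≠ 0 := fun t ht h => mem_supp.1 ht (by
      have hh : u.1 (sv F t) = sv F t := (sub_eq_zero.1 h).symm
      have := OG.coord h2 u hh v
      rw [hu, Pi.neg_apply] at this
      exact (mul_eq_zero.1 (by linear_combination -this : (2 : F) * v t = 0)).resolve_left h2)
    obtain ⟨j, -, hp, -⟩ := monomial_sub h2 humon huu i
    refine le_trans (Finset.card_le_card fun t ht => ?_) hp.1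
    exact hone i (Finset.mem_compl.1 (hv hi)) (hVne i hi) t (Finset.mem_compl.1 (hv ht)) (hVne t ht)
  have hpart : ∀ w : ι → F, u.1 w = -w → (supp w).card ≤ 6 := by
    intro w hw
    rw [← part_add_compl U w, map_add] at hw
    have h1 := congrArg (part Uᶜ) hw
    rw [part_add, part_of_disjoint (by rw [compl_compl]; exact huU _ (supp_part_subset U w)),
      part_of_sub (huO _ (supp_part_subset _ w)), zero_add, part_add_compl] at h1
    have hh : u.1 (part Uᶜ w) = -part Uᶜ w := by
      rw [h1]; funext t; by_cases ht : t ∈ Uᶜ <;> simp [part, ht]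
    have := hnegO _ (supp_part_subset _ w) hh
    rw [supp_part] at this
    have : (supp w).card ≤ (Uᶜ ∩ supp w).card + U.card := by
      refine (Finset.card_le_card fun t ht => ?_).trans (Finset.card_union_le _ _)
      by_cases htU : t ∈ U <;> simp [htU, ht]
    omega
  have hU_mon : ∀ i ∈ U, ∃ j ∈ U, (u.1 (sv F i) = sv F j ∨ u.1 (sv F i) = -sv F j) := by
    intro i hi
    obtain ⟨j, hj⟩ := humon.col h2 i
    refine ⟨j, ?_, hj⟩
    refine huU (sv F i) (by rw [supp_sv]; simpa using hi) (mem_supp.2 ?_)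
    rcases hj with h | h <;> rw [h] <;> simp
  have hcoord : ∀ (i : ι) (w : ι → F), u.1 (sv F i) ⬝ᵥ w = u.1 w i := fun i w => by
    have := OG.dot h2 u (sv F i) (u.1 w)
    rw [huinv, dot_sv] at this
    exact this
  have hpos_fix : (∀ v, e.1 v = -v → f'.1 v = v → u.1 v = v) → ∀ i ∈ U,
      x ⬝ᵥ V i = 0 → y ⬝ᵥ V i = 0 → u.1 (sv F i) = sv F i := fun hp i hi h1 h1' => by
    have h : u.1 (V i) = V i := hp _ (heU _ (hVU i hi)) (hf'fix _ h1 h1')
    rw [hVneg] at h
    exact (sub_eq_zero.1 (self_eq_neg h2 h.symm)).symm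
  have hVdot : ∀ (i : ι) (w : ι → F), w ⬝ᵥ V i = w i - u.1 w i := fun i w => by
    simp only [V, dotProduct_sub, dotProduct_single, mul_one]
    rw [dotProduct_comm w, hcoord]
  have two4 : ∀ {i : ι}, i ∉ U → V i ≠ 0 → V i ⬝ᵥ V i ≠ 0 := fun {i} hi hne => by
    obtain ⟨j, hj⟩ := humon.col h2 i
    rcases eq_or_ne i j with rfl | hij
    · rcases hj with h | h
      · exact absurd (by simp [V, h]) hne
      · have : V i = (2 : F) • sv F i := by simp only [V, h]; module
        rw [this, smul_dotProduct, dotProduct_smul]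
        simp [h2]
    · rcases hj with h | h <;> simp [V, h, hij, hij.symm] <;>
        exact fun h' => h2 (by linear_combination h')
  -- all perpendicular vectors on the four coordinates sharing one sign forces that sign
  have hsign : ∀ σ : F, (∀ v, e.1 v = -v → f'.1 v = v → u.1 v = σ • v) →
      ∀ δ : F, (δ = 1 ∨ δ = -1) → (∀ i, x (f i) ≠ 0 ∧ x (f i) = δ * y (f i)) →
        ∀ i ∈ U, u.1 (sv F i) = σ • sv F i := by
    intro σ hσ δ hδ hrow t htU
    obtain ⟨i, rfl⟩ := hUex t htU
    have ht : ∀ k, u.1 (x (f k) • sv F (f i) - x (f i) • sv F (f k)) =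
        σ • (x (f k) • sv F (f i) - x (f i) • sv F (f k)) := by
      intro k
      refine hσ _ (heU _ fun l hl => ?_) (hf'fix _ (by simp; ring) ?_)
      · by_contra h
        exact mem_supp.1 hl (by
          simp [show l ≠ f i from fun e => h (e ▸ hUf i), show l ≠ f k from fun e => h (e ▸ hUf k)])
      · simp only [dotProduct_sub, dotProduct_smul, dotProduct_single, mul_one, smul_eq_mul]
        rw [(hrow k).2, (hrow i).2]; ring
    obtain ⟨j, hjU, hj⟩ := hU_mon (f i) (hUf i)
    have hoth : ∀ k, k ≠ i → u.1 (sv F (f k)) j = 0 := fun k hk => by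
      have := OG.dot h2 u (sv F (f i)) (sv F (f k))
      rw [show sv F (f i) ⬝ᵥ sv F (f k) = 0 by simp [hk.symm]] at this
      rcases hj with h | h <;> simpa [h] using this
    by_cases hji : j = f i
    · rw [hji] at hj hoth
      obtain ⟨k, hk⟩ := exists_ne i
      have e0 := congrFun (ht k) (f i)
      simp only [map_sub, map_smul, Pi.sub_apply, Pi.smul_apply, smul_eq_mul, hoth k hk,
        show sv F (f k) (f i) = 0 by simp [hk.symm], show sv F (f i) (f i) = 1 by simp, mul_zero,
        sub_zero, mul_one] at e0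
      rcases hj with h | h <;> rw [h] at e0 ⊢ <;> simp at e0
      · have : σ = 1 := mul_right_cancel₀ (hrow k).1 (by linear_combination -e0)
        rw [this, one_smul]
      · have : σ = -1 := mul_right_cancel₀ (hrow k).1 (by linear_combination -e0)
        rw [this, neg_one_smul]
    · exfalso
      obtain ⟨j', rfl⟩ := hUex j hjU
      obtain ⟨k, hk, hkj⟩ := (by decide : ∀ i j : Fin 4, ∃ r, r ≠ i ∧ r ≠ j) i j'
      have e0 := congrFun (ht k) (f j')
      simp only [map_sub, map_smul, Pi.sub_apply, Pi.smul_apply, smul_eq_mul, hoth k hk,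
        show sv F (f k) (f j') = 0 by simp [hkj.symm], show sv F (f i) (f j') = 0 by simp [hji],
        mul_zero, sub_zero] at e0
      rcases hj with h | h <;> rw [h] at e0 <;> simp at e0 <;> exact (hrow k).1 e0
  have hu0 : ∀ σ : F, (∀ i ∈ U, u.1 (sv F i) = σ • sv F i) → ∀ i ∈ U, u.1 x i = σ * x i :=
    fun σ h i hi => by rw [← hcoord i x, h i hi, smul_dotProduct, dot_sv, smul_eq_mul]
  -- the coordinates moved outside the four
  have hline : ∀ u₂ : OG ι F, Mon u₂ → u₂ * u₂ = 1 → dk h2 u₂ = 1 →
      (∀ t ∈ U, u₂.1 (sv F t) = sv F t) → (∀ t ∉ U, u₂.1 (sv F t) = u.1 (sv F t)) →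
      ∀ i ∉ U, V i = 0 := by
    intro u₂ hm₂ huu₂ hdk₂ hU₂ hO₂ i hiU
    by_contra hi
    have hV₂ : sv F i - u₂.1 (sv F i) = V i := by rw [hO₂ i hiU]
    have hneg₂ : u₂.1 (V i) = -V i := by
      rw [← hV₂, map_sub, ← mul_app, huu₂]; show u₂.1 (sv F i) - sv F i = _; abel
    have hfixo : ∀ t, t ∉ supp (V i) → u₂.1 (sv F t) = sv F t := by
      intro t ht
      by_cases htU : t ∈ U
      · exact hU₂ t htU
      by_contra hne'
      exact ht (hone i hiU hi t htU fun h => hne' (by rw [hO₂ t htU]; exact (sub_eq_zero.1 h).symm))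
    have hrefl : u₂ = refl (V i) := by
      refine eq_refl (two4 hiU hi) hneg₂ fun v hv => ?_
      obtain ⟨j, -, -, hfull⟩ := monomial_sub h2 hm₂ huu₂ i
      obtain ⟨hs, c, hc⟩ := hfull (by rw [hV₂]; exact hi)
      simp only [hV₂] at hs hc
      have hcol : ∀ t, ∃ c : F, sv F t - u₂.1 (sv F t) = c • V i := by
        intro t
        by_cases ht : t ∈ supp (V i)
        · rw [hs] at ht
          simp only [Finset.mem_insert, Finset.mem_singleton] at ht
          rcases ht with rfl | rfl
          · exact ⟨1, by rw [one_smul]; exact hV₂⟩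
          · exact ⟨c, hc⟩
        · exact ⟨0, by rw [hfixo t ht, sub_self, zero_smul]⟩
      choose cc hcc using hcol
      have e' : v - u₂.1 v = (∑ t, v t * cc t) • V i := by
        rw [Finset.sum_smul]
        conv_lhs => rw [expand v, map_sum, ← Finset.sum_sub_distrib]
        exact Finset.sum_congr rfl fun t _ => by rw [map_smul, ← smul_sub, hcc t, smul_smul]
      have h0 := congrArg (fun w => V i ⬝ᵥ w) e'
      have huv : V i ⬝ᵥ u₂.1 v = 0 := by
        have := OG.dot h2 u₂ (V i) v
        rw [hneg₂, neg_dotProduct, hv] at this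
        exact neg_eq_zero.1 this
      simp only [dotProduct_sub, hv, huv, sub_zero, dotProduct_smul, smul_eq_mul] at h0
      rw [(mul_eq_zero.1 h0.symm).resolve_right (two4 hiU hi), zero_smul, sub_eq_zero] at e'
      exact e'.symm
    rw [hrefl, dk_refl h2 (two4 hiU hi)] at hdk₂
    exact absurd hdk₂ (by decide)
  -- the action on the columns
  obtain ⟨ja, hja⟩ := hu'm.col h2 a
  have hja' : ja = a ∨ ja = b := by
    have := hu'sub (sv F a) (by rw [supp_sv]; simp) (mem_supp.2 (show u'.1 (sv F a) ja ≠ 0 by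
      rcases hja with h | h <;> rw [h] <;> simp))
    simpa using this
  have hux : u.1 x = g.1 (u'.1 (sv F a)) := hgu _
  have huy : u.1 y = g.1 (u'.1 (sv F b)) := hgu _
  have hbig_neg : ∀ w : ι → F, 7 ≤ (supp w).card → u.1 w ≠ -w := fun w hw h => by
    have := hpart w h; omega
  rcases hja' with rfl | rfl
  · have hxfix : u.1 x = x := by
      rcases hja with h | h
      · rw [hux, h]
      · exact absurd (by rw [hux, h, map_neg]) (hbig_neg x (by omega))
    obtain ⟨jb, hjb⟩ := hu'm.col h2 b
    have hjb' : jb = b := by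
      have hmem := hu'sub (sv F b) (by rw [supp_sv]; simp) (mem_supp.2 (show u'.1 (sv F b) jb ≠ 0 by
        rcases hjb with h | h <;> rw [h] <;> simp))
      simp only [Finset.mem_insert, Finset.mem_singleton] at hmem
      rcases hmem with h | h
      · exfalso
        have := OG.dot h2 u' (sv F ja) (sv F b)
        rw [dot_sv ja (sv F b), show sv F b ja = 0 by simp [hab]] at this
        rcases hja with a' | a' <;> rcases hjb with b' | b' <;> rw [a', b', h] at this <;> simp at this
      · exact h
    rw [hjb'] at hjb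
    have hyfix : u.1 y = y := by
      rcases hjb with h | h
      · rw [huy, h]
      · exact absurd (by rw [huy, h, map_neg]) (hbig_neg y (by omega))
    have hVx : ∀ i, x ⬝ᵥ V i = 0 := fun i => by rw [hVdot, hxfix, sub_self]
    have hVy : ∀ i, y ⬝ᵥ V i = 0 := fun i => by rw [hVdot, hyfix, sub_self]
    have hout : ∀ i ∉ U, u.1 (sv F i) = sv F i := fun i hi => by
      by_contra hne
      have hV0 : V i ≠ 0 := fun h => hne (sub_eq_zero.1 h).symm
      apply two4 hi hV0
      obtain ⟨α, β, h⟩ := hVspan i hi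
      nth_rewrite 1 [h]
      rw [add_dotProduct, smul_dotProduct, smul_dotProduct, dot_part Uᶜ x _ (hVO i hi),
        dot_part Uᶜ y _ (hVO i hi), hVx, hVy, smul_zero, smul_zero, add_zero]
    rcases pow_sign_uniform e f' m with hp | hneg
    · exact hu1 (ext_basis fun i => by
        show u.1 (sv F i) = sv F i
        by_cases hi : i ∈ U
        · exact hpos_fix hp i hi (hVx i) (hVy i)
        · exact hout i hi)
    rcases hgood with ⟨⟨i₀, j₀, hdet⟩, hpat, -⟩ | ⟨δ, hδ, -, -, hrow⟩
    swap
    · have h0 := hu0 (-1) (hsign (-1) (fun v h h' => by rw [neg_one_smul]; exact hneg v h h') δ hδ hrow)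
        (f 0) (hUf 0)
      rw [hxfix] at h0
      exact absurd (mul_eq_zero.1 (by linear_combination h0 : (2 : F) * x (f 0) = 0))
        (by push Not; exact ⟨h2, (hrow 0).1⟩)
    -- the involution on the four coordinates
    have hσex : ∀ i : Fin 4, ∃ j : Fin 4, u.1 (sv F (f i)) = sv F (f j) ∨ u.1 (sv F (f i)) = -sv F (f j) :=
      fun i => by
        obtain ⟨j, hjU, hj⟩ := hU_mon (f i) (hUf i)
        obtain ⟨j', rfl⟩ := hUex j hjU
        exact ⟨j', hj⟩
    choose σ hσ using hσex
    have hinj : ∀ {p q : Fin 4}, (sv F (f p) = sv F (f q) ∨ sv F (f p) = -sv F (f q)) → p = q := by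
      intro p q h
      by_contra hpq
      rcases h with h | h <;> have := congrFun h (f p) <;> simp [hpq] at this
    have hσσ : ∀ i, σ (σ i) = i := by
      intro i
      have := huinv (sv F (f i))
      rcases hσ i with h | h <;> rcases hσ (σ i) with h' | h' <;> rw [h] at this <;>
        first | rw [h'] at this | rw [map_neg, h'] at this
      all_goals first
        | exact hinj (Or.inl this)
        | exact hinj (Or.inr this)
        | exact hinj (Or.inl (by rw [← this, neg_neg]))
        | exact hinj (Or.inr (by rw [← this, neg_neg]))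
        | exact hinj (Or.inr (neg_eq_iff_eq_neg.1 this))
    have heqv : ∀ i, Eqv (f i) (f (σ i)) := by
      intro i
      have e1 := hcoord (f i) x
      have e2 := hcoord (f i) y
      rw [hxfix] at e1
      rw [hyfix] at e2
      rcases hσ i with h | h <;> rw [h] at e1 e2
      · rw [dot_sv] at e1 e2; exact Or.inl ⟨e1.symm, e2.symm⟩
      · rw [neg_dotProduct, dot_sv] at e1 e2; exact Or.inr ⟨e1.symm, e2.symm⟩
    rcases pairing_four h2 H σ hσσ with hpair | ⟨i, j, hij, hi, hj⟩
    · apply hpat
      rcases hpair with ⟨p, q⟩ | ⟨p, q⟩ | ⟨p, q⟩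
      · exact Or.inl ⟨p ▸ heqv 0, q ▸ heqv 2⟩
      · exact Or.inr (Or.inl ⟨p ▸ heqv 0, q ▸ heqv 1⟩)
      · exact Or.inr (Or.inr ⟨p ▸ heqv 0, q ▸ heqv 1⟩)
    have hfix : ∀ k, σ k = k → u.1 (sv F (f k)) = sv F (f k) := by
      intro k hk
      rcases hσ k with h | h <;> rw [hk] at h
      · exact h
      · exfalso
        have e1 := hcoord (f k) x
        have e2 := hcoord (f k) y
        rw [h, neg_dotProduct, dot_sv, hxfix] at e1
        rw [h, neg_dotProduct, dot_sv, hyfix] at e2
        rcases hne k with h' | h'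
        · exact h' ((mul_eq_zero.1 (by linear_combination -e1 : (2 : F) * x (f k) = 0)).resolve_left h2)
        · exact h' ((mul_eq_zero.1 (by linear_combination -e2 : (2 : F) * y (f k) = 0)).resolve_left h2)
    have hzero_ij : det2 x y (f i) (f j) = 0 ∧ ∀ r, r ≠ i → r ≠ j → det2 x y (f i) (f r) = 0 := by
      have main : ∀ r, r ≠ i → r ≠ j →
          det2 x y (f i) (f j) = 0 ∧ det2 x y (f i) (f r) = 0 := by
        intro r hri hrj
        set t : ι → F := det2 x y (f j) (f r) • sv F (f i) + det2 x y (f r) (f i) • sv F (f j) +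
          det2 x y (f i) (f j) • sv F (f r) with ht
        have htU : supp t ⊆ U := fun l hl => by
          by_contra h
          exact mem_supp.1 hl (by
            simp [ht, show l ≠ f i from fun e => h (e ▸ hUf i), show l ≠ f j from fun e => h (e ▸ hUf j),
              show l ≠ f r from fun e => h (e ▸ hUf r)])
        have htx : x ⬝ᵥ t = 0 := by
          simp only [ht, dotProduct_add, dotProduct_smul, dotProduct_single, mul_one, smul_eq_mul, det2]
          ring
        have hty : y ⬝ᵥ t = 0 := by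
          simp only [ht, dotProduct_add, dotProduct_smul, dotProduct_single, mul_one, smul_eq_mul, det2]
          ring
        have hn' : u.1 t = -t := hneg t (heU t htU) (hf'fix t htx hty)
        have zk : ∀ k, σ k = k → t (f k) = 0 := fun k hk => by
          have := OG.coord h2 u (hfix k hk) t
          rw [hn', Pi.neg_apply] at this
          exact (mul_eq_zero.1 (by linear_combination -this : (2 : F) * t (f k) = 0)).resolve_left h2
        have e1 : det2 x y (f j) (f r) = 0 := by
          simpa [ht, f.injective.eq_iff, hij, hri, hri.symm] using zk i hi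
        have e2 : det2 x y (f r) (f i) = 0 := by
          simpa [ht, f.injective.eq_iff, hij.symm, hrj, hrj.symm] using zk j hj
        refine ⟨?_, by rw [det2_swap, e2, neg_zero]⟩
        simp only [ht, dotProduct_add, dotProduct_smul, dotProduct_single, mul_one, smul_eq_mul, e1, e2,
          zero_mul, zero_add] at htx hty
        rcases hne r with h' | h'
        · exact (mul_eq_zero.1 htx).resolve_right h'
        · exact (mul_eq_zero.1 hty).resolve_right h'
      obtain ⟨r, hri, hrj⟩ := (by decide : ∀ i j : Fin 4, ∃ r, r ≠ i ∧ r ≠ j) i j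
      exact ⟨(main r hri hrj).1, fun r hri hrj => (main r hri hrj).2⟩
    have hall : ∀ r, det2 x y (f i) (f r) = 0 := fun r => by
      by_cases hri : r = i
      · simp [hri, det2]
      by_cases hrj : r = j
      · rw [hrj]; exact hzero_ij.1
      · exact hzero_ij.2 r hri hrj
    apply hdet
    have a1 := hall i₀
    have a2 := hall j₀
    simp only [det2] at a1 a2 ⊢
    rcases hne i with h' | h'
    · exact mul_left_cancel₀ h' (by linear_combination x (f i₀) * a2 - x (f j₀) * a1)
    · exact mul_left_cancel₀ h' (by linear_combination y (f i₀) * a2 - y (f j₀) * a1)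
  · -- the two columns are exchanged
    obtain ⟨η, hη, hxy1⟩ : ∃ η : F, (η = 1 ∨ η = -1) ∧ u.1 x = η • y := by
      rcases hja with h | h
      · exact ⟨1, Or.inl rfl, by rw [hux, h, one_smul]⟩
      · exact ⟨-1, Or.inr rfl, by rw [hux, h, map_neg, neg_one_smul]⟩
    have hη1 : η * η = 1 := by rcases hη with h | h <;> rw [h] <;> ring
    have hyx : u.1 y = η • x := by
      have := congrArg (fun w => η • u.1 w) hxy1
      simp only [huinv, map_smul, smul_smul, hη1, one_smul] at this
      exact this.symm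
    set z := x - η • y with hz
    have huz : u.1 z = -z := by rw [hz, map_sub, map_smul, hxy1, hyx, smul_smul, hη1, one_smul]; abel
    rcases hgood with ⟨-, -, hbigs⟩ | ⟨δ, hδ, hsmall, hmin, hrow⟩
    · have : 7 ≤ (supp z).card := hbigs η hη
      have := hpart z huz
      omega
    have he2 : ∀ t ∉ U, e.1 (u.1 (sv F t)) = u.1 (sv F t) := fun t ht =>
      heO _ (huO _ (by rw [supp_sv]; simpa using ht))
    rcases pow_sign_uniform e f' m with hp | hneg
    · have hU1 := hsign 1 (fun v h h' => by rw [one_smul]; exact hp v h h') δ hδ hrow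
      have h0 := hu0 1 hU1 (f 0) (hUf 0)
      rw [hxy1, Pi.smul_apply, smul_eq_mul, one_mul] at h0
      -- `η = δ` here
      obtain ⟨i, hi⟩ : ∃ i, V i ≠ 0 := by
        by_contra h
        push Not at h
        exact hu1 (ext_basis fun i => (sub_eq_zero.1 (h i)).symm)
      have hiU : i ∉ U := fun h => hi (by
        show sv F i - u.1 (sv F i) = 0; rw [hU1 i h, one_smul, sub_self])
      exact hi (hline u humon huu (dk_commutator h2 (H.le huM)) (fun t ht => by rw [hU1 t ht, one_smul])
        (fun t _ => rfl) i hiU)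
    · have hU1 := hsign (-1) (fun v h h' => by rw [neg_one_smul]; exact hneg v h h') δ hδ hrow
      have hV : ∀ i ∉ U, V i = 0 := by
        refine hline (e * u) ((mon_flips h2 _).mul h2 humon) ?_ ?_ (fun t ht => ?_)
          (fun t ht => by rw [mul_app, he2 t ht])
        · calc e * u * (e * u) = e * (u * e) * u := by group
            _ = e * (e * u) * u := by rw [hue]
            _ = (e * e) * (u * u) := by group
            _ = 1 := by rw [hee, huu, one_mul]
        · rw [map_mul, dk_flips, dk_commutator h2 (H.le huM), Finset.length_toList, hUc]; decide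
        · rw [mul_app, hU1 t ht, map_smul, heU _ (by rw [supp_sv]; simpa using ht), neg_one_smul, neg_neg]
      have hout : ∀ t ∉ U, x t = η * y t := fun t ht => by
        have h := hcoord t x
        rw [← sub_eq_zero.1 (hV t ht), dot_sv, hxy1] at h
        exact h
      have hin : ∀ t ∈ U, x t = δ * y t ∧ x t ≠ 0 := fun t ht => by
        obtain ⟨k, rfl⟩ := hUex t ht; exact ⟨(hrow k).2, (hrow k).1⟩
      have hηδ : δ = -η := by
        have h0 := hu0 (-1) hU1 (f 0) (hUf 0)
        rw [hxy1, Pi.smul_apply, smul_eq_mul, (hrow 0).2] at h0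
        have hy0 : y (f 0) ≠ 0 := fun h => (hrow 0).1 (by rw [(hrow 0).2, h, mul_zero])
        exact mul_right_cancel₀ hy0 (by linear_combination h0)
      have hzU : supp (x - (-δ) • y) ⊆ U := fun t ht => by
        by_contra h
        refine mem_supp.1 ht ?_
        simp only [Pi.sub_apply, Pi.smul_apply, smul_eq_mul, hηδ, neg_neg]
        rw [hout t h, sub_self]
      have hwO : Uᶜ ⊆ supp (x - δ • y) := fun t ht => by
        rw [Finset.mem_compl] at ht
        rw [mem_supp]
        intro h
        simp only [Pi.sub_apply, Pi.smul_apply, smul_eq_mul, hηδ] at h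
        have hxt : x t = 0 := (mul_eq_zero.1 (by linear_combination h + hout t ht :
          (2 : F) * x t = 0)).resolve_left h2
        rcases hrowne t with h' | h'
        · exact h' hxt
        · exact h' ((mul_eq_zero.1 ((hout t ht).symm.trans hxt)).resolve_left (by rcases hη with rfl | rfl <;> simp))
      have := Finset.card_le_card hzU
      have h6 := Finset.card_le_card hwO
      rw [Finset.card_compl] at h6
      omega

end Cfsg.Agent.DecompMax.OF
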