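import Cfsg.Agent.DecompMax.FrameUnits
import Cfsg.Agent.DecompMax.FrameNoFix
import Cfsg.Agent.OrthGen.NormClass

/-!
A subgroup of `Ω` above its monomial part with a non-monomial element is all of `Ω`.
-/

set_option autoImplicit false
set_option linter.style.haveILetI false
set_option linter.unusedSectionVars false
set_option linter.unusedVariables false

namespace Cfsg.Agent.DecompMax.OF

open QuadraticMap Module Cfsg.Agent.Classical
open scoped Matrix

universe u v

section Class

variable {F : Type u} [Field F] [Finite F] {V : Type v} [AddCommGroup V] [Module F V]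
  [FiniteDimensional F V] [Finite V] {Q : QuadraticForm F V}

open Cfsg.Agent.OrthGen in
/-- Products of two reflections of equal value lie in the group of one norm class, dimension at least five. -/
theorem sameSub_le_classSub_of_five (hB : BNondeg Q) (h2 : (2 : F) ≠ 0) (h5 : 5 ≤ finrank F V) {c : F}
    (hc : c ≠ 0) : OrthGen.sameSub Q ≤ OrthGen.classSub Q c := by
  refine (Subgroup.closure_le _).2 ?_
  rintro _ ⟨a, b, ha, hb, hab, rfl⟩
  rw [SetLike.mem_coe]
  by_cases hD : 4 * Q a * Q a - polar Q a b * polar Q a b ≠ 0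
  · exact refl_pair_of_plane hB h2 hc ha hb hab hD
  rw [not_not] at hD
  suffices key : ∀ b (hb : Q b ≠ 0), Q a = Q b → polar Q a b = 2 * Q a →
      reflQ Q a ha * reflQ Q b hb ∈ OrthGen.classSub Q c by
    have : (polar Q a b - 2 * Q a) * (polar Q a b + 2 * Q a) = 0 := by linear_combination -hD
    rcases mul_eq_zero.1 this with h | h
    · exact key b hb hab (sub_eq_zero.1 h)
    · have hb' : Q (-b) ≠ 0 := by rwa [QuadraticMap.map_neg]
      have := key (-b) hb' (by rw [QuadraticMap.map_neg]; exact hab)
        (by rw [polar_neg_right]; linear_combination -h)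
      rwa [reflQ_neg Q hb hb'] at this
  intro b hb hab hf
  set z := b - a
  have hz : Q z = 0 := by simp only [z, qf_sub, polar_comm Q b a, hf, ← hab]; ring
  have haz : polar Q a z = 0 := by simp only [z, polar_sub_right, polar_self_two, hf, sub_self]
  by_cases hz0 : z = 0
  · rw [reflQ_congr Q (sub_eq_zero.1 hz0) hb ha, reflQ_mul_self]
    exact one_mem _
  -- a vector of the same value orthogonal to both
  have h1 : finrank F ↥(Submodule.span F (Set.range ![a, z])) ≤ 2 :=
    (finrank_range_le_card ![a, z]).trans (le_of_eq (Fintype.card_fin 2))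
  set T := OrthGen.perpSub Q (Submodule.span F (Set.range ![a, z]))
  have hTdim : 3 ≤ finrank F T := by
    rw [OrthGen.finrank_orthogonal_polar hB]; omega
  have hT : ∀ t ∈ T, polar Q a t = 0 ∧ polar Q z t = 0 := fun t ht =>
    ⟨ht a (Submodule.subset_span ⟨0, rfl⟩), ht z (Submodule.subset_span ⟨1, rfl⟩)⟩
  obtain ⟨x, hxT, hx⟩ : ∃ x ∈ T, Q x = Q a := by
    -- a non-degenerate plane inside `T`
    obtain ⟨y, hy, hy0⟩ : ∃ y ∈ T, Q y ≠ 0 := by
      by_contra hcon
      push Not at hcon
      have hle : T ≤ OrthGen.perpSub Q T := fun t ht t' ht' => by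
        show polar Q t' t = 0
        simp only [polar, hcon _ (T.add_mem ht' ht), hcon _ ht, hcon _ ht', sub_self]
      have := Submodule.finrank_mono hle
      rw [OrthGen.finrank_orthogonal_polar hB T] at this
      have h1' : finrank F T + finrank F ↥(Submodule.span F (Set.range ![a, z])) = finrank F V := by
        rw [show finrank F T = _ from OrthGen.finrank_orthogonal_polar hB _]
        have := (Submodule.span F (Set.range ![a, z])).finrank_le
        omega
      omega
    set T' := OrthGen.perpSub Q (Submodule.span F (Set.range ![a, z, y]))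
    have h3 : finrank F ↥(Submodule.span F (Set.range ![a, z, y])) ≤ 3 :=
      (finrank_range_le_card ![a, z, y]).trans (le_of_eq (Fintype.card_fin 3))
    have hTdim' : 2 ≤ finrank F T' := by rw [OrthGen.finrank_orthogonal_polar hB]; omega
    have hT' : ∀ t ∈ T', t ∈ T ∧ polar Q y t = 0 := fun t ht => by
      refine ⟨fun n hn => ?_, ht y (Submodule.subset_span ⟨2, rfl⟩)⟩
      refine ht n (Submodule.span_mono ?_ hn)
      rintro _ ⟨i, rfl⟩
      fin_cases i
      · exact ⟨0, rfl⟩
      · exact ⟨1, rfl⟩
    obtain ⟨w, hw, hw0⟩ : ∃ w ∈ T', Q w ≠ 0 := by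
      by_contra hcon
      push Not at hcon
      -- `T'` is then the radical of `T`, at most a line
      have hle : T' ≤ OrthGen.perpSub Q (T' ⊔ (F ∙ a ⊔ F ∙ y)) := by
        intro t ht n hn
        show polar Q n t = 0
        obtain ⟨n₁, hn₁, n₂, hn₂, rfl⟩ := Submodule.mem_sup.1 hn
        obtain ⟨n₃, hn₃, n₄, hn₄, rfl⟩ := Submodule.mem_sup.1 hn₂
        obtain ⟨r, rfl⟩ := Submodule.mem_span_singleton.1 hn₃
        obtain ⟨r', rfl⟩ := Submodule.mem_span_singleton.1 hn₄
        have e1 : polar Q n₁ t = 0 := by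
          simp only [polar, hcon _ (T'.add_mem hn₁ ht), hcon _ ht, hcon _ hn₁, sub_self]
        simp only [polar_add_left, polar_smul_left, e1, (hT t (hT' t ht).1).1, (hT' t ht).2, smul_zero,
          add_zero]
      have hd := Submodule.finrank_mono hle
      rw [OrthGen.finrank_orthogonal_polar hB (T' ⊔ (F ∙ a ⊔ F ∙ y))] at hd
      have hsum : finrank F T' + 2 ≤ finrank F ↥(T' ⊔ (F ∙ a ⊔ F ∙ y)) := by
        have hy0' : y ≠ 0 := fun h => hy0 (by rw [h, QuadraticMap.map_zero])
        have ha0 : a ≠ 0 := fun h => ha (by rw [h, QuadraticMap.map_zero])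
        have hay : polar Q a y = 0 := (hT y hy).1
        have hi1 : (F ∙ a) ⊓ (F ∙ y) = ⊥ := by
          rw [eq_bot_iff]
          rintro v ⟨h1, h2'⟩
          obtain ⟨r, rfl⟩ := Submodule.mem_span_singleton.1 h1
          obtain ⟨r', hr'⟩ := Submodule.mem_span_singleton.1 h2'
          have := congrArg (polar Q a) hr'
          rw [polar_smul_right, polar_smul_right, hay, polar_self_two, smul_eq_mul, smul_eq_mul,
            mul_zero] at this
          rw [Submodule.mem_bot, (mul_eq_zero.1 this.symm).resolve_right (mul_ne_zero h2 ha), zero_smul]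
        have hi2 : T' ⊓ (F ∙ a ⊔ F ∙ y) = ⊥ := by
          rw [eq_bot_iff]
          rintro v ⟨h1, h2'⟩
          obtain ⟨n₃, hn₃, n₄, hn₄, rfl⟩ := Submodule.mem_sup.1 h2'
          obtain ⟨r, rfl⟩ := Submodule.mem_span_singleton.1 hn₃
          obtain ⟨r', rfl⟩ := Submodule.mem_span_singleton.1 hn₄
          have e1 := (hT _ (hT' _ h1).1).1
          have e2 := (hT' _ h1).2
          simp only [polar_add_right, polar_smul_right, hay, polar_comm Q y a, polar_self_two, smul_eq_mul,
            mul_zero, add_zero, zero_add] at e1 e2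
          rw [Submodule.mem_bot, (mul_eq_zero.1 e1).resolve_right (mul_ne_zero h2 ha),
            (mul_eq_zero.1 e2).resolve_right (mul_ne_zero h2 hy0), zero_smul, zero_smul, add_zero]
        have e1 := Submodule.finrank_sup_add_finrank_inf_eq (F ∙ a) (F ∙ y)
        have e2 := Submodule.finrank_sup_add_finrank_inf_eq T' (F ∙ a ⊔ F ∙ y)
        rw [hi1, finrank_bot, finrank_span_singleton ha0, finrank_span_singleton hy0'] at e1
        rw [hi2, finrank_bot] at e2
        omega
      have h3' : finrank F T' + finrank F ↥(Submodule.span F (Set.range ![a, z, y])) = finrank F V := by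
        rw [show finrank F T' = _ from OrthGen.finrank_orthogonal_polar hB _]
        have := (Submodule.span F (Set.range ![a, z, y])).finrank_le
        omega
      omega
    obtain ⟨p, q, hpq⟩ := OrthGen.exists_value_of_orth (Q := Q) hy0 hw0 (hT' w hw).2 (Q a)
    exact ⟨_, T.add_mem (T.smul_mem p hy) (T.smul_mem q (hT' w hw).1), hpq⟩
  obtain ⟨hax, hzx⟩ := hT x hxT
  have hx0 : Q x ≠ 0 := by rw [hx]; exact ha
  have e : reflQ Q a ha * reflQ Q b hb
      = (reflQ Q a ha * reflQ Q x hx0) * (reflQ Q x hx0 * reflQ Q b hb) := by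
    rw [mul_assoc, ← mul_assoc (reflQ Q x hx0), reflQ_mul_self, one_mul]
  rw [e]
  have h4 : (4 : F) * Q a * Q a ≠ 0 :=
    mul_ne_zero (mul_ne_zero (by rw [show (4 : F) = 2 * 2 by norm_num]; exact mul_ne_zero h2 h2) ha) ha
  refine mul_mem (refl_pair_of_plane hB h2 hc ha hx0 hx.symm (by rw [hax, mul_zero, sub_zero]; exact h4))
    (refl_pair_of_plane hB h2 hc hx0 hb (hx.trans hab) ?_)
  rw [show b = z + a by simp [z], polar_comm Q x (z + a), polar_add_left, hzx, hax, hx, add_zero, mul_zero,
    sub_zero]
  exact h4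

end Class

variable {F : Type u} [Field F] [Finite F] {ι : Type} [Fintype ι] [DecidableEq ι]

/-- Pairs of reflections along unit vectors generate `Ω`. -/
theorem omega_le_of_pairs (h2 : Two F) (h5 : 5 ≤ Fintype.card ι) {M : Subgroup (OG ι F)}
    (h : ∀ v w : ι → F, v ⬝ᵥ v = 1 → w ⬝ᵥ w = 1 → refl v * refl w ∈ M) :
    commutator (OG ι F) ≤ M := by
  have hB := bNondeg_Qd (F := F) (ι := ι) h2
  have hR := OrthGen.RQ_eq_top hB (OrthGen.notExceptional_of_two_ne_zero h2)
  have hfin : 5 ≤ finrank F (ι → F) := by rwa [finrank_fintype_fun_eq_card]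
  set S : Set (OG ι F) := {g | ∃ v w : ι → F, v ⬝ᵥ v = 1 ∧ w ⬝ᵥ w = 1 ∧ g = refl v * refl w}
  set C := Subgroup.closure S
  have hCM : C ≤ M := (Subgroup.closure_le _).2 fun g ⟨v, w, hv, hw, e⟩ => e ▸ h v w hv hw
  obtain ⟨i₀⟩ : Nonempty ι := Fintype.card_pos_iff.1 (by omega)
  set r₀ : OG ι F := refl (sv F i₀)
  have hnorm : ∀ g c, c ∈ C → g * c * g⁻¹ ∈ C := by
    intro g c hc
    induction hc using Subgroup.closure_induction with
    | mem x hx =>
      obtain ⟨v, w, hv, hw, rfl⟩ := hx
      refine Subgroup.subset_closure ⟨g.1 v, g.1 w, by rw [OG.dot h2, hv], by rw [OG.dot h2, hw], ?_⟩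
      rw [← refl_conj h2, ← refl_conj h2]; group
    | one => simp [one_mem]
    | mul a b _ _ ha hb =>
      rw [show g * (a * b) * g⁻¹ = g * a * g⁻¹ * (g * b * g⁻¹) by group]
      exact mul_mem ha hb
    | inv a _ ha =>
      rw [show g * a⁻¹ * g⁻¹ = (g * a * g⁻¹)⁻¹ by group]
      exact inv_mem ha
  have hCd : ∀ c ∈ C, dk h2 c = 1 := fun c hc => by
    induction hc using Subgroup.closure_induction with
    | mem x hx =>
      obtain ⟨v, w, hv, hw, rfl⟩ := hx
      rw [map_mul, dk_refl h2 (by rw [hv]; exact one_ne_zero), dk_refl h2 (by rw [hw]; exact one_ne_zero)]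
      decide
    | one => exact map_one _
    | mul a b _ _ ha hb => rw [map_mul, ha, hb, one_mul]
    | inv a _ ha => rw [map_inv, ha, inv_one]
  intro g hg
  have hgd : dk h2 g = 1 := dk_commutator h2 hg
  have hgs : g ∈ OrthGen.sameSub (Qd ι F) := by
    refine OrthGen.ker_sgnHom_le h2 hB (by omega) hR ?_
    rw [MonoidHom.mem_ker]
    have := (Forms.mem_commutator_OQ_iff hB (OrthGen.notExceptional_of_two_ne_zero h2) g).1 hg
    exact Prod.ext this.1 (this.2 h2)
  have hgc := sameSub_le_classSub_of_five hB h2 hfin one_ne_zero hgs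
  have key : g ∈ C ∨ g * r₀ ∈ C := by
    clear hgd hgs hg
    induction hgc using Subgroup.closure_induction with
    | mem x hx =>
      obtain ⟨y, hy, t, ht, hyt, rfl⟩ := hx
      refine Or.inr (Subgroup.subset_closure ⟨t⁻¹ • y, sv F i₀, ?_, dot_sv_self _, ?_⟩)
      · rw [smul_dotProduct, dotProduct_smul, smul_eq_mul, smul_eq_mul]
        rw [Qd_apply] at hyt
        rw [hyt]; field_simp
      · rw [refl_smul (inv_ne_zero ht), refl_eq (x := y) hy]
    | one => exact Or.inl (one_mem _)
    | mul a b _ _ ha hb =>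
      rcases ha with ha | ha <;> rcases hb with hb | hb
      · exact Or.inl (mul_mem ha hb)
      · right; rw [mul_assoc]; exact mul_mem ha hb
      · right
        rw [show a * b * r₀ = a * r₀ * (r₀⁻¹ * b * r₀) by group]
        have := hnorm r₀⁻¹ b hb
        rw [inv_inv] at this
        exact mul_mem ha this
      · left
        rw [show a * b = a * r₀ * (r₀⁻¹ * (b * r₀) * r₀) * (r₀⁻¹ * r₀⁻¹) by group,
          show r₀⁻¹ * r₀⁻¹ = (1 : OG ι F) by rw [refl_inv, refl_mul_self], mul_one]
        have := hnorm r₀⁻¹ _ hb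
        rw [inv_inv] at this
        exact mul_mem ha this
    | inv a _ ha =>
      rcases ha with ha | ha
      · exact Or.inl (inv_mem ha)
      · right
        rw [show a⁻¹ * r₀ = r₀ * (a * r₀)⁻¹ * r₀ by group]
        have := hnorm r₀ _ (inv_mem ha)
        rwa [refl_inv] at this
  rcases key with hk | hk
  · exact hCM hk
  · exfalso
    have := hCd _ hk
    rw [map_mul, hgd, dk_refl h2 (by simp)] at this
    exact absurd this (by decide)

variable (h2 : Two F) (hp : (Nat.card F).Prime) {M : Subgroup (OG ι F)}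
  (hle : M ≤ commutator (OG ι F)) (hmon : ∀ g ∈ commutator (OG ι F), Mon g → g ∈ M)
include h2 hp hle hmon

/-- Odd dimension. -/
theorem frame_odd (hn : 7 ≤ Fintype.card ι) (hodd : Odd (Fintype.card ι)) {g₀ : OG ι F} (hg₀ : g₀ ∈ M)
    (hgm : ¬ Mon g₀) : commutator (OG ι F) ≤ M := by
  classical
  set n : OG ι F := flips (Finset.univ : Finset ι).toList
  have hn_app : ∀ v, n.1 v = -v := fun v => funext fun i => by
    rw [flips_app h2 (Finset.nodup_toList _)]; simp
  have hcomm : ∀ g : OG ι F, g * n = n * g := fun g => Subtype.ext (LinearEquiv.ext fun v => by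
    rw [mul_app, mul_app, hn_app, hn_app, map_neg])
  have hnn : n * n = 1 := flips_sq h2 (Finset.nodup_toList _)
  let G : Subgroup (OG ι F) :=
    { carrier := {g | g ∈ M ∨ g * n ∈ M}
      one_mem' := Or.inl (one_mem _)
      mul_mem' := fun {a b} ha hb => by
        rcases ha with ha | ha <;> rcases hb with hb | hb
        · exact Or.inl (mul_mem ha hb)
        · exact Or.inr (by rw [mul_assoc]; exact mul_mem ha hb)
        · exact Or.inr (by rw [mul_assoc, hcomm b, ← mul_assoc]; exact mul_mem ha hb)
        · refine Or.inl ?_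
          have := mul_mem ha hb
          rwa [mul_assoc, ← mul_assoc n, ← hcomm b, mul_assoc b, hnn, mul_one] at this
      inv_mem' := fun {a} ha => by
        rcases ha with ha | ha
        · exact Or.inl (inv_mem ha)
        · refine Or.inr ?_
          have := inv_mem ha
          rwa [mul_inv_rev, inv_eq_of_mul_eq_one_right hnn, ← hcomm] at this }
  have hflip : ∀ a, refl (sv F a) * n ∈ M := by
    intro a
    have e : refl (sv F a) * n = flips ((Finset.univ : Finset ι).erase a).toList :=
      Subtype.ext (LinearEquiv.ext fun v => funext fun i => by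
        rw [mul_app, hn_app, refl_sv_app h2, flips_app h2 (Finset.nodup_toList _)]
        by_cases h : i = a <;> simp [h])
    rw [e]
    refine hmon _ (flips_mem_omega h2 ?_) (mon_flips h2 _)
    rw [Finset.length_toList, Finset.card_erase_of_mem (Finset.mem_univ a), Finset.card_univ]
    exact Nat.Odd.sub_odd hodd odd_one
  have hG : Good (Finset.univ : Finset ι) G :=
    { fix := fun g _ i hi => absurd (Finset.mem_univ i) hi
      flip := fun a _ => Or.inr (hflip a)
      perm := fun σ hσ _ => Or.inl (hmon _ (perm_mem_omega (by omega) hσ) (mon_perm σ))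
      square := fun x hx hxG => by
        rcases hxG with h | h
        · have := dk_commutator h2 (hle h)
          rw [dk_refl h2 hx] at this
          exact absurd this (by decide)
        · obtain ⟨a⟩ : Nonempty ι := Fintype.card_pos_iff.1 (by omega)
          have h' := mul_mem (hle h) (inv_mem (hle (hflip a)))
          rw [mul_inv_rev, refl_inv, inv_eq_of_mul_eq_one_right hnn, mul_assoc, ← mul_assoc n n, hnn,
            one_mul] at h'
          exact mem_omega_square h2 hx (dot_sv_self a) h' }
  refine omega_le_of_pairs h2 (by omega) fun v w hv hw => ?_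
  have key : ∀ x : ι → F, x ⬝ᵥ x = 1 → refl x * n ∈ M := by
    intro x hx
    have hc := Good.all_units h2 hG hp (by rw [Finset.card_univ]; omega) (Or.inl hg₀) hgm (z := x)
      (Finset.subset_univ _) hx
    rcases hc.2 with h | h
    · exfalso
      have := dk_commutator h2 (hle h)
      rw [dk_refl h2 (by rw [hx]; exact one_ne_zero)] at this
      exact absurd this (by decide)
    · exact h
  have := mul_mem (key v hv) (inv_mem (key w hw))
  rwa [mul_inv_rev, refl_inv, inv_eq_of_mul_eq_one_right hnn, mul_assoc, ← mul_assoc n n, hnn,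
    one_mul] at this

/-- Even dimension. -/
theorem frame_even (hn : 10 ≤ Fintype.card ι) {g₁ : OG ι F} (hg₁ : g₁ ∈ M) (hgm₁ : ¬ Mon g₁) :
    commutator (OG ι F) ≤ M := by
  classical
  have hpair : ∀ a b : ι, refl (sv F a) * refl (sv F b) ∈ M := fun a b =>
    hmon _ (flip_pair_mem h2 a b) ((mon_refl_sv h2 a).mul h2 (mon_refl_sv h2 b))
  obtain ⟨g, hg, a, hga, hgm⟩ : ∃ g ∈ M, ∃ a,
      (g.1 (sv F a) = sv F a ∨ g.1 (sv F a) = -sv F a) ∧ ¬ Mon g := by
    by_contra hcon
    push Not at hcon
    exact hgm₁ ((show NoFix M from ⟨hle, hmon, fun g hg a h => hcon g hg a h⟩).eq_mon h2 hn g₁ hg₁)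
  have hfix : ∀ b, ∃ g ∈ M, g.1 (sv F b) = sv F b ∧ ¬ Mon g := by
    intro b
    obtain ⟨g', hg', hgb, hgm'⟩ : ∃ g' ∈ M,
        (g'.1 (sv F b) = sv F b ∨ g'.1 (sv F b) = -sv F b) ∧ ¬ Mon g' := by
      rcases eq_or_ne a b with rfl | hab
      · exact ⟨g, hg, hga, hgm⟩
      obtain ⟨c, hc, c', hc', hcc⟩ := Finset.one_lt_card.1 (show 1 < (({a, b} : Finset ι)ᶜ).card by
        rw [Finset.card_compl, Finset.card_pair hab]; omega)
      simp only [Finset.mem_compl, Finset.mem_insert, Finset.mem_singleton, not_or] at hc hc'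
      set σ := Equiv.swap a b * Equiv.swap c c'
      have hσ : Equiv.Perm.sign σ = 1 := by
        rw [map_mul, Equiv.Perm.sign_swap hab, Equiv.Perm.sign_swap hcc]; decide
      have hσa : σ a = b := by
        rw [Equiv.Perm.mul_apply, Equiv.swap_apply_of_ne_of_ne (Ne.symm hc.1) (Ne.symm hc'.1),
          Equiv.swap_apply_left]
      have hP := hmon _ (perm_mem_omega (F := F) (by omega) hσ) (mon_perm σ)
      refine ⟨permHom ι F σ * g * (permHom ι F σ)⁻¹, mul_mem (mul_mem hP hg) (inv_mem hP), ?_, fun hm => hgm ?_⟩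
      · rw [← hσa, ← perm_sv σ a, mul_app, mul_app, inv_app]
        rcases hga with h | h <;> rw [h] <;> simp [perm_sv]
      · have := (((mon_perm (F := F) σ).inv h2).mul h2 hm).mul h2 (mon_perm σ)
        rwa [show (permHom ι F σ)⁻¹ * (permHom ι F σ * g * (permHom ι F σ)⁻¹) * permHom ι F σ = g by group]
          at this
    rcases hgb with h | h
    · exact ⟨g', hg', h, hgm'⟩
    obtain ⟨c, hcb⟩ := Fintype.exists_ne_of_one_lt_card (show 1 < Fintype.card ι by omega) b
    refine ⟨refl (sv F b) * refl (sv F c) * g', mul_mem (hpair b c) hg', ?_, fun hm => hgm' ?_⟩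
    · rw [mul_app, mul_app, h, map_neg, map_neg, refl_sv h2 c b, if_neg hcb, refl_sv h2 b b, if_pos rfl,
        neg_neg]
    · have := ((mon_refl_sv (F := F) h2 c).mul h2 (mon_refl_sv h2 b)).mul h2 hm
      rwa [show refl (sv F c) * refl (sv F b) * (refl (sv F b) * refl (sv F c) * g') = g' by
        rw [← mul_assoc, ← mul_assoc, mul_assoc (refl (sv F c)), refl_mul_self, mul_one, refl_mul_self,
          one_mul]] at this
  -- the stabiliser of a frame vector
  let G : ι → Subgroup (OG ι F) := fun b =>
    { carrier := {g | g.1 (sv F b) = sv F b ∧ (g ∈ M ∨ g * refl (sv F b) ∈ M)}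
      one_mem' := ⟨rfl, Or.inl (one_mem _)⟩
      mul_mem' := fun {x y} hx hy => by
        refine ⟨by rw [mul_app, hy.1, hx.1], ?_⟩
        have hc : y * refl (sv F b) = refl (sv F b) * y := by
          have := refl_conj h2 y (sv F b)
          rw [hy.1] at this
          conv_rhs => rw [← this]
          group
        rcases hx.2 with ha | ha <;> rcases hy.2 with hb | hb
        · exact Or.inl (mul_mem ha hb)
        · exact Or.inr (by rw [mul_assoc]; exact mul_mem ha hb)
        · exact Or.inr (by rw [mul_assoc, hc, ← mul_assoc]; exact mul_mem ha hb)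
        · refine Or.inl ?_
          have := mul_mem ha hb
          rwa [mul_assoc, ← mul_assoc (refl (sv F b)), ← hc, mul_assoc y, refl_mul_self, mul_one] at this
      inv_mem' := fun {x} hx => by
        refine ⟨by conv_lhs => rw [← hx.1]; rw [inv_app], ?_⟩
        rcases hx.2 with ha | ha
        · exact Or.inl (inv_mem ha)
        · refine Or.inr ?_
          have hc : refl (sv F b) * x⁻¹ = x⁻¹ * refl (sv F b) := by
            have := refl_conj h2 x (sv F b)
            rw [hx.1] at this
            conv_rhs => rw [← this]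
            group
          have := inv_mem ha
          rwa [mul_inv_rev, refl_inv, hc] at this }
  have hG : ∀ b, Good ((Finset.univ : Finset ι).erase b) (G b) := fun b =>
    { fix := fun g hg i hi => by
        obtain rfl : i = b := by simpa using hi
        exact hg.1
      flip := fun a ha => ⟨by rw [refl_sv h2, if_neg (Finset.mem_erase.1 ha).1], Or.inr (hpair a b)⟩
      perm := fun σ hσ hfix => ⟨by rw [perm_sv, hfix b (by simp)],
        Or.inl (hmon _ (perm_mem_omega (by omega) hσ) (mon_perm σ))⟩
      square := fun x hx hxG => by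
        rcases hxG.2 with h | h
        · have := dk_commutator h2 (hle h)
          rw [dk_refl h2 hx] at this
          exact absurd this (by decide)
        · exact mem_omega_square h2 hx (dot_sv_self b) (hle h) }
  have hK : ∀ b : ι, 7 ≤ ((Finset.univ : Finset ι).erase b).card := fun b => by
    rw [Finset.card_erase_of_mem (Finset.mem_univ b), Finset.card_univ]; omega
  have perp : ∀ (b : ι) (v : ι → F), v ⬝ᵥ v = 1 → v b = 0 → refl v * refl (sv F b) ∈ M := by
    intro b v hv hvb
    obtain ⟨g, hg, hgb, hgm⟩ := hfix b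
    have hc := Good.all_units h2 (hG b) hp (hK b) (show g ∈ G b from ⟨hgb, Or.inl hg⟩) hgm (z := v)
      (fun i hi => Finset.mem_erase.2 ⟨fun e => mem_supp.1 hi (e ▸ hvb), Finset.mem_univ i⟩) hv
    rcases hc.2.2 with h | h
    · exfalso
      have := dk_commutator h2 (hle h)
      rw [dk_refl h2 (by rw [hv]; exact one_ne_zero)] at this
      exact absurd this (by decide)
    · exact h
  obtain ⟨b⟩ : Nonempty ι := Fintype.card_pos_iff.1 (by omega)
  have wide : ∀ v : ι → F, v ⬝ᵥ v = 1 → (∃ c, v c = 0) → refl v * refl (sv F b) ∈ M := by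
    rintro v hv ⟨c, hc⟩
    have := mul_mem (perp c v hv hc) (hpair c b)
    rwa [mul_assoc, ← mul_assoc (refl (sv F c)), refl_mul_self, one_mul] at this
  have all : ∀ v : ι → F, v ⬝ᵥ v = 1 → refl v * refl (sv F b) ∈ M := by
    intro v hv
    by_cases hz : ∃ c, v c = 0
    · exact wide v hv hz
    push Not at hz
    obtain ⟨g, hg, hgb, hgm⟩ := hfix b
    obtain ⟨k, hk, i, -, hki⟩ := Good.lose h2 (hG b) hp (hK b) (show g ∈ G b from ⟨hgb, Or.inl hg⟩) hgm
      (z := v) fun i _ => hz i
    have h := wide (k.1 v) (by rw [OG.dot h2, hv]) ⟨i, hki⟩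
    have e : refl (k.1 v) * refl (sv F b) = k * (refl v * refl (sv F b)) * k⁻¹ := by
      conv_lhs => rw [← hk.1]
      rw [← refl_conj h2, ← refl_conj h2]; group
    rw [e] at h
    rcases hk.2 with hkM | hkM
    · have := mul_mem (mul_mem (inv_mem hkM) h) hkM
      rwa [show k⁻¹ * (k * (refl v * refl (sv F b)) * k⁻¹) * k = refl v * refl (sv F b) by group] at this
    · have := mul_mem (mul_mem (inv_mem hkM) h) hkM
      rw [show (k * refl (sv F b))⁻¹ * (k * (refl v * refl (sv F b)) * k⁻¹) * (k * refl (sv F b)) =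
        (refl (sv F b))⁻¹ * (refl v * refl (sv F b)) * refl (sv F b) by group, refl_inv, mul_assoc,
        mul_assoc (refl v), refl_mul_self, mul_one] at this
      have := inv_mem this
      rwa [mul_inv_rev, refl_inv, refl_inv] at this
  refine omega_le_of_pairs h2 (by omega) fun v w hv hw => ?_
  have := mul_mem (all v hv) (inv_mem (all w hw))
  rwa [mul_inv_rev, refl_inv, refl_inv, mul_assoc, ← mul_assoc (refl (sv F b)), refl_mul_self, one_mul] at this

end Cfsg.Agent.DecompMax.OF
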