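import Cfsg.Agent.DecompMax.FrameGen
import Cfsg.Agent.DecompMax.Comp
import Cfsg.Agent.OrthMax.ProperBlocks

/-!
Stabilisers of orthonormal frames are maximal in `Ω` over prime fields.
-/

set_option autoImplicit false
set_option linter.style.haveILetI false
set_option linter.unusedSectionVars false
set_option linter.unusedVariables false

namespace Cfsg.Agent.DecompMax.OF

open QuadraticMap Matrix Module Cfsg.Geo Cfsg.Agent.Classical Cfsg.Agent.GeoClasses
open scoped MatrixGroups Matrix

universe u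

variable {F : Type u} [Field F] {ι : Type} [Fintype ι] [DecidableEq ι] {Q : (ι → F) → F}

/-- A frame is spanned by the images of the standard vectors under a similitude. -/
theorem exists_frame_simil (h2 : Two F) (hQ : IsNondegenerateQuadraticForm Q) {t : ℕ}
    {D : Fin t → Submodule F (ι → F)} (hD : IsOrthogonalMDecomposition Q 1 D) [Nonempty ι] :
    t = Fintype.card ι ∧ ∃ (Φ : (Fin t → F) ≃ₗ[F] (ι → F)) (c : F), c ≠ 0 ∧
      (∀ x, Q (Φ x) = c * (x ⬝ᵥ x)) ∧ ∀ i, D i = F ∙ Φ (sv F i) := by
  classical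
  have hM := hD.decomp.decomp
  have hnt : t = Fintype.card ι := by
    obtain ⟨b, -⟩ := ClassicalMax.exists_adapted_basis hM
    have := Module.finrank_eq_card_basis b
    rw [Module.finrank_fintype_fun_eq_card, Fintype.card_prod, Fintype.card_fin, Fintype.card_fin,
      one_mul] at this
    exact this.symm
  refine ⟨hnt, ?_⟩
  obtain ⟨C⟩ := exists_components hM
  set R := toQF hQ
  have i₀ : Fin t := ⟨0, hnt ▸ Fintype.card_pos⟩
  have hanis : ∀ i, ∀ v ∈ D i, v ≠ 0 → Q v ≠ 0 := fun i v hv hv0 h => by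
    obtain ⟨y, hy, hvy⟩ := (hD.decomp.nondegenerate i v hv hv0).2
    obtain ⟨r, hr⟩ := exists_smul_eq_of_finrank_eq_one (hM.finrank_eq i) (x := ⟨v, hv⟩)
      (fun e => hv0 (congrArg Subtype.val e)) ⟨y, hy⟩
    have hy' : y = r • v := (congrArg Subtype.val hr).symm
    refine hvy ?_
    show polar (⇑R) v y = 0
    rw [hy', polar_smul_right, Cfsg.Agent.OrthGen.polar_self_two, show R v = 0 from h, mul_zero, smul_zero]
  obtain ⟨v₀, hv₀, hv₀0⟩ := exists_ne_zero_mem hM i₀
  have hex : ∀ i, ∃ v ∈ D i, Q v = Q v₀ := fun i => by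
    obtain ⟨e, he⟩ := hD.isometric i₀ i
    exact ⟨(e ⟨v₀, hv₀⟩ : ι → F), (e ⟨v₀, hv₀⟩).2, he ⟨v₀, hv₀⟩⟩
  choose v hv hQv using hex
  have hc : Q v₀ ≠ 0 := hanis i₀ v₀ hv₀ hv₀0
  have hv0 : ∀ i, v i ≠ 0 := fun i h => hc (by
    rw [← hQv i, h]; exact QuadraticMap.map_zero R)
  let L : (Fin t → F) →ₗ[F] (ι → F) := ∑ i, LinearMap.smulRight (LinearMap.proj i) (v i)
  have hL : ∀ x, L x = ∑ i, x i • v i := fun x => by simp [L]
  have hproj : ∀ x r, C.proj r (L x) = x r • v r := fun x r => by
    rw [hL, map_sum, Finset.sum_eq_single r (fun i _ hi => by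
      rw [map_smul, C.of_mem_ne hi (hv i), smul_zero]) (by simp), map_smul, C.of_mem (hv r)]
  have hinj : Function.Injective L := fun x y e => funext fun r => by
    have := hproj x r
    rw [e, hproj] at this
    exact (smul_left_injective F (hv0 r) this).symm
  let Φ : (Fin t → F) ≃ₗ[F] (ι → F) := LinearMap.linearEquivOfInjective L hinj
    (by rw [Module.finrank_fin_fun, Module.finrank_fintype_fun_eq_card, hnt])
  have hΦ : ∀ x, Φ x = L x := fun x => LinearMap.linearEquivOfInjective_apply (f := L) (x := x) ..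
  refine ⟨Φ, Q v₀, hc, fun x => mul_left_cancel₀ h2 ?_, fun i => ?_⟩
  · show 2 * R (Φ x) = _
    rw [← Cfsg.Agent.OrthGen.polar_self_two, hΦ, C.form_eq_sum (f := polar ⇑R)
      (fun a b w => polar_add_left R a b w) (fun a b w => polar_add_right R a b w)
      (fun i j hij a ha b hb => hD.decomp.orthogonal i j hij a ha b hb), dotProduct, Finset.mul_sum,
      Finset.mul_sum]
    refine Finset.sum_congr rfl fun r _ => ?_
    rw [hproj, polar_smul_left, polar_smul_right, Cfsg.Agent.OrthGen.polar_self_two,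
      show R (v r) = Q v₀ from hQv r, smul_eq_mul, smul_eq_mul]
    ring
  · have e : Φ (sv F i) = v i := by
      rw [hΦ, hL, Finset.sum_eq_single i (fun j _ hj => by simp [hj]) (by simp)]
      simp
    rw [e]
    refine (Submodule.eq_of_le_of_finrank_eq (Submodule.span_le.2 (by simpa using hv i)) ?_).symm
    rw [hM.finrank_eq, finrank_span_singleton (hv0 i)]

variable [Finite F]

/-- Stabilisers of frames are maximal in `Ω` over prime fields of odd order: odd dimension at least seven, even dimension at least ten. -/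
theorem frame_maximal (h2 : Two F) (hp : (Nat.card F).Prime) (hQ : IsNondegenerateQuadraticForm Q)
    (hn : 7 ≤ Fintype.card ι) (hn' : Even (Fintype.card ι) → 10 ≤ Fintype.card ι) {t : ℕ} {D : Fin t → Submodule F (ι → F)}
    (hD : IsOrthogonalMDecomposition Q 1 D) :
    IsMaximalIn (omegaGL Q) (decompositionStabilizer D ⊓ omegaGL Q) := by
  classical
  haveI : Nonempty ι := Fintype.card_pos_iff.1 (by omega)
  obtain ⟨hnt, Φ, c, hc, hΦ, hDΦ⟩ := exists_frame_simil h2 hQ hD
  set R := toQF hQ
  have hcong : OQ (c • Qd (Fin t) F) = OQ (Qd (Fin t) F) := by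
    ext g
    simp only [mem_OQ, QuadraticMap.smul_apply, smul_eq_mul, mul_eq_mul_left_iff, hc, or_false]
  let E : OG (Fin t) F ≃* OQ R :=
    (MulEquiv.subgroupCongr hcong.symm).trans (OQCongr Φ fun x => (hΦ x).trans (by simp [Qd_apply]))
  let jj : OG (Fin t) F →* GL ι F := (oqToGL R).comp E.toMonoidHom
  have hjinj : Function.Injective jj := (oqToGL_injective R).comp E.injective
  have himg : (commutator (OG (Fin t) F)).map jj = omegaGL Q := by
    rw [← Subgroup.map_map, map_commutator_top_of_equiv, map_oqToGL_commutator]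
    rfl
  have happ : ∀ g x, (jj g : Matrix ι ι F) *ᵥ Φ x = Φ (g.1 x) := fun g x => by
    rw [show jj g = oqToGL R (E g) from rfl, oqToGL_mulVec]
    simp [E, OQCongr]
  have hmem : ∀ g, jj g ∈ decompositionStabilizer D ↔ Mon g := fun g => by
    constructor
    · rintro ⟨σ, hσ⟩ i
      refine ⟨σ i, fun k hk => ?_⟩
      have hm : Φ (g.1 (sv F i)) ∈ D (σ i) := by
        rw [← hσ i]
        refine ⟨Φ (sv F i), by rw [hDΦ]; exact Submodule.mem_span_singleton_self _, ?_⟩
        rw [Matrix.toLin'_apply, happ]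
      rw [hDΦ, Submodule.mem_span_singleton] at hm
      obtain ⟨r, hr⟩ := hm
      rw [← map_smul] at hr
      rw [← Φ.injective hr]
      simp [hk]
    · intro h
      refine mem_stabilizer_of_forall_mem hD.decomp.decomp fun i x hx => ?_
      rw [hDΦ] at hx
      obtain ⟨r, rfl⟩ := Submodule.mem_span_singleton.1 hx
      obtain ⟨j, hj⟩ := h.col h2 i
      refine ⟨j, ?_⟩
      rw [Matrix.mulVec_smul, happ, hDΦ]
      refine Submodule.smul_mem _ _ ?_
      rcases hj with hj | hj <;> rw [hj]
      · exact Submodule.mem_span_singleton_self _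
      · rw [map_neg]; exact neg_mem (Submodule.mem_span_singleton_self _)
  refine ⟨lt_of_le_not_ge inf_le_right fun hle => Cfsg.Agent.OrthMax.omega_not_le_decompositionStabilizer
    (bNondeg_toQF hQ) (by omega) hD.decomp.decomp (hle.trans inf_le_left), fun M hM hMK => ?_⟩
  by_cases hMD : M ≤ decompositionStabilizer D
  · exact Or.inl (le_antisymm (le_inf hMD hMK) hM)
  refine Or.inr (le_antisymm hMK ?_)
  obtain ⟨g1, hg1M, hg1D⟩ := SetLike.not_le_iff_exists.1 hMD
  obtain ⟨g, hg, rfl⟩ : g1 ∈ (commutator (OG (Fin t) F)).map jj := himg ▸ hMK hg1M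
  have hle : M.comap jj ≤ commutator (OG (Fin t) F) := by
    rw [← Subgroup.map_le_map_iff_of_injective hjinj, himg]
    exact (Subgroup.map_comap_le _ _).trans hMK
  have hmon : ∀ x ∈ commutator (OG (Fin t) F), Mon x → x ∈ M.comap jj := fun x hx hxm =>
    hM ⟨(hmem x).2 hxm, himg ▸ Subgroup.mem_map_of_mem jj hx⟩
  have hgm : ¬ Mon g := fun h => hg1D ((hmem g).2 h)
  have hall : commutator (OG (Fin t) F) ≤ M.comap jj := by
    rcases Nat.even_or_odd (Fintype.card (Fin t)) with he | ho
    · refine frame_even h2 hp hle hmon ?_ (g₁ := g) hg1M hgm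
      rw [Fintype.card_fin] at he ⊢
      exact (hn' (hnt ▸ he)).trans hnt.ge
    · exact frame_odd h2 hp hle hmon (by rw [Fintype.card_fin]; omega) ho (g₀ := g) hg1M hgm
  rw [← himg]
  exact Subgroup.map_le_iff_le_comap.2 hall

end Cfsg.Agent.DecompMax.OF
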