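import Cfsg.Agent.DecompMax.FrameSign

/-!
Monomial elements of the commutator subgroup of the orthogonal group of the sum of squares.
-/

set_option autoImplicit false
set_option linter.style.haveILetI false
set_option linter.unusedSectionVars false
set_option linter.unusedVariables false

namespace Cfsg.Agent.DecompMax.OF

open QuadraticMap Module Cfsg.Agent.Classical
open scoped Matrix

universe u

variable {F : Type u} [Field F] [Finite F] {ι : Type} [Fintype ι] [DecidableEq ι]

theorem perm_mem_omega (h5 : 5 ≤ Fintype.card ι) {σ : Equiv.Perm ι} (hσ : Equiv.Perm.sign σ = 1) :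
    permHom ι F σ ∈ commutator (OG ι F) := by
  have : σ ∈ commutator (Equiv.Perm ι) := by
    rw [alternatingGroup.commutator_perm_eq (by rwa [Nat.card_eq_fintype_card])]
    exact Equiv.Perm.mem_alternatingGroup.2 hσ
  have h := Subgroup.mem_map_of_mem (permHom ι F) this
  rw [_root_.commutator_def, Subgroup.map_commutator] at h
  rw [_root_.commutator_def]
  exact Subgroup.commutator_mono le_top le_top h

theorem refl_pair_mem (h2 : Two F) {x y : ι → F} (hx : x ⬝ᵥ x ≠ 0) (hy : y ⬝ᵥ y ≠ 0)
    (hsq : IsSquare ((x ⬝ᵥ x) * (y ⬝ᵥ y))) : refl x * refl y ∈ commutator (OG ι F) := by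
  have h := (Forms.refls_mem_commutator_iff (bNondeg_Qd h2) (OrthGen.notExceptional_of_two_ne_zero h2)
    [⟨x, hx⟩, ⟨y, hy⟩]).2 ⟨by simp, by simpa using hsq⟩
  simpa [Forms.refls, refl_eq hx, refl_eq hy] using h

theorem flip_pair_mem (h2 : Two F) (a b : ι) :
    refl (sv F a) * refl (sv F b) ∈ commutator (OG ι F) :=
  refl_pair_mem h2 (by simp) (by simp) (by simp)

theorem flips_mem_omega (h2 : Two F) {l : List ι} (hl : Even l.length) :
    (flips l : OG ι F) ∈ commutator (OG ι F) := by
  induction hn : l.length using Nat.strong_induction_on generalizing l with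
  | _ n ih =>
    rcases l with _ | ⟨a, _ | ⟨b, l⟩⟩
    · simp [flips, one_mem]
    · simp at hl
    · have hl' : Even l.length := by
        simp only [List.length_cons, Nat.even_add_one, not_not] at hl
        exact hl
      have e : (flips (a :: b :: l) : OG ι F) = refl (sv F a) * refl (sv F b) * flips l := by
        simp [flips, mul_assoc]
      rw [e]
      exact mul_mem (flip_pair_mem h2 a b) (ih l.length (by subst hn; simp) hl' rfl)

theorem mem_omega_square (h2 : Two F) {x y : ι → F} (hx : x ⬝ᵥ x ≠ 0) (hy : y ⬝ᵥ y = 1)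
    (h : refl x * refl y ∈ commutator (OG ι F)) : IsSquare (x ⬝ᵥ x) := by
  have hy' : y ⬝ᵥ y ≠ 0 := by rw [hy]; exact one_ne_zero
  have h' := (Forms.refls_mem_commutator_iff (bNondeg_Qd h2) (OrthGen.notExceptional_of_two_ne_zero h2)
    [⟨x, hx⟩, ⟨y, hy'⟩]).1 (by simpa [Forms.refls, refl_eq hx, refl_eq hy'] using h)
  simpa [hy] using h'.2

end Cfsg.Agent.DecompMax.OF
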