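import Cfsg.Agent.DecompMax.FrameSign

/-!
Finite subgroups of the rotation group of a three-dimensional sum of squares: either a non-trivial
element fixes a singular vector, or there are at most fifteen half-turns.
-/

set_option autoImplicit false
set_option linter.style.haveILetI false
set_option linter.unusedSectionVars false
set_option linter.unusedVariables false
set_option maxHeartbeats 1000000

namespace Cfsg.Agent.DecompMax.OF

open QuadraticMap Module Cfsg.Agent.Classical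
open scoped Matrix

universe u

theorem le_mul_aux {N a x : ℕ} (k : ℕ) (h : N = 2 * a * (x + 1)) (hx : k ≤ x) :
    2 * (k + 1) * a ≤ N := by
  subst h; nlinarith [Nat.mul_le_mul_left a hx]

theorem sum_aux {N a b d x y z : ℕ} (hx : N = 2 * a * (x + 1)) (hy : N = 2 * b * (y + 1))
    (hz : N = 2 * d * (z + 1)) (h : a * x + b * y + d * z + 1 = N) : 2 * (a + b + d) = N + 2 := by
  linarith

/-- The arithmetic of three orbits of half lines. -/
theorem three_arith {N a₁ a₂ a₃ c₁ c₂ c₃ : ℕ} (h₁ : N = 2 * a₁ * c₁) (h₂ : N = 2 * a₂ * c₂)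
    (h₃ : N = 2 * a₃ * c₃) (hs : a₁ * (c₁ - 1) + a₂ * (c₂ - 1) + a₃ * (c₃ - 1) + 1 = N)
    (ha₁ : 2 ≤ a₁) (ha₂ : 2 ≤ a₂) (ha₃ : 2 ≤ a₃) (hc₁ : 2 ≤ c₁) (hc₂ : 2 ≤ c₂) (hc₃ : 2 ≤ c₃) :
    (if Even c₁ then a₁ else 0) + (if Even c₂ then a₂ else 0) + (if Even c₃ then a₃ else 0) ≤ 15 := by
  have key : ∀ {a b d x y z : ℕ}, N = 2 * a * x → N = 2 * b * y → N = 2 * d * z →
      a * (x - 1) + b * (y - 1) + d * (z - 1) + 1 = N → 2 ≤ a → 2 ≤ x → 2 ≤ y → 2 ≤ z → x ≤ 5 := by
    intro a b d x y z hx hy hz h ha hx2 hy2 hz2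
    by_contra hlt
    push Not at hlt
    obtain ⟨x', rfl⟩ : ∃ x', x = x' + 1 := ⟨x - 1, by omega⟩
    obtain ⟨y', rfl⟩ : ∃ y', y = y' + 1 := ⟨y - 1, by omega⟩
    obtain ⟨z', rfl⟩ : ∃ z', z = z' + 1 := ⟨z - 1, by omega⟩
    simp only [Nat.add_sub_cancel] at h
    have e := sum_aux hx hy hz h
    have ha' := le_mul_aux 5 hx (by omega)
    rcases Nat.lt_or_ge y' 2 with hy' | hy'
    · obtain rfl : y' = 1 := by omega
      rcases Nat.lt_or_ge z' 2 with hz' | hz'
      · obtain rfl : z' = 1 := by omega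
        omega
      · have := le_mul_aux 2 hz hz'
        omega
    · have := le_mul_aux 2 hy hy'
      have := le_mul_aux 1 hz (by omega)
      omega
  have k₁ := key h₁ h₂ h₃ hs ha₁ hc₁ hc₂ hc₃
  have k₂ := key h₂ h₁ h₃ (by linarith) ha₂ hc₂ hc₁ hc₃
  have k₃ := key h₃ h₂ h₁ (by linarith) ha₃ hc₃ hc₂ hc₁
  interval_cases c₁ <;> interval_cases c₂ <;> interval_cases c₃ <;>
    norm_num [Nat.even_iff] at h₁ h₂ h₃ hs ⊢ <;> omega

variable {F : Type u} [Field F] [Finite F] (h2 : Two F)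

/-- The half-turn about a vector. -/
noncomputable def halfTurn (v : Fin 3 → F) : OG (Fin 3) F := flips [0, 1, 2] * refl v

include h2

theorem neg_app (v : Fin 3 → F) : (flips [0, 1, 2] : OG (Fin 3) F).1 v = -v :=
  funext fun i => by rw [flips_app h2 (by decide), if_pos (by fin_cases i <;> simp), Pi.neg_apply]

theorem halfTurn_app (v w : Fin 3 → F) : (halfTurn v).1 w = -(refl v).1 w := by
  rw [halfTurn, mul_app, neg_app h2]

theorem halfTurn_self {v : Fin 3 → F} (hv : v ⬝ᵥ v ≠ 0) : (halfTurn v).1 v = v := by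
  rw [halfTurn_app h2, refl_self hv, neg_neg]

theorem halfTurn_perp {v w : Fin 3 → F} (h : v ⬝ᵥ w = 0) : (halfTurn v).1 w = -w := by
  rw [halfTurn_app h2, refl_of_perp h]

theorem dk_halfTurn {v : Fin 3 → F} (hv : v ⬝ᵥ v ≠ 0) : dk h2 (halfTurn v) = 1 := by
  rw [halfTurn, map_mul, dk_flips, dk_refl h2 hv]
  decide

theorem eq_neg_zero {w : Fin 3 → F} (h : w = -w) : w = 0 := funext fun i => by
  have := congrFun h i
  rw [Pi.neg_apply] at this
  exact (mul_eq_zero.1 (by linear_combination this : (2 : F) * w i = 0)).resolve_left h2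

theorem halfTurn_sq {v : Fin 3 → F} (hv : v ⬝ᵥ v ≠ 0) : halfTurn v * halfTurn v = 1 := by
  refine Subtype.ext (LinearEquiv.ext fun w => ?_)
  rw [mul_app, halfTurn_app h2, halfTurn_app h2, map_neg, neg_neg, ← mul_app, refl_mul_self]

theorem halfTurn_ne_one {v : Fin 3 → F} (hv : v ⬝ᵥ v ≠ 0) : halfTurn v ≠ 1 := by
  intro e
  have : ∀ w, v ⬝ᵥ w = 0 → w = 0 := fun w hw => eq_neg_zero h2 (by
    rw [← halfTurn_perp h2 hw, e]; rfl)
  -- two independent coordinates combinations orthogonal to `v`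
  by_cases h0 : v 0 = 0
  · exact absurd (congrFun (this (sv F 0) (by simp [h0])) 0) (by simp)
  · have := congrFun (this (v 1 • sv F 0 - v 0 • sv F 1) (by simp; ring)) 1
    simp at this
    exact h0 this

theorem fix_span_of_dk {g : OG (Fin 3) F} (hg : dk h2 g = 1) (hg1 : g ≠ 1) :
    finrank F (fixSpace g) = 1 := by
  have h := finrank_fix_parity h2 hg
  have hle : finrank F (fixSpace g) ≤ 3 := by
    have := (fixSpace g).finrank_le
    rwa [finrank_fintype_fun_eq_card, Fintype.card_fin] at this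
  rw [Fintype.card_fin, Nat.even_iff] at h
  rcases Nat.lt_or_ge (finrank F (fixSpace g)) 2 with h' | h'
  · omega
  · exfalso
    have htop : fixSpace g = ⊤ := Submodule.eq_top_of_finrank_eq (by
      rw [finrank_fintype_fun_eq_card, Fintype.card_fin]; omega)
    exact hg1 (Subtype.ext (LinearEquiv.ext fun w =>
      mem_fixSpace.1 (htop ▸ Submodule.mem_top)))

omit h2 in
theorem span_eq_fix {g : OG (Fin 3) F} {v : Fin 3 → F} (hv : v ≠ 0) (hgv : g.1 v = v)
    (h : finrank F (fixSpace g) = 1) : fixSpace g = F ∙ v :=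
  (Submodule.eq_of_le_of_finrank_eq ((Submodule.span_singleton_le_iff_mem _ _).2 (mem_fixSpace.2 hgv))
    (by rw [finrank_span_singleton hv, h])).symm

theorem halfTurn_eq_of_axis {v w : Fin 3 → F} (hv : v ⬝ᵥ v ≠ 0) {g : OG (Fin 3) F} (hg : g * g = 1)
    (hd : dk h2 g = 1) (hg1 : g ≠ 1) (hgv : g.1 v = v) (hw : v ⬝ᵥ w = 0) : g.1 w = -w := by
  have hfix : g.1 (w + g.1 w) = w + g.1 w := by
    rw [map_add, ← mul_app g g, hg, Subgroup.coe_one, LinearEquiv.coe_one, id_eq, add_comm]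
  have hv0 : v ≠ 0 := fun h => hv (by rw [h, zero_dotProduct])
  have hmem : w + g.1 w ∈ F ∙ v := span_eq_fix hv0 hgv (fix_span_of_dk h2 hd hg1) ▸ mem_fixSpace.2 hfix
  obtain ⟨c, hc⟩ := Submodule.mem_span_singleton.1 hmem
  have h0 : v ⬝ᵥ g.1 w = 0 := by
    have := OG.dot h2 g v w
    rwa [hgv, hw] at this
  have hc0 : c = 0 := by
    have := congrArg (fun z => v ⬝ᵥ z) hc
    simp only [dotProduct_smul, dotProduct_add, hw, h0, add_zero, smul_eq_mul] at this
    exact (mul_eq_zero.1 this).resolve_right hv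
  rw [hc0, zero_smul] at hc
  exact eq_neg_of_add_eq_zero_right hc.symm

theorem invol_unique {v : Fin 3 → F} (hv : v ⬝ᵥ v ≠ 0) {g g' : OG (Fin 3) F} (hg : g * g = 1)
    (hd : dk h2 g = 1) (hg1 : g ≠ 1) (hgv : g.1 v = v) (hg' : g' * g' = 1) (hd' : dk h2 g' = 1)
    (hg1' : g' ≠ 1) (hgv' : g'.1 v = v) : g = g' := by
  refine Subtype.ext (LinearEquiv.ext fun z => ?_)
  set c := (v ⬝ᵥ z) / (v ⬝ᵥ v)
  have hp : v ⬝ᵥ (z - c • v) = 0 := by
    rw [dotProduct_sub, dotProduct_smul, smul_eq_mul, div_mul_cancel₀ _ hv, sub_self]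
  have e : z = (z - c • v) + c • v := by abel
  rw [e, map_add, map_add, halfTurn_eq_of_axis h2 hv hg hd hg1 hgv hp,
    halfTurn_eq_of_axis h2 hv hg' hd' hg1' hgv' hp, map_smul, map_smul, hgv, hgv']

variable (K : Subgroup (OG (Fin 3) F))

omit h2 in
/-- A non-trivial element fixes a singular vector. -/
def Unip : Prop := ∃ g ∈ K, g ≠ 1 ∧ ∃ u : Fin 3 → F, u ≠ 0 ∧ u ⬝ᵥ u = 0 ∧ g.1 u = u

variable {K} (hK : ∀ g ∈ K, dk h2 g = 1) (hno : ¬ Unip K)
  (hh : ∀ i, halfTurn (sv F i) ∈ K) (hc : permHom (Fin 3) F (finRotate 3) ∈ K)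

include hK hno hh hc

/-- Without singular axes there are at most fifteen involutions. -/
theorem card_invol_le (I : Finset (OG (Fin 3) F)) (hI : ∀ g ∈ I, g ∈ K ∧ g * g = 1 ∧ g ≠ 1) :
    I.card ≤ 15 := by
  classical
  haveI := Fintype.ofFinite (OG (Fin 3) F)
  set N := Nat.card K
  set Kf : Finset (OG (Fin 3) F) := Finset.univ.filter (· ∈ K)
  have hKf : ∀ {g}, g ∈ Kf ↔ g ∈ K := by simp [Kf]
  have hN : N = Kf.card := by
    show Nat.card ↥K = _
    rw [Nat.card_eq_fintype_card, Fintype.card_of_subtype Kf fun x => hKf]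
  set Kne := Kf.erase 1
  set Λ := Kne.image fixSpace
  set T : Submodule F (Fin 3 → F) → ℕ := fun L => (Kne.filter fun g => fixSpace g = L).card
  set cc : Submodule F (Fin 3 → F) → ℕ := fun L => T L + 1
  set O : Submodule F (Fin 3 → F) → Finset (Submodule F (Fin 3 → F)) :=
    fun L => Kf.image fun g => L.map g.1.toLinearMap
  have hmap : ∀ (g : OG (Fin 3) F) (L : Submodule F (Fin 3 → F)) (h : OG (Fin 3) F),
      fixSpace h = L → fixSpace (g * h * g⁻¹) = L.map g.1.toLinearMap := by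
    rintro g L h rfl
    ext z
    rw [mem_fixSpace, Submodule.mem_map]
    constructor
    · intro hz
      refine ⟨(g⁻¹ : OG (Fin 3) F).1 z, ?_, app_inv g z⟩
      rw [mem_fixSpace]
      conv_rhs => rw [← hz]
      rw [mul_app, mul_app, inv_app]
    · rintro ⟨w, hw, rfl⟩
      show (g * h * g⁻¹).1 (g.1 w) = g.1 w
      rw [mul_app, mul_app, inv_app, mem_fixSpace.1 hw]
  have hcomp : ∀ (a b : OG (Fin 3) F) (L : Submodule F (Fin 3 → F)),
      (L.map b.1.toLinearMap).map a.1.toLinearMap = L.map (a * b).1.toLinearMap := fun a b L => by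
    rw [← Submodule.map_comp]; rfl
  have hΛ : ∀ L ∈ Λ, ∃ v : Fin 3 → F, v ⬝ᵥ v ≠ 0 ∧ L = F ∙ v ∧
      ∃ g ∈ Kne, fixSpace g = L := by
    intro L hL
    obtain ⟨g, hg, rfl⟩ := Finset.mem_image.1 hL
    have hg' := Finset.mem_erase.1 hg
    have h1 := fix_span_of_dk h2 (hK g (hKf.1 hg'.2)) hg'.1
    obtain ⟨v, hv, hv0⟩ := Submodule.exists_mem_ne_zero_of_ne_bot (p := fixSpace g) fun h => by
      rw [h, finrank_bot] at h1; exact zero_ne_one h1
    exact ⟨v, fun h => hno ⟨g, hKf.1 hg'.2, hg'.1, v, hv0, h, mem_fixSpace.1 hv⟩,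
      span_eq_fix hv0 (mem_fixSpace.1 hv) h1, g, hg, rfl⟩
  have hΛmap : ∀ L ∈ Λ, ∀ g ∈ Kf, L.map g.1.toLinearMap ∈ Λ ∧ T (L.map g.1.toLinearMap) = T L := by
    intro L hL g hg
    obtain ⟨v, -, -, h, hh', hfx⟩ := hΛ L hL
    have hconj : ∀ k ∈ Kne, g * k * g⁻¹ ∈ Kne := fun k hk => by
      have hk' := Finset.mem_erase.1 hk
      refine Finset.mem_erase.2 ⟨fun e => hk'.1 ?_, hKf.2 (K.mul_mem (K.mul_mem (hKf.1 hg) (hKf.1 hk'.2))
        (K.inv_mem (hKf.1 hg)))⟩
      rwa [mul_inv_eq_one, mul_eq_left] at e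
    refine ⟨Finset.mem_image.2 ⟨g * h * g⁻¹, hconj h hh', hmap g L h hfx⟩,
      (Finset.card_bij (fun k _ => g * k * g⁻¹) ?_ ?_ ?_).symm⟩
    · intro k hk
      have hk' := Finset.mem_filter.1 hk
      exact Finset.mem_filter.2 ⟨hconj k hk'.1, hmap g L k hk'.2⟩
    · intro a _ b _ e; exact mul_left_cancel (mul_right_cancel e)
    · intro k hk
      have hk' := Finset.mem_filter.1 hk
      refine ⟨g⁻¹ * k * g, Finset.mem_filter.2 ⟨?_, ?_⟩, by group⟩
      · have hk1 := Finset.mem_erase.1 hk'.1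
        refine Finset.mem_erase.2 ⟨fun e => hk1.1 ?_, hKf.2 (K.mul_mem (K.mul_mem (K.inv_mem (hKf.1 hg))
          (hKf.1 hk1.2)) (hKf.1 hg))⟩
        calc k = g * (g⁻¹ * k * g) * g⁻¹ := by group
          _ = 1 := by rw [e]; group
      · have := hmap g⁻¹ _ k hk'.2
        rw [inv_inv, hcomp, inv_mul_cancel] at this
        rw [this]
        exact Submodule.map_id _
  have horb : ∀ L ∈ Λ, O L ⊆ Λ ∧ 2 ≤ cc L ∧
      (N = (O L).card * cc L ∨ N = 2 * (O L).card * cc L) ∧
      ∑ M ∈ O L, T M = (O L).card * T L := by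
    intro L hL
    have hsub : O L ⊆ Λ := fun M hM => by
      obtain ⟨g, hg, rfl⟩ := Finset.mem_image.1 hM; exact (hΛmap L hL g hg).1
    obtain ⟨v, hv, hLv, g₀, hg₀, hfx⟩ := hΛ L hL
    have hv0 : v ≠ 0 := fun h => hv (by rw [h, zero_dotProduct])
    have hT : 1 ≤ T L := Finset.card_pos.2 ⟨g₀, Finset.mem_filter.2 ⟨hg₀, hfx⟩⟩
    -- pointwise stabiliser
    set P := Kf.filter fun g : OG (Fin 3) F => g.1 v = v with hP
    have hPc : P.card = cc L := by
      have : P = insert (1 : OG (Fin 3) F) (Kne.filter fun g => fixSpace g = L) := by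
        ext g
        simp only [hP, Finset.mem_insert, Finset.mem_filter, Kne, Finset.mem_erase]
        constructor
        · rintro ⟨hg, hgv⟩
          by_cases h1 : g = 1
          · exact Or.inl h1
          · exact Or.inr ⟨⟨h1, hg⟩, hLv ▸ span_eq_fix hv0 hgv
              (fix_span_of_dk h2 (hK g (hKf.1 hg)) h1)⟩
        · rintro (rfl | ⟨⟨h1, hg⟩, hgL⟩)
          · exact ⟨hKf.2 K.one_mem, rfl⟩
          · exact ⟨hg, mem_fixSpace.1 (hgL ▸ hLv ▸ Submodule.mem_span_singleton_self v)⟩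
      rw [this, Finset.card_insert_of_notMem (by simp [Kne])]
    set S := Kf.filter fun g : OG (Fin 3) F => L.map g.1.toLinearMap = L
    have hSmem : ∀ g ∈ Kf, g ∈ S ↔ g.1 v = v ∨ g.1 v = -v := by
      intro g hg
      simp only [S, Finset.mem_filter, hg, true_and]
      rw [hLv, Submodule.map_span, Set.image_singleton]
      constructor
      · intro h
        obtain ⟨c, hc'⟩ : ∃ c : F, c • v = g.1 v :=
          Submodule.mem_span_singleton.1 (h ▸ Submodule.mem_span_singleton_self _)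
        have := OG.dot h2 g v v
        rw [← hc', smul_dotProduct, dotProduct_smul, smul_eq_mul, smul_eq_mul, ← mul_assoc] at this
        rcases mul_self_eq_one_iff.1 ((mul_eq_right₀ hv).1 this) with h' | h' <;>
          rw [← hc', h'] <;> simp
      · rintro (h | h)
        · show F ∙ (g.1 v) = _
          rw [h]
        · show F ∙ (g.1 v) = _
          rw [h, ← Set.neg_singleton, Submodule.span_neg]
    have hSc : S.card = cc L ∨ S.card = 2 * cc L := by
      by_cases hk : ∃ k ∈ Kf, (k : OG (Fin 3) F).1 v = -v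
      · obtain ⟨k, hk, hkv⟩ := hk
        right
        have hdisj : Disjoint P (P.image (k * ·)) := by
          rw [Finset.disjoint_left]
          intro g hg hg'
          obtain ⟨g', hg'', rfl⟩ := Finset.mem_image.1 hg'
          have e1 := (Finset.mem_filter.1 hg).2
          rw [mul_app, (Finset.mem_filter.1 hg'').2, hkv] at e1
          exact hv0 (eq_neg_zero h2 e1.symm)
        have : S = P ∪ P.image (k * ·) := by
          ext g
          simp only [Finset.mem_union, Finset.mem_image]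
          constructor
          · intro hg
            have hgK := (Finset.mem_filter.1 hg).1
            rcases (hSmem g hgK).1 hg with h | h
            · exact Or.inl (Finset.mem_filter.2 ⟨hgK, h⟩)
            · refine Or.inr ⟨k⁻¹ * g, Finset.mem_filter.2 ⟨hKf.2 (K.mul_mem (K.inv_mem (hKf.1 hk))
                (hKf.1 hgK)), ?_⟩, by group⟩
              rw [mul_app, h, ← hkv, inv_app]
          · rintro (hg | ⟨g', hg', rfl⟩)
            · exact (hSmem g (Finset.mem_filter.1 hg).1).2 (Or.inl (Finset.mem_filter.1 hg).2)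
            · refine (hSmem _ (hKf.2 (K.mul_mem (hKf.1 hk) (hKf.1 (Finset.mem_filter.1 hg').1)))).2
                (Or.inr ?_)
              rw [mul_app, (Finset.mem_filter.1 hg').2, hkv]
        rw [this, Finset.card_union_of_disjoint hdisj,
          Finset.card_image_of_injective _ (mul_right_injective k), hPc]
        ring
      · left
        push Not at hk
        rw [← hPc]
        congr 1
        ext g
        by_cases hg : g ∈ Kf
        · rw [hSmem g hg, hP, Finset.mem_filter]; simp [hg, hk g hg]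
        · simp [S, P, hg]
    have hfib : ∀ M ∈ O L, (Kf.filter fun g : OG (Fin 3) F => L.map g.1.toLinearMap = M).card = S.card := by
      intro M hM
      obtain ⟨k, hk, rfl⟩ := Finset.mem_image.1 hM
      refine (Finset.card_bij (fun g _ => k * g) ?_ ?_ ?_).symm
      · intro g hg
        have hg' := Finset.mem_filter.1 hg
        refine Finset.mem_filter.2 ⟨hKf.2 (K.mul_mem (hKf.1 hk) (hKf.1 hg'.1)), ?_⟩
        rw [← hcomp, hg'.2]
      · intro a _ b _ e; exact mul_left_cancel e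
      · intro g hg
        have hg' := Finset.mem_filter.1 hg
        refine ⟨k⁻¹ * g, Finset.mem_filter.2 ⟨hKf.2 (K.mul_mem (K.inv_mem (hKf.1 hk)) (hKf.1 hg'.1)),
          ?_⟩, by group⟩
        rw [← hcomp, hg'.2, hcomp, inv_mul_cancel]
        exact Submodule.map_id _
    have hNO : N = (O L).card * S.card := by
      rw [hN, Finset.card_eq_sum_card_image (fun g : OG (Fin 3) F => L.map g.1.toLinearMap) Kf]
      rw [show ((O L).card * S.card) = ∑ _M ∈ O L, S.card by simp]
      exact Finset.sum_congr rfl hfib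
    refine ⟨hsub, by simp only [cc]; omega, ?_, ?_⟩
    · rcases hSc with h | h <;> rw [h] at hNO
      · exact Or.inl hNO
      · exact Or.inr (by rw [hNO]; ring)
    · rw [show (O L).card * T L = ∑ _M ∈ O L, T L by simp]
      refine Finset.sum_congr rfl fun M hM => ?_
      obtain ⟨g, hg, rfl⟩ := Finset.mem_image.1 hM
      exact (hΛmap L hL g hg).2
  have hsum : ∑ L ∈ Λ, T L + 1 = N := by
    rw [← Finset.card_eq_sum_card_image fixSpace Kne, hN,
      Finset.card_erase_add_one (hKf.2 K.one_mem)]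
  have htwo : ∀ L ∈ Λ, 2 ≤ (O L).card := by
    intro L hL
    by_contra hlt
    have h1 : ∀ g ∈ Kf, L.map g.1.toLinearMap = L := fun g hg =>
      Finset.card_le_one.1 (show (O L).card ≤ 1 by omega) _ (Finset.mem_image.2 ⟨g, hg, rfl⟩) _
        (Finset.mem_image.2 ⟨1, hKf.2 K.one_mem, Submodule.map_id _⟩)
    obtain ⟨v, hv, rfl, -⟩ := hΛ L hL
    have hv0 : v ≠ 0 := fun h => hv (by rw [h, zero_dotProduct])
    have hmem : ∀ g ∈ Kf, ∃ c : F, c • v = g.1 v := fun g hg =>
      Submodule.mem_span_singleton.1 (h1 g hg ▸ ⟨v, Submodule.mem_span_singleton_self v, rfl⟩)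
    have hone : ∀ i j : Fin 3, i ≠ j → v i = 0 ∨ v j = 0 := by
      intro i j hij
      obtain ⟨c, hc'⟩ := hmem _ (hKf.2 (hh i))
      have ei := congrFun hc' i
      have ej := congrFun hc' j
      rw [halfTurn_app h2, Pi.neg_apply, refl_sv_app h2, if_pos rfl, Pi.smul_apply, smul_eq_mul] at ei
      rw [halfTurn_app h2, Pi.neg_apply, refl_sv_app h2, if_neg hij.symm, Pi.smul_apply, smul_eq_mul] at ej
      by_contra hne
      push Not at hne
      have : c = 1 := mul_right_cancel₀ hne.1 (by rw [ei]; ring)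
      rw [this, one_mul] at ej
      exact hne.2 ((mul_eq_zero.1 (by linear_combination ej : (2 : F) * v j = 0)).resolve_left h2)
    obtain ⟨c, hc'⟩ := hmem _ (hKf.2 hc)
    have e : ∀ i, c * v i = v ((finRotate 3).symm i) := fun i => by
      have := congrFun hc' i
      rwa [Pi.smul_apply, smul_eq_mul, perm_app] at this
    have e0 := e 0
    have e1 := e 1
    have e2 := e 2
    rw [show (finRotate 3).symm 0 = 2 by decide] at e0
    rw [show (finRotate 3).symm 1 = 0 by decide] at e1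
    rw [show (finRotate 3).symm 2 = 1 by decide] at e2
    refine hv0 (funext fun i => ?_)
    rcases hone 0 1 (by decide) with h | h
    · have : v 2 = 0 := by rw [← e0, h, mul_zero]
      have : v 1 = 0 := by rw [← e2, this, mul_zero]
      fin_cases i <;> assumption
    · have : v 0 = 0 := by rw [← e1, h, mul_zero]
      have : v 2 = 0 := by rw [← e0, this, mul_zero]
      fin_cases i <;> assumption
  -- the orbit of the first axis
  set L₁ : Submodule F (Fin 3 → F) := F ∙ sv F (0 : Fin 3)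
  have hht : ∀ i, halfTurn (sv F i : Fin 3 → F) ∈ Kne := fun i =>
    Finset.mem_erase.2 ⟨halfTurn_ne_one h2 (by simp), hKf.2 (hh i)⟩
  have hfixi : ∀ i : Fin 3, fixSpace (halfTurn (sv F i)) = F ∙ sv F i := fun i =>
    span_eq_fix (by simp) (halfTurn_self h2 (by simp)) (fix_span_of_dk h2 (hK _ (hh i))
      (Finset.mem_erase.1 (hht i)).1)
  have hL₁ : L₁ ∈ Λ := Finset.mem_image.2 ⟨_, hht 0, hfixi 0⟩
  have heven : ∀ L ∈ Λ, (∃ g ∈ K, g * g = 1 ∧ g ≠ 1 ∧ fixSpace g = L) → Even (cc L) := by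
    rintro L hL ⟨g, hg, hgg, hg1, hgL⟩
    obtain ⟨v, hv, hLv, -⟩ := hΛ L hL
    have hv0 : v ≠ 0 := fun h => hv (by rw [h, zero_dotProduct])
    let P : Subgroup (OG (Fin 3) F) :=
      { carrier := {k | k ∈ K ∧ k.1 v = v}
        one_mem' := ⟨K.one_mem, rfl⟩
        mul_mem' := fun {a b} ha hb => ⟨K.mul_mem ha.1 hb.1, by rw [mul_app, hb.2, ha.2]⟩
        inv_mem' := fun {a} ha => ⟨K.inv_mem ha.1, by
          conv_lhs => rw [← ha.2]
          rw [inv_app]⟩ }
    have hgP : g ∈ P := ⟨hg, mem_fixSpace.1 (hgL ▸ hLv ▸ Submodule.mem_span_singleton_self v)⟩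
    have hcard : Nat.card P = cc L := by
      rw [Nat.card_eq_fintype_card, Fintype.card_of_subtype
        (insert (1 : OG (Fin 3) F) (Kne.filter fun g => fixSpace g = L)),
        Finset.card_insert_of_notMem (by simp [Kne])]
      intro k
      simp only [Finset.mem_insert, Finset.mem_filter, Kne, Finset.mem_erase, hKf]
      constructor
      · rintro (rfl | ⟨⟨h1, hk⟩, hkL⟩)
        · exact P.one_mem
        · exact ⟨hk, mem_fixSpace.1 (hkL ▸ hLv ▸ Submodule.mem_span_singleton_self v)⟩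
      · rintro ⟨hk, hkv⟩
        by_cases h1 : k = 1
        · exact Or.inl h1
        · exact Or.inr ⟨⟨h1, hk⟩, hLv ▸ span_eq_fix hv0 hkv (fix_span_of_dk h2 (hK k hk) h1)⟩
    have ho : orderOf (⟨g, hgP⟩ : P) = 2 := orderOf_eq_prime
      (Subtype.ext (by rw [pow_two]; exact hgg)) fun e => hg1 (congrArg Subtype.val e)
    rw [← hcard, even_iff_two_dvd, ← ho]
    exact orderOf_dvd_natCard _
  have hc1 : Even (cc L₁) :=
    heven L₁ hL₁ ⟨_, hh 0, halfTurn_sq h2 (by simp), (Finset.mem_erase.1 (hht 0)).1, hfixi 0⟩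
  obtain ⟨hsub₁, hc₁, hN₁', hT₁⟩ := horb L₁ hL₁
  have hO3 : 3 ≤ (O L₁).card := by
    have hpow : ∀ k : ℕ, (permHom (Fin 3) F (finRotate 3)) ^ k ∈ Kf := fun k => hKf.2 (K.pow_mem hc k)
    have hmem : ∀ i : Fin 3, F ∙ sv F i ∈ O L₁ := fun i => by
      refine Finset.mem_image.2 ⟨_, hpow i.val, ?_⟩
      rw [Submodule.map_span, Set.image_singleton]
      show F ∙ (((permHom (Fin 3) F (finRotate 3)) ^ i.val).1 (sv F 0)) = _
      rw [← map_pow, perm_sv, show ((finRotate 3) ^ i.val) 0 = i by revert i; decide]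
    have hinj : Function.Injective fun i : Fin 3 => (F ∙ sv F i : Submodule F (Fin 3 → F)) := by
      intro i j e
      obtain ⟨c, hc'⟩ := Submodule.mem_span_singleton.1 (show sv F i ∈ F ∙ sv F j from
        by
        have e' : (F ∙ sv F i : Submodule F (Fin 3 → F)) = F ∙ sv F j := e
        rw [← e']; exact Submodule.mem_span_singleton_self _)
      by_contra hij
      have := congrFun hc' i
      simp [hij] at this
    calc 3 = ((Finset.univ : Finset (Fin 3)).image fun i => (F ∙ sv F i : Submodule F (Fin 3 → F))).card := by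
          rw [Finset.card_image_of_injective _ hinj]; rfl
      _ ≤ _ := Finset.card_le_card (by
          intro x hx; obtain ⟨i, -, rfl⟩ := Finset.mem_image.1 hx; exact hmem i)
  have hN₁ : N = 2 * (O L₁).card * cc L₁ := by
    -- a half-turn reverses the first axis
    obtain ⟨v, hv, hLv, -⟩ := hΛ L₁ hL₁
    rcases hN₁' with h | h
    · exfalso
      have hlt : (O L₁).card * cc L₁ < (O L₁).card * (cc L₁) + 1 := Nat.lt_succ_self _
      have hge : (O L₁).card * (2 * cc L₁) ≤ N := by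
        rw [hN, Finset.card_eq_sum_card_image (fun g : OG (Fin 3) F => L₁.map g.1.toLinearMap) Kf,
          show (O L₁).card * (2 * cc L₁) = ∑ _M ∈ O L₁, 2 * cc L₁ by simp]
        refine Finset.sum_le_sum fun M hM => ?_
        obtain ⟨k, hk, rfl⟩ := Finset.mem_image.1 hM
        set A := (Kne.filter fun g => fixSpace g = L₁)
        have hA : ∀ g ∈ insert (1 : OG (Fin 3) F) A, g ∈ Kf ∧ g.1 (sv F 0) = sv F 0 := by
          intro g hg
          rcases Finset.mem_insert.1 hg with rfl | hg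
          · exact ⟨hKf.2 K.one_mem, rfl⟩
          · have hg' := Finset.mem_filter.1 hg
            exact ⟨(Finset.mem_erase.1 hg'.1).2,
              mem_fixSpace.1 (hg'.2 ▸ Submodule.mem_span_singleton_self _)⟩
        have hflip : (halfTurn (sv F (1 : Fin 3))).1 (sv F 0) = -sv F 0 := halfTurn_perp h2 (by simp)
        set B := insert (1 : OG (Fin 3) F) A
        have hd : Disjoint B (B.image (halfTurn (sv F 1) * ·)) := by
          rw [Finset.disjoint_left]
          intro g hg hg'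
          obtain ⟨g', hg'', rfl⟩ := Finset.mem_image.1 hg'
          have e1 := (hA _ hg).2
          rw [mul_app, (hA _ hg'').2, hflip] at e1
          have := congrFun (eq_neg_zero h2 e1.symm) 0
          simp at this
        have hcardB : B.card = cc L₁ := by
          rw [Finset.card_insert_of_notMem (by simp [A, Kne])]
        calc 2 * cc L₁ = ((B ∪ B.image (halfTurn (sv F 1) * ·)).image (k * ·)).card := by
              rw [Finset.card_image_of_injective _ (mul_right_injective k),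
                Finset.card_union_of_disjoint hd,
                Finset.card_image_of_injective _ (mul_right_injective _), hcardB]
              ring
          _ ≤ _ := Finset.card_le_card fun z hz => by
            obtain ⟨g, hg, rfl⟩ := Finset.mem_image.1 hz
            have hgg : g ∈ Kf ∧ (g.1 (sv F 0) = sv F 0 ∨ g.1 (sv F 0) = -sv F 0) := by
              rcases Finset.mem_union.1 hg with h' | h'
              · exact ⟨(hA g h').1, Or.inl (hA g h').2⟩
              · obtain ⟨g', hg', rfl⟩ := Finset.mem_image.1 h'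
                exact ⟨hKf.2 (K.mul_mem (hh 1) (hKf.1 (hA g' hg').1)),
                  Or.inr (by rw [mul_app, (hA g' hg').2, hflip])⟩
            refine Finset.mem_filter.2 ⟨hKf.2 (K.mul_mem (hKf.1 hk) (hKf.1 hgg.1)), ?_⟩
            rw [← hcomp]
            congr 1
            rw [Submodule.map_span, Set.image_singleton]
            show F ∙ (g.1 (sv F 0)) = _
            rcases hgg.2 with h' | h' <;> rw [h']
            rw [← Set.neg_singleton, Submodule.span_neg]
      have : 0 < (O L₁).card * cc L₁ := Nat.mul_pos (by omega) (by omega)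
      nlinarith
    · exact h
  -- involutions sit on lines with even stabilisers
  have hinv : I.card ≤ ∑ L ∈ Λ, (if Even (cc L) then 1 else 0) := by
    rw [← Finset.card_filter]
    refine Finset.card_le_card_of_injOn fixSpace (fun g hg => ?_) fun g hg g' hg' e => ?_
    · obtain ⟨hgK, hgg, hg1⟩ := hI g hg
      have hm : fixSpace g ∈ Λ := Finset.mem_image.2 ⟨g, Finset.mem_erase.2 ⟨hg1, hKf.2 hgK⟩, rfl⟩
      exact Finset.mem_filter.2 ⟨hm, heven _ hm ⟨g, hgK, hgg, hg1, rfl⟩⟩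
    · obtain ⟨hgK, hgg, hg1⟩ := hI g hg
      obtain ⟨hgK', hgg', hg1'⟩ := hI g' hg'
      obtain ⟨v, hv, hLv, -⟩ := hΛ (fixSpace g)
        (Finset.mem_image.2 ⟨g, Finset.mem_erase.2 ⟨hg1, hKf.2 hgK⟩, rfl⟩)
      have hvm : v ∈ fixSpace g := hLv ▸ Submodule.mem_span_singleton_self v
      exact invol_unique h2 hv hgg (hK g hgK) hg1 (mem_fixSpace.1 hvm) hgg' (hK g' hgK') hg1'
        (mem_fixSpace.1 ((e : fixSpace g = fixSpace g') ▸ hvm))
  have hsplit : ∀ (s : Finset (Submodule F (Fin 3 → F))), s ⊆ Λ →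
      (∀ L ∈ s, O L ⊆ s) → ∀ L ∈ s, (∀ M ∈ s \ O L, O M ⊆ s \ O L) := by
    intro s hs hsc L hL M hM M' hM'
    rw [Finset.mem_sdiff] at hM ⊢
    refine ⟨hsc M hM.1 hM', fun h => hM.2 ?_⟩
    obtain ⟨g, hg, rfl⟩ := Finset.mem_image.1 hM'
    obtain ⟨k, hk, hkeq⟩ := Finset.mem_image.1 h
    refine Finset.mem_image.2 ⟨g⁻¹ * k, hKf.2 (K.mul_mem (K.inv_mem (hKf.1 hg)) (hKf.1 hk)), ?_⟩
    rw [← hcomp, hkeq, hcomp, inv_mul_cancel]
    exact Submodule.map_id _
  have hce : ∀ L ∈ Λ, ∑ M ∈ O L, (if Even (cc M) then 1 else 0) =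
      if Even (cc L) then (O L).card else 0 := by
    intro L hL
    have hcm : ∀ M ∈ O L, cc M = cc L := fun M hM => by
      obtain ⟨g, hg, rfl⟩ := Finset.mem_image.1 hM
      simp only [cc, (hΛmap L hL g hg).2]
    rw [Finset.sum_congr rfl fun M hM => by rw [hcm M hM]]
    split_ifs <;> simp
  have hl1 : ∀ L, T L = cc L - 1 := fun L => by simp [cc]
  set Λ₂ := Λ \ O L₁
  have hcl : ∀ L ∈ Λ, O L ⊆ Λ := fun L hL => (horb L hL).1
  have hcl₂ := hsplit Λ subset_rfl hcl L₁ hL₁
  rw [← Finset.sum_sdiff hsub₁, hT₁] at hsum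
  rw [← Finset.sum_sdiff hsub₁, hce L₁ hL₁, if_pos hc1] at hinv
  rcases Λ₂.eq_empty_or_nonempty with h0 | ⟨L₂, hL₂⟩
  · rw [show Λ \ O L₁ = ∅ from h0, Finset.sum_empty, hl1] at hsum
    obtain ⟨c, hcc⟩ : ∃ c, cc L₁ = c + 1 := ⟨cc L₁ - 1, by omega⟩
    rw [hcc, Nat.add_sub_cancel] at hsum
    rw [hcc] at hN₁
    nlinarith
  have hL₂Λ : L₂ ∈ Λ := (Finset.mem_sdiff.1 hL₂).1
  obtain ⟨-, hc₂, hN₂, hT₂⟩ := horb L₂ hL₂Λ
  have hsub₂ : O L₂ ⊆ Λ₂ := hcl₂ L₂ hL₂
  rw [← Finset.sum_sdiff hsub₂, hT₂, hl1 L₂, hl1 L₁] at hsum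
  rw [← Finset.sum_sdiff hsub₂, hce L₂ hL₂Λ] at hinv
  have h2a := htwo L₂ hL₂Λ
  set a := (O L₁).card
  set b := (O L₂).card
  set c := cc L₁
  set d := cc L₂
  obtain ⟨c', hc'⟩ : ∃ c', c = c' + 1 := ⟨c - 1, by omega⟩
  obtain ⟨d', hd'⟩ : ∃ d', d = d' + 1 := ⟨d - 1, by omega⟩
  set Λ₃ := Λ₂ \ O L₂
  rcases Λ₃.eq_empty_or_nonempty with h0 | ⟨L₃, hL₃⟩
  · rw [h0, Finset.sum_empty] at hsum hinv
    rw [hc', hd', Nat.add_sub_cancel, Nat.add_sub_cancel] at hsum
    rw [hc'] at hN₁
    rw [hd'] at hN₂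
    rcases hN₂ with hN₂ | hN₂
    · -- full second orbit
      have e : 2 * (a + b) = N + 2 := by nlinarith
      rw [hc', Nat.even_iff] at hc1
      rcases Nat.lt_or_ge c' 2 with hcl' | hcl'
      · obtain rfl : c' = 1 := by omega
        rcases Nat.lt_or_ge d' 2 with hdl | hdl
        · obtain rfl : d' = 1 := by omega
          omega
        · rcases Nat.lt_or_ge d' 3 with hdl' | hdl'
          · obtain rfl : d' = 2 := by omega
            rw [if_neg (by rw [hd']; decide)] at hinv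
            omega
          · have : 4 * b ≤ N := by nlinarith
            omega
      · have : 8 * a ≤ N := by
          have : 3 ≤ c' := by omega
          nlinarith
        rcases Nat.lt_or_ge d' 2 with hdl | hdl
        · obtain rfl : d' = 1 := by omega
          omega
        · have : 3 * b ≤ N := by nlinarith
          omega
    · nlinarith
  have hL₃₂ : L₃ ∈ Λ₂ := (Finset.mem_sdiff.1 hL₃).1
  have hL₃Λ : L₃ ∈ Λ := (Finset.mem_sdiff.1 hL₃₂).1
  obtain ⟨-, hc₃, hN₃, hT₃⟩ := horb L₃ hL₃Λ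
  have hcl₃ := hsplit Λ₂ Finset.sdiff_subset hcl₂ L₂ hL₂
  rw [← Finset.sum_sdiff (hcl₃ L₃ hL₃), hT₃, hl1 L₃] at hsum
  rw [← Finset.sum_sdiff (hcl₃ L₃ hL₃), hce L₃ hL₃Λ] at hinv
  have h3a := htwo L₃ hL₃Λ
  set e := (O L₃).card
  set f := cc L₃
  set Λ₄ := Λ₃ \ O L₃
  have quarter : ∀ {x y : ℕ}, 2 ≤ y → (N = x * y ∨ N = 2 * x * y) → N ≤ 4 * (x * (y - 1)) := by
    intro x y hy h
    obtain ⟨y', rfl⟩ : ∃ y', y = y' + 1 := ⟨y - 1, by omega⟩
    rw [Nat.add_sub_cancel]
    rcases h with h | h <;> rw [h] <;> nlinarith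
  have half : ∀ {x y : ℕ}, 2 ≤ y → N = x * y → N ≤ 2 * (x * (y - 1)) := by
    intro x y hy h
    obtain ⟨y', rfl⟩ : ∃ y', y = y' + 1 := ⟨y - 1, by omega⟩
    rw [Nat.add_sub_cancel]
    rw [h]; nlinarith
  have q₁ := quarter hc₁ (Or.inr hN₁)
  have q₂ := quarter hc₂ hN₂
  have q₃ := quarter hc₃ hN₃
  rcases Λ₄.eq_empty_or_nonempty with h0 | ⟨L₄, hL₄⟩
  · rw [h0, Finset.sum_empty] at hsum hinv
    rcases hN₂ with hN₂ | hN₂
    · have := half hc₂ hN₂
      omega
    rcases hN₃ with hN₃ | hN₃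
    · have := half hc₃ hN₃
      omega
    have := three_arith hN₁ hN₂ hN₃ (by omega) (by omega) h2a h3a hc₁ hc₂ hc₃
    rw [if_pos hc1] at this
    omega
  · have hL₄Λ : L₄ ∈ Λ :=
      (Finset.mem_sdiff.1 (Finset.mem_sdiff.1 (Finset.mem_sdiff.1 hL₄).1).1).1
    obtain ⟨-, hc₄, hN₄, hT₄⟩ := horb L₄ hL₄Λ
    have hcl₄ := hsplit Λ₃ (Finset.sdiff_subset.trans Finset.sdiff_subset) hcl₃ L₃ hL₃
    rw [← Finset.sum_sdiff (hcl₄ L₄ hL₄), hT₄, hl1 L₄] at hsum
    have := quarter hc₄ hN₄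
    omega

end Cfsg.Agent.DecompMax.OF
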