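import Cfsg.Agent.DecompMax.FrameTriple
import Cfsg.Agent.DecompMax.FrameOmega

/-!
Monomial bireflections, and the columns of an element all of whose pairs give monomial bireflections.
-/

set_option autoImplicit false
set_option linter.style.haveILetI false
set_option linter.unusedSectionVars false
set_option linter.unusedVariables false

namespace Cfsg.Agent.DecompMax.OF

open QuadraticMap Module Cfsg.Agent.Classical
open scoped Matrix

universe u

variable {F : Type u} [Field F] [Finite F] {ι : Type} [Fintype ι] [DecidableEq ι]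

/-- An overgroup of the monomial part of `Ω` in which only monomial elements fix a frame line. -/
structure NoFix (M : Subgroup (OG ι F)) : Prop where
  le : M ≤ commutator (OG ι F)
  mon : ∀ g ∈ commutator (OG ι F), Mon g → g ∈ M
  fix : ∀ g ∈ M, ∀ a, (g.1 (sv F a) = sv F a ∨ g.1 (sv F a) = -sv F a) → Mon g

theorem supp_sv (i : ι) : supp (sv F i) = {i} := by
  ext j; by_cases h : j = i <;> simp [mem_supp, h]

variable (h2 : Two F)
include h2

theorem monomial_sub {k : OG ι F} (hk : Mon k) (hkk : k * k = 1) (i : ι) :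
    ∃ j, supp (sv F i - k.1 (sv F i)) ⊆ {i, j} ∧ Plain (sv F i - k.1 (sv F i)) ∧
      (sv F i - k.1 (sv F i) ≠ 0 → supp (sv F i - k.1 (sv F i)) = {i, j} ∧
        ∃ c : F, sv F j - k.1 (sv F j) = c • (sv F i - k.1 (sv F i))) := by
  classical
  obtain ⟨j, hj⟩ := hk.col h2 i
  refine ⟨j, ?_⟩
  have hkk' : k.1 (k.1 (sv F i)) = sv F i := by rw [← mul_app, hkk]; rfl
  have hback : k.1 (sv F j) = sv F i ∨ k.1 (sv F j) = -sv F i := by
    rcases hj with h | h <;> rw [h] at hkk'
    · exact Or.inl hkk'
    · exact Or.inr (by rw [map_neg] at hkk'; rw [← hkk', neg_neg])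
  set v := sv F i - k.1 (sv F i) with hv
  have hsub : supp v ⊆ {i, j} := by
    intro l hl
    rw [mem_supp] at hl
    by_contra hn
    simp only [Finset.mem_insert, Finset.mem_singleton, not_or] at hn
    rcases hj with h | h <;> simp [v, h, hn.1, hn.2] at hl
  rcases eq_or_ne i j with rfl | hij
  · refine ⟨hsub, ⟨(Finset.card_le_card hsub).trans (Finset.card_insert_le _ _), fun a ha b hb => ?_⟩,
      fun hne => ⟨?_, 1, by rw [one_smul]⟩⟩
    · have ha' : a = i := by simpa using hsub ha
      have hb' : b = i := by simpa using hsub hb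
      rw [ha', hb']
    · refine le_antisymm hsub fun l hl => ?_
      obtain rfl : l = i := by simpa using hl
      rw [mem_supp]
      rcases hj with h | h
      · exact absurd (by simp [v, h]) hne
      · simp [v, h]
        exact fun e => h2 (by linear_combination e)
  · have hval : v i = 1 ∧ (v j = -1 ∨ v j = 1) := by
      rcases hj with h | h <;> simp [v, h, hij, hij.symm]
    have hs : supp v = {i, j} := le_antisymm hsub fun l hl => by
      simp only [Finset.mem_insert, Finset.mem_singleton] at hl
      rcases hl with rfl | rfl <;> rw [mem_supp]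
      · rw [hval.1]; exact one_ne_zero
      · rcases hval.2 with h | h <;> rw [h] <;> simp
    refine ⟨hsub, ⟨(Finset.card_le_card hsub).trans (by simp [hij]), fun a ha b hb => ?_⟩,
      fun _ => ⟨hs, ?_⟩⟩
    · have key : ∀ a ∈ supp v, v a ^ 2 = 1 := by
        intro a ha
        rw [hs] at ha
        simp only [Finset.mem_insert, Finset.mem_singleton] at ha
        rcases ha with rfl | rfl
        · rw [hval.1]; ring
        · rcases hval.2 with h | h <;> rw [h] <;> ring
      rw [key a ha, key b hb]
    · rcases hj with h | h <;> rcases hback with h' | h'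
      · exact ⟨-1, by simp only [v, h, h']; module⟩
      · exfalso
        rw [h, h'] at hkk'
        have := congrFun hkk' i
        simp at this
        exact h2 (by linear_combination -this)
      · exfalso
        rw [h, map_neg, h'] at hkk'
        have := congrFun hkk' i
        simp at this
        exact h2 (by linear_combination -this)
      · exact ⟨1, by simp only [v, h, h']; module⟩

/-- A monomial product of two orthogonal reflections has a plain basis of its plane. -/
theorem plane_basis {s t : ι → F} (hs : s ⬝ᵥ s = 1) (ht : t ⬝ᵥ t = 1) (hst : s ⬝ᵥ t = 0)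
    (hk : Mon (refl s * refl t)) :
    ∃ v₁ v₂ : ι → F, Plain v₁ ∧ Plain v₂ ∧ Disjoint (supp v₁) (supp v₂) ∧
      (∃ a b : F, s = a • v₁ + b • v₂) ∧ ∃ a b : F, t = a • v₁ + b • v₂ := by
  classical
  set k := refl s * refl t
  have hts : t ⬝ᵥ s = 0 := by rw [dotProduct_comm]; exact hst
  have happ : ∀ v, k.1 v = v - (2 * (s ⬝ᵥ v)) • s - (2 * (t ⬝ᵥ v)) • t := fun v => by
    rw [mul_app, refl_app_unit ht, refl_app_unit hs, dotProduct_sub, dotProduct_smul, hst, smul_zero,
      sub_zero]
    abel
  have hkk : k * k = 1 := Subtype.ext (LinearEquiv.ext fun v => by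
    rw [mul_app, happ, happ v]
    simp only [dotProduct_sub, dotProduct_smul, hs, ht, hst, hts, smul_eq_mul]
    show _ = v
    module)
  set V : ι → (ι → F) := fun i => sv F i - k.1 (sv F i)
  have hV : ∀ i, V i = (2 * s i) • s + (2 * t i) • t := fun i => by
    simp only [V, happ, dotProduct_single, mul_one]; abel
  have hcomb : ∀ (u : ι → F), u ⬝ᵥ s = u ⬝ᵥ s → (∑ i, u i • V i) = (2 * (u ⬝ᵥ s)) • s + (2 * (u ⬝ᵥ t)) • t := by
    intro u _
    simp only [hV, smul_add, smul_smul, Finset.sum_add_distrib, ← Finset.sum_smul]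
    congr 1 <;> congr 1 <;> rw [dotProduct, Finset.mul_sum] <;>
      exact Finset.sum_congr rfl fun i _ => by ring
  obtain ⟨i, hi⟩ : ∃ i, V i ≠ 0 := by
    by_contra h
    push Not at h
    have := hcomb s rfl
    simp only [h, smul_zero, Finset.sum_const_zero, hs, hst, mul_zero, zero_smul, add_zero, mul_one] at this
    have h0 := congrArg (fun w => s ⬝ᵥ w) this.symm
    simp only [dotProduct_smul, hs, smul_eq_mul, mul_one, dotProduct_zero] at h0
    exact h2 h0
  obtain ⟨i₂, hi₂⟩ : ∃ j, ∀ c : F, V j ≠ c • V i := by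
    by_contra h
    push Not at h
    choose c hc using h
    have e : ∀ u : ι → F, (2 * (u ⬝ᵥ s)) • s + (2 * (u ⬝ᵥ t)) • t = (∑ j, u j * c j) • V i := fun u => by
      rw [← hcomb u rfl, Finset.sum_smul]
      exact Finset.sum_congr rfl fun j _ => by rw [hc j, smul_smul]
    have e1 := e s
    have e2 := e t
    simp only [hs, ht, hst, hts, mul_zero, zero_smul, add_zero, zero_add, mul_one] at e1 e2
    set a := ∑ j, s j * c j
    set b := ∑ j, t j * c j
    have f1 := congrArg (fun w => s ⬝ᵥ w) e1
    have f2 := congrArg (fun w => s ⬝ᵥ w) e2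
    have g2 := congrArg (fun w => t ⬝ᵥ w) e2
    simp only [dotProduct_smul, hs, ht, hst, hts, smul_eq_mul, mul_one, mul_zero] at f1 f2 g2
    have : b = 0 := by
      rcases mul_eq_zero.1 f2.symm with h | h
      · exact h
      · rw [h, mul_zero] at f1; exact absurd f1 h2
    rw [this, zero_mul] at g2
    exact h2 g2
  obtain ⟨j, hsub, hp1, hfull⟩ := monomial_sub h2 hk hkk i
  obtain ⟨hsupp, c₀, hc₀⟩ := hfull hi
  obtain ⟨j', hsub', hp2, hfull'⟩ := monomial_sub h2 hk hkk i₂
  have hi₂0 : V i₂ ≠ 0 := by simpa using hi₂ 0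
  obtain ⟨hsupp', c', hc'⟩ := hfull' hi₂0
  have hj0 : V j' ≠ 0 → V i = V i := fun _ => rfl
  have hdis : Disjoint (supp (V i)) (supp (V i₂)) := by
    rw [show supp (V i) = {i, j} from hsupp, show supp (V i₂) = {i₂, j'} from hsupp']
    have h1 : i₂ ≠ i := fun e => hi₂ 1 (by rw [one_smul, e])
    have h1' : i₂ ≠ j := fun e => hi₂ c₀ (by rw [e]; exact hc₀)
    have h3 : j' ≠ i := fun e => by
      rcases eq_or_ne c' 0 with rfl | hc
      · rw [zero_smul, e] at hc'; exact hi hc'
      · refine hi₂ c'⁻¹ ?_
        rw [show V i = V j' by rw [e], show V j' = c' • V i₂ from hc', smul_smul, inv_mul_cancel₀ hc, one_smul]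
    have h3' : j' ≠ j := fun e => by
      rcases eq_or_ne c' 0 with rfl | hc
      · rw [zero_smul] at hc'
        obtain ⟨j'', -, -, -⟩ := monomial_sub h2 hk hkk j'
        have h' := hc'
        rw [e] at h'
        have : (c₀ : F) • V i = 0 := by rw [← (show V j = c₀ • V i from hc₀)]; exact h'
        have hc0 : c₀ ≠ 0 := fun h0 => by
          have := congrFun (show V j = c₀ • V i from hc₀) j
          rw [h0, zero_smul] at this
          have hj' : V i j ≠ 0 := mem_supp.1 (by rw [show supp (V i) = {i, j} from hsupp]; simp)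
          have hkj : V j = 0 := h'
          have hh : k.1 (sv F j) = sv F j := (sub_eq_zero.1 hkj).symm
          have := OG.coord h2 k hh (sv F i)
          exact hj' (by simp [V, this])
        exact hi ((smul_eq_zero.1 this).resolve_left hc0)
      · refine hi₂ (c'⁻¹ * c₀) ?_
        rw [mul_smul, ← (show V j = c₀ • V i from hc₀), ← e, show V j' = c' • V i₂ from hc', smul_smul,
          inv_mul_cancel₀ hc, one_smul]
    rw [Finset.disjoint_left]
    intro l hl hl'
    simp only [Finset.mem_insert, Finset.mem_singleton] at hl hl'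
    rcases hl with rfl | rfl <;> rcases hl' with h | h
    exacts [h1 h.symm, h3 h.symm, h1' h.symm, h3' h.symm]
  refine ⟨V i, V i₂, hp1, hp2, hdis, ?_⟩
  set a := 2 * s i
  set b := 2 * t i
  set c := 2 * s i₂
  set d := 2 * t i₂
  have e1 : V i = a • s + b • t := hV i
  have e2 : V i₂ = c • s + d • t := hV i₂
  have hdet : a * d - b * c ≠ 0 := by
    intro h0
    have hb : d • V i - b • V i₂ = 0 := by
      rw [e1, e2]
      rw [show d • (a • s + b • t) - b • (c • s + d • t) = (a * d - b * c) • s by module, h0, zero_smul]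
    have ha : c • V i - a • V i₂ = 0 := by
      rw [e1, e2]
      rw [show c • (a • s + b • t) - a • (c • s + d • t) = -((a * d - b * c) • t) by module, h0, zero_smul,
        neg_zero]
    have hzero : ∀ {p q : F}, p • V i - q • V i₂ = 0 → p = 0 := by
      intro p q h
      obtain ⟨l, hl⟩ := Finset.nonempty_iff_ne_empty.2 fun h => hi (supp_eq_empty.1 h)
      have h' := congrFun h l
      have hl2 : V i₂ l = 0 := not_mem_supp.1 (Finset.disjoint_left.1 hdis hl)
      simp [hl2] at h'
      exact h'.resolve_right (mem_supp.1 hl)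
    have hd0 := hzero hb
    have hc0 := hzero ha
    rw [hc0, hd0, zero_smul, zero_smul, zero_add] at e2
    exact hi₂0 e2
  constructor
  · refine ⟨d / (a * d - b * c), -b / (a * d - b * c), smul_right_injective _ hdet ?_⟩
    show (a * d - b * c) • s = (a * d - b * c) • (_ • V i + _ • V i₂)
    rw [smul_add, smul_smul, smul_smul, mul_div_cancel₀ _ hdet, mul_div_cancel₀ _ hdet, e1, e2]
    module
  · refine ⟨-c / (a * d - b * c), a / (a * d - b * c), smul_right_injective _ hdet ?_⟩
    show (a * d - b * c) • t = (a * d - b * c) • (_ • V i + _ • V i₂)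
    rw [smul_add, smul_smul, smul_smul, mul_div_cancel₀ _ hdet, mul_div_cancel₀ _ hdet, e1, e2]
    module

theorem plain_smul {c : F} {v : ι → F} (hv : Plain v) : Plain (c • v) := by
  rcases eq_or_ne c 0 with rfl | hc
  · refine ⟨?_, fun i hi => absurd (mem_supp.1 hi) (by simp)⟩
    rw [show supp ((0 : F) • v) = ∅ from supp_eq_empty.2 (zero_smul F v)]; simp
  · rw [Plain, supp_smul hc]
    exact ⟨hv.1, fun i hi j hj => by simp only [Pi.smul_apply, smul_eq_mul, mul_pow, hv.2 i hi j hj]⟩

variable {M : Subgroup (OG ι F)} (H : NoFix M)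
include H

/-- If all pairs from a large set of frame vectors give monomial images, the element is monomial. -/
theorem NoFix.mon_of_pairs {g : OG ι F} (hg : g ∈ M) {Z : Finset ι}
    (hn : 8 ≤ Fintype.card ι) (hZ : Fintype.card ι < 2 * Z.card) (hZ6 : 6 ≤ Z.card)
    (h : ∀ p ∈ Z, ∀ q ∈ Z, p ≠ q → Mon (g * (refl (sv F p) * refl (sv F q)) * g⁻¹)) : Mon g := by
  classical
  have hgg : ∀ p q : ι, g * (refl (sv F p) * refl (sv F q)) * g⁻¹ = refl (g.1 (sv F p)) * refl (g.1 (sv F q)) :=
    fun p q => by rw [← refl_conj h2, ← refl_conj h2]; group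
  have hunit : ∀ p, g.1 (sv F p) ⬝ᵥ g.1 (sv F p) = 1 := fun p => by rw [OG.dot h2]; simp
  have horth : ∀ {p q}, p ≠ q → g.1 (sv F p) ⬝ᵥ g.1 (sv F q) = 0 := fun {p q} hpq => by
    rw [OG.dot h2]; simp [hpq.symm]
  have hplain : ∀ p ∈ Z, Plain (g.1 (sv F p)) := by
    intro p hp
    by_contra hnp
    set s := g.1 (sv F p)
    have key : ∀ q ∈ Z, q ≠ p → supp (g.1 (sv F q)) ⊆ supp s ∧ (supp s).card ≤ 4 := by
      intro q hq hqp
      obtain ⟨v₁, v₂, p1, p2, hdis, ⟨a, b, hs⟩, c, d, ht⟩ :=
        plane_basis h2 (hunit p) (hunit q) (horth hqp.symm) (hgg p q ▸ h p hp q hq hqp.symm)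
      have ha : a ≠ 0 := fun h0 => hnp (by
        show Plain s
        rw [show s = _ from hs, h0, zero_smul, zero_add]; exact plain_smul h2 p2)
      have hb : b ≠ 0 := fun h0 => hnp (by
        show Plain s
        rw [show s = _ from hs, h0, zero_smul, add_zero]; exact plain_smul h2 p1)
      have hss : supp s = supp v₁ ∪ supp v₂ := by
        ext l
        rw [Finset.mem_union, mem_supp, show s = _ from hs]
        by_cases hl : l ∈ supp v₁
        · refine iff_of_true ?_ (Or.inl hl)
          simp [not_mem_supp.1 (Finset.disjoint_left.1 hdis hl), ha, mem_supp.1 hl]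
        · simp [not_mem_supp.1 hl, hb, hl, mem_supp]
      refine ⟨fun l hl => ?_, by rw [hss]; exact (Finset.card_union_le _ _).trans (by have := p1.1; have := p2.1; omega)⟩
      rw [hss, Finset.mem_union]
      by_contra hn'
      push Not at hn'
      exact mem_supp.1 hl (by rw [ht]; simp [not_mem_supp.1 hn'.1, not_mem_supp.1 hn'.2])
    obtain ⟨q₀, hq₀, hq₀p⟩ := Finset.exists_mem_ne (show 1 < Z.card by omega) p
    have hcard := (key q₀ hq₀ hq₀p).2
    have hli : LinearIndependent F fun q : ↥(Z.erase p) =>
        (fun l : ↥(supp s) => g.1 (sv F q.1) l.1) := by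
      rw [Fintype.linearIndependent_iff]
      intro co hco r
      have e : ∀ l, ∑ q : ↥(Z.erase p), co q * g.1 (sv F q.1) l = 0 := by
        intro l
        by_cases hl : l ∈ supp s
        · have := congrFun hco ⟨l, hl⟩
          simpa [Finset.sum_apply] using this
        · exact Finset.sum_eq_zero fun q _ => by
            rw [not_mem_supp.1 fun h' => hl ((key q.1 (Finset.mem_erase.1 q.2).2 (Finset.mem_erase.1 q.2).1).1 h'),
              mul_zero]
      have hz : (∑ q : ↥(Z.erase p), co q • g.1 (sv F q.1)) = 0 := funext fun l => by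
        simpa [Finset.sum_apply] using e l
      have := congrArg (fun w => g.1 (sv F r.1) ⬝ᵥ w) hz
      simp only [dotProduct_sum, dotProduct_smul, dotProduct_zero, smul_eq_mul] at this
      rw [Finset.sum_eq_single r (fun q _ hq => by
        rw [horth (fun e => hq (Subtype.ext e.symm)), mul_zero]) (by simp), hunit, mul_one] at this
      exact this
    have := hli.fintype_card_le_finrank
    rw [Fintype.card_coe, Finset.card_erase_of_mem hp, Module.finrank_fintype_fun_eq_card, Fintype.card_coe] at this
    omega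
  by_cases haxis : ∃ p ∈ Z, (supp (g.1 (sv F p))).card ≤ 1
  · obtain ⟨p, hp, hc⟩ := haxis
    obtain ⟨l, hl⟩ : (supp (g.1 (sv F p))).Nonempty := by
      rw [Finset.nonempty_iff_ne_empty]
      intro e
      have := hunit p
      rw [supp_eq_empty.1 e, zero_dotProduct] at this
      exact zero_ne_one this
    have hcol : g.1 (sv F p) = g.1 (sv F p) l • sv F l := funext fun m => by
      rcases eq_or_ne m l with rfl | hm
      · simp
      · have : g.1 (sv F p) m = 0 := not_mem_supp.1 fun h' => hm (Finset.card_le_one.1 hc m h' l hl)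
        simp [this, hm]
    rcases eq_or_ne l p with rfl | hlp
    · refine H.fix g hg l ?_
      have := hunit l
      rw [hcol, smul_dotProduct, dotProduct_smul, dot_sv_self, smul_eq_mul, smul_eq_mul, mul_one] at this
      rcases mul_self_eq_one_iff.1 this with e | e <;> rw [hcol, e] <;> simp
    · obtain ⟨T, hT, hTc⟩ := Finset.exists_subset_card_eq (s := ({l, p} : Finset ι)ᶜ) (n := 2)
        (by rw [Finset.card_compl, Finset.card_pair hlp]; omega)
      obtain ⟨r, r', hrr, rfl⟩ := Finset.card_eq_two.1 hTc
      have hr := hT (show r ∈ ({r, r'} : Finset ι) by simp)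
      have hr' := hT (show r' ∈ ({r, r'} : Finset ι) by simp)
      simp only [Finset.mem_compl, Finset.mem_insert, Finset.mem_singleton, not_or] at hr hr'
      set σ := Equiv.swap r r' * Equiv.swap l p
      have hσ : Equiv.Perm.sign σ = 1 := by
        rw [map_mul, Equiv.Perm.sign_swap hrr, Equiv.Perm.sign_swap hlp]; decide
      have hσl : σ l = p := by
        rw [Equiv.Perm.mul_apply, Equiv.swap_apply_left, Equiv.swap_apply_of_ne_of_ne (Ne.symm hr.2) (Ne.symm hr'.2)]
      have hP := perm_mem_omega (F := F) (by omega) hσ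
      have hg' : g * permHom ι F σ ∈ M := M.mul_mem hg (H.mon _ hP (mon_perm σ))
      have hm : Mon (g * permHom ι F σ) := H.fix _ hg' l (by
        rw [mul_app, perm_sv, hσl]
        have := hunit p
        rw [hcol, smul_dotProduct, dotProduct_smul, dot_sv_self, smul_eq_mul, smul_eq_mul, mul_one] at this
        rcases mul_self_eq_one_iff.1 this with e | e <;> rw [hcol, e] <;> simp)
      have := hm.mul h2 ((mon_perm (F := F) σ).inv h2)
      rwa [mul_inv_cancel_right] at this
  push Not at haxis
  exfalso
  have h2c : ∀ p ∈ Z, (supp (g.1 (sv F p))).card = 2 := fun p hp => by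
    have := haxis p hp; have := (hplain p hp).1; omega
  have hdj : ∀ p ∈ Z, ∀ q ∈ Z, p ≠ q → supp (g.1 (sv F p)) = supp (g.1 (sv F q)) ∨
      Disjoint (supp (g.1 (sv F p))) (supp (g.1 (sv F q))) := by
    intro p hp q hq hpq
    by_cases he : supp (g.1 (sv F p)) = supp (g.1 (sv F q))
    · exact Or.inl he
    refine Or.inr (Finset.disjoint_left.2 fun l hl hl' => ?_)
    have ho := horth hpq
    rw [dot_sum_supp subset_rfl, Finset.sum_eq_single_of_mem l hl fun m hm hml => by
      by_contra hne
      exact he (by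
        have hm' : m ∈ supp (g.1 (sv F q)) := mem_supp.2 fun h0 => hne (by rw [h0, mul_zero])
        have e1 : ({m, l} : Finset ι) = supp (g.1 (sv F p)) := Finset.eq_of_subset_of_card_le
          (by intro z hz; simp at hz; rcases hz with rfl | rfl <;> assumption)
          (by rw [h2c p hp, Finset.card_pair hml])
        have e2 : ({m, l} : Finset ι) = supp (g.1 (sv F q)) := Finset.eq_of_subset_of_card_le
          (by intro z hz; simp at hz; rcases hz with rfl | rfl <;> assumption)
          (by rw [h2c q hq, Finset.card_pair hml])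
        rw [← e1, e2])] at ho
    exact mul_ne_zero (mem_supp.1 hl) (mem_supp.1 hl') ho
  obtain ⟨p, hp, q, hq, hpq, hsame⟩ : ∃ p ∈ Z, ∃ q ∈ Z, p ≠ q ∧
      supp (g.1 (sv F p)) = supp (g.1 (sv F q)) := by
    by_contra hcon
    push Not at hcon
    have : ∑ p ∈ Z, (supp (g.1 (sv F p))).card ≤ Fintype.card ι := by
      rw [← Finset.card_biUnion fun p hp q hq hpq => ((hdj p hp q hq hpq).resolve_left (hcon p hp q hq hpq))]
      exact Finset.card_le_univ _
    rw [Finset.sum_congr rfl h2c, Finset.sum_const, smul_eq_mul] at this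
    omega
  set s := g.1 (sv F p)
  set t := g.1 (sv F q)
  obtain ⟨a, b, hab, hsupp⟩ := Finset.card_eq_two.1 (h2c p hp)
  change supp s = {a, b} at hsupp
  have htsupp : supp t = {a, b} := by rw [← hsame, hsupp]
  have hsa : s a ≠ 0 := mem_supp.1 (by rw [hsupp]; simp)
  have hsb : s b ≠ 0 := mem_supp.1 (by rw [hsupp]; simp)
  have hta : t a ≠ 0 := mem_supp.1 (by rw [htsupp]; simp)
  have htb : t b ≠ 0 := mem_supp.1 (by rw [htsupp]; simp)
  have n1 : s a * s a + s b * s b = 1 := by
    rw [← hunit p, dot_sum_supp (le_of_eq hsupp), Finset.sum_pair hab]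
  have n2 : t a * t a + t b * t b = 1 := by
    rw [← hunit q, dot_sum_supp (le_of_eq htsupp), Finset.sum_pair hab]
  have n3 : s a * t a + s b * t b = 0 := by
    rw [← horth hpq, dot_sum_supp (le_of_eq hsupp), Finset.sum_pair hab]
  have q1 := (hplain p hp).2 a (by rw [show supp (g.1 (sv F p)) = _ from hsupp]; simp) b
    (by rw [show supp (g.1 (sv F p)) = _ from hsupp]; simp)
  have q2 := (hplain q hq).2 a (by rw [show supp (g.1 (sv F q)) = _ from htsupp]; simp) b
    (by rw [show supp (g.1 (sv F q)) = _ from htsupp]; simp)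
  have hea : sv F a = s a • s + t a • t := funext fun m => by
    simp only [Pi.add_apply, Pi.smul_apply, smul_eq_mul]
    rcases eq_or_ne m a with rfl | hma
    · rw [show sv F m m = 1 by simp]
      change s m ^ 2 = s b ^ 2 at q1
      change t m ^ 2 = t b ^ 2 at q2
      apply mul_left_cancel₀ h2
      linear_combination -n1 - n2 - q1 - q2
    · rw [show sv F a m = 0 by simp [hma]]
      rcases eq_or_ne m b with rfl | hmb
      · change s a ^ 2 = s m ^ 2 at q1
        change t a ^ 2 = t m ^ 2 at q2
        have key : (s a * s m + t a * t m) * (2 * t m) = 0 := by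
          linear_combination (2 * s a) * n3 + t a * n2 - t a * q2 - t a * n1 - t a * q1
        exact ((mul_eq_zero.1 key).resolve_right (mul_ne_zero h2 htb)).symm
      · rw [not_mem_supp.1 (show m ∉ supp s by rw [hsupp]; simp [hma, hmb]),
          not_mem_supp.1 (show m ∉ supp t by rw [htsupp]; simp [hma, hmb])]
        simp
  obtain ⟨c, hc, hcd⟩ : ∃ c ∈ Z, Disjoint (supp (g.1 (sv F c))) ({a, b} : Finset ι) := by
    by_contra hcon
    push Not at hcon
    have hall : ∀ c ∈ (Z.erase p).erase q, False := by
      intro c hc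
      simp only [Finset.mem_erase] at hc
      have hc' := (hdj c hc.2.2 p hp hc.2.1).resolve_right (by
        rw [show supp (g.1 (sv F p)) = _ from hsupp]; exact hcon c hc.2.2)
      change supp (g.1 (sv F c)) = supp s at hc'
      rw [hsupp] at hc'
      have o1 : g.1 (sv F c) ⬝ᵥ s = 0 := horth hc.2.1
      have o2 : g.1 (sv F c) ⬝ᵥ t = 0 := horth hc.1
      have := congrArg (fun w => g.1 (sv F c) ⬝ᵥ w) hea
      simp only [dotProduct_add, dotProduct_smul, o1, o2, smul_zero, add_zero, dotProduct_single,
        mul_one] at this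
      exact mem_supp.1 (show a ∈ supp (g.1 (sv F c)) by rw [hc']; simp) this
    obtain ⟨c, hc⟩ := Finset.card_pos.1 (show 0 < ((Z.erase p).erase q).card by
      rw [Finset.card_erase_of_mem (Finset.mem_erase.2 ⟨hpq.symm, hq⟩), Finset.card_erase_of_mem hp]; omega)
    exact hall c hc
  have hcp : c ≠ p := fun e => by
    rw [e, show supp (g.1 (sv F p)) = _ from hsupp] at hcd; simp at hcd
  have hcq : c ≠ q := fun e => by
    rw [e, show supp (g.1 (sv F q)) = _ from htsupp] at hcd; simp at hcd
  obtain ⟨e, he, he'⟩ : ∃ e ∈ Z, e ∉ ({p, q, c} : Finset ι) :=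
    Finset.exists_mem_notMem_of_card_lt_card (Finset.card_le_three.trans_lt (by omega))
  simp only [Finset.mem_insert, Finset.mem_singleton, not_or] at he'
  set π := Equiv.swap p e * Equiv.swap p c
  have hπ : Equiv.Perm.sign π = 1 := by
    rw [map_mul, Equiv.Perm.sign_swap (Ne.symm he'.1), Equiv.Perm.sign_swap hcp.symm]; decide
  have hπp : π p = c := by
    rw [Equiv.Perm.mul_apply, Equiv.swap_apply_left, Equiv.swap_apply_of_ne_of_ne hcp (Ne.symm he'.2.2)]
  have hπq : π q = q := by
    rw [Equiv.Perm.mul_apply, Equiv.swap_apply_of_ne_of_ne hpq.symm hcq.symm,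
      Equiv.swap_apply_of_ne_of_ne hpq.symm (Ne.symm he'.2.1)]
  set k := g * permHom ι F π * g⁻¹
  have hkM : k ∈ M := M.mul_mem (M.mul_mem hg (H.mon _ (perm_mem_omega (by omega) hπ) (mon_perm π))) (M.inv_mem hg)
  have hks : ∀ r, k.1 (g.1 (sv F r)) = g.1 (sv F (π r)) := fun r => by
    rw [mul_app, mul_app, inv_app, perm_sv]
  obtain ⟨l, hl⟩ : ∃ l, l ∉ supp s ∪ supp (g.1 (sv F c)) ∪ supp (g.1 (sv F e)) := by
    by_contra hcon
    push Not at hcon
    have h1 := Finset.card_le_card (fun l (_ : l ∈ (Finset.univ : Finset ι)) => hcon l)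
    rw [Finset.card_univ] at h1
    have := (Finset.card_union_le (supp s ∪ supp (g.1 (sv F c))) (supp (g.1 (sv F e)))).trans
      (Nat.add_le_add_right (Finset.card_union_le _ _) _)
    rw [show (supp s).card = 2 from h2c p hp, h2c c hc, h2c e he] at this
    omega
  simp only [Finset.mem_union, not_or] at hl
  have hkl : k.1 (sv F l) = sv F l := by
    set y := (g⁻¹ : OG ι F).1 (sv F l)
    have hy : ∀ r, y r = g.1 (sv F r) l := fun r => by
      have := OG.dot h2 g (sv F r) y
      rw [app_inv, dotProduct_single, mul_one, dot_sv] at this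
      exact this.symm
    have yp : y p = 0 := by rw [hy]; exact not_mem_supp.1 hl.1.1
    have yc : y c = 0 := by rw [hy]; exact not_mem_supp.1 hl.1.2
    have ye : y e = 0 := by rw [hy]; exact not_mem_supp.1 hl.2
    rw [mul_app, mul_app]
    change g.1 ((permHom ι F π).1 y) = sv F l
    rw [show (permHom ι F π).1 y = y from funext fun r => by
      rw [perm_app]
      have hπi : ∀ r, r ≠ p → r ≠ c → r ≠ e → π.symm r = r := fun r h1 h2' h3 => by
        rw [Equiv.symm_apply_eq, Equiv.Perm.mul_apply, Equiv.swap_apply_of_ne_of_ne h1 h2',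
          Equiv.swap_apply_of_ne_of_ne h1 h3]
      by_cases h1 : r = p ∨ r = c ∨ r = e
      · have hr : π.symm r = p ∨ π.symm r = c ∨ π.symm r = e := by
          by_contra hn'
          push Not at hn'
          have := hπi (π.symm r) hn'.1 hn'.2.1 hn'.2.2
          have h' : r = π.symm r := π.symm.injective this.symm ▸ rfl
          rw [← h'] at hn'
          rcases h1 with h | h | h
          exacts [hn'.1 h, hn'.2.1 h, hn'.2.2 h]
        rcases h1 with rfl | rfl | rfl <;> rcases hr with h | h | h <;> rw [h] <;> simp [yp, yc, ye]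
      · push Not at h1
        rw [hπi r h1.1 h1.2.1 h1.2.2], app_inv]
  have hmon := H.fix k hkM l (Or.inl hkl)
  have hka : k.1 (sv F a) = s a • g.1 (sv F c) + t a • t := by
    rw [hea, map_add, map_smul, map_smul]
    show s a • k.1 (g.1 (sv F p)) + t a • k.1 (g.1 (sv F q)) = _
    rw [hks, hks, hπp, hπq]
  obtain ⟨j, hj⟩ := hmon a
  obtain ⟨d, hd⟩ := Finset.card_pos.1 (show 0 < (supp (g.1 (sv F c))).card by rw [h2c c hc]; norm_num)
  have hda := Finset.disjoint_left.1 hcd hd
  have va : k.1 (sv F a) a ≠ 0 := by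
    rw [hka]
    have : g.1 (sv F c) a = 0 := not_mem_supp.1 (Finset.disjoint_right.1 hcd (by simp))
    simp [this, hta]
  have vd : k.1 (sv F a) d ≠ 0 := by
    rw [hka]
    have : t d = 0 := not_mem_supp.1 (by rw [htsupp]; exact hda)
    simp [this, hsa, mem_supp.1 hd]
  have e1 : a = j := by by_contra hne; exact va (hj a hne)
  have e2 : d = j := by by_contra hne; exact vd (hj d hne)
  exact hda (by rw [e2, ← e1]; simp)

end Cfsg.Agent.DecompMax.OF
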