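import Cfsg.Agent.DecompMax.FrameBase

/-!
The sign invariant (determinant) on the orthogonal group of the sum of squares.
-/

set_option autoImplicit false
set_option linter.style.haveILetI false
set_option linter.unusedSectionVars false

namespace Cfsg.Agent.DecompMax.OF

open QuadraticMap Module Cfsg.Agent.Classical

universe u

variable {F : Type u} [Field F] [Finite F] {ι : Type} [Fintype ι] [DecidableEq ι]

instance instFiniteOG : Finite (OG ι F) :=
  Finite.of_injective (fun g : OG ι F => fun v : ι → F => g.1 v)
    fun _ _ h => Subtype.ext (LinearEquiv.ext fun v => congrFun h v)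

/-- The determinant sign. -/
noncomputable def dk (h2 : Two F) : OG ι F →* ℤˣ :=
  dicksonHom (bNondeg_Qd h2)
    (OrthGen.RQ_eq_top (bNondeg_Qd h2) (OrthGen.notExceptional_of_two_ne_zero h2))

theorem dk_apply (h2 : Two F) (g : OG ι F) : dk h2 g = dickson g := rfl

theorem dk_refl (h2 : Two F) {x : ι → F} (hx : x ⬝ᵥ x ≠ 0) : dk h2 (refl x) = -1 := by
  rw [dk_apply, refl_eq hx]
  exact dickson_refl (bNondeg_Qd h2) hx

theorem dk_flips (h2 : Two F) (l : List ι) : dk h2 (flips l : OG ι F) = (-1) ^ l.length := by
  induction l with
  | nil => simp [flips]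
  | cons a l ih =>
    rw [flips, List.map_cons, List.prod_cons, map_mul, ← flips, ih, dk_refl h2 (by simp),
      List.length_cons, pow_succ']

theorem dk_commutator (h2 : Two F) {g : OG ι F} (hg : g ∈ commutator (OG ι F)) : dk h2 g = 1 :=
  Abelianization.commutator_subset_ker (dk h2) hg

theorem finrank_fix_parity (h2 : Two F) {g : OG ι F} (h : dk h2 g = 1) :
    Even (finrank F (fixSpace g) + Fintype.card ι) := by
  rw [dk_apply, dickson, finrank_fintype_fun_eq_card] at h
  rcases Nat.even_or_odd (finrank F (fixSpace g) + Fintype.card ι) with e | e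
  · exact e
  · rw [e.neg_one_pow] at h
    exact absurd h (by decide)

end Cfsg.Agent.DecompMax.OF
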