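import Cfsg.Agent.DecompMax.FramePole

/-!
Three coordinates: a group of isometries containing the signed cyclic permutations and a reflection
along a non-plain unit vector is transitive on the vectors of each non-zero norm.
-/

set_option autoImplicit false
set_option linter.style.haveILetI false
set_option linter.unusedSectionVars false
set_option linter.unusedVariables false

namespace Cfsg.Agent.DecompMax.OF

open QuadraticMap Module Cfsg.Agent.Classical Matrix
open scoped Matrix

universe u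

variable {F : Type u} [Field F] {ι : Type} [Fintype ι] [DecidableEq ι]

/-- A vector of the shape of a frame vector or of a sum of two of them. -/
def Plain (x : ι → F) : Prop :=
  (supp x).card ≤ 2 ∧ ∀ i ∈ supp x, ∀ j ∈ supp x, x i ^ 2 = x j ^ 2

/-- Unit centres of reflections in a group. -/
def IsCen (G : Subgroup (OG ι F)) (x : ι → F) : Prop := x ⬝ᵥ x = 1 ∧ refl x ∈ G

theorem IsCen.conj (h2 : Two F) {G : Subgroup (OG ι F)} {x : ι → F} (hx : IsCen G x) {g : OG ι F}
    (hg : g ∈ G) : IsCen G (g.1 x) :=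
  ⟨by rw [OG.dot h2, hx.1], by
    rw [← refl_conj h2]; exact G.mul_mem (G.mul_mem hg hx.2) (G.inv_mem hg)⟩

theorem eq_or_neg_of_refl_eq (h2 : Two F) {x y : ι → F} (hx : x ⬝ᵥ x = 1) (hy : y ⬝ᵥ y = 1)
    (h : refl x = refl y) : y = x ∨ y = -x := by
  have e := refl_self (by rw [hy]; exact one_ne_zero : y ⬝ᵥ y ≠ 0)
  rw [← h, refl_app_unit hx] at e
  have e' : y = (x ⬝ᵥ y) • x := funext fun i => by
    have := congrFun e i
    simp only [Pi.sub_apply, Pi.smul_apply, Pi.neg_apply, smul_eq_mul] at this ⊢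
    exact mul_left_cancel₀ h2 (by linear_combination this)
  have hn := hy
  rw [e', smul_dotProduct, dotProduct_smul, hx, smul_eq_mul, smul_eq_mul, mul_one] at hn
  rcases mul_self_eq_one_iff.1 hn with h' | h' <;> rw [h'] at e'
  · left; rwa [one_smul] at e'
  · right; rwa [neg_one_smul] at e'

section Three

variable [Finite F] (h2 : Two F)

include h2

theorem Three.expand {u w : Fin 3 → F} (hu : u ⬝ᵥ u = 0) (hw : w ⬝ᵥ w = 0) (huw : u ⬝ᵥ w = 1)
    (v : Fin 3 → F) : v = (v ⬝ᵥ w) • u + (v ⬝ᵥ u) • w - (v ⬝ᵥ (u ⨯₃ w)) • (u ⨯₃ w) := by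
  have hzz : (u ⨯₃ w) ⬝ᵥ (u ⨯₃ w) = -1 := by
    rw [cross_dot_cross, hu, hw, huw, dotProduct_comm w u, huw]; ring
  have hzu : (u ⨯₃ w) ⬝ᵥ u = 0 := by rw [dotProduct_comm]; exact dot_self_cross u w
  have hzw : (u ⨯₃ w) ⬝ᵥ w = 0 := by rw [dotProduct_comm]; exact dot_cross_self u w
  set z := u ⨯₃ w
  set d := v - ((v ⬝ᵥ w) • u + (v ⬝ᵥ u) • w - (v ⬝ᵥ z) • z)
  have hwu : w ⬝ᵥ u = 1 := by rw [dotProduct_comm]; exact huw
  have huz : u ⬝ᵥ z = 0 := by rw [dotProduct_comm]; exact hzu
  have hwz : w ⬝ᵥ z = 0 := by rw [dotProduct_comm]; exact hzw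
  have d1 : d ⬝ᵥ u = 0 := by
    simp only [d, sub_dotProduct, add_dotProduct, smul_dotProduct, smul_eq_mul, hu, hwu, hzu]; ring
  have d2 : d ⬝ᵥ w = 0 := by
    simp only [d, sub_dotProduct, add_dotProduct, smul_dotProduct, smul_eq_mul, huw, hw, hzw]; ring
  have d3 : d ⬝ᵥ z = 0 := by
    simp only [d, sub_dotProduct, add_dotProduct, smul_dotProduct, smul_eq_mul, huz, hwz, hzz]; ring
  have hli : LinearIndependent F ![u, w, z] := by
    rw [Fintype.linearIndependent_iff]
    intro g hg
    have e1 := congrArg (fun x => x ⬝ᵥ u) hg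
    have e2 := congrArg (fun x => x ⬝ᵥ w) hg
    have e3 := congrArg (fun x => x ⬝ᵥ z) hg
    simp only [Fin.sum_univ_three, add_dotProduct, smul_dotProduct, smul_eq_mul, zero_dotProduct,
      Matrix.cons_val_zero, Matrix.cons_val_one, Matrix.cons_val_two, Matrix.head_cons, Matrix.tail_cons,
      hu, hwu, hzu, huw, hw, hzw, huz, hwz, hzz, mul_zero, mul_one, add_zero, zero_add, mul_neg] at e1 e2 e3
    intro i
    fin_cases i
    · exact e2
    · exact e1
    · exact neg_eq_zero.1 e3
  have hspan : Submodule.span F (Set.range ![u, w, z]) = ⊤ :=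
    hli.span_eq_top_of_card_eq_finrank (by rw [finrank_fintype_fun_eq_card])
  have hd : ∀ y, d ⬝ᵥ y = 0 := fun y => by
    have hy : y ∈ Submodule.span F (Set.range ![u, w, z]) := hspan ▸ Submodule.mem_top
    induction hy using Submodule.span_induction with
    | mem a ha =>
      obtain ⟨i, rfl⟩ := ha
      fin_cases i
      · exact d1
      · exact d2
      · exact d3
    | zero => exact dotProduct_zero d
    | add a b _ _ ha hb => rw [dotProduct_add, ha, hb, add_zero]
    | smul c a _ ha => rw [dotProduct_smul, ha, smul_zero]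
  have : d = 0 := funext fun i => by simpa using hd (sv F i)
  exact sub_eq_zero.1 this

variable {G : Subgroup (OG (Fin 3) F)}

/-- The rotations fixing a singular vector move everything allowed. -/
theorem Three.reach (hp : (Nat.card F).Prime) {g : OG (Fin 3) F} (hgG : g ∈ G) (hd : dk h2 g = 1)
    (hg1 : g ≠ 1) {u w : Fin 3 → F} (hu : u ⬝ᵥ u = 0) (hw : w ⬝ᵥ w = 0) (huw : u ⬝ᵥ w = 1)
    (hgu : g.1 u = u) {v v' : Fin 3 → F} (hn : v ⬝ᵥ v = v' ⬝ᵥ v') (hN : v ⬝ᵥ v ≠ 0)
    (hγ : v ⬝ᵥ u = v' ⬝ᵥ u) (hc : v ⬝ᵥ u ≠ 0 ∨ v ⬝ᵥ (u ⨯₃ w) = v' ⬝ᵥ (u ⨯₃ w)) :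
    ∃ k ∈ G, k.1 v = v' := by
  have hzz : (u ⨯₃ w) ⬝ᵥ (u ⨯₃ w) = -1 := by
    rw [cross_dot_cross, hu, hw, huw, dotProduct_comm w u, huw]; ring
  have hzu : (u ⨯₃ w) ⬝ᵥ u = 0 := by rw [dotProduct_comm]; exact dot_self_cross u w
  have hzw : (u ⨯₃ w) ⬝ᵥ w = 0 := by rw [dotProduct_comm]; exact dot_cross_self u w
  have hexp := Three.expand h2 hu hw huw
  set z := u ⨯₃ w
  have hwu : w ⬝ᵥ u = 1 := by rw [dotProduct_comm]; exact huw
  have huz : u ⬝ᵥ z = 0 := by rw [dotProduct_comm]; exact hzu
  have hwz : w ⬝ᵥ z = 0 := by rw [dotProduct_comm]; exact hzw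
  have hu0 : u ≠ 0 := fun h => by rw [h, zero_dotProduct] at huw; exact zero_ne_one huw
  have h4 : (4 : F) ≠ 0 := by rw [show (4 : F) = 2 * 2 by norm_num]; exact mul_ne_zero h2 h2
  obtain ⟨μ, a, hgz, hgw⟩ : ∃ μ a, g.1 z = z + μ • u ∧ g.1 w = w + a • u + μ • z := by
    have ez := hexp (g.1 z)
    have ew := hexp (g.1 w)
    have e1 : g.1 z ⬝ᵥ u = 0 := by rw [← hgu, OG.dot h2, hzu]
    have e2 : g.1 w ⬝ᵥ u = 1 := by rw [← hgu, OG.dot h2, hwu]
    rw [e1, zero_smul, add_zero] at ez
    rw [e2, one_smul] at ew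
    set μ := g.1 z ⬝ᵥ w
    set l := g.1 z ⬝ᵥ z
    set a := g.1 w ⬝ᵥ w
    set b := g.1 w ⬝ᵥ z
    have q1 : l * l = 1 := by
      have := OG.dot h2 g z z
      rw [ez] at this
      simp only [sub_dotProduct, dotProduct_sub, smul_dotProduct, dotProduct_smul, smul_eq_mul,
        hu, huz, hzu, hzz] at this
      linear_combination -this
    have q2 : -b * l + μ = 0 := by
      have := OG.dot h2 g z w
      rw [ez, ew, hzw] at this
      simp only [sub_dotProduct, add_dotProduct, dotProduct_sub, dotProduct_add, smul_dotProduct,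
        dotProduct_smul, smul_eq_mul, hu, hw, huw, hwu, huz, hzu, hzw, hwz, hzz] at this
      linear_combination this
    have q3 : 2 * a - b * b = 0 := by
      have := OG.dot h2 g w w
      rw [ew, hw] at this
      simp only [sub_dotProduct, add_dotProduct, dotProduct_sub, dotProduct_add, smul_dotProduct,
        dotProduct_smul, smul_eq_mul, hu, hw, huw, hwu, huz, hzu, hzw, hwz, hzz] at this
      linear_combination this
    rcases mul_self_eq_one_iff.1 q1 with hl | hl
    · exfalso
      -- `g` would fix a vector outside the line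
      rw [hl] at ez q2
      have hb : μ = b := by linear_combination q2
      have hfix : g.1 (w + (-b / 2) • z) = w + (-b / 2) • z := by
        rw [map_add, map_smul, ez, ew]
        have ha : a = b * b / 2 := by field_simp; linear_combination q3
        rw [ha, hb]
        match_scalars <;> field_simp <;> ring
      have hmem : w + (-b / 2) • z ∈ F ∙ u :=
        span_eq_fix hu0 hgu (fix_span_of_dk h2 hd hg1) ▸ mem_fixSpace.2 hfix
      obtain ⟨c, hc'⟩ := Submodule.mem_span_singleton.1 hmem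
      have := congrArg (fun y => y ⬝ᵥ u) hc'
      simp only [smul_dotProduct, add_dotProduct, hu, hwu, hzu, smul_eq_mul, mul_zero, add_zero] at this
      exact zero_ne_one this
    · rw [hl] at ez q2
      have hb : b = -μ := by linear_combination q2
      refine ⟨μ, a, ?_, ?_⟩
      · rw [ez]; module
      · rw [ew, hb]; module
  have ha : a = μ * μ / 2 := by
    have := OG.dot h2 g w w
    rw [hgw, hw] at this
    simp only [add_dotProduct, dotProduct_add, smul_dotProduct, dotProduct_smul, smul_eq_mul, hu, hw,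
      huw, hwu, huz, hzu, hzw, hwz, hzz] at this
    field_simp
    linear_combination this
  have hμ : μ ≠ 0 := fun h => hg1 (Subtype.ext (LinearEquiv.ext fun y => by
    rw [hexp y, map_sub, map_add, map_smul, map_smul, map_smul, hgu, hgw, hgz, ha, h]
    simp))
  have hpow : ∀ k : ℕ, (g ^ k).1 u = u ∧ (g ^ k).1 z = z + ((k : F) * μ) • u ∧
      (g ^ k).1 w = w + (((k : F) * μ) * ((k : F) * μ) / 2) • u + ((k : F) * μ) • z := by
    intro k
    induction k with
    | zero => simp
    | succ k ih =>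
      obtain ⟨i1, i2, i3⟩ := ih
      rw [pow_succ', mul_app, mul_app, mul_app, i1, i2, i3]
      refine ⟨hgu, ?_, ?_⟩
      · rw [map_add, map_smul, hgu, hgz]; push_cast; module
      · rw [map_add, map_add, map_smul, map_smul, hgu, hgz, hgw, ha]; push_cast
        match_scalars <;> field_simp <;> ring
  haveI : Fact (Nat.card F).Prime := ⟨hp⟩
  haveI : CharP F (Nat.card F) := by
    haveI := Fintype.ofFinite F
    obtain ⟨r, hr⟩ := CharP.exists F
    obtain ⟨k, hrp, hk⟩ := FiniteField.card F r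
    rw [← Nat.card_eq_fintype_card] at hk
    have : r = Nat.card F := by
      rw [hk] at hp ⊢
      rw [((Nat.Prime.pow_eq_iff hp).1 rfl).2, pow_one]
    exact this ▸ hr
  have hcast : ∀ t : F, ∃ k : ℕ, (k : F) = t := by
    intro t
    haveI := Fintype.ofFinite F
    have hinj : Function.Injective fun k : Fin (Nat.card F) => ((k : ℕ) : F) := fun a b e => by
      have := (CharP.natCast_eq_natCast F (Nat.card F)).1 e
      exact Fin.ext (Nat.ModEq.eq_of_lt_of_lt this a.2 b.2)
    obtain ⟨k, hk⟩ := ((Fintype.bijective_iff_injective_and_card _).2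
      ⟨hinj, by simp [Nat.card_eq_fintype_card]⟩).2 t
    exact ⟨k, hk⟩
  set γ := v ⬝ᵥ u
  set β := v ⬝ᵥ z
  set α := v ⬝ᵥ w
  have e1 : v = α • u + γ • w - β • z := hexp v
  have e2 := hexp v'
  rw [← hγ] at e2
  set β' := v' ⬝ᵥ z
  set α' := v' ⬝ᵥ w
  have hN1 : v ⬝ᵥ v = 2 * α * γ - β * β := by
    conv_lhs => rw [e1]
    simp only [sub_dotProduct, add_dotProduct, dotProduct_sub, dotProduct_add, smul_dotProduct,
      dotProduct_smul, smul_eq_mul, hu, hw, huw, hwu, huz, hzu, hzw, hwz, hzz]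
    ring
  have hN2 : v' ⬝ᵥ v' = 2 * α' * γ - β' * β' := by
    conv_lhs => rw [e2]
    simp only [sub_dotProduct, add_dotProduct, dotProduct_sub, dotProduct_add, smul_dotProduct,
      dotProduct_smul, smul_eq_mul, hu, hw, huw, hwu, huz, hzu, hzw, hwz, hzz]
    ring
  suffices ∃ t, β' = β - γ * t ∧ α' = α - β * t + γ * t * t / 2 by
    obtain ⟨t, ht1, ht2⟩ := this
    obtain ⟨k, hk⟩ := hcast (t / μ)
    refine ⟨g ^ k, G.pow_mem hgG k, ?_⟩
    obtain ⟨i1, i2, i3⟩ := hpow k
    rw [hk, div_mul_cancel₀ _ hμ] at i2 i3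
    rw [e1, map_sub, map_add, map_smul, map_smul, map_smul, i1, i2, i3, e2, ht1, ht2]
    match_scalars <;> field_simp <;> ring
  by_cases hγ0 : γ = 0
  · have hb : β = β' := hc.resolve_left (not_not.2 hγ0)
    have hβ : β ≠ 0 := fun h => hN (by rw [hN1, hγ0, h]; ring)
    refine ⟨(α - α') / β, by rw [hγ0, hb]; ring, ?_⟩
    rw [hγ0]; field_simp; ring
  · refine ⟨(β - β') / γ, by field_simp; ring, ?_⟩
    have key : 2 * α' * γ - β' * β' = 2 * α * γ - β * β := by rw [← hN1, ← hN2, hn]
    field_simp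
    linear_combination key

/-- Transitivity from one rotation fixing a singular vector. -/
theorem Three.trans_of_unip (hp : (Nat.card F).Prime) (hd : ∀ i, refl (sv F i) ∈ G)
    {g : OG (Fin 3) F} (hgG : g ∈ G) (hdk : dk h2 g = 1) (hg1 : g ≠ 1) {u : Fin 3 → F} (hu0 : u ≠ 0)
    (hu : u ⬝ᵥ u = 0) (hgu : g.1 u = u) {v v' : Fin 3 → F} (hn : v ⬝ᵥ v = v' ⬝ᵥ v')
    (hN : v ⬝ᵥ v ≠ 0) : ∃ k ∈ G, k.1 v = v' := by
  classical
  obtain ⟨c, hc⟩ : ∃ c, u c ≠ 0 := by
    by_contra h
    push Not at h
    exact hu0 (funext h)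
  set r : OG (Fin 3) F := refl (sv F c)
  have hru : u ⬝ᵥ r.1 u = -(2 * u c * u c) := by
    rw [refl_app_unit (dot_sv_self c), dot_sv, dotProduct_sub, hu, dotProduct_smul, dotProduct_single,
      smul_eq_mul, mul_one]
    ring
  have hs : u ⬝ᵥ r.1 u ≠ 0 := by rw [hru]; exact neg_ne_zero.2 (mul_ne_zero (mul_ne_zero h2 hc) hc)
  set s := (u ⬝ᵥ r.1 u)⁻¹
  set w := s • r.1 u
  have hw : w ⬝ᵥ w = 0 := by
    simp only [w, smul_dotProduct, dotProduct_smul, OG.dot h2, hu, smul_eq_mul, mul_zero]
  have huw : u ⬝ᵥ w = 1 := by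
    simp only [w, dotProduct_smul, smul_eq_mul]
    exact inv_mul_cancel₀ hs
  have hwu : w ⬝ᵥ u = 1 := by rw [dotProduct_comm]; exact huw
  have hg'G : r * g * r⁻¹ ∈ G := G.mul_mem (G.mul_mem (hd c) hgG) (G.inv_mem (hd c))
  have hg'd : dk h2 (r * g * r⁻¹) = 1 := by simp [map_mul, hdk]
  have hg'1 : r * g * r⁻¹ ≠ 1 := fun e => hg1 (by
    calc g = r⁻¹ * (r * g * r⁻¹) * r := by group
      _ = 1 := by rw [e]; group)
  have hg'w : (r * g * r⁻¹).1 w = w := by
    rw [map_smul, mul_app, mul_app, inv_app, hgu]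
  set z := u ⨯₃ w
  have hzz : z ⬝ᵥ z = -1 := by
    rw [cross_dot_cross, hu, hw, huw, hwu]; ring
  have hzu : z ⬝ᵥ u = 0 := by rw [dotProduct_comm]; exact dot_self_cross u w
  have hzw : z ⬝ᵥ w = 0 := by rw [dotProduct_comm]; exact dot_cross_self u w
  have huz : u ⬝ᵥ z = 0 := by rw [dotProduct_comm]; exact hzu
  have hwz : w ⬝ᵥ z = 0 := by rw [dotProduct_comm]; exact hzw
  have U : ∀ {a b : Fin 3 → F}, a ⬝ᵥ a = b ⬝ᵥ b → a ⬝ᵥ a ≠ 0 → a ⬝ᵥ u = b ⬝ᵥ u →
      (a ⬝ᵥ u ≠ 0 ∨ a ⬝ᵥ z = b ⬝ᵥ z) → ∃ k ∈ G, k.1 a = b :=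
    fun h1 h1' h3 h4 => Three.reach h2 hp hgG hdk hg1 hu hw huw hgu h1 h1' h3 h4
  have W : ∀ {a b : Fin 3 → F}, a ⬝ᵥ a = b ⬝ᵥ b → a ⬝ᵥ a ≠ 0 → a ⬝ᵥ w = b ⬝ᵥ w →
      (a ⬝ᵥ w ≠ 0 ∨ a ⬝ᵥ z = b ⬝ᵥ z) → ∃ k ∈ G, k.1 a = b :=
    fun {a b} h1 h1' h3 h4 => Three.reach h2 hp hg'G hg'd hg'1 hw hu hwu hg'w h1 h1' h3
      (h4.imp_right fun h => by
        rw [← cross_anticomm u w, dotProduct_neg, dotProduct_neg, h])
  set N := v ⬝ᵥ v
  let mk : F → F → F → (Fin 3 → F) := fun α β γ => α • u + γ • w - β • z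
  have mk_u : ∀ α β γ, mk α β γ ⬝ᵥ u = γ := fun α β γ => by
    simp only [mk, sub_dotProduct, add_dotProduct, smul_dotProduct, smul_eq_mul, hu, hwu, hzu]; ring
  have mk_w : ∀ α β γ, mk α β γ ⬝ᵥ w = α := fun α β γ => by
    simp only [mk, sub_dotProduct, add_dotProduct, smul_dotProduct, smul_eq_mul, huw, hw, hzw]; ring
  have mk_z : ∀ α β γ, mk α β γ ⬝ᵥ z = β := fun α β γ => by
    simp only [mk, sub_dotProduct, add_dotProduct, smul_dotProduct, smul_eq_mul, huz, hwz, hzz]; ring
  have mk_n : ∀ α β γ, mk α β γ ⬝ᵥ mk α β γ = 2 * α * γ - β * β := fun α β γ => by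
    simp only [mk, sub_dotProduct, add_dotProduct, dotProduct_sub, dotProduct_add, smul_dotProduct,
      dotProduct_smul, smul_eq_mul, hu, hw, huw, hwu, huz, hzu, hzw, hwz, hzz]
    ring
  let Rel : (Fin 3 → F) → (Fin 3 → F) → Prop := fun a b => ∃ k ∈ G, k.1 a = b
  have rs : ∀ {a b}, Rel a b → Rel b a := fun {a b} ⟨k, hk, e⟩ => ⟨k⁻¹, G.inv_mem hk, by rw [← e, inv_app]⟩
  have rt : ∀ {a b d}, Rel a b → Rel b d → Rel a d := fun {a b d} ⟨k, hk, e⟩ ⟨l, hl, e'⟩ =>
    ⟨l * k, G.mul_mem hl hk, by rw [mul_app, e, e']⟩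
  -- a form with `β` prescribed
  have step : ∀ a : Fin 3 → F, a ⬝ᵥ a = N → a ⬝ᵥ u ≠ 0 → ∀ b,
      Rel a (mk ((N + b * b) / (2 * (a ⬝ᵥ u))) b (a ⬝ᵥ u)) := fun a ha h0 b => by
    refine U ?_ (by rw [ha]; exact hN) (mk_u _ _ _).symm (Or.inl h0)
    rw [mk_n, ha]; field_simp; ring
  let P : F → (Fin 3 → F) := fun γ => mk ((N + 0 * 0) / (2 * γ)) 0 γ
  have hPn : ∀ γ, γ ≠ 0 → P γ ⬝ᵥ P γ = N := fun γ hγ => by rw [mk_n]; field_simp; ring
  have normal : ∀ a : Fin 3 → F, a ⬝ᵥ a = N → ∃ γ, γ ≠ 0 ∧ Rel a (P γ) := by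
    intro a ha
    by_cases hau : a ⬝ᵥ u = 0
    · -- first reach a vector with non-zero `w`-coordinate
      obtain ⟨b, hab, hbu, hbw, hbn⟩ : ∃ b, Rel a b ∧ b ⬝ᵥ u = 0 ∧ b ⬝ᵥ w ≠ 0 ∧ b ⬝ᵥ b = N := by
        by_cases haw : a ⬝ᵥ w = 0
        · have he := Three.expand h2 hu hw huw a
          rw [haw, hau, zero_smul, zero_smul, zero_add, zero_sub] at he
          change a = -((a ⬝ᵥ z) • z) at he
          refine ⟨mk 1 (a ⬝ᵥ z) 0, U ?_ (by rw [ha]; exact hN) ?_ (Or.inr (mk_z _ _ _).symm), mk_u _ _ _,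
            by rw [mk_w]; exact one_ne_zero, ?_⟩
          · rw [mk_n]
            conv_lhs => rw [he]
            simp only [neg_dotProduct, dotProduct_neg, smul_dotProduct, dotProduct_smul, smul_eq_mul, hzz]
            ring
          · rw [mk_u, hau]
          · rw [mk_n, ← ha]
            conv_rhs => rw [he]
            simp only [neg_dotProduct, dotProduct_neg, smul_dotProduct, dotProduct_smul, smul_eq_mul, hzz]
            ring
        · exact ⟨a, ⟨1, G.one_mem, rfl⟩, hau, haw, ha⟩
      set α := b ⬝ᵥ w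
      have hne : N / (2 * α) ≠ 0 := div_ne_zero hN (mul_ne_zero h2 hbw)
      have hb2 : Rel b (mk α 0 (N / (2 * α))) := by
        refine W ?_ (by rw [hbn]; exact hN) (mk_w _ _ _).symm (Or.inl hbw)
        rw [mk_n, hbn]; field_simp; ring
      refine ⟨N / (2 * α), hne, rt hab (rt hb2 ?_)⟩
      have := step (mk α 0 (N / (2 * α))) (by rw [mk_n]; field_simp; ring) (by rw [mk_u]; exact hne) 0
      rwa [mk_u] at this
    · exact ⟨_, hau, step a ha hau 0⟩
  have link : ∀ γ γ', γ ≠ 0 → γ' ≠ 0 → Rel (P γ) (P γ') := by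
    intro γ γ' hγ hγ'
    have s1 : ∀ b, Rel (P γ) (mk ((N + b * b) / (2 * γ)) b γ) := fun b => by
      have := step (P γ) (hPn γ hγ) (by rw [mk_u]; exact hγ) b
      rwa [mk_u] at this
    have s2 : ∀ b, Rel (P γ') (mk ((N + b * b) / (2 * γ')) b γ') := fun b => by
      have := step (P γ') (hPn γ' hγ') (by rw [mk_u]; exact hγ') b
      rwa [mk_u] at this
    by_cases hsq : ∃ b, N + b * b = 0
    · obtain ⟨b, hb⟩ := hsq
      refine rt (s1 b) (rt ?_ (rs (s2 b)))
      refine W ?_ ?_ (by rw [mk_w, mk_w, hb]; simp) (Or.inr (by rw [mk_z, mk_z]))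
      · rw [mk_n, mk_n, hb]; simp
      · rw [mk_n, hb]; simp only [zero_div, mul_zero, zero_mul, zero_sub, neg_ne_zero]
        intro h; rw [h, add_zero] at hb; exact hN hb
    · push Not at hsq
      haveI := Fintype.ofFinite F
      have hodd : Fintype.card F % 2 = 1 := FiniteField.odd_card_of_char_ne_two (fun h => h2 (by
        haveI := ringChar.of_eq h
        exact CharTwo.two_eq_zero))
      obtain ⟨b, b', hbb⟩ := FiniteField.exists_root_sum_quadratic
        (f := Polynomial.C γ' * Polynomial.X ^ 2 + Polynomial.C (γ' * N))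
        (g := Polynomial.C (-γ) * Polynomial.X ^ 2 + Polynomial.C (-γ * N))
        (by compute_degree!) (by compute_degree!) hodd
      simp only [Polynomial.eval_add, Polynomial.eval_mul, Polynomial.eval_pow, Polynomial.eval_C,
        Polynomial.eval_X] at hbb
      refine rt (s1 b) (rt ?_ (rs (s2 b')))
      have e : (N + b' * b') / (2 * γ') = (N + b * b) / (2 * γ) := by
        field_simp; linear_combination -hbb
      rw [e]
      refine W ?_ ?_ (by rw [mk_w, mk_w]) (Or.inl ?_)
      · rw [mk_n, mk_n, ← e]; field_simp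
        linear_combination -hbb
      · rw [mk_n]
        have : 2 * ((N + b * b) / (2 * γ)) * γ - b * b = N := by field_simp; ring
        rw [this]; exact hN
      · rw [mk_w]; exact div_ne_zero (hsq b) (mul_ne_zero h2 hγ)
  obtain ⟨γ, hγ, h1⟩ := normal v rfl
  obtain ⟨γ', hγ', h1'⟩ := normal v' hn.symm
  exact rt h1 (rt (link γ γ' hγ hγ') (rs h1'))

/-- A signed rearrangement of a vector. -/
def srt (x : Fin 3 → F) (σ : Equiv.Perm (Fin 3)) (s t : Bool) : Fin 3 → F :=
  fun i => (if (i = 1 ∧ s) ∨ (i = 2 ∧ t) then -1 else 1) * x (σ i)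

theorem srt_sq (x : Fin 3 → F) (σ : Equiv.Perm (Fin 3)) (s t : Bool) (i : Fin 3) :
    srt x σ s t i ^ 2 = x (σ i) ^ 2 := by
  rw [srt, mul_pow]; split_ifs <;> simp

theorem srt_inj {x : Fin 3 → F} (hx : ∀ i, x i ≠ 0) {σ : Equiv.Perm (Fin 3)} {s t s' t' : Bool}
    (h : srt x σ s' t' = srt x σ s t ∨ srt x σ s' t' = -srt x σ s t) : s = s' ∧ t = t' := by
  rcases h with e | e
  · have e1 := congrFun e 1
    have e2 := congrFun e 2
    simp only [srt] at e1 e2
    have a1 := mul_right_cancel₀ (hx (σ 1)) e1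
    have a2 := mul_right_cancel₀ (hx (σ 2)) e2
    constructor
    · rcases s with _ | _ <;> rcases s' with _ | _ <;> simp at a1 ⊢ <;>
        first | exact h2 (by linear_combination a1) | exact h2 (by linear_combination -a1)
    · rcases t with _ | _ <;> rcases t' with _ | _ <;> simp at a2 ⊢ <;>
        first | exact h2 (by linear_combination a2) | exact h2 (by linear_combination -a2)
  · exfalso
    have e0 := congrFun e 0
    simp [srt] at e0
    exact hx (σ 0) ((mul_eq_zero.1 (by linear_combination e0 : (2 : F) * x (σ 0) = 0)).resolve_left h2)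

variable (hd : ∀ i, refl (sv F (i : Fin 3)) ∈ G)
  (hS : ∀ (σ : Equiv.Perm (Fin 3)) (x : Fin 3 → F), IsCen G x → IsCen G (x ∘ σ))
  (hc : permHom (Fin 3) F (finRotate 3) ∈ G)

include hd hS hc

theorem Three.cen_srt {x : Fin 3 → F} (hx : IsCen G x) (σ : Equiv.Perm (Fin 3)) (s t : Bool) :
    IsCen G (srt x σ s t) := by
  have h0 := hS σ x hx
  have h1 : IsCen G ((refl (sv F (1 : Fin 3))).1 (x ∘ σ)) := h0.conj h2 (hd 1)
  have h1' : IsCen G ((refl (sv F (2 : Fin 3))).1 (x ∘ σ)) := h0.conj h2 (hd 2)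
  have h3 : IsCen G ((refl (sv F (2 : Fin 3))).1 ((refl (sv F (1 : Fin 3))).1 (x ∘ σ))) := h1.conj h2 (hd 2)
  rcases s with _ | _ <;> rcases t with _ | _
  · convert h0 using 1; funext i; simp [srt]
  · convert h1' using 1; funext i; rw [refl_sv_app h2]; fin_cases i <;> simp [srt]
  · convert h1 using 1; funext i; rw [refl_sv_app h2]; fin_cases i <;> simp [srt]
  · convert h3 using 1; funext i; rw [refl_sv_app h2, refl_sv_app h2]; fin_cases i <;> simp [srt]

/-- A non-plain centre with all coordinates non-zero gives a rotation fixing a singular vector. -/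
theorem Three.unip_of_full (h5 : 5 ≤ Nat.card F) (hp : (Nat.card F).Prime) {x : Fin 3 → F}
    (hx : IsCen G x) (hfull : ∀ i, x i ≠ 0) : Unip (G ⊓ (dk h2).ker) := by
  classical
  by_contra hno
  have h3 : (3 : F) ≠ 0 := by
    intro h
    haveI := Fintype.ofFinite F
    obtain ⟨r, hr⟩ := CharP.exists F
    obtain ⟨k, hrp, hk⟩ := FiniteField.card F r
    have hr3 : r = 3 := ((Nat.prime_dvd_prime_iff_eq hrp (by norm_num)).1
      ((CharP.cast_eq_zero_iff F r 3).1 (by exact_mod_cast h)))
    rw [Nat.card_eq_fintype_card, hk, hr3] at hp h5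
    rw [((Nat.Prime.pow_eq_iff hp).1 rfl).2] at h5
    omega
  set K := G ⊓ (dk h2).ker
  have hKd : ∀ g ∈ K, dk h2 g = 1 := fun g hg => hg.2
  have hneg : (flips [0, 1, 2] : OG (Fin 3) F) ∈ G := by
    simp only [flips, List.map_cons, List.map_nil, List.prod_cons, List.prod_nil, mul_one]
    exact G.mul_mem (hd 0) (G.mul_mem (hd 1) (hd 2))
  have hht : ∀ z, IsCen G z → halfTurn z ∈ K := fun z hz =>
    ⟨G.mul_mem hneg hz.2, dk_halfTurn h2 (by rw [hz.1]; exact one_ne_zero)⟩
  have hax : ∀ i : Fin 3, IsCen G (sv F i) := fun i => ⟨dot_sv_self i, hd i⟩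
  have hrot : permHom (Fin 3) F (finRotate 3) ∈ K := by
    refine ⟨hc, ?_⟩
    show dk h2 _ = 1
    have : (dk h2 (permHom (Fin 3) F (finRotate 3))) ^ 3 = 1 := by
      rw [← map_pow, ← map_pow, show (finRotate 3) ^ 3 = 1 by decide, map_one, map_one]
    rcases Int.units_eq_one_or (dk h2 (permHom (Fin 3) F (finRotate 3))) with h | h
    · exact h
    · rw [h] at this; exact absurd this (by decide)
  have many : ∀ {κ : Type} [Fintype κ] (fm : κ → (Fin 3 → F)), 16 ≤ Fintype.card κ →
      (∀ a, IsCen G (fm a)) → (∀ a b, fm b = fm a ∨ fm b = -fm a → a = b) → False := by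
    intro κ _ fm hκ hC hinj
    have hi : Function.Injective fun a => halfTurn (fm a) := fun a b e =>
      hinj a b (eq_or_neg_of_refl_eq h2 (hC a).1 (hC b).1 (mul_left_cancel e))
    have := card_invol_le h2 hKd hno (fun i => hht _ (hax i)) hrot
      (Finset.univ.image fun a => halfTurn (fm a)) (fun g hg => by
        obtain ⟨a, -, rfl⟩ := Finset.mem_image.1 hg
        have h0 : fm a ⬝ᵥ fm a ≠ 0 := by rw [(hC a).1]; exact one_ne_zero
        exact ⟨hht _ (hC a), halfTurn_sq h2 h0, halfTurn_ne_one h2 h0⟩)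
    rw [Finset.card_image_of_injective _ hi, Finset.card_univ] at this
    omega
  have sqeq : ∀ {a b : Fin 3 → F}, (b = a ∨ b = -a) → ∀ i, b i ^ 2 = a i ^ 2 := by
    rintro a b (rfl | rfl) i <;> simp
  -- two equal squares, the third different
  have caseB : ∀ y : Fin 3 → F, IsCen G y → (∀ i, y i ≠ 0) → y 0 ^ 2 = y 1 ^ 2 →
      y 2 ^ 2 ≠ y 0 ^ 2 → False := by
    intro y hy hy0 hAA hCA
    set A := y 0 ^ 2
    set C := y 2 ^ 2
    have hsum : 2 * A + C = 1 := by
      have := hy.1
      simp only [dotProduct, Fin.sum_univ_three] at this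
      simp only [A, C]; rw [← this]; linear_combination -(-hAA) 
    have hA0 : A ≠ 0 := pow_ne_zero 2 (hy0 0)
    have hC0 : C ≠ 0 := pow_ne_zero 2 (hy0 2)
    have h4 : (4 : F) ≠ 0 := by rw [show (4 : F) = 2 * 2 by norm_num]; exact mul_ne_zero h2 h2
    -- positions of the odd square
    let σ : Fin 3 → Equiv.Perm (Fin 3) := fun k => Equiv.swap k 2
    have hpos : ∀ k i, y (σ k i) ^ 2 = if i = k then C else A := by
      intro k i; fin_cases k <;> fin_cases i <;> simp [σ, Equiv.swap_apply_def, A, C, hAA]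
    suffices hw : ∃ w, IsCen G w ∧ (∀ i, w i ^ 2 ≠ 1 ∨ ∃ j, j ≠ i ∧ w j ≠ 0) ∧
        ∀ k, ∃ i, w i ^ 2 ≠ (if i = k then C else A) by
      obtain ⟨w, hw, hwax, hwB⟩ := hw
      refine many (κ := (Fin 3 × Bool × Bool) ⊕ (Fin 3 ⊕ Unit))
        (Sum.elim (fun a => srt y (σ a.1) a.2.1 a.2.2) (Sum.elim (fun i => sv F i) fun _ => w))
        (by simp) ?_ ?_
      · rintro (a | i | _)
        · exact Three.cen_srt h2 hd hS hc hy _ _ _
        · exact hax i
        · exact hw
      · have hB_ax : ∀ (a : Fin 3 × Bool × Bool) (i : Fin 3),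
            ¬ ∀ j, srt y (σ a.1) a.2.1 a.2.2 j ^ 2 = sv F i j ^ 2 := by
          intro a i h
          obtain ⟨j, hj⟩ : ∃ j : Fin 3, j ≠ i := exists_ne i
          have := h j
          rw [srt_sq h2, show sv F i j = 0 by simp [hj]] at this
          exact pow_ne_zero 2 (hy0 _) (this.trans (zero_pow two_ne_zero))
        have hB_w : ∀ (a : Fin 3 × Bool × Bool), ¬ ∀ j, srt y (σ a.1) a.2.1 a.2.2 j ^ 2 = w j ^ 2 := by
          intro a h
          obtain ⟨i, hi⟩ := hwB a.1
          exact hi (by rw [← h i, srt_sq h2, hpos])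
        have hax_w : ∀ i : Fin 3, ¬ ∀ j, sv F i j ^ 2 = w j ^ 2 := by
          intro i h
          rcases hwax i with h1 | ⟨j, hj, hwj⟩
          · exact h1 (by rw [← h i]; simp)
          · have := h j
            rw [show sv F i j = 0 by simp [hj], zero_pow two_ne_zero] at this
            exact hwj (sq_eq_zero_iff.1 this.symm)
        rintro (a | i | _) (b | j | _) e
        · have hk : a.1 = b.1 := by
            by_contra hne
            have := sqeq e a.1
            simp only [Sum.elim_inl, srt_sq h2, hpos, if_true, if_neg hne] at this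
            exact hCA this.symm
          obtain ⟨k, s, t⟩ := a
          obtain ⟨k', s', t'⟩ := b
          obtain rfl : k = k' := hk
          obtain ⟨rfl, rfl⟩ := srt_inj h2 hy0 (show _ from e)
          rfl
        · exact absurd (fun m => (sqeq e m).symm) (hB_ax a j)
        · exact absurd (fun m => (sqeq e m).symm) (hB_w a)
        · exact absurd (fun m => sqeq e m) (hB_ax b i)
        · have := sqeq e i
          by_contra hne
          have hij : i ≠ j := fun h => hne (by rw [h])
          simp [hij] at this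
        · exact absurd (fun m => (sqeq e m).symm) (hax_w i)
        · exact absurd (fun m => sqeq e m) (hB_w b)
        · exact absurd (fun m => sqeq e m) (hax_w j)
        · rfl
    have hC' : ∀ c : Fin 3, IsCen G ((refl y).1 (sv F c)) := fun c => (hax c).conj h2 hy.2
    have happ : ∀ c i, (refl y).1 (sv F c) i ^ 2 =
        if i = c then (1 - 2 * y c ^ 2) ^ 2 else 4 * y c ^ 2 * y i ^ 2 := by
      intro c i
      rw [refl_app_unit hy.1, dotProduct_single, mul_one, Pi.sub_apply, Pi.smul_apply, smul_eq_mul]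
      rcases eq_or_ne i c with rfl | h
      · simp; ring
      · simp [h]; ring
    by_cases hC4 : 4 * C = 1
    · by_cases hA1 : (1 - 2 * A) ^ 2 = 1
      · -- two centres spanning a singular plane
        set y' := (refl (sv F (0 : Fin 3))).1 y with hy'
        have hyC : IsCen G y' := hy.conj h2 (hd 0)
        have hdot : y ⬝ᵥ y' = 1 - 2 * A := by
          rw [hy', refl_app_unit (dot_sv_self _), dot_sv, dotProduct_sub, hy.1, dotProduct_smul,
            dotProduct_single, smul_eq_mul, mul_one]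
          ring
        exfalso
        apply hno
        refine ⟨halfTurn y * halfTurn y', K.mul_mem (hht _ hy) (hht _ hyC), ?_, y ⨯₃ y', ?_, ?_, ?_⟩
        · intro e
          have hh : halfTurn y = halfTurn y' := by
            calc halfTurn y = halfTurn y * (halfTurn y' * halfTurn y') := by
                  rw [halfTurn_sq h2 (by rw [hyC.1]; exact one_ne_zero), mul_one]
              _ = halfTurn y' := by rw [← mul_assoc, e, one_mul]
          rcases eq_or_neg_of_refl_eq h2 hy.1 hyC.1 (mul_left_cancel hh) with h | h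
          · have := congrFun h 0
            rw [hy', refl_sv_app h2, if_pos rfl] at this
            exact hy0 0 ((mul_eq_zero.1 (by linear_combination -this : (2 : F) * y 0 = 0)).resolve_left h2)
          · have := congrFun h 1
            rw [hy', refl_sv_app h2, if_neg (by decide), Pi.neg_apply] at this
            exact hy0 1 ((mul_eq_zero.1 (by linear_combination this : (2 : F) * y 1 = 0)).resolve_left h2)
        · intro h
          have := congrFun h 2
          simp only [cross_apply, hy', refl_sv_app h2] at this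
          simp at this
          exact mul_ne_zero h2 (mul_ne_zero (hy0 0) (hy0 1)) (by linear_combination this)
        · rw [cross_dot_cross, hy.1, hyC.1, dotProduct_comm y' y, hdot]
          linear_combination -hA1
        · rw [mul_app, halfTurn_perp h2 (dot_cross_self y y'), map_neg,
            halfTurn_perp h2 (dot_self_cross y y'), neg_neg]
      · refine ⟨_, hC' 0, fun i => ?_, fun k => ?_⟩
        · fin_cases i
          · exact Or.inr ⟨1, by decide, fun h => by
              have := happ 0 1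
              rw [h] at this
              simp [h4, hy0] at this⟩
          · exact Or.inr ⟨2, by decide, fun h => by
              have := happ 0 2
              rw [h] at this
              simp [h4, hy0] at this⟩
          · exact Or.inr ⟨1, by decide, fun h => by
              have := happ 0 1
              rw [h] at this
              simp [h4, hy0] at this⟩
        · by_contra h
          push Not at h
          have e0 := h 0
          have e1 := h 1
          have e2 := h 2
          rw [happ] at e0 e1 e2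
          simp only [if_true, show ((1 : Fin 3) = 0) = False by simp,
            show ((2 : Fin 3) = 0) = False by simp, if_false, ← hAA] at e0 e1 e2
          change (1 - 2 * A) ^ 2 = _ at e0
          change 4 * A * A = _ at e1
          change 4 * A * C = _ at e2
          fin_cases k <;> simp at e0 e1 e2
          · have : 4 * A = 1 := mul_right_cancel₀ hA0 (by linear_combination e1)
            exact hCA (mul_left_cancel₀ h4 (by linear_combination hC4 - this))
          · have h8 : 8 * A = 3 := by linear_combination 4 * hsum - hC4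
            have h50 : (5 : F) = 0 := by
              linear_combination 16 * e1 + 4 * hC4 - (8 * A + 3) * h8
            refine hA1 (mul_left_cancel₀ (mul_ne_zero h4 h4) ?_)
            linear_combination (8 * A - 5) * h8 - 3 * h50
          · have : 4 * A = 1 := mul_right_cancel₀ hA0 (by linear_combination e1)
            exact hCA (mul_left_cancel₀ h4 (by linear_combination hC4 - this))
    · refine ⟨_, hC' 2, fun i => ?_, fun k => ?_⟩
      · fin_cases i
        · exact Or.inr ⟨1, by decide, fun h => by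
            have := happ 2 1
            rw [h] at this
            simp [h4, hy0] at this⟩
        · exact Or.inr ⟨0, by decide, fun h => by
            have := happ 2 0
            rw [h] at this
            simp [h4, hy0] at this⟩
        · exact Or.inr ⟨0, by decide, fun h => by
            have := happ 2 0
            rw [h] at this
            simp [h4, hy0] at this⟩
      · by_contra h
        push Not at h
        have e0 := h 0
        have e1 := h 1
        rw [happ] at e0 e1
        simp only [show ((0 : Fin 3) = 2) = False by simp, show ((1 : Fin 3) = 2) = False by simp,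
          if_false, ← hAA] at e0 e1
        change 4 * C * A = _ at e0
        change 4 * C * A = _ at e1
        fin_cases k <;> simp at e0 e1
        · exact hCA (e0.symm.trans e1)
        · exact hCA (e1.symm.trans e0)
        · exact hC4 (mul_right_cancel₀ hA0 (by linear_combination e0))
  by_cases hall : ∀ i j : Fin 3, x i ^ 2 = x j ^ 2 → i = j
  · refine many (κ := Equiv.Perm (Fin 3) × Bool × Bool) (fun a => srt x a.1 a.2.1 a.2.2)
      (by simp [Fintype.card_perm]; decide) (fun a => Three.cen_srt h2 hd hS hc hx _ _ _) fun a b e => ?_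
    have hσ : a.1 = b.1 := Equiv.ext fun i => hall _ _ (by
      have := sqeq e i
      simp only [srt_sq h2] at this
      exact this.symm)
    obtain ⟨σ, s, t⟩ := a
    obtain ⟨σ', s', t'⟩ := b
    obtain rfl : σ = σ' := hσ
    obtain ⟨rfl, rfl⟩ := srt_inj h2 hfull e
    rfl
  push Not at hall
  obtain ⟨i, j, hij, hne⟩ := hall
  obtain ⟨σ, h0, h1⟩ : ∃ σ : Equiv.Perm (Fin 3), σ 0 = i ∧ σ 1 = j := by
    exact (by decide : ∀ a b : Fin 3, a ≠ b → ∃ σ : Equiv.Perm (Fin 3), σ 0 = a ∧ σ 1 = b) i j hne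
  set y := x ∘ σ
  have hy : IsCen G y := hS σ x hx
  have hy0 : ∀ k, y k ≠ 0 := fun k => hfull _
  have hAA : y 0 ^ 2 = y 1 ^ 2 := by simp only [y, Function.comp_apply, h0, h1, hij]
  by_cases hCA : y 2 ^ 2 = y 0 ^ 2
  · have h13 : 3 * y 0 ^ 2 = 1 := by
      have := hy.1
      simp only [dotProduct, Fin.sum_univ_three] at this
      linear_combination this + hAA - hCA + 0 * hCA
    set w := (refl y).1 (sv F (0 : Fin 3))
    have hw : IsCen G w := (hax 0).conj h2 hy.2
    have hv : ∀ i, w i = if i = 0 then 1 - 2 * y 0 ^ 2 else -(2 * y 0 * y i) := by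
      intro i
      show (refl y).1 (sv F (0 : Fin 3)) i = _
      rw [refl_app_unit hy.1, dotProduct_single, mul_one, Pi.sub_apply, Pi.smul_apply, smul_eq_mul]
      rcases eq_or_ne i 0 with rfl | h
      · simp; ring
      · simp [h]
    have hw0 : ∀ i, w i ≠ 0 := fun i => by
      rw [hv]
      split_ifs
      · intro h; exact one_ne_zero (by linear_combination 3 * h + 2 * h13 : (1 : F) = 0)
      · exact neg_ne_zero.2 (mul_ne_zero (mul_ne_zero h2 (hy0 0)) (hy0 i))
    refine caseB (w ∘ Equiv.swap 0 2) (hS _ w hw) (fun i => hw0 _) ?_ ?_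
    · simp only [Function.comp_apply, Equiv.swap_apply_left,
        show Equiv.swap (0 : Fin 3) 2 1 = 1 by decide, hv]
      simp
      linear_combination 4 * y 0 ^ 2 * hCA - 4 * y 0 ^ 2 * (-hAA)
    · simp only [Function.comp_apply, Equiv.swap_apply_left, Equiv.swap_apply_right, hv]
      simp
      intro h
      exact h3 (by linear_combination (-9 : F) * h - 12 * h13 - 36 * y 0 ^ 2 * hCA)
  · exact caseB y hy hy0 hAA hCA

/-- The triple theorem. -/
theorem Three.transitive (h5 : 5 ≤ Nat.card F) (hp : (Nat.card F).Prime) {x : Fin 3 → F}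
    (hx : IsCen G x) (hnp : ¬ Plain x) {v v' : Fin 3 → F} (hn : v ⬝ᵥ v = v' ⬝ᵥ v')
    (hN : v ⬝ᵥ v ≠ 0) : ∃ k ∈ G, k.1 v = v' := by
  classical
  obtain ⟨y, hy, hfull⟩ : ∃ y, IsCen G y ∧ ∀ i, y i ≠ 0 := by
    by_cases hfull : ∀ i, x i ≠ 0
    · exact ⟨x, hx, hfull⟩
    push Not at hfull
    obtain ⟨k, hk⟩ := hfull
    set y := x ∘ Equiv.swap k 2
    have hy : IsCen G y := hS _ x hx
    have h20 : y 2 = 0 := by simp [y, hk]
    have hne : y 0 ≠ 0 ∧ y 1 ≠ 0 ∧ y 0 ^ 2 ≠ y 1 ^ 2 := by
      by_contra hcon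
      refine hnp ⟨?_, ?_⟩
      · have : supp x ⊆ Finset.univ.erase k := fun i hi => by
          simp only [Finset.mem_erase, Finset.mem_univ, and_true]
          rintro rfl; exact mem_supp.1 hi hk
        refine (Finset.card_le_card this).trans ?_
        simp
      · intro i hi j hj
        have hi' := mem_supp.1 hi
        have hj' := mem_supp.1 hj
        have hik : i ≠ k := by rintro rfl; exact hi' hk
        have hjk : j ≠ k := by rintro rfl; exact hj' hk
        have e : ∀ m, x m = y (Equiv.swap k 2 m) := fun m => by simp [y]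
        have hm : ∀ m, m ≠ k → Equiv.swap k 2 m ≠ 2 := fun m hm h => hm (by
          have := congrArg (Equiv.swap k 2) h
          simpa using this)
        rw [e] at hi' hj' ⊢
        rw [e j]
        have h01 : ∀ m : Fin 3, m ≠ 2 → m = 0 ∨ m = 1 := by decide
        have key : y 0 ≠ 0 → y 1 ≠ 0 → y 0 ^ 2 = y 1 ^ 2 := fun p q => by
          by_contra h; exact hcon ⟨p, q, h⟩
        rcases h01 _ (hm i hik) with a | a <;> rcases h01 _ (hm j hjk) with b | b <;>
          rw [a] at hi' ⊢ <;> rw [b] at hj' ⊢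
        · exact key hi' hj'
        · exact (key hj' hi').symm
    set y' := y ∘ (finRotate 3).symm
    have hy' : IsCen G y' := hS _ y hy
    refine ⟨(refl y).1 y', hy'.conj h2 hy.2, fun i => ?_⟩
    have e0 : (finRotate 3).symm 0 = 2 := by decide
    have e1 : (finRotate 3).symm 1 = 0 := by decide
    have e2 : (finRotate 3).symm 2 = 1 := by decide
    have hn1 : y 0 ^ 2 + y 1 ^ 2 = 1 := by
      have := hy.1
      simp only [dotProduct, Fin.sum_univ_three, h20] at this
      linear_combination this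
    have hdot : y ⬝ᵥ y' = y 1 * y 0 := by
      simp only [dotProduct, Fin.sum_univ_three, y', Function.comp_apply, e0, e1, e2, h20]; ring
    rw [refl_app_unit hy.1, hdot, Pi.sub_apply, Pi.smul_apply, smul_eq_mul]
    fin_cases i
    · simp [y', e0, h20]
      exact ⟨⟨h2, hne.2.1, hne.1⟩, hne.1⟩
    · intro h
      simp [y', e1] at h
      have : y 0 * (y 0 ^ 2 - y 1 ^ 2) = 0 := by linear_combination h + y 0 * hn1
      rcases mul_eq_zero.1 this with a | a
      · exact hne.1 a
      · exact hne.2.2 (sub_eq_zero.1 a)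
    · simp [y', e2, h20, hne.2.1]
  obtain ⟨g, hg, hg1, u, hu0, hu, hgu⟩ := Three.unip_of_full h2 hd hS hc h5 hp hy hfull
  exact Three.trans_of_unip h2 hp hd hg.1 hg.2 hg1 hu0 hu hgu hn hN

end Three

end Cfsg.Agent.DecompMax.OF
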