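import Cfsg.Agent.DecompMax.FrameDescent

/-!
All unit vectors of the coordinates of a good group are centres, and every vector can lose a coordinate.
-/

set_option autoImplicit false
set_option linter.style.haveILetI false
set_option linter.unusedSectionVars false
set_option linter.unusedVariables false

namespace Cfsg.Agent.DecompMax.OF

open QuadraticMap Module Cfsg.Agent.Classical
open scoped Matrix

universe u

variable {F : Type u} [Field F] [Finite F] {ι : Type} [Fintype ι] [DecidableEq ι]

theorem exists_sum_two_sq (h2 : Two F) (N : F) : ∃ a b : F, a ^ 2 + b ^ 2 = N := by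
  haveI := Fintype.ofFinite F
  have hodd : Fintype.card F % 2 = 1 := FiniteField.odd_card_of_char_ne_two (fun h => h2 (by
    haveI := ringChar.of_eq h
    exact CharTwo.two_eq_zero))
  obtain ⟨a, b, hab⟩ := FiniteField.exists_root_sum_quadratic (f := (Polynomial.X : Polynomial F) ^ 2)
    (g := (Polynomial.X : Polynomial F) ^ 2 - Polynomial.C N) (Polynomial.degree_X_pow 2)
    (Polynomial.degree_X_pow_sub_C (by decide) _) hodd
  refine ⟨a, b, ?_⟩
  simp only [Polynomial.eval_pow, Polynomial.eval_X, Polynomial.eval_sub, Polynomial.eval_C] at hab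
  linear_combination hab

/-- Four non-zero values contain three with non-zero sum of squares. -/
theorem exists_triple (h3 : (3 : F) ≠ 0) {v : ι → F} {T : Finset ι} (hT : T ⊆ supp v) (hTc : T.card = 4) :
    ∃ f : Fin 3 ↪ ι, (∀ a, f a ∈ T) ∧ (v ∘ f) ⬝ᵥ (v ∘ f) ≠ 0 := by
  classical
  let e := (Finset.equivFinOfCardEq hTc).symm
  let g : Fin 4 → ι := fun i => (e i).1
  have hg : Function.Injective g := fun i j h => e.injective (Subtype.ext h)
  let f : (Fin 3 ↪ Fin 4) → (Fin 3 ↪ ι) := fun k => k.trans ⟨g, hg⟩
  by_contra hcon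
  push Not at hcon
  have key : ∀ k : Fin 4, ∑ i ∈ (Finset.univ : Finset (Fin 3)), v (g (k.succAbove i)) ^ 2 = 0 := by
    intro k
    have := hcon (f ⟨k.succAbove, Fin.succAbove_right_injective⟩) fun a => (e _).2
    rw [dotProduct] at this
    rw [← this]
    exact Finset.sum_congr rfl fun i _ => pow_two _
  have k0 := key 0
  have k1 := key 1
  have k2 := key 2
  have k3 := key 3
  rw [Fin.sum_univ_three] at k0 k1 k2 k3
  simp only [show (0 : Fin 4).succAbove 0 = 1 by decide, show (0 : Fin 4).succAbove 1 = 2 by decide,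
    show (0 : Fin 4).succAbove 2 = 3 by decide] at k0
  simp only [show (1 : Fin 4).succAbove 0 = 0 by decide, show (1 : Fin 4).succAbove 1 = 2 by decide,
    show (1 : Fin 4).succAbove 2 = 3 by decide] at k1
  simp only [show (2 : Fin 4).succAbove 0 = 0 by decide, show (2 : Fin 4).succAbove 1 = 1 by decide,
    show (2 : Fin 4).succAbove 2 = 3 by decide] at k2
  simp only [show (3 : Fin 4).succAbove 0 = 0 by decide, show (3 : Fin 4).succAbove 1 = 1 by decide,
    show (3 : Fin 4).succAbove 2 = 2 by decide] at k3
  have : 3 * v (g 0) ^ 2 = 0 := by linear_combination k1 + k2 + k3 - 2 * k0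
  exact mem_supp.1 (hT (e 0).2) (sq_eq_zero_iff.1 ((mul_eq_zero.1 this).resolve_left h3))

theorem sq_of_card_three (h : Nat.card F = 3) {x : F} (hx : x ≠ 0) : x ^ 2 = 1 := by
  haveI := Fintype.ofFinite F
  have := FiniteField.pow_card_sub_one_eq_one x hx
  rwa [← Nat.card_eq_fintype_card, h] at this

theorem card_cases (h2 : Two F) (hp : (Nat.card F).Prime) : 5 ≤ Nat.card F ∨ Nat.card F = 3 := by
  have h0 := natCast_card_zero hp
  have h := hp.two_le
  rcases Nat.lt_or_ge (Nat.card F) 5 with hlt | hge
  · interval_cases hc : Nat.card F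
    · exact absurd (by simpa using h0) h2
    · exact Or.inr rfl
    · norm_num at hp
  · exact Or.inl hge

variable (h2 : Two F) {K : Finset ι} {G : Subgroup (OG ι F)} (hG : Good K G)
  (hp : (Nat.card F).Prime)
include h2 hG hp

theorem Good.three_four (h3 : Nat.card F = 3) (hK : 7 ≤ K.card) {g₀ : OG ι F} (hg₀ : g₀ ∈ G)
    (hgm : ¬ Mon g₀) {z : ι → F} (hz : supp z ⊆ K) (hzc : (supp z).card = 4) : IsCen G z := by
  classical
  have hzero : ((3 : ℕ) : F) = 0 := h3 ▸ natCast_card_zero hp
  have hmod : ∀ y : ι → F, y ⬝ᵥ y = 1 → (supp y).card % 3 = 1 := by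
    intro y hy
    have e : ((supp y).card : F) = 1 := by
      rw [← hy, dot_sum_supp subset_rfl, ← nsmul_one (supp y).card, ← Finset.sum_const]
      exact Finset.sum_congr rfl fun i hi => by
        rw [← sq_of_card_three h3 (mem_supp.1 hi), pow_two]
    have e' : ((supp y).card : F) = (((supp y).card % 3 : ℕ) : F) := by
      conv_lhs => rw [← Nat.mod_add_div (supp y).card 3, Nat.cast_add, Nat.cast_mul, hzero]
      ring
    rw [e'] at e
    have := Nat.mod_lt (supp y).card (show 0 < 3 by norm_num)
    interval_cases h : (supp y).card % 3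
    · simp at e
    · rfl
    · exfalso
      exact one_ne_zero (by push_cast at e; linear_combination e)
  have hplain : ∀ y : ι → F, y ⬝ᵥ y = 1 → ¬ Plain y → 4 ≤ (supp y).card := by
    intro y hy hnp
    by_contra hlt
    refine hnp ⟨by have := hmod y hy; omega, fun i hi j hj => ?_⟩
    rw [sq_of_card_three h3 (mem_supp.1 hi), sq_of_card_three h3 (mem_supp.1 hj)]
  have le4 : ∀ k, ∀ x, IsCen G x → (supp x).card = k → 4 ≤ k →
      ∃ x, IsCen G x ∧ (supp x).card = 4 := by
    intro k
    induction k using Nat.strong_induction_on with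
    | _ k ih =>
      intro x hx hk h4
      by_cases hk4 : k = 4
      · exact ⟨x, hx, hk.trans hk4⟩
      have := hmod x hx.1
      obtain ⟨S, hS, hSc⟩ := Finset.exists_subset_card_eq (s := supp x) (n := 3) (by omega)
      rcases Good.split h2 hG hx hS hSc (fun h => by rw [← h, hSc] at hk; omega) with
        ⟨η, hη, h⟩ | ⟨η, hη, h⟩ | ⟨y, hy, hys⟩
      · have := hmod _ h.1
        rw [supp_smul hη, supp_part, Finset.inter_eq_left.2 hS, hSc] at this
        omega
      · refine ih (k - 3) (by omega) _ h ?_ (by omega)
        rw [supp_smul hη, supp_part]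
        have : Sᶜ ∩ supp x = supp x \ S := by ext i; simp [and_comm]
        rw [this, Finset.card_sdiff_of_subset hS, hSc, hk]
      · have := hmod _ hy.1
        rw [hys, hSc] at this
        omega
  obtain ⟨x₁, hx₁, hnp⟩ := exists_nonplain_cen h2 hG (by omega) hg₀ hgm
  obtain ⟨x, hx, hxc⟩ := le4 _ x₁ hx₁ rfl (hplain x₁ hx₁.1 hnp)
  have hxK := IsCen.sub h2 hG hx
  let ex := (Finset.equivFinOfCardEq hxc).symm
  let ez := (Finset.equivFinOfCardEq hzc).symm
  obtain ⟨π, hπ, hπm⟩ := exists_perm_map (a := fun i => (ex i).1) (b := fun i => (ez i).1) (K := K)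
    (fun i j h => ex.injective (Subtype.ext h)) (fun i j h => ez.injective (Subtype.ext h))
    (fun i => hxK (ex i).2) (fun i => hz (ez i).2)
  have hy := Good.cen_perm h2 hG hx (by omega) π hπ
  set y := (permHom ι F π).1 x
  have hys : ∀ i, y i ≠ 0 ↔ z i ≠ 0 := by
    intro i
    show x (π.symm i) ≠ 0 ↔ _
    rw [← mem_supp, ← mem_supp]
    constructor
    · intro h
      have := hπm (ex.symm ⟨_, h⟩)
      simp only [Equiv.apply_symm_apply] at this
      rw [this]
      exact (ez _).2
    · intro h
      have := hπm (ez.symm ⟨_, h⟩)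
      simp only [Equiv.apply_symm_apply] at this
      rw [← this, Equiv.symm_apply_apply]
      exact (ex _).2
  set L := ((supp z).filter fun i => y i ≠ z i).toList
  have hfl := hy.conj h2 (hG.flips_mem h2 (l := L) fun i hi =>
    hz (Finset.mem_filter.1 (Finset.mem_toList.1 hi)).1)
  convert hfl using 1
  funext i
  rw [flips_app h2 (Finset.nodup_toList _)]
  simp only [L, Finset.mem_toList, Finset.mem_filter, mem_supp]
  by_cases hzi : z i = 0
  · rw [if_neg (by simp [hzi]), hzi]
    by_contra h
    exact (hys i).1 (Ne.symm h) hzi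
  · by_cases he : y i = z i
    · rw [if_neg (by simp [he]), he]
    · rw [if_pos ⟨hzi, he⟩]
      have h1 := sq_of_card_three h3 hzi
      have h1' := sq_of_card_three h3 ((hys i).2 hzi)
      rcases sq_eq_sq_iff_eq_or_eq_neg.1 (h1'.trans h1.symm) with e | e
      · exact absurd e he
      · rw [e, neg_neg]

/-- All unit vectors of the coordinates are centres. -/
theorem Good.all_units (hK : 7 ≤ K.card) {g₀ : OG ι F} (hg₀ : g₀ ∈ G) (hgm : ¬ Mon g₀) {z : ι → F}
    (hz : supp z ⊆ K) (hz1 : z ⬝ᵥ z = 1) : IsCen G z := by
  classical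
  induction hk : (supp z).card using Nat.strong_induction_on generalizing z with
  | _ k ih =>
    rcases card_cases h2 hp with h5 | h3
    · have h3' : (3 : F) ≠ 0 := by
        have := natCast_ne_zero hp (m := 3) (fun h => by have := Nat.le_of_dvd (by norm_num) h; omega)
        exact_mod_cast this
      by_cases hk4 : k ≤ 3
      · obtain ⟨T, hT, hTK, hTc⟩ := Finset.exists_subsuperset_card_eq hz (by omega : (supp z).card ≤ 3)
          (by omega)
        let f : Fin 3 ↪ ι := ⟨fun i => ((Finset.equivFinOfCardEq hTc).symm i).1,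
          fun i j h => (Finset.equivFinOfCardEq hTc).symm.injective (Subtype.ext h)⟩
        have hf : ∀ a, f a ∈ K := fun a => hTK ((Finset.equivFinOfCardEq hTc).symm a).2
        have hzout : ∀ i, (∀ a, f a ≠ i) → z i = 0 := fun i hi => not_mem_supp.1 fun h =>
          hi (Finset.equivFinOfCardEq hTc ⟨i, hT h⟩) (congrArg Subtype.val (Equiv.symm_apply_apply (Finset.equivFinOfCardEq hTc) _))
        have hput : put f (z ∘ f) = z := funext fun i => by
          rcases ext3_cases f i with ⟨a, rfl⟩ | h
          · rw [put_in]; rfl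
          · rw [put_out f _ h, hzout i h]
        have hzf : (z ∘ f) ⬝ᵥ (z ∘ f) = 1 := by
          rw [← dot_put f (z ∘ f) z, hput, hz1]
        have hsf : (sv F (f 0)) ∘ f = sv F (0 : Fin 3) := funext fun a => by
          simp [Pi.single_apply, f.injective.eq_iff]
        obtain ⟨g, hg, hgv⟩ := Good.trans3 h2 hG hp h5 hK hg₀ hgm f hf
          (v := sv F (f 0)) (v' := z) (fun i hi => by rw [hzout i hi]; simp [(hi 0).symm])
          (by rw [hsf, hzf, dot_sv_self]) (by rw [hsf, dot_sv_self]; exact one_ne_zero)
        rw [← hgv]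
        exact IsCen.conj h2 ⟨dot_sv_self _, hG.flip _ (hf 0)⟩ hg
      · obtain ⟨T, hT, hTc⟩ := Finset.exists_subset_card_eq (s := supp z) (n := 4) (by omega)
        obtain ⟨f, hf, hN⟩ := exists_triple h3' hT hTc
        obtain ⟨a, b, hab⟩ := exists_sum_two_sq h2 ((z ∘ f) ⬝ᵥ (z ∘ f))
        let w : ι → F := Function.extend f ![a, b, 0] z
        have hwf : w ∘ f = ![a, b, 0] := funext fun i => f.injective.extend_apply _ _ i
        have hwo : ∀ i, (∀ c, f c ≠ i) → w i = z i := fun i hi =>
          Function.extend_apply' _ _ _ fun ⟨c, hc⟩ => hi c hc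
        obtain ⟨g, hg, hgv⟩ := Good.trans3 h2 hG hp h5 hK hg₀ hgm f
          (fun c => hz (hT (hf c))) (v := z) (v' := w) (fun i hi => (hwo i hi).symm)
          (by rw [hwf, ← hab]; simp [dotProduct, Fin.sum_univ_three]; ring) hN
        have hsub : supp w ⊆ (supp z).erase (f 2) := by
          intro i hi
          rcases ext3_cases f i with ⟨c, rfl⟩ | h
          · refine Finset.mem_erase.2 ⟨fun e => ?_, hT (hf c)⟩
            have h' := mem_supp.1 hi
            rw [f.injective e] at h'
            exact h' (by show (w ∘ f) 2 = 0; rw [hwf]; rfl)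
          · refine Finset.mem_erase.2 ⟨fun e => h 2 e.symm, mem_supp.2 ?_⟩
            rw [← hwo i h]; exact mem_supp.1 hi
        have hlt : (supp w).card < k := by
          have := Finset.card_le_card hsub
          rw [Finset.card_erase_of_mem (hT (hf 2))] at this
          omega
        have hw := ih _ hlt (hsub.trans ((Finset.erase_subset _ _).trans hz))
          (by rw [← hgv, OG.dot h2, hz1]) rfl
        have := hw.conj h2 (G.inv_mem hg)
        rwa [← hgv, inv_app] at this
    · have hzero : ((3 : ℕ) : F) = 0 := h3 ▸ natCast_card_zero hp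
      have e : (k : F) = 1 := by
        rw [← hk, ← hz1, dot_sum_supp subset_rfl, ← nsmul_one (supp z).card, ← Finset.sum_const]
        exact Finset.sum_congr rfl fun i hi => by
          rw [← sq_of_card_three h3 (mem_supp.1 hi), pow_two]
      have hkm : k % 3 = 1 := by
        have e' : (k : F) = ((k % 3 : ℕ) : F) := by
          conv_lhs => rw [← Nat.mod_add_div k 3, Nat.cast_add, Nat.cast_mul, hzero]
          ring
        rw [e'] at e
        have := Nat.mod_lt k (show 0 < 3 by norm_num)
        interval_cases h : k % 3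
        · simp at e
        · rfl
        · exfalso
          exact one_ne_zero (by push_cast at e; linear_combination e)
      by_cases hk1 : k = 1
      · obtain ⟨i, hi⟩ := Finset.card_eq_one.1 (hk.trans hk1)
        have hiK : i ∈ K := hz (by rw [hi]; simp)
        have hz' : z = z i • sv F i := funext fun j => by
          rcases eq_or_ne j i with rfl | h
          · simp
          · simp [h, not_mem_supp.1 (show j ∉ supp z by rw [hi]; simp [h])]
        have hne : z i ≠ 0 := mem_supp.1 (by rw [hi]; simp)
        refine ⟨hz1, ?_⟩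
        rw [hz', refl_smul hne]
        exact hG.flip i hiK
      by_cases hk4 : k = 4
      · exact Good.three_four h2 hG hp h3 hK hg₀ hgm hz (hk.trans hk4)
      obtain ⟨T, hT, hTc⟩ := Finset.exists_subset_card_eq (s := supp z) (n := 4) (by omega)
      obtain ⟨d, hd⟩ := Finset.card_pos.1 (show 0 < T.card by omega)
      set x : ι → F := fun i => if i ∈ T then (if i = d then -z i else z i) else 0
      have hxs : supp x = T := by
        ext i
        simp only [mem_supp, x]
        by_cases hiT : i ∈ T
        · have := mem_supp.1 (hT hiT)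
          by_cases hid : i = d
          · subst hid; simp [hiT, this]
          · simp [hiT, hid, this]
        · simp [hiT]
      have hx := Good.three_four h2 hG hp h3 hK hg₀ hgm (z := x) (by rw [hxs]; exact hT.trans hz)
        (by rw [hxs, hTc])
      have hxz : x ⬝ᵥ z = 2 := by
        have h1 : ∀ i ∈ T, x i * z i = if i = d then (-1 : F) else 1 := by
          intro i hi
          have := sq_of_card_three h3 (mem_supp.1 (hT hi))
          simp only [x, if_pos hi]
          split_ifs
          · linear_combination -this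
          · linear_combination this
        rw [dot_sum_supp (le_of_eq hxs), ← Finset.add_sum_erase _ _ hd, h1 d hd, if_pos rfl,
          Finset.sum_congr rfl (fun i hi => by
            rw [h1 i (Finset.mem_erase.1 hi).2, if_neg (Finset.mem_erase.1 hi).1]),
          Finset.sum_const, Finset.card_erase_of_mem hd, hTc, nsmul_eq_mul]
        push_cast
        ring
      have hw1 : (refl x).1 z = z - x := funext fun i => by
        rw [refl_app_unit hx.1, hxz, Pi.sub_apply, Pi.sub_apply, Pi.smul_apply, smul_eq_mul]
        push_cast at hzero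
        linear_combination -(x i) * hzero
      have hsub : supp (z - x) ⊆ (supp z) \ (T.erase d) := by
        intro i hi
        rw [mem_supp, Pi.sub_apply] at hi
        rw [Finset.mem_sdiff, Finset.mem_erase]
        by_cases hiT : i ∈ T
        · refine ⟨hT hiT, fun ⟨hid, _⟩ => hi ?_⟩
          simp [x, hiT, hid]
        · refine ⟨mem_supp.2 ?_, fun h => hiT h.2⟩
          simpa [x, hiT] using hi
      have hlt : (supp (z - x)).card < k := by
        have := Finset.card_le_card hsub
        rw [Finset.card_sdiff_of_subset ((Finset.erase_subset _ _).trans hT),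
          Finset.card_erase_of_mem hd, hTc] at this
        omega
      have hw := ih _ hlt (hsub.trans (Finset.sdiff_subset.trans hz))
        (by rw [← hw1, OG.dot h2, hz1]) rfl
      have := hw.conj h2 (G.inv_mem hx.2)
      rwa [← hw1, inv_app] at this

/-- Every vector can lose a coordinate. -/
theorem Good.lose (hK : 7 ≤ K.card) {g₀ : OG ι F} (hg₀ : g₀ ∈ G) (hgm : ¬ Mon g₀) {z : ι → F}
    (hz : ∀ i ∈ K, z i ≠ 0) : ∃ g ∈ G, ∃ i ∈ K, g.1 z i = 0 := by
  classical
  obtain ⟨T, hT, hTc⟩ := Finset.exists_subset_card_eq (s := K) (n := 4) (by omega)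
  have hTz : T ⊆ supp z := fun i hi => mem_supp.2 (hz i (hT hi))
  rcases card_cases h2 hp with h5 | h3
  · have h3' : (3 : F) ≠ 0 := by
      have := natCast_ne_zero hp (m := 3) (fun h => by have := Nat.le_of_dvd (by norm_num) h; omega)
      exact_mod_cast this
    obtain ⟨f, hf, hN⟩ := exists_triple h3' hTz hTc
    obtain ⟨a, b, hab⟩ := exists_sum_two_sq h2 ((z ∘ f) ⬝ᵥ (z ∘ f))
    let w : ι → F := Function.extend f ![a, b, 0] z
    have hwf : w ∘ f = ![a, b, 0] := funext fun i => f.injective.extend_apply _ _ i
    obtain ⟨g, hg, hgv⟩ := Good.trans3 h2 hG hp h5 hK hg₀ hgm f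
      (fun c => hT (hf c)) (v := z) (v' := w)
      (fun i hi => (Function.extend_apply' _ _ _ fun ⟨c, hc⟩ => hi c hc).symm)
      (by rw [hwf, ← hab]; simp [dotProduct, Fin.sum_univ_three]; ring) hN
    refine ⟨g, hg, f 2, hT (hf 2), ?_⟩
    rw [hgv]
    show (w ∘ f) 2 = 0
    rw [hwf]; rfl
  · have hzero : ((3 : ℕ) : F) = 0 := h3 ▸ natCast_card_zero hp
    obtain ⟨d, hd⟩ := Finset.card_pos.1 (show 0 < T.card by omega)
    obtain ⟨c, hc⟩ := Finset.card_pos.1 (show 0 < (T.erase d).card by
      rw [Finset.card_erase_of_mem hd]; omega)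
    rw [Finset.mem_erase] at hc
    set x : ι → F := fun i => if i ∈ T then (if i = d then -z i else z i) else 0
    have hxs : supp x = T := by
      ext i
      simp only [mem_supp, x]
      by_cases hiT : i ∈ T
      · have := mem_supp.1 (hTz hiT)
        by_cases hid : i = d
        · subst hid; simp [hiT, this]
        · simp [hiT, hid, this]
      · simp [hiT]
    have hx := Good.three_four h2 hG hp h3 hK hg₀ hgm (z := x) (by rw [hxs]; exact hT) (by rw [hxs, hTc])
    refine ⟨refl x, hx.2, c, hT hc.2, ?_⟩
    have h1 : ∀ i ∈ T, x i * z i = if i = d then (-1 : F) else 1 := by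
      intro i hi
      have := sq_of_card_three h3 (mem_supp.1 (hTz hi))
      simp only [x, if_pos hi]
      split_ifs
      · linear_combination -this
      · linear_combination this
    have hxz : x ⬝ᵥ z = 2 := by
      rw [dot_sum_supp (le_of_eq hxs), ← Finset.add_sum_erase _ _ hd, h1 d hd, if_pos rfl,
        Finset.sum_congr rfl (fun i hi => by
          rw [h1 i (Finset.mem_erase.1 hi).2, if_neg (Finset.mem_erase.1 hi).1]),
        Finset.sum_const, Finset.card_erase_of_mem hd, hTc, nsmul_eq_mul]
      push_cast
      ring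
    rw [refl_app_unit hx.1, hxz, Pi.sub_apply, Pi.smul_apply, smul_eq_mul]
    simp only [x, if_pos hc.2, if_neg hc.1]
    push_cast at hzero
    linear_combination -(z c) * hzero

end Cfsg.Agent.DecompMax.OF
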