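import Cfsg.Agent.DecompMax.LinearBasic

/-!
Overgroups of the stabiliser of a decomposition of a space into members of dimension at least two.
-/

set_option autoImplicit false
set_option linter.style.haveILetI false
set_option linter.unusedSectionVars false

namespace Cfsg.Agent.DecompMax.Lin

open Matrix Cfsg.Geo Cfsg.Agent.MaxSub.SubfieldMax
open scoped MatrixGroups Matrix

variable {m t : ℕ} {F : Type*} [Field F]


/-- The vector is supported in the `i`th block. -/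
def Supp (i : Fin t) (v : (Fin m × Fin t) → F) : Prop := ∀ x : (Fin m × Fin t), x.2 ≠ i → v x = 0

/-- The part of a vector in the `i`th block. -/
def part (i : Fin t) (v : (Fin m × Fin t) → F) : (Fin m × Fin t) → F := fun x => if x.2 = i then v x else 0

/-- Two non-zero entries in different blocks. -/
def TwoBlocks (v : (Fin m × Fin t) → F) : Prop := ∃ x y : (Fin m × Fin t), x.2 ≠ y.2 ∧ v x ≠ 0 ∧ v y ≠ 0

theorem supp_part (i : Fin t) (v : (Fin m × Fin t) → F) : Supp i (part i v) := fun _ hx => if_neg hx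

theorem supp_ev (x : (Fin m × Fin t)) : Supp x.2 (ev F x) := fun y hy => by
  simp [ev, Pi.single_eq_of_ne (show y ≠ x from fun e => hy (e ▸ rfl))]

theorem part_of_eq {i : Fin t} {v : (Fin m × Fin t) → F} {x : (Fin m × Fin t)} (h : x.2 = i) : part i v x = v x := if_pos h

theorem TwoBlocks.sub_part_ne {v : (Fin m × Fin t) → F} (h : TwoBlocks v) (i : Fin t) : v - part i v ≠ 0 := by
  obtain ⟨x, y, hxy, hx, hy⟩ := h
  intro e
  by_cases hxi : x.2 = i
  · have := congrFun e y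
    simp [part, show y.2 ≠ i from fun h => hxy (hxi.trans h.symm), hy] at this
  · have := congrFun e x
    simp [part, hxi, hx] at this

theorem supp_or_twoBlocks (a : (Fin m × Fin t) → F) (ha : a ≠ 0) : (∃ i, Supp i a) ∨ TwoBlocks a := by
  obtain ⟨x, hx⟩ := Function.ne_iff.1 ha
  refine or_iff_not_imp_left.2 fun hno => ?_
  by_contra h2
  exact hno ⟨x.2, fun y hy => by_contra fun hy' => h2 ⟨x, y, Ne.symm hy, hx, hy'⟩⟩

theorem dot_part_of_supp {i : Fin t} {a : (Fin m × Fin t) → F} (ha : Supp i a) (v : (Fin m × Fin t) → F) :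
    a ⬝ᵥ part i v = a ⬝ᵥ v := by
  refine Finset.sum_congr rfl fun x _ => ?_
  by_cases hx : x.2 = i
  · rw [part_of_eq hx]
  · rw [ha x hx, zero_mul, zero_mul]

/-- Hypotheses satisfied by a group containing the stabiliser of the standard decomposition. -/
structure Hyp (M : Subgroup (GL (Fin m × Fin t) F)) : Prop where
  two : 2 ≤ m
  block : ∀ (i : Fin t) (u a : (Fin m × Fin t) → F), Supp i u → Supp i a → a ⬝ᵥ u = 0 → Root M u a
  mon : ∀ (π : Equiv.Perm (Fin m × Fin t)) (d : (Fin m × Fin t) → Fˣ), (∀ x y : (Fin m × Fin t), x.2 = y.2 → (π x).2 = (π y).2) →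
    monGL π d ∈ specialLinear (Fin m × Fin t) F → monGL π d ∈ M

section General

variable {M : Subgroup (GL (Fin m × Fin t) F)} (H : Hyp M)
include H

theorem Hyp.exists_other (x : (Fin m × Fin t)) : ∃ y : (Fin m × Fin t), y ≠ x ∧ y.2 = x.2 := by
  haveI : Nontrivial (Fin m) := Fin.nontrivial_iff_two_le.2 H.two
  obtain ⟨k, hk⟩ := exists_ne x.1
  exact ⟨(k, x.2), fun e => hk (congrArg Prod.fst e), rfl⟩

theorem Hyp.root_ev {x y : (Fin m × Fin t)} (hxy : x ≠ y) (h : x.2 = y.2) : Root M (ev F x) (ev F y) :=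
  H.block x.2 _ _ (supp_ev x) (h ▸ supp_ev y) (ev_dot_ev hxy.symm)

/-- An elementary transvection joining two blocks gives everything. -/
theorem Hyp.of_pair {x y : (Fin m × Fin t)} (hxy : x.2 ≠ y.2) (h : Root M (ev F x) (ev F y)) :
    specialLinear (Fin m × Fin t) F ≤ M := by
  classical
  haveI : Nontrivial (Fin m × Fin t) := ⟨x, y, fun e => hxy (e ▸ rfl)⟩
  refine specialLinear_le_of_elementary fun i j hij c => ?_
  by_cases hb : i.2 = j.2
  · exact (H.root_ev hij hb).2 c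
  set s : Equiv.Perm (Fin t) := Equiv.swap (Equiv.swap x.2 i.2 y.2) j.2 * Equiv.swap x.2 i.2 with hs
  have hsx : s x.2 = i.2 := by
    rw [hs, Equiv.Perm.mul_apply, Equiv.swap_apply_left]
    refine Equiv.swap_apply_of_ne_of_ne (fun e => ?_) hb
    have := congrArg (Equiv.swap x.2 i.2) e
    rw [Equiv.swap_apply_self, Equiv.swap_apply_right] at this
    exact hxy this
  have hsy : s y.2 = j.2 := by rw [hs, Equiv.Perm.mul_apply, Equiv.swap_apply_left]
  let ρ : Fin t → Equiv.Perm (Fin m) := fun l =>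
    if l = x.2 then Equiv.swap x.1 i.1 else if l = y.2 then Equiv.swap y.1 j.1 else 1
  let π : Equiv.Perm (Fin m × Fin t) :=
    { toFun := fun z => (ρ z.2 z.1, s z.2)
      invFun := fun z => ((ρ (s.symm z.2)).symm z.1, s.symm z.2)
      left_inv := fun z => by simp
      right_inv := fun z => by simp }
  have hπx : π x = i := by
    show (ρ x.2 x.1, s x.2) = i
    simp [ρ, hsx]
  have hπy : π y = j := by
    show (ρ y.2 y.1, s y.2) = j
    simp [ρ, hsy, Ne.symm hxy]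
  obtain ⟨z, hz, hzx⟩ := H.exists_other x
  obtain ⟨d, hd, hdet⟩ := exists_adjust π (fun _ => (1 : Fˣ)) z
  have := inM_ev_conj (h.2 c) (H.mon π d (fun a b e => by show s a.2 = s b.2; rw [e])
    (monGL_mem_specialLinear hdet))
  rw [hπx, hπy, hd x (Ne.symm hz), hd y (fun e => hxy (hzx.symm.trans (congrArg Prod.snd e.symm)))] at this
  simpa using this

/-- A functional in one block and a centre outside it. -/
theorem Hyp.outside {i : Fin t} {v φ : (Fin m × Fin t) → F} (h : Root M v φ) (hφ : Supp i φ) (hφ0 : φ ≠ 0)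
    (hv : part i v = 0) (hv0 : v ≠ 0) : specialLinear (Fin m × Fin t) F ≤ M := by
  obtain ⟨z, hz⟩ := Function.ne_iff.1 hv0
  obtain ⟨y', hy'⟩ := Function.ne_iff.1 hφ0
  simp only [Pi.zero_apply, ne_eq] at hz hy'
  have hy'i : y'.2 = i := by_contra fun h => hy' (hφ y' h)
  have hvi : ∀ x : (Fin m × Fin t), x.2 = i → v x = 0 := fun x hx => by
    have := congrFun hv x
    rwa [part_of_eq hx] at this
  have hzi : z.2 ≠ i := fun h => hz (hvi z h)
  obtain ⟨y, hy, hyy⟩ := H.exists_other y'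
  obtain ⟨z', hz', hzz⟩ := H.exists_other z
  have h1 : Root M v (ev F y) := h.link (H.root_ev hy.symm hyy.symm)
    (by rw [ev_dot, hvi y (hyy.trans hy'i)]) (by rwa [dot_ev])
  have hne : z'.2 ≠ y.2 := by rw [hzz, hyy, hy'i]; exact hzi
  exact H.of_pair hne ((H.root_ev hz' hzz).link h1 (by rw [ev_dot_ev fun e => hne (congrArg Prod.snd e).symm])
    (by rwa [ev_dot]))

/-- A centre in one block and a functional outside it. -/
theorem Hyp.dual {i : Fin t} {v φ : (Fin m × Fin t) → F} (h : Root M v φ) (hv : Supp i v) (hv0 : v ≠ 0)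
    (hφ : part i φ = 0) (hφ0 : φ ≠ 0) : specialLinear (Fin m × Fin t) F ≤ M := by
  obtain ⟨z, hz⟩ := Function.ne_iff.1 hφ0
  simp only [Pi.zero_apply, ne_eq] at hz
  obtain ⟨z', hz', hzz⟩ := H.exists_other z
  have hzi : z.2 ≠ i := fun h => hz (by
    have := congrFun hφ z
    rwa [part_of_eq h] at this)
  have hz'i : z'.2 ≠ i := hzz ▸ hzi
  refine H.outside (h.link (H.root_ev hz'.symm hzz.symm) (by rw [ev_dot, hv z' hz'i]) (by rwa [dot_ev]))
    (supp_ev z') (fun e => by simpa [ev] using congrFun e z') ?_ hv0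
  funext x
  by_cases hx : x.2 = z'.2
  · rw [part_of_eq hx, Pi.zero_apply, hv x (fun e => hz'i (hx.symm.trans e))]
  · simp [part, hx]

/-- A block transvection whose axis kills the centre. -/
theorem Hyp.caseA {i : Fin t} {u a w ψ : (Fin m × Fin t) → F} (h : Root M u a) (hu : TwoBlocks u) (hw : Supp i w)
    (hψ : Supp i ψ) (hψw : ψ ⬝ᵥ w = 0) (hψu : ψ ⬝ᵥ u = 0) (haw : a ⬝ᵥ w ≠ 0) (hψ0 : ψ ≠ 0) :
    specialLinear (Fin m × Fin t) F ≤ M := by
  have h1 : Root M u ψ := h.link (H.block i w ψ hw hψ hψw) hψu haw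
  refine H.outside (h1.sub_left (H.block i _ ψ (supp_part i u) hψ (by rw [dot_part_of_supp hψ, hψu])))
    hψ hψ0 ?_ (hu.sub_part_ne i)
  funext x
  by_cases hx : x.2 = i <;> simp [part, hx]

/-- A block transvection whose centre is killed by the axis. -/
theorem Hyp.caseB {i : Fin t} {u a w ψ : (Fin m × Fin t) → F} (h : Root M u a) (ha : TwoBlocks a) (hw : Supp i w)
    (hψ : Supp i ψ) (hψw : ψ ⬝ᵥ w = 0) (haw : a ⬝ᵥ w = 0) (hψu : ψ ⬝ᵥ u ≠ 0) (hw0 : w ≠ 0) :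
    specialLinear (Fin m × Fin t) F ≤ M := by
  have h1 : Root M w a := (H.block i w ψ hw hψ hψw).link h haw hψu
  have e : part i a ⬝ᵥ w = 0 := by
    rw [dotProduct_comm, dot_part_of_supp hw, dotProduct_comm, haw]
  refine H.dual (h1.sub_right (H.block i w _ hw (supp_part i a) e)) hw hw0 ?_ (ha.sub_part_ne i)
  funext x
  by_cases hx : x.2 = i <;> simp [part, hx]

theorem Hyp.single_axis {i : Fin t} {u a : (Fin m × Fin t) → F} (h : Root M u a) (hu : TwoBlocks u) (ha : Supp i a)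
    (ha0 : a ≠ 0) : specialLinear (Fin m × Fin t) F ≤ M := by
  refine H.outside (h.sub_left (H.block i _ a (supp_part i u) ha (by rw [dot_part_of_supp ha, h.1])))
    ha ha0 ?_ (hu.sub_part_ne i)
  funext x
  by_cases hx : x.2 = i <;> simp [part, hx]

/-- Members of dimension at least three. -/
theorem Hyp.of_three (h3 : 3 ≤ m) {u a : (Fin m × Fin t) → F} (h : Root M u a) (hu : TwoBlocks u) (ha : a ≠ 0) :
    specialLinear (Fin m × Fin t) F ≤ M := by
  classical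
  obtain ⟨y, hy⟩ := Function.ne_iff.1 ha
  simp only [Pi.zero_apply, ne_eq] at hy
  obtain ⟨k, hk⟩ := exists_avoid {y.1} (show ({y.1} : Finset (Fin m)).card < Fintype.card (Fin m) by
    simp; omega)
  obtain ⟨l, hl⟩ := exists_avoid {y.1, k} (show ({y.1, k} : Finset (Fin m)).card < Fintype.card (Fin m) from
    Finset.card_le_two.trans_lt (by simp; omega))
  simp only [Finset.mem_insert, Finset.mem_singleton, not_or] at hk hl
  set z : (Fin m × Fin t) := (k, y.2) with hz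
  set z' : (Fin m × Fin t) := (l, y.2) with hz'
  have hzy : z ≠ y := fun e => hk (congrArg Prod.fst e)
  have hzy' : z' ≠ y := fun e => hl.1 (congrArg Prod.fst e)
  have hzz : z ≠ z' := fun e => hl.2 (congrArg Prod.fst e).symm
  by_cases h1 : u z = 0
  · exact H.caseA h hu (supp_ev y) (show Supp y.2 (ev F z) from supp_ev z) (ev_dot_ev hzy)
      (by rw [ev_dot, h1]) (by rwa [dot_ev]) (fun e => by simpa [ev] using congrFun e z)
  refine H.caseA (ψ := u z' • ev F z - u z • ev F z') h hu (supp_ev y)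
    (fun x hx => ?_) ?_ ?_ (by rwa [dot_ev]) (fun e => h1 ?_)
  · simp [supp_ev z x hx, supp_ev z' x hx]
  · simp [sub_dotProduct, dot_ev, ev, Pi.single_eq_of_ne hzy.symm, Pi.single_eq_of_ne hzy'.symm]
  · simp [sub_dotProduct, ev_dot, mul_comm]
  · have := congrFun e z'
    simpa [ev, Pi.single_eq_of_ne hzz.symm] using this

end General

/-- The other coordinate in the same block, for blocks of size two. -/
def mate (x : Fin 2 × Fin t) : Fin 2 × Fin t := (Equiv.swap 0 1 x.1, x.2)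

theorem mate_ne (x : Fin 2 × Fin t) : mate x ≠ x := fun e => by
  have := congrArg Prod.fst e
  revert this
  show Equiv.swap 0 1 x.1 = x.1 → False
  generalize x.1 = a; revert a; decide

theorem mate_mate (x : Fin 2 × Fin t) : mate (mate x) = x := by simp [mate]

theorem eq_or_mate {x y : Fin 2 × Fin t} (h : y.2 = x.2) : y = x ∨ y = mate x := by
  obtain ⟨a, i⟩ := x
  obtain ⟨b, j⟩ := y
  obtain rfl : j = i := h
  simp only [mate, Prod.mk.injEq, and_true]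
  revert a b; decide

variable {M₂ : Subgroup (GL (Fin 2 × Fin t) F)}

/-- The configuration resisting linking. -/
def Bad (u a : Fin 2 × Fin t → F) : Prop :=
  ∀ x, (a x ≠ 0 → u (mate x) ≠ 0) ∧ (u x ≠ 0 → a (mate x) ≠ 0) ∧ a x * u x + a (mate x) * u (mate x) = 0

section Two

variable (H : Hyp M₂)
include H

theorem Hyp.bad_or {u a : Fin 2 × Fin t → F} (h : Root M₂ u a) (hu : TwoBlocks u) (ha : a ≠ 0) :
    specialLinear (Fin 2 × Fin t) F ≤ M₂ ∨ Bad u a := by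
  refine or_iff_not_imp_left.2 fun hno => ?_
  have ha2 : TwoBlocks a := (supp_or_twoBlocks a ha).resolve_left fun ⟨i, hi⟩ =>
    hno (H.single_axis h hu hi ha)
  have key : ∀ y, a y ≠ 0 → u (mate y) ≠ 0 ∧ a y * u y + a (mate y) * u (mate y) = 0 := by
    intro y hy
    have hmy : mate y ≠ y := mate_ne y
    have h1 : u (mate y) ≠ 0 := fun e => hno (H.caseA h hu (supp_ev y)
      (show Supp y.2 (ev F (mate y)) from supp_ev (mate y)) (ev_dot_ev hmy) (by rw [ev_dot, e])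
      (by rwa [dot_ev]) (fun e => by simpa [ev] using congrFun e (mate y)))
    refine ⟨h1, by_contra fun hne => hno (H.caseA (i := y.2)
      (ψ := u (mate y) • ev F y - u y • ev F (mate y)) (w := u y • ev F y + u (mate y) • ev F (mate y))
      h hu (fun x hx => ?_) (fun x hx => ?_) ?_ ?_ ?_ (fun e => h1 ?_))⟩
    · simp [supp_ev y x hx, supp_ev (mate y) x hx]
    · simp [supp_ev y x hx, supp_ev (mate y) x hx]
    · simp [sub_dotProduct, dotProduct_add, ev, Pi.single_eq_of_ne hmy, Pi.single_eq_of_ne hmy.symm]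
      ring
    · simp [sub_dotProduct, ev_dot, mul_comm]
    · simpa [dotProduct_add, dot_ev, mul_comm] using hne
    · have := congrFun e y
      simpa [ev, Pi.single_eq_of_ne hmy.symm] using this
  have key' : ∀ y, u y ≠ 0 → a (mate y) ≠ 0 := fun y hy e => hno (H.caseB h ha2
    (show Supp y.2 (ev F (mate y)) from supp_ev (mate y)) (supp_ev y) (ev_dot_ev (mate_ne y).symm)
    (by rw [dot_ev, e]) (by rwa [ev_dot]) (fun e => by simpa [ev] using congrFun e (mate y)))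
  intro x
  refine ⟨fun hx => (key x hx).1, key' x, ?_⟩
  by_cases hx : a x = 0
  · by_cases hx' : a (mate x) = 0
    · rw [hx, hx', zero_mul, zero_mul, add_zero]
    · have := (key _ hx').2
      rw [mate_mate] at this
      rwa [add_comm]
  · exact (key x hx).2

/-- The centre can be made to have one entry in the block of a given one. -/
theorem Hyp.normalise {u a : Fin 2 × Fin t → F} (h : Root M₂ u a) {y : Fin 2 × Fin t} (hy : u y ≠ 0) :
    ∃ u' a', Root M₂ u' a' ∧ (∀ x, x.2 ≠ y.2 → u' x = u x ∧ a' x = a x) ∧ u' y = u y ∧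
      u' (mate y) = 0 ∧ a' (mate y) = a (mate y) := by
  have hmy := mate_ne y
  refine ⟨_, _, h.conj_root (H.root_ev hmy rfl) (-(u (mate y) / u y)), fun x hx => ⟨?_, ?_⟩, ?_, ?_, ?_⟩
  · simp [ev, Pi.single_eq_of_ne (show x ≠ mate y from fun e => hx (e ▸ rfl))]
  · simp [ev, Pi.single_eq_of_ne (show x ≠ y from fun e => hx (e ▸ rfl))]
  · simp [ev, Pi.single_eq_of_ne hmy.symm]
  · simp [ev_dot, ev, div_mul_cancel₀ _ hy]
  · simp [ev, Pi.single_eq_of_ne hmy]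

/-- A centre meeting three blocks. -/
theorem Hyp.of_three_blocks (hζ : ∃ ζ : F, ζ ≠ 0 ∧ ζ ≠ 1) {u a : Fin 2 × Fin t → F} (h : Root M₂ u a)
    (ha : a ≠ 0) {y₁ y₂ y₃ : Fin 2 × Fin t} (h12 : y₁.2 ≠ y₂.2) (h13 : y₁.2 ≠ y₃.2) (h23 : y₂.2 ≠ y₃.2)
    (h1 : u y₁ ≠ 0) (h2 : u y₂ ≠ 0) (h3 : u y₃ ≠ 0) : specialLinear (Fin 2 × Fin t) F ≤ M₂ := by
  classical
  by_contra hno
  have hb : ∀ {u a : Fin 2 × Fin t → F}, Root M₂ u a → u y₁ ≠ 0 → u y₂ ≠ 0 → a ≠ 0 → Bad u a :=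
    fun h h1 h2 ha => (H.bad_or h ⟨_, _, h12, h1, h2⟩ ha).resolve_left hno
  have b0 := hb h h1 h2 ha
  obtain ⟨u₁, a₁, hr, ho, e1, e1', ea⟩ := H.normalise h h1
  have ha1 : a₁ ≠ 0 := fun e => (b0 y₁).2.1 h1 (by rw [← ea, e]; rfl)
  have b1 := hb hr (e1 ▸ h1) ((ho y₂ h12.symm).1 ▸ h2) ha1
  have hu12 : u₁ y₂ ≠ 0 := (ho y₂ h12.symm).1 ▸ h2
  obtain ⟨u₂, a₂, hr₂, ho₂, e2, e2', ea₂⟩ := H.normalise hr hu12
  set z₁ := mate y₁ with hz₁
  set z₂ := mate y₂ with hz₂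
  have hz1 : a₁ z₁ ≠ 0 := (b1 y₁).2.1 (e1 ▸ h1)
  have hz1' : a₂ z₁ ≠ 0 := (ho₂ z₁ h12).2 ▸ hz1
  have hu21 : u₂ y₁ ≠ 0 := (ho₂ y₁ h12).1 ▸ e1 ▸ h1
  have hu2z : u₂ z₁ = 0 := (ho₂ z₁ h12).1 ▸ e1'
  have hu23 : u₂ y₃ ≠ 0 := (ho₂ y₃ h23.symm).1 ▸ (ho y₃ h13.symm).1 ▸ h3
  have b2 := hb hr₂ hu21 (e2 ▸ hu12) (fun e => hz1' (congrFun e _))
  have hz2 : a₂ z₂ ≠ 0 := (b2 y₂).2.1 (e2 ▸ hu12)
  obtain ⟨ζ, hζ0, hζ1⟩ := hζ
  have hz12 : z₁ ≠ z₂ := fun e => h12 (show z₁.2 = z₂.2 from e ▸ rfl)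
  let d : Fin 2 × Fin t → Fˣ := Function.update (Function.update (fun _ => 1) z₁ (Units.mk0 ζ hζ0)) z₂
    (Units.mk0 ζ hζ0)⁻¹
  have hd : ∀ x, x ≠ z₁ → x ≠ z₂ → d x = 1 := fun x hx hx' => by
    simp [d, Function.update_of_ne hx, Function.update_of_ne hx']
  have hdz1 : d z₁ = Units.mk0 ζ hζ0 := by simp [d, Function.update_of_ne hz12]
  have hdz2 : d z₂ = (Units.mk0 ζ hζ0)⁻¹ := by simp [d]
  have hdet : ((Equiv.Perm.sign (1 : Equiv.Perm (Fin 2 × Fin t)) : ℤˣ) : F) * ∏ i, (d i : F) = 1 := by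
    rw [← Units.coe_prod, Finset.prod_eq_mul z₁ z₂ hz12 (fun c _ hc => hd c hc.1 hc.2) (by simp) (by simp),
      hdz1, hdz2]
    simp
  have hu2z2 : u₂ z₂ = 0 := e2'
  have hg := hr₂.conj (H.mon 1 d (fun x y e => e) (monGL_mem_specialLinear hdet))
  have hfix : ((monGL 1 d : GL (Fin 2 × Fin t) F) : Matrix (Fin 2 × Fin t) (Fin 2 × Fin t) F) *ᵥ u₂ = u₂ := by
    funext x
    have hx' := monGL_mulVec 1 d u₂ x
    rw [Equiv.Perm.one_apply] at hx'
    rw [hx']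
    by_cases hx : x = z₁
    · rw [hx, hu2z, mul_zero]
    by_cases hx2 : x = z₂
    · rw [hx2, hu2z2, mul_zero]
    · rw [hd x hx hx2, Units.val_one, one_mul]
  rw [hfix] at hg
  set b := a₂ - a₂ ᵥ* ((monGL 1 d)⁻¹ : GL (Fin 2 × Fin t) F).1
  have hb' : ∀ x, b x = a₂ x - a₂ x * (((d x)⁻¹ : Fˣ) : F) := fun x => by
    have := vecMul_inv_monGL 1 d a₂ x
    rw [Equiv.Perm.one_apply] at this
    simp only [b, Pi.sub_apply, this]
  have hb1 : b z₁ ≠ 0 := by
    rw [hb', hdz1, ← mul_one (a₂ z₁), mul_assoc, ← mul_sub, one_mul]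
    refine mul_ne_zero hz1' (sub_ne_zero.2 fun e => hζ1 ?_)
    simpa using (congrArg Inv.inv e).symm
  have hb2 : b z₂ ≠ 0 := by
    rw [hb', hdz2, inv_inv, ← mul_one (a₂ z₂), mul_assoc, ← mul_sub, one_mul]
    exact mul_ne_zero hz2 (sub_ne_zero.2 fun e => hζ1 (by simpa using e.symm))
  refine hno (H.caseB (u := u₂) (a := b) (i := y₃.2) (hr₂.sub_right hg)
    ⟨z₁, z₂, h12, hb1, hb2⟩ (show Supp y₃.2 (ev F (mate y₃)) from supp_ev (mate y₃)) (supp_ev y₃)
    (ev_dot_ev (mate_ne y₃).symm) ?_ (by rwa [ev_dot]) (fun e => by simpa [ev] using congrFun e (mate y₃)))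
  rw [dot_ev, hb', hd (mate y₃) (fun e => h13 (congrArg Prod.snd e).symm) (fun e => h23 (congrArg Prod.snd e).symm)]
  simp

/-- Members of dimension two over fields with more than two elements. -/
theorem Hyp.of_two (ht : 3 ≤ t) (hζ : ∃ ζ : F, ζ ≠ 0 ∧ ζ ≠ 1) {u a : Fin 2 × Fin t → F}
    (h : Root M₂ u a) (hu : TwoBlocks u) (ha : a ≠ 0) : specialLinear (Fin 2 × Fin t) F ≤ M₂ := by
  classical
  by_contra hno
  obtain ⟨y₁, y₂, h12, h1, h2⟩ := hu
  have h3 : ∀ {u a : Fin 2 × Fin t → F}, Root M₂ u a → a ≠ 0 → u y₁ ≠ 0 → u y₂ ≠ 0 →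
      ∀ x, x.2 ≠ y₁.2 → x.2 ≠ y₂.2 → u x = 0 := fun h ha h1 h2 x hx1 hx2 =>
    by_contra fun hx => hno (H.of_three_blocks hζ h ha h12 hx1.symm hx2.symm h1 h2 hx)
  have hb : ∀ {u a : Fin 2 × Fin t → F}, Root M₂ u a → u y₁ ≠ 0 → u y₂ ≠ 0 → a ≠ 0 → Bad u a :=
    fun h h1 h2 ha => (H.bad_or h ⟨_, _, h12, h1, h2⟩ ha).resolve_left hno
  have b0 := hb h h1 h2 ha
  obtain ⟨u₁, a₁, hr, ho, e1, e1', ea⟩ := H.normalise h h1
  have hu12 : u₁ y₂ ≠ 0 := (ho y₂ h12.symm).1 ▸ h2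
  have ha1 : a₁ ≠ 0 := fun e => (b0 y₁).2.1 h1 (by rw [← ea, e]; rfl)
  have b1 := hb hr (e1 ▸ h1) hu12 ha1
  set z₁ := mate y₁ with hz₁
  have hz1 : a₁ z₁ ≠ 0 := (b1 y₁).2.1 (e1 ▸ h1)
  have hy1 : a₁ y₁ = 0 := by
    have := (b1 y₁).2.2
    rw [e1', mul_zero, add_zero] at this
    exact (mul_eq_zero.1 this).resolve_right (e1 ▸ h1)
  have hsu : ∀ x, x.2 ≠ y₁.2 → x.2 ≠ y₂.2 → u₁ x = 0 := h3 hr ha1 (e1 ▸ h1) hu12
  have hsa : ∀ x, x.2 ≠ y₁.2 → x.2 ≠ y₂.2 → a₁ x = 0 := fun x hx hx' =>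
    by_contra fun hax => (b1 x).1 hax (hsu _ hx hx')
  obtain ⟨k, hk⟩ := exists_avoid {y₁.2, y₂.2} (Finset.card_le_two.trans_lt (by simp; omega))
  simp only [Finset.mem_insert, Finset.mem_singleton, not_or] at hk
  let π : Equiv.Perm (Fin 2 × Fin t) :=
    (Equiv.prodCongr (Equiv.refl _) (Equiv.swap y₂.2 k)) * Equiv.swap y₁ z₁
  have hπblk : ∀ x, (π x).2 = Equiv.swap y₂.2 k x.2 := fun x => by
    simp only [π, Equiv.Perm.mul_apply, Equiv.prodCongr_apply, Prod.map, Equiv.refl_apply]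
    congr 1
    rw [Equiv.swap_apply_def]
    split_ifs with h h' <;> simp [*, mate]
  obtain ⟨d, hd, hdet⟩ := exists_adjust π (fun _ => (1 : Fˣ)) (y₁.1, k)
  have hgM := H.mon π d (fun x y e => by rw [hπblk, hπblk, e]) (monGL_mem_specialLinear hdet)
  have hdx : ∀ (v : Fin 2 × Fin t → F), (∀ x, x.2 = k → v x = 0) → ∀ x,
      (d x : F) * v x = v x ∧ v x * (((d x)⁻¹ : Fˣ) : F) = v x := fun v hv x => by
    by_cases hx : x.2 = k
    · rw [hv x hx]; simp
    · rw [hd x fun e => hx (e ▸ rfl)]; simp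
  have hg := hr.conj hgM
  set g : GL (Fin 2 × Fin t) F := monGL π d
  have hu' : ∀ x, ((g : Matrix (Fin 2 × Fin t) (Fin 2 × Fin t) F) *ᵥ u₁) (π x) = u₁ x := fun x => by
    rw [monGL_mulVec, (hdx u₁ (fun x hx => hsu x (hx ▸ hk.1) (hx ▸ hk.2)) x).1]
  have ha' : ∀ x, (a₁ ᵥ* (g⁻¹ : GL _ F).1) (π x) = a₁ x := fun x => by
    rw [vecMul_inv_monGL, (hdx a₁ (fun x hx => hsa x (hx ▸ hk.1) (hx ▸ hk.2)) x).2]
  set u' := (g : Matrix (Fin 2 × Fin t) (Fin 2 × Fin t) F) *ᵥ u₁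
  set a' := a₁ ᵥ* (g⁻¹ : GL _ F).1
  have hz1y : z₁.2 = y₁.2 := rfl
  have hπy : π y₁ = z₁ := by
    simp [π, Prod.map, Equiv.Perm.mul_apply, z₁, mate, Equiv.swap_apply_of_ne_of_ne h12 (Ne.symm hk.1)]
  have hπz : π z₁ = y₁ := by
    simp [π, Prod.map, Equiv.Perm.mul_apply, Equiv.swap_apply_of_ne_of_ne h12 (Ne.symm hk.1)]
  have hoff : ∀ x : Fin 2 × Fin t, x.2 ≠ y₁.2 → π x = (x.1, Equiv.swap y₂.2 k x.2) := fun x hx => by
    simp [π, Prod.map, Equiv.Perm.mul_apply, Equiv.swap_apply_of_ne_of_ne (show x ≠ y₁ from fun e => hx (e ▸ rfl))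
      (show x ≠ z₁ from fun e => hx (e ▸ rfl))]
  have hu'2 : ∀ x : Fin 2 × Fin t, x.2 = y₂.2 → u' x = 0 ∧ a' x = 0 := fun x hx => by
    have e : π (x.1, k) = x := by
      rw [hoff _ hk.1]
      show (x.1, Equiv.swap y₂.2 k k) = x
      rw [Equiv.swap_apply_right, ← hx]
    rw [← e, hu', ha']
    exact ⟨hsu _ hk.1 hk.2, hsa _ hk.1 hk.2⟩
  have hδ : a₁ ⬝ᵥ u' = a₁ z₁ * u₁ y₁ := by
    rw [dotProduct, Finset.sum_eq_single z₁ (fun x _ hx => ?_) (by simp), ← hπy, hu' y₁, hπy]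
    by_cases hx1 : x.2 = y₁.2
    · rcases eq_or_mate hx1 with rfl | e
      · rw [hy1, zero_mul]
      · exact absurd e hx
    by_cases hx2 : x.2 = y₂.2
    · rw [(hu'2 x hx2).1, mul_zero]
    · rw [hsa x hx1 hx2, zero_mul]
  have hδ' : a' ⬝ᵥ u₁ = a₁ z₁ * u₁ y₁ := by
    rw [dotProduct, Finset.sum_eq_single y₁ (fun x _ hx => ?_) (by simp), ← hπz, ha' z₁, hπz]
    by_cases hx1 : x.2 = y₁.2
    · rcases eq_or_mate hx1 with e | rfl
      · exact absurd e hx
      · rw [e1', mul_zero]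
    by_cases hx2 : x.2 = y₂.2
    · rw [(hu'2 x hx2).2, zero_mul]
    · rw [hsu x hx1 hx2, mul_zero]
  have hne : a₁ z₁ * u₁ y₁ ≠ 0 := mul_ne_zero hz1 (e1 ▸ h1)
  have hfin := hg.conj_root hr (a₁ z₁ * u₁ y₁)⁻¹
  rw [hδ, hδ', inv_mul_cancel₀ hne, one_smul, one_smul] at hfin
  refine hno (H.of_three_blocks hζ hfin (fun e => hz1 ?_) (y₃ := (y₂.1, k)) h12 (Ne.symm hk.1)
    (Ne.symm hk.2) ?_ ?_ ?_)
  · have e' := congrFun e z₁
    simp only [Pi.sub_apply, Pi.zero_apply] at e'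
    rw [← hπy, ha' y₁, hy1, hπy] at e'
    simpa using e'
  · rw [Pi.add_apply, ← hπz, hu' z₁, e1', hπz, zero_add, e1]; exact h1
  · rw [Pi.add_apply, (hu'2 y₂ rfl).1, zero_add]; exact hu12
  · rw [Pi.add_apply, hsu _ hk.1 hk.2, add_zero]
    have : π y₂ = (y₂.1, k) := by rw [hoff _ h12.symm, Equiv.swap_apply_left]
    rw [← this, hu']; exact hu12

end Two

end Cfsg.Agent.DecompMax.Lin
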