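import Cfsg.Agent.DecompMax.LinearRefl

/-!
A group above the monomial group of determinant one with a non-monomial element fixing a coordinate
line is the special linear group.
-/

set_option autoImplicit false
set_option linter.style.haveILetI false
set_option linter.unusedSectionVars false

namespace Cfsg.Agent.DecompMax.Lin

open Matrix Cfsg.Geo Cfsg.Agent.MaxSub.SubfieldMax
open scoped MatrixGroups Matrix

variable {ι : Type} [Fintype ι] [DecidableEq ι] {F : Type*} [Field F]

theorem det_one_add_vmv (u a : ι → F) : (1 + vecMulVec u a).det = 1 + a ⬝ᵥ u := by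
  rw [Matrix.vecMulVec_eq Unit, Matrix.det_one_add_replicateCol_mul_replicateRow]

theorem exists_three_avoid (h4 : 4 ≤ Fintype.card ι) (a b c : ι) : ∃ l, l ≠ a ∧ l ≠ b ∧ l ≠ c := by
  obtain ⟨l, hl⟩ := exists_avoid {a, b, c} (Finset.card_le_three.trans_lt (by omega))
  simp only [Finset.mem_insert, Finset.mem_singleton, not_or] at hl
  exact ⟨l, hl⟩

variable {M : Subgroup (GL ι F)} (hmon : ∀ π d, monGL π d ∈ specialLinear ι F → monGL π d ∈ M)
include hmon

theorem diag_pair_mem {j l : ι} (hjl : j ≠ l) (ζ : Fˣ) :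
    monGL 1 (fun i => if i = j then ζ else if i = l then ζ⁻¹ else 1) ∈ M := by
  refine hmon _ _ (monGL_mem_specialLinear ?_)
  rw [← Units.coe_prod, Finset.prod_eq_mul j l hjl (fun c _ hc => by simp [hc.1, hc.2]) (by simp) (by simp)]
  simp [Ne.symm hjl]

/-- One step of clearing the axis. -/
theorem axis_step {o j l : ι} {d : ι → F} (hjl : j ≠ l) (hjo : o ≠ j) (hlo : o ≠ l) (hd : d o = 0)
    (ζ : Fˣ) (h : InM M (ev F o) d) :
    InM M (ev F o) fun x => if x = j then d j * (1 - ((ζ⁻¹ : Fˣ) : F))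
      else if x = l then d l * (1 - (ζ : F)) else 0 := by
  have h' := h.conj (diag_pair_mem hmon hjl ζ)
  set g : GL ι F := monGL 1 fun i => if i = j then ζ else if i = l then ζ⁻¹ else 1
  have e : (g : Matrix ι ι F) *ᵥ ev F o = ev F o := by
    rw [monGL_mulVec_ev]
    simp [hjo, hlo]
  rw [e] at h'
  obtain ⟨a, ha, ea⟩ := h'
  have hd' : ∀ x, (d ᵥ* (g⁻¹ : GL ι F).1) x =
      d x * (((if x = j then ζ else if x = l then ζ⁻¹ else 1) : Fˣ)⁻¹ : Fˣ) := fun x =>
    vecMul_inv_monGL 1 _ d x
  have hz : (d ᵥ* (g⁻¹ : GL ι F).1) ⬝ᵥ ev F o = 0 := by rw [dot_ev, hd', hd, zero_mul]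
  have hneg : InM M (ev F o) (-(d ᵥ* (g⁻¹ : GL ι F).1)) := ⟨a⁻¹, inv_mem ha, by
    rw [inv_val_of_sq ea (vmv_mul_vmv_zero hz _ _), vecMulVec_neg, sub_eq_add_neg]⟩
  convert h.add_right hneg (by rw [dot_ev, hd]) using 1
  funext x
  simp only [Pi.add_apply, Pi.neg_apply, hd']
  split_ifs with h1 h2
  · subst h1; ring
  · subst h2; simp; ring
  · simp

/-- A transvection with centre a basis vector gives everything. -/
theorem of_axis (h5 : 5 ≤ Fintype.card ι) {ζ : Fˣ} (hζ : (ζ : F) ≠ 1) {o : ι} {d : ι → F}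
    (h : InM M (ev F o) d) (hd : d o = 0) (hd0 : d ≠ 0) : specialLinear ι F ≤ M := by
  obtain ⟨j, hj⟩ := Function.ne_iff.1 hd0
  simp only [Pi.zero_apply, ne_eq] at hj
  have hjo : o ≠ j := fun e => hj (e ▸ hd)
  obtain ⟨l, hlo, hlj, -⟩ := exists_three_avoid (by omega) o j j
  obtain ⟨k, hko, hkj, hkl⟩ := exists_three_avoid (by omega) o j l
  have h1 := axis_step hmon (Ne.symm hlj) hjo (Ne.symm hlo) hd ζ h
  have hone : (1 : F) - ((ζ⁻¹ : Fˣ) : F) ≠ 0 :=
    sub_ne_zero.2 fun e => hζ (by simpa using (congrArg Inv.inv e).symm)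
  have h2 := axis_step hmon (Ne.symm hkj) hjo (Ne.symm hko)
    (by simp [hjo, Ne.symm hlo]) ζ h1
  refine specialLinear_le_of_one_elementary (by omega) hmon hjo
    (c := d j * (1 - ((ζ⁻¹ : Fˣ) : F)) * (1 - ((ζ⁻¹ : Fˣ) : F)))
    (mul_ne_zero (mul_ne_zero hj hone) hone) (inM_smul_left.2 ?_)
  refine h2.congr (congrArg (vecMulVec (ev F o)) ?_)
  funext x
  by_cases hx : x = j
  · simp [hx, ev]
  · by_cases hxk : x = k <;> simp [hx, hxk, ev, hkj, hkl]

omit hmon

/-- The block of a matrix off the coordinate `o`. -/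
def blk (o : ι) (y : GL ι F) : Matrix {x // x ≠ o} {x // x ≠ o} F :=
  (y : Matrix ι ι F).submatrix Subtype.val Subtype.val

/-- The matrix fixes the `o`th coordinate line. -/
def FixLine (o : ι) (y : GL ι F) : Prop := ∀ a, a ≠ o → (y : Matrix ι ι F) a o = 0

theorem blk_mul {o : ι} {y y' : GL ι F} (hy : FixLine o y) : blk o (y * y') = blk o y * blk o y' := by
  ext a b
  simp only [blk, Matrix.submatrix_apply, Units.val_mul, Matrix.mul_apply]
  rw [← Finset.sum_erase (Finset.univ) (a := o) (by rw [hy a a.2, zero_mul]),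
    ← Finset.sum_subtype (Finset.univ.erase o) (fun x => by simp)
      (fun x => (y : Matrix ι ι F) a x * (y' : Matrix ι ι F) x b)]

theorem fixLine_iff {o : ι} {y : GL ι F} :
    FixLine o y ↔ (y : Matrix ι ι F) *ᵥ ev F o = (y : Matrix ι ι F) o o • ev F o := by
  constructor
  · intro h
    funext a
    rw [Matrix.mulVec_single_one, Matrix.col_apply]
    rcases eq_or_ne a o with rfl | ha
    · simp [ev]
    · simp [ev, h a ha, ha]
  · intro h a ha
    have := congrFun h a
    rw [Matrix.mulVec_single_one, Matrix.col_apply] at this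
    simpa [ev, ha] using this

theorem FixLine.inv {o : ι} {y : GL ι F} (h : FixLine o y) : FixLine o y⁻¹ := by
  have h' := fixLine_iff.1 h
  set c := (y : Matrix ι ι F) o o
  have hc : c ≠ 0 := fun e => by
    rw [e, zero_smul] at h'
    have := GeoClasses.mulVec_injective y (a₁ := ev F o) (a₂ := 0) (by simpa using h')
    simpa [ev] using congrFun this o
  have e : ((y⁻¹ : GL ι F) : Matrix ι ι F) *ᵥ ev F o = c⁻¹ • ev F o := by
    apply GeoClasses.mulVec_injective y
    show (y : Matrix ι ι F) *ᵥ _ = (y : Matrix ι ι F) *ᵥ _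
    rw [GeoClasses.mulVec_inv_cancel, Matrix.mulVec_smul, h', smul_smul, inv_mul_cancel₀ hc, one_smul]
  intro a ha
  have := congrFun e a
  rw [Matrix.mulVec_single_one, Matrix.col_apply] at this
  simpa [ev, ha] using this

theorem FixLine.mul {o : ι} {y y' : GL ι F} (h : FixLine o y) (h' : FixLine o y') : FixLine o (y * y') := by
  intro a ha
  rw [Units.val_mul, Matrix.mul_apply]
  exact Finset.sum_eq_zero fun x _ => by
    rcases eq_or_ne x o with rfl | hx
    · rw [h a ha, zero_mul]
    · rw [h' x hx, mul_zero]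

theorem blk_one (o : ι) : blk o (1 : GL ι F) = 1 := by
  ext a b; simp [blk, Matrix.one_apply, Subtype.ext_iff]

/-- The block of an element fixing the line. -/
def blkGL (o : ι) (y : GL ι F) (h : FixLine o y) : GL {x // x ≠ o} F where
  val := blk o y
  inv := blk o y⁻¹
  val_inv := by rw [← blk_mul h, mul_inv_cancel, blk_one]
  inv_val := by rw [← blk_mul h.inv, inv_mul_cancel, blk_one]

/-- The blocks of the elements of `M` fixing the line. -/
def blkGroup (o : ι) (M : Subgroup (GL ι F)) : Subgroup (GL {x // x ≠ o} F) where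
  carrier := {h | ∃ y, ∃ hy : FixLine o y, y ∈ M ∧ blkGL o y hy = h}
  one_mem' := ⟨1, fun a ha => by simp [Matrix.one_apply, ha], one_mem _, Units.ext (blk_one o)⟩
  mul_mem' := by
    rintro _ _ ⟨y, hy, hM, rfl⟩ ⟨y', hy', hM', rfl⟩
    exact ⟨y * y', hy.mul hy', mul_mem hM hM', Units.ext (blk_mul hy)⟩
  inv_mem' := by
    rintro _ ⟨y, hy, hM, rfl⟩
    exact ⟨y⁻¹, hy.inv, inv_mem hM, Units.ext rfl⟩

include hmon

/-- Monomial blocks lift. -/
theorem exists_lift (o : ι) (π : Equiv.Perm {x // x ≠ o}) (d : {x // x ≠ o} → Fˣ) :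
    ∃ z ∈ M, IsMon z ∧ ∃ hz : FixLine o z, blkGL o z hz = monGL π d := by
  obtain ⟨d', hd', hdet⟩ := exists_adjust (Equiv.Perm.ofSubtype π)
    (fun x => if h : x ≠ o then d ⟨x, h⟩ else 1) o
  have ho : Equiv.Perm.ofSubtype π o = o := Equiv.Perm.ofSubtype_apply_of_not_mem _ (by simp)
  have hfix : FixLine o (monGL (Equiv.Perm.ofSubtype π) d' : GL ι F) := fun a ha => by
    show monMat _ _ a o = 0
    simp [monMat, ho, ha]
  refine ⟨_, hmon _ _ (monGL_mem_specialLinear hdet), isMon_monGL _ _, hfix, Units.ext ?_⟩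
  ext a b
  show monMat _ _ (a : ι) (b : ι) = monMat π d a b
  simp only [monMat, Matrix.of_apply, Equiv.Perm.ofSubtype_apply_coe, Subtype.coe_injective.eq_iff]
  rw [hd' b b.2, dif_pos b.2]

/-- A non-monomial element fixing a coordinate line. -/
theorem of_fixLine [Fintype F] (hq : 5 ≤ Fintype.card F) (h6 : 5 ≤ Fintype.card ι)
    (hMK : M ≤ specialLinear ι F) {o : ι} {y : GL ι F} (hy : y ∈ M) (hfix : FixLine o y)
    (hym : ¬ IsMon y) : specialLinear ι F ≤ M := by
  classical
  obtain ⟨z, hz0, hz1, hz2, -⟩ := exists_avoiding_four hq 0 1 (-1) 0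
  set ζ : Fˣ := Units.mk0 z hz0
  by_cases hb : IsMon (blkGL o y hfix)
  · obtain ⟨π, d, e⟩ := hb.exists_eq
    obtain ⟨w, hw, hwm, hwfix, ew⟩ := exists_lift hmon o π d
    set y1 := w⁻¹ * y
    have hy1 : FixLine o y1 := hwfix.inv.mul hfix
    have hb1 : blk o y1 = 1 := by
      rw [blk_mul hwfix.inv, show blk o y = blk o w from congrArg Units.val (e.trans ew.symm),
        ← blk_mul hwfix.inv, inv_mul_cancel, blk_one]
    set r : ι → F := fun x => (y1 : Matrix ι ι F) o x - (1 : Matrix ι ι F) o x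
    have ey1 : (y1 : Matrix ι ι F) = 1 + vecMulVec (ev F o) r := by
      ext a b
      rcases eq_or_ne a o with rfl | ha
      · simp [r, vecMulVec_apply, ev]
      · rcases eq_or_ne b o with rfl | hb'
        · simp [hy1 a ha, vecMulVec_apply, ev, ha, Matrix.one_apply]
        · have := congrFun (congrFun hb1 ⟨a, ha⟩) ⟨b, hb'⟩
          simp [blk, Matrix.one_apply] at this
          simp [this, vecMulVec_apply, ev, ha, Matrix.one_apply]
    have hy1M : y1 ∈ M := mul_mem (inv_mem hw) hy
    have hro : r o = 0 := by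
      have := (GeoClasses.mem_specialLinear_iff).1 (hMK hy1M)
      rw [ey1, det_one_add_vmv, dot_ev] at this
      linear_combination this
    refine of_axis hmon (by omega) (ζ := ζ) hz1 ⟨y1, hy1M, ey1⟩ hro fun hr => hym ?_
    have : y1 = 1 := Units.ext (by rw [ey1, hr, vecMulVec_zero, add_zero, Units.val_one])
    rwa [inv_mul_eq_one.1 this] at hwm
  · have hcard : Fintype.card {x // x ≠ o} = Fintype.card ι - 1 := by
      rw [Fintype.card_subtype_compl]; simp
    obtain ⟨a, b, hab, hr⟩ := hasElem_of_not_mon (L := blkGroup o M)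
      (fun π d => let ⟨w, hw, _, hwfix, ew⟩ := exists_lift hmon o π d; ⟨w, hwfix, hw, ew⟩)
      hq (by omega) ⟨y, hfix, hy, rfl⟩ hb
    obtain ⟨g, ⟨y', hy', hy'M, rfl⟩, eg⟩ := hr.2 1
    rw [one_smul] at eg
    change blk o y' = _ at eg
    have ha := a.2
    have hbo := b.2
    have hab' : (a : ι) ≠ b := fun e => hab (Subtype.ext e)
    set r : ι → F := fun x => (y' : Matrix ι ι F) o x - (1 : Matrix ι ι F) o x
    set E := vecMulVec (ev F (a : ι)) (ev F (b : ι))
    have hzero : ev F (b : ι) ⬝ᵥ ev F o = 0 := ev_dot_ev hbo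
    have ey' : (y' : Matrix ι ι F) = (1 + E) * (1 + vecMulVec (ev F o) r) := by
      rw [mul_add, mul_one, add_mul, one_mul, vmv_mul_vmv_zero hzero, add_zero]
      ext x z
      rcases eq_or_ne x o with rfl | hx
      · simp [r, E, vecMulVec_apply, ev, Ne.symm ha]
      · rcases eq_or_ne z o with rfl | hz
        · simp [hy' x hx, E, vecMulVec_apply, ev, hx, Matrix.one_apply, Ne.symm hbo]
        · have := congrFun (congrFun eg ⟨x, hx⟩) ⟨z, hz⟩
          simp [blk] at this
          simp [this, E, vecMulVec_apply, ev, hx, Matrix.one_apply, Pi.single_apply, Subtype.ext_iff]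
    have hro : r o = 0 := by
      have := (GeoClasses.mem_specialLinear_iff).1 (hMK hy'M)
      rw [ey', Matrix.det_mul, det_one_add_vmv, det_one_add_vmv, dot_ev, dot_ev] at this
      simpa [ev, Ne.symm hab', hab'] using this
    obtain ⟨l, hlo, hla, hlb⟩ := exists_three_avoid (by omega) o (a : ι) (b : ι)
    have hg := diag_pair_mem hmon (Ne.symm hlo) ζ
    set t : GL ι F := monGL 1 fun i => if i = o then ζ else if i = l then ζ⁻¹ else 1
    set y'' := t * y' * t⁻¹
    have hy'' : y'' ∈ M := mul_mem (mul_mem hg hy'M) (inv_mem hg)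
    set r' := (ζ : F) • (r ᵥ* (t⁻¹ : GL ι F).1)
    have etE : (t : Matrix ι ι F) * E * (t⁻¹ : GL ι F).1 = E := by
      rw [Matrix.mul_vecMulVec, Matrix.vecMulVec_mul, monGL_mulVec_ev]
      simp only [Equiv.Perm.one_apply, ha, Ne.symm hla, if_false, Units.val_one, one_smul]
      congr 1
      funext x
      have := vecMul_inv_monGL (1 : Equiv.Perm ι) (fun i => if i = o then ζ else if i = l then ζ⁻¹ else 1)
        (ev F (b : ι)) x
      rw [Equiv.Perm.one_apply] at this
      rw [this]
      rcases eq_or_ne x (b : ι) with rfl | hx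
      · simp [hbo, Ne.symm hlb]
      · simp [ev, hx]
    have etR : (t : Matrix ι ι F) * vecMulVec (ev F o) r * (t⁻¹ : GL ι F).1 = vecMulVec (ev F o) r' := by
      rw [Matrix.mul_vecMulVec, Matrix.vecMulVec_mul, monGL_mulVec_ev]
      simp [r', smul_vecMulVec, vecMulVec_smul]
    have ey'' : (y'' : Matrix ι ι F) = (1 + E) * (1 + vecMulVec (ev F o) r') := by
      have conj1 : ∀ A : Matrix ι ι F, (t : Matrix ι ι F) * (1 + A) * (t⁻¹ : GL ι F).1 =
          1 + (t : Matrix ι ι F) * A * (t⁻¹ : GL ι F).1 := fun A => by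
        rw [mul_add, mul_one, add_mul, Units.mul_inv]
      calc (y'' : Matrix ι ι F)
          = ((t : Matrix ι ι F) * (1 + E) * (t⁻¹ : GL ι F).1) *
            ((t : Matrix ι ι F) * (1 + vecMulVec (ev F o) r) * (t⁻¹ : GL ι F).1) := by
            simp only [y'', Units.val_mul, ey', mul_assoc, Units.inv_mul_cancel_left]
        _ = _ := by rw [conj1, conj1, etE, etR]
    by_cases hrr : r' = r
    · -- then `r = 0`
      have hr0 : r = 0 := by
        funext x
        have h' := congrFun hrr x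
        have := vecMul_inv_monGL (1 : Equiv.Perm ι) (fun i => if i = o then ζ else if i = l then ζ⁻¹ else 1) r x
        rw [Equiv.Perm.one_apply] at this
        simp only [r', Pi.smul_apply, smul_eq_mul, t, this] at h'
        rcases eq_or_ne x o with rfl | hxo
        · exact hro
        rcases eq_or_ne x l with rfl | hxl
        · simp [hxo] at h'
          by_contra hx0
          have : (ζ : F) * ζ = 1 := mul_right_cancel₀ hx0 (by linear_combination h')
          rcases mul_self_eq_one_iff.1 this with e | e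
          · exact hz1 e
          · exact hz2 e
        · simp [hxo, hxl] at h'
          exact (show r x = 0 from by
            by_contra hx0
            exact hz1 (show (ζ : F) = 1 from mul_right_cancel₀ hx0 (by linear_combination h')))
      refine specialLinear_le_of_one_elementary (by omega) hmon hab' one_ne_zero ⟨y', hy'M, ?_⟩
      rw [ey', hr0, vecMulVec_zero, add_zero, mul_one, one_smul]
    · have h01 : r ⬝ᵥ ev F o = 0 := by rw [dot_ev, hro]
      have hinv : ((y'⁻¹ : GL ι F) : Matrix ι ι F) * (1 + E) = 1 - vecMulVec (ev F o) r := by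
        have e1 : ((y'⁻¹ : GL ι F) : Matrix ι ι F) * ((1 + E) * (1 + vecMulVec (ev F o) r)) = 1 := by
          rw [← ey', ← Units.val_mul, inv_mul_cancel, Units.val_one]
        have e2 : (1 + vecMulVec (ev F o) r) * (1 - vecMulVec (ev F o) r) = 1 := by
          rw [mul_sub, mul_one, add_mul, one_mul, vmv_mul_vmv_zero h01, add_zero, add_sub_cancel_right]
        calc _ = ((y'⁻¹ : GL ι F) : Matrix ι ι F) * (1 + E) *
              ((1 + vecMulVec (ev F o) r) * (1 - vecMulVec (ev F o) r)) := by rw [e2, mul_one]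
          _ = ((y'⁻¹ : GL ι F) : Matrix ι ι F) * ((1 + E) * (1 + vecMulVec (ev F o) r)) *
              (1 - vecMulVec (ev F o) r) := by simp only [mul_assoc]
          _ = _ := by rw [e1, one_mul]
      refine of_axis hmon (by omega) (ζ := ζ) hz1 (o := o) (d := r' - r)
        ⟨y'⁻¹ * y'', mul_mem (inv_mem hy'M) hy'', ?_⟩ ?_ (sub_ne_zero.2 hrr)
      · rw [Units.val_mul, ey'', ← mul_assoc, hinv, sub_mul, one_mul, mul_add, mul_one,
          vmv_mul_vmv_zero h01, add_zero, vecMulVec_sub]
        abel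
      · have := vecMul_inv_monGL (1 : Equiv.Perm ι) (fun i => if i = o then ζ else if i = l then ζ⁻¹ else 1) r o
        rw [Equiv.Perm.one_apply] at this
        show (ζ : F) * (r ᵥ* ((monGL 1 _)⁻¹ : GL ι F).1) o - r o = 0
        rw [this, hro]; simp

end Cfsg.Agent.DecompMax.Lin
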