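import Cfsg.Agent.DecompMax.LinearBasic

/-!
A group of matrices strictly above the full monomial group contains an elementary root subgroup
(fields with at least five elements).
-/

set_option autoImplicit false
set_option linter.style.haveILetI false
set_option linter.unusedSectionVars false

namespace Cfsg.Agent.DecompMax.Lin

open Matrix Cfsg.Geo Cfsg.Agent.MaxSub.SubfieldMax
open scoped MatrixGroups Matrix

variable {ι : Type} [Fintype ι] [DecidableEq ι] {F : Type*} [Field F]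

/-- The pseudo-reflections with centre `u` and axis `φ` lie in `L`. -/
def Refl (L : Subgroup (GL ι F)) (u φ : ι → F) : Prop :=
  φ ⬝ᵥ u = 1 ∧ ∀ η : F, η ≠ 0 → InM L ((η - 1) • u) φ

/-- An elementary root subgroup lies in `L`. -/
def HasElem (L : Subgroup (GL ι F)) : Prop := ∃ a b : ι, a ≠ b ∧ Root L (ev F a) (ev F b)

variable {L : Subgroup (GL ι F)}

theorem Refl.conj {u φ : ι → F} (h : Refl L u φ) {g : GL ι F} (hg : g ∈ L) :
    Refl L ((g : Matrix ι ι F) *ᵥ u) (φ ᵥ* (g⁻¹ : GL ι F).1) := by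
  refine ⟨?_, fun η hη => ?_⟩
  · rw [← Matrix.dotProduct_mulVec, Matrix.mulVec_mulVec, ← Units.val_mul, inv_mul_cancel, Units.val_one,
      Matrix.one_mulVec, h.1]
  · rw [← Matrix.mulVec_smul]
    exact (h.2 η hη).conj hg

theorem Refl.conj_refl {u φ w ψ : ι → F} (h : Refl L w ψ) (h' : Refl L u φ) {η : F} (hη : η ≠ 0) :
    Refl L (w + ((η - 1) * (φ ⬝ᵥ w)) • u) (ψ + ((η⁻¹ - 1) * (ψ ⬝ᵥ u)) • φ) := by
  obtain ⟨g, hg, e⟩ := h'.2 η hη
  have hinv : ((g⁻¹ : GL ι F) : Matrix ι ι F) = 1 + vecMulVec ((η⁻¹ - 1) • u) φ := by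
    refine Units.inv_eq_of_mul_eq_one_right ?_
    rw [e, mul_add, mul_one, add_mul, one_mul, vmv_mul_vmv, dotProduct_smul, h'.1, add_assoc,
      add_eq_left, smul_vecMulVec, smul_vecMulVec, smul_smul, ← add_smul, ← add_smul]
    convert zero_smul F (vecMulVec u φ) using 2
    simp only [smul_eq_mul, mul_one]
    field_simp
    ring
  have := h.conj hg
  rw [e, hinv] at this
  convert this using 1
  · rw [Matrix.add_mulVec, Matrix.one_mulVec, Matrix.vecMulVec_mulVec]
    ext x; simp; ring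
  · rw [Matrix.vecMul_add, Matrix.vecMul_one, Matrix.vecMul_vecMulVec, dotProduct_smul, smul_eq_mul]

theorem root_of_ne_one {u a : ι → F} (ha : a ⬝ᵥ u = 0) (hq : ∃ ζ : F, ζ ≠ 0 ∧ ζ ≠ 1) {b : F} (hb : b ≠ 0)
    (h : ∀ c, c ≠ 0 → c ≠ b → InM L (c • u) a) : Root L u a := by
  refine ⟨ha, fun c => ?_⟩
  rcases eq_or_ne c 0 with rfl | hc
  · exact ⟨1, one_mem _, by simp⟩
  rcases eq_or_ne c b with rfl | hcb
  · obtain ⟨ζ, h0, h1⟩ := hq
    have e1 : ζ * c ≠ c := fun e => h1 ((mul_eq_right₀ hc).1 e)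
    have e2 : c - ζ * c ≠ c := fun e => mul_ne_zero h0 hc (sub_eq_self.1 e)
    exact (h (ζ * c) (mul_ne_zero h0 hc) e1).mul (h (c - ζ * c) (sub_ne_zero.2 e1.symm) e2)
      (by rw [dotProduct_smul, ha, smul_zero]) (by rw [← add_vecMulVec, ← add_smul, add_sub_cancel])
  · exact h c hc hcb

theorem Refl.sub_left {u u' φ : ι → F} (h : Refl L u φ) (h' : Refl L u' φ)
    (hq : ∃ ζ : F, ζ ≠ 0 ∧ ζ ≠ 1) : Root L (u' - u) φ := by
  refine root_of_ne_one (by rw [dotProduct_sub, h.1, h'.1, sub_self]) hq one_ne_zero fun c hc hc1 => ?_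
  have h1c : (1 : F) - c ≠ 0 := sub_ne_zero.2 (Ne.symm hc1)
  obtain ⟨g', hg', e'⟩ := h'.2 (1 - c)⁻¹ (inv_ne_zero h1c)
  obtain ⟨g, hg, e⟩ := h.2 (1 - c) h1c
  refine ⟨g' * g, mul_mem hg' hg, ?_⟩
  rw [Units.val_mul, e', e, mul_add, mul_one, add_mul, one_mul, vmv_mul_vmv, dotProduct_smul, h.1]
  simp only [smul_eq_mul, mul_one, smul_vecMulVec, sub_vecMulVec, smul_sub]
  match_scalars <;> field_simp <;> ring

theorem Refl.sub_right {u φ φ' : ι → F} (h : Refl L u φ) (h' : Refl L u φ')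
    (hq : ∃ ζ : F, ζ ≠ 0 ∧ ζ ≠ 1) : Root L u (φ' - φ) := by
  refine root_of_ne_one (b := -1) (by rw [sub_dotProduct, h.1, h'.1, sub_self]) hq
    (neg_ne_zero.2 one_ne_zero) fun c hc hc1 => ?_
  have h1c : c + 1 ≠ 0 := fun e => hc1 (eq_neg_of_add_eq_zero_left e)
  obtain ⟨g', hg', e'⟩ := h'.2 (c + 1) h1c
  obtain ⟨g, hg, e⟩ := h.2 (c + 1)⁻¹ (inv_ne_zero h1c)
  refine ⟨g' * g, mul_mem hg' hg, ?_⟩
  rw [Units.val_mul, e', e, mul_add, mul_one, add_mul, one_mul, vmv_mul_vmv, dotProduct_smul, h'.1]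
  simp only [smul_eq_mul, mul_one, smul_vecMulVec, vecMulVec_sub, smul_sub]
  match_scalars <;> field_simp <;> ring

/-- Diagonal scaling of one coordinate. -/
def scal (R : Finset ι) (ζ : Fˣ) : GL ι F := monGL 1 fun i => if i ∈ R then ζ else 1

theorem scal_mulVec (R : Finset ι) (ζ : Fˣ) (v : ι → F) :
    ((scal R ζ : GL ι F) : Matrix ι ι F) *ᵥ v = fun i => if i ∈ R then (ζ : F) * v i else v i := by
  funext i
  show ((monGL 1 _ : GL ι F) : Matrix ι ι F).mulVec v ((1 : Equiv.Perm ι) i) = _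
  rw [monGL_mulVec]
  split_ifs <;> simp

theorem vecMul_scal_inv (R : Finset ι) (ζ : Fˣ) (a : ι → F) :
    a ᵥ* ((scal R ζ)⁻¹ : GL ι F).1 = fun i => if i ∈ R then a i * ((ζ⁻¹ : Fˣ) : F) else a i := by
  funext i
  show (a ᵥ* ((monGL 1 _)⁻¹ : GL ι F).1) ((1 : Equiv.Perm ι) i) = _
  rw [vecMul_inv_monGL]
  split_ifs <;> simp

variable (hmon : ∀ π d, monGL π d ∈ L)
include hmon

theorem refl_ev (k : ι) : Refl L (ev F k) (ev F k) := by
  refine ⟨ev_dot_self k, fun η hη => ⟨_, hmon 1 (fun i => if i = k then Units.mk0 η hη else 1), ?_⟩⟩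
  refine Matrix.ext_of_mulVec_single fun i => funext fun x => ?_
  have := monGL_mulVec (1 : Equiv.Perm ι) (fun i => if i = k then Units.mk0 η hη else 1) (ev F i) x
  rw [Equiv.Perm.one_apply] at this
  rw [this, Matrix.add_mulVec, Matrix.one_mulVec, Matrix.vecMulVec_mulVec]
  rcases eq_or_ne x k with rfl | hx
  · rcases eq_or_ne x i with rfl | hxi
    · simp [ev]
    · simp [ev, Pi.single_eq_of_ne hxi, Pi.single_eq_of_ne (Ne.symm hxi)]
  · simp [ev, hx]

theorem end_axis (hζ : ∃ ζ : Fˣ, (ζ : F) ≠ 1) {k : ι} {ψ : ι → F} (h : Root L (ev F k) ψ) (hψ : ψ ≠ 0) :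
    HasElem L := by
  obtain ⟨ζ, hζ⟩ := hζ
  obtain ⟨l, hl⟩ := Function.ne_iff.1 hψ
  simp only [Pi.zero_apply, ne_eq] at hl
  have hlk : k ≠ l := fun e => hl (by have := h.1; rwa [dot_ev, e] at this)
  have h2 := h.conj (g := scal {l} ζ) (hmon _ _)
  rw [scal_mulVec, vecMul_scal_inv] at h2
  have e : (fun i => if i ∈ ({l} : Finset ι) then (ζ : F) * ev F k i else ev F k i) = ev F k := by
    funext i
    by_cases hi : i = l
    · simp [hi, ev, Pi.single_eq_of_ne (Ne.symm hlk)]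
    · simp [hi]
  rw [e] at h2
  have h3 := h.sub_right h2
  refine ⟨k, l, hlk, Root.of_smul_right (k := ψ l * (1 - ((ζ⁻¹ : Fˣ) : F)))
    (mul_ne_zero hl (sub_ne_zero.2 fun e => hζ (by simpa using (congrArg Inv.inv e).symm))) ?_⟩
  convert h3 using 1
  funext i
  by_cases hi : i = l
  · simp [hi, ev, mul_sub]
  · simp [hi, ev]

theorem end_centre (hζ : ∃ ζ : Fˣ, (ζ : F) ≠ 1) {k : ι} {u : ι → F} (h : Root L u (ev F k)) (hu : u ≠ 0) :
    HasElem L := by
  obtain ⟨ζ, hζ⟩ := hζ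
  obtain ⟨l, hl⟩ := Function.ne_iff.1 hu
  simp only [Pi.zero_apply, ne_eq] at hl
  have hlk : l ≠ k := fun e => hl (by have := h.1; rwa [ev_dot, ← e] at this)
  have h2 := h.conj (g := scal {l} ζ) (hmon _ _)
  rw [scal_mulVec, vecMul_scal_inv] at h2
  have e : (fun i => if i ∈ ({l} : Finset ι) then ev F k i * ((ζ⁻¹ : Fˣ) : F) else ev F k i) = ev F k := by
    funext i
    by_cases hi : i = l
    · simp [hi, ev, Pi.single_eq_of_ne hlk]
    · simp [hi]
  rw [e] at h2
  have h3 := h.sub_left h2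
  refine ⟨l, k, hlk, Root.of_smul_left (k := u l * (1 - (ζ : F)))
    (mul_ne_zero hl (sub_ne_zero.2 (Ne.symm hζ))) ?_⟩
  convert h3 using 1
  funext i
  by_cases hi : i = l
  · simp [hi, ev]; ring
  · simp [hi, ev]

theorem of_root (hζ : ∃ ζ : Fˣ, (ζ : F) ≠ 1) {u ψ : ι → F} (h : Root L u ψ) (hu : u ≠ 0) (hψ : ψ ≠ 0) :
    HasElem L := by
  obtain ⟨ζ, hζ'⟩ := id hζ
  obtain ⟨k, hk⟩ := Function.ne_iff.1 hu
  simp only [Pi.zero_apply, ne_eq] at hk
  have h2 := h.conj (g := scal {k} ζ) (hmon _ _)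
  rw [scal_mulVec, vecMul_scal_inv] at h2
  set u' : ι → F := fun i => if i ∈ ({k} : Finset ι) then (ζ : F) * u i else u i with hu'
  set ψ' : ι → F := fun i => if i ∈ ({k} : Finset ι) then ψ i * ((ζ⁻¹ : Fˣ) : F) else ψ i with hψ'
  have hz1 : (ζ : F) - 1 ≠ 0 := sub_ne_zero.2 hζ'
  have hudiff : u' - u = (((ζ : F) - 1) * u k) • ev F k := by
    funext i
    by_cases hi : i = k
    · simp [u', hi, ev, sub_mul]
    · simp [u', hi, ev]
  by_cases hψk : ψ k = 0
  · have e : ψ' = ψ := by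
      funext i
      by_cases hi : i = k
      · simp [ψ', hi, hψk]
      · simp [ψ', hi]
    rw [e] at h2
    have := h2.sub_left h
    rw [hudiff] at this
    exact end_axis hmon hζ (this.of_smul_left (mul_ne_zero hz1 hk)) hψ
  obtain ⟨l, hlk, hl⟩ : ∃ l, l ≠ k ∧ ψ l ≠ 0 := by
    by_contra hc
    push Not at hc
    have := h.1
    rw [dotProduct, Finset.sum_eq_single k (fun b _ hb => by rw [hc b hb, zero_mul]) (by simp)] at this
    exact mul_ne_zero hψk hk this
  have hψdiff : ψ' - ψ = ((((ζ⁻¹ : Fˣ) : F) - 1) * ψ k) • ev F k := by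
    funext i
    by_cases hi : i = k
    · simp [ψ', hi, ev]; ring
    · simp [ψ', hi, ev]
  have hδ : ψ ⬝ᵥ u' = ((ζ : F) - 1) * u k * ψ k := by
    rw [← sub_add_cancel u' u, dotProduct_add, h.1, hudiff, add_zero, dotProduct_smul, dot_ev, smul_eq_mul]
  have hδ' : ψ' ⬝ᵥ u = (((ζ⁻¹ : Fˣ) : F) - 1) * ψ k * u k := by
    rw [← sub_add_cancel ψ' ψ, add_dotProduct, h.1, hψdiff, add_zero, smul_dotProduct, ev_dot, smul_eq_mul]
  have hne : ((ζ : F) - 1) * u k * ψ k ≠ 0 := mul_ne_zero (mul_ne_zero hz1 hk) hψk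
  have h3 := h2.conj_root h (-(((ζ : F) - 1) * u k * ψ k)⁻¹)
  rw [hδ, hδ', neg_mul, inv_mul_cancel₀ hne, neg_one_smul, ← sub_eq_add_neg, hudiff] at h3
  refine end_axis hmon hζ (h3.of_smul_left (mul_ne_zero hz1 hk)) fun e => ?_
  have hl' := congrFun e l
  simp [ψ', hlk] at hl'
  refine mul_ne_zero hl (sub_ne_zero.2 fun e => hζ' (by simpa using (congrArg Inv.inv e).symm))
    (b := 1 - (ζ : F)⁻¹) ?_
  rw [← hl']
  field_simp
  ring

/-- A reflection has balanced supports, or an elementary root subgroup is present. -/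
theorem Refl.balanced (hζ : ∃ ζ : Fˣ, (ζ : F) ≠ 1) (hno : ¬ HasElem L) {u φ : ι → F}
    (h : Refl L u φ) :
    (∀ k, u k = 0 ↔ φ k = 0) ∧ ∀ a b, u a ≠ 0 → u b ≠ 0 → u a * φ a = u b * φ b := by
  have hζF : ∃ ζ : F, ζ ≠ 0 ∧ ζ ≠ 1 := let ⟨ζ, hζ⟩ := hζ; ⟨ζ, ζ.ne_zero, hζ⟩
  have hu0 : u ≠ 0 := fun e => by simpa [e] using h.1
  have hφ0 : φ ≠ 0 := fun e => by simpa [e] using h.1
  obtain ⟨ζ, hζ'⟩ := id hζ
  refine ⟨fun k => ⟨fun hu => by_contra fun hφ => hno ?_, fun hφ => by_contra fun hu => hno ?_⟩,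
    fun a b ha hb => by_contra fun hne => hno ?_⟩
  · have h2 := h.conj (g := scal {k} ζ) (hmon _ _)
    rw [scal_mulVec, vecMul_scal_inv] at h2
    have e : (fun i => if i ∈ ({k} : Finset ι) then (ζ : F) * u i else u i) = u := by
      funext i
      by_cases hi : i = k
      · simp [hi, hu]
      · simp [hi]
    rw [e] at h2
    refine end_centre hmon hζ (k := k) (Root.of_smul_right (k := φ k * (((ζ⁻¹ : Fˣ) : F) - 1))
      (mul_ne_zero hφ (sub_ne_zero.2 fun e => hζ' (by simpa using congrArg Inv.inv e))) ?_) hu0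
    convert h.sub_right h2 hζF using 1
    funext i
    by_cases hi : i = k
    · simp [hi, ev]; ring
    · simp [hi, ev]
  · have h2 := h.conj (g := scal {k} ζ) (hmon _ _)
    rw [scal_mulVec, vecMul_scal_inv] at h2
    have e : (fun i => if i ∈ ({k} : Finset ι) then φ i * ((ζ⁻¹ : Fˣ) : F) else φ i) = φ := by
      funext i
      by_cases hi : i = k
      · simp [hi, hφ]
      · simp [hi]
    rw [e] at h2
    refine end_axis hmon hζ (k := k) (Root.of_smul_left (k := u k * ((ζ : F) - 1))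
      (mul_ne_zero hu (sub_ne_zero.2 hζ')) ?_) hφ0
    convert h.sub_left h2 hζF using 1
    funext i
    by_cases hi : i = k
    · simp [hi, ev]; ring
    · simp [hi, ev]
  · have hab : a ≠ b := fun e => hne (by rw [e])
    let d : ι → Fˣ := fun i => if i = a then Units.mk0 (u b / u a) (div_ne_zero hb ha)
      else if i = b then Units.mk0 (u a / u b) (div_ne_zero ha hb) else 1
    have h2 := h.conj (g := monGL (Equiv.swap a b) d) (hmon _ _)
    set g : GL ι F := monGL (Equiv.swap a b) d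
    have e : (g : Matrix ι ι F) *ᵥ u = u := by
      funext x
      obtain ⟨x, rfl⟩ := (Equiv.swap a b).surjective x
      rw [monGL_mulVec]
      rcases eq_or_ne x a with rfl | hxa
      · simp [d, div_mul_cancel₀ _ ha]
      rcases eq_or_ne x b with rfl | hxb
      · simp [d, hab.symm, div_mul_cancel₀ _ hb]
      · simp [d, hxa, hxb, Equiv.swap_apply_of_ne_of_ne hxa hxb]
    rw [e] at h2
    refine of_root hmon hζ (h.sub_right h2 hζF) hu0 fun e0 => hne ?_
    have := congrFun e0 b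
    rw [Pi.sub_apply, Pi.zero_apply, ← Equiv.swap_apply_left a b, vecMul_inv_monGL, Equiv.swap_apply_left,
      sub_eq_zero] at this
    simp [d] at this
    field_simp at this
    linear_combination this

omit hmon

theorem exists_avoiding_four {F : Type*} [Fintype F] (hq : 5 ≤ Fintype.card F) (a b c d : F) :
    ∃ x, x ≠ a ∧ x ≠ b ∧ x ≠ c ∧ x ≠ d := by
  classical
  obtain ⟨x, -, hx⟩ := Finset.exists_mem_notMem_of_card_lt_card (s := ({a, b, c, d} : Finset F))
    (t := Finset.univ) (by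
    rw [Finset.card_univ]
    calc ({a, b, c, d} : Finset F).card ≤ 4 := Finset.card_le_four
      _ < Fintype.card F := by omega)
  simp only [Finset.mem_insert, Finset.mem_singleton, not_or] at hx
  exact ⟨x, hx⟩

include hmon

/-- A balanced reflection with support of size two. -/
theorem not_two_support [Fintype F] (hq : 5 ≤ Fintype.card F) (hno : ¬ HasElem L) {u φ : ι → F}
    (h : Refl L u φ) {a b c : ι} (hab : a ≠ b) (hca : c ≠ a) (hcb : c ≠ b)
    (hs : ∀ x, x ≠ a → x ≠ b → u x = 0 ∧ φ x = 0) (ha : u a ≠ 0) (hb : u b ≠ 0) : False := by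
  obtain ⟨z, hz0, hz1, -, -⟩ := exists_avoiding_four hq 0 1 0 0
  have hζ : ∃ ζ : Fˣ, (ζ : F) ≠ 1 := ⟨Units.mk0 z hz0, hz1⟩
  obtain ⟨-, hprod⟩ := h.balanced hmon hζ hno
  set κ := u a * φ a with hκ
  have hκb : u b * φ b = κ := (hprod a b ha hb).symm
  have hκ2 : κ + κ = 1 := by
    have h1 := h.1
    rw [dotProduct, Finset.sum_eq_add a b hab
      (fun x _ hx => by rw [(hs x hx.1 hx.2).2, zero_mul]) (by simp) (by simp)] at h1
    linear_combination h1 - hκb
  have hκ0 : κ ≠ 0 := fun e => by simp [e] at hκ2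
  have h2 := h.conj (g := monGL (Equiv.swap b c) fun _ => 1) (hmon _ _)
  set g : GL ι F := monGL (Equiv.swap b c) fun _ => 1
  set u' := (g : Matrix ι ι F) *ᵥ u
  set φ' := φ ᵥ* (g⁻¹ : GL ι F).1
  have hu : ∀ x, u' x = u (Equiv.swap b c x) := fun x => by
    have := monGL_mulVec (Equiv.swap b c) (fun _ => (1 : Fˣ)) u (Equiv.swap b c x)
    rw [Equiv.swap_apply_self] at this
    simpa [u'] using this
  have hφ : ∀ x, φ' x = φ (Equiv.swap b c x) := fun x => by
    have := vecMul_inv_monGL (Equiv.swap b c) (fun _ => (1 : Fˣ)) φ (Equiv.swap b c x)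
    rw [Equiv.swap_apply_self] at this
    show (φ ᵥ* (g⁻¹ : GL ι F).1) x = _
    rw [this]; simp
  have ha' : Equiv.swap b c a = a := Equiv.swap_apply_of_ne_of_ne hab hca.symm
  have hc0 := hs c hca hcb
  have hδ : φ ⬝ᵥ u' = κ := by
    rw [dotProduct, Finset.sum_eq_add a b hab
      (fun x _ hx => by rw [(hs x hx.1 hx.2).2, zero_mul]) (by simp) (by simp), hu, hu, ha',
      Equiv.swap_apply_left, hc0.1]
    ring
  have hδ' : φ' ⬝ᵥ u = κ := by
    rw [dotProduct, Finset.sum_eq_add a b hab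
      (fun x _ hx => by rw [(hs x hx.1 hx.2).1, mul_zero]) (by simp) (by simp), hφ, hφ, ha',
      Equiv.swap_apply_left, hc0.2]
    ring
  obtain ⟨η, hη0, hη1, hη2, -⟩ := exists_avoiding_four hq 0 1 (-1) 0
  have h3 := h2.conj_refl h hη0
  rw [hδ, hδ'] at h3
  set A := (η - 1) * κ with hA
  set B := (η⁻¹ - 1) * κ with hB
  obtain ⟨hsupp, hprod'⟩ := h3.balanced hmon hζ hno
  have ec : (u' + A • u) c = u b ∧ (φ' + B • φ) c = φ b := by
    simp [hu, hφ, Equiv.swap_apply_right, hc0.1, hc0.2]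
  have eb : (u' + A • u) b = A * u b ∧ (φ' + B • φ) b = B * φ b := by
    simp [hu, hφ, Equiv.swap_apply_left, hc0.1, hc0.2]
  have ea : (u' + A • u) a = (1 + A) * u a ∧ (φ' + B • φ) a = (1 + B) * φ a := by
    simp [hu, hφ, ha', add_mul]
  have hA0 : A ≠ 0 := mul_ne_zero (sub_ne_zero.2 hη1) hκ0
  have hAB : A * B = 1 := by
    have := hprod' b c (by rw [eb.1]; exact mul_ne_zero hA0 hb) (by rw [ec.1]; exact hb)
    rw [eb.1, eb.2, ec.1, ec.2] at this
    refine mul_right_cancel₀ hκ0 ?_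
    rw [one_mul]
    linear_combination this + (1 - A * B) * hκb
  have hsum : A * B = -κ * (A + B) := by
    simp only [hA, hB]
    field_simp
    ring
  by_cases hAa : 1 + A = 0
  · have hBa : 1 + B = 0 := by
      have := (hsupp a).1 (by rw [ea.1, hAa, zero_mul])
      rw [ea.2] at this
      exact (mul_eq_zero.1 this).resolve_right fun e => hκ0 (by rw [hκ, e, mul_zero])
    have e : η - 1 = η⁻¹ - 1 := mul_right_cancel₀ hκ0 (by linear_combination hAa - hBa)
    field_simp at e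
    rcases mul_self_eq_one_iff.1 (show η * η = 1 by linear_combination e) with e | e
    · exact hη1 e
    · exact hη2 e
  · have := hprod' a c (by rw [ea.1]; exact mul_ne_zero hAa ha) (by rw [ec.1]; exact hb)
    rw [ea.1, ea.2, ec.1, ec.2] at this
    have e1 : A + B = -1 := by
      have : (1 + A) * (1 + B) = 1 := mul_right_cancel₀ hκ0 (by rw [one_mul]; linear_combination this + hκb)
      linear_combination this - hAB
    have hκ1 : κ = 1 := by rw [e1, hAB] at hsum; linear_combination -hsum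
    rw [hκ1] at hκ2
    exact one_ne_zero (α := F) (by linear_combination hκ2)

/-- A balanced reflection scaled on a set of coordinates with total weight `K`. -/
theorem scaled_false [Fintype F] (hq : 5 ≤ Fintype.card F) (hno : ¬ HasElem L) {u φ : ι → F}
    (h : Refl L u φ) (ζ : Fˣ) (hζ1 : (ζ : F) ≠ 1) (hζ2 : (ζ : F) ≠ -1) (R : Finset ι) {k l : ι}
    (hk : k ∈ R) (hl : l ∉ R) (hk0 : u k ≠ 0) (hl0 : u l ≠ 0) {K : F} (hK : ∑ i ∈ R, φ i * u i = K)
    (hcond : ((ζ : F) + ((ζ⁻¹ : Fˣ) : F) - 2) * K = -1 →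
      ((ζ : F) + ((ζ⁻¹ : Fˣ) : F) - 2) * K ≠ (ζ : F) + ((ζ⁻¹ : Fˣ) : F) - 1) : False := by
  classical
  obtain ⟨hsupp, hprod⟩ := h.balanced hmon ⟨ζ, hζ1⟩ hno
  set κ := u k * φ k with hκ
  have hφk : φ k ≠ 0 := fun e => hk0 ((hsupp k).2 e)
  have hκ0 : κ ≠ 0 := mul_ne_zero hk0 hφk
  have hκl : u l * φ l = κ := (hprod k l hk0 hl0).symm
  have hφl : φ l ≠ 0 := fun e => hl0 ((hsupp l).2 e)
  have h2 := h.conj (g := scal R ζ) (hmon _ _)
  rw [scal_mulVec, vecMul_scal_inv] at h2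
  set u' : ι → F := fun i => if i ∈ R then (ζ : F) * u i else u i with hu'
  set φ' : ι → F := fun i => if i ∈ R then φ i * ((ζ⁻¹ : Fˣ) : F) else φ i with hφ'
  set z : F := (ζ : F) with hz
  set z' : F := ((ζ⁻¹ : Fˣ) : F) with hz'
  have hzz : z * z' = 1 := by rw [hz, hz', ← Units.val_mul, mul_inv_cancel, Units.val_one]
  set δ := 1 + (z - 1) * K with hδdef
  set δ' := 1 + (z' - 1) * K with hδ'def
  have hδ : φ ⬝ᵥ u' = δ := by
    have e : ∀ i, φ i * u' i = φ i * u i + if i ∈ R then (z - 1) * (φ i * u i) else 0 := fun i => by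
      simp only [u', hz]; split_ifs <;> ring
    simp only [dotProduct, e, Finset.sum_add_distrib, Finset.sum_ite_mem, Finset.univ_inter,
      ← Finset.mul_sum, hK]
    rw [show ∑ i, φ i * u i = 1 from h.1]
  have hδ' : φ' ⬝ᵥ u = δ' := by
    have e : ∀ i, φ' i * u i = φ i * u i + if i ∈ R then (z' - 1) * (φ i * u i) else 0 := fun i => by
      simp only [φ', hz']; split_ifs <;> ring
    simp only [dotProduct, e, Finset.sum_add_distrib, Finset.sum_ite_mem, Finset.univ_inter,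
      ← Finset.mul_sum, hK]
    rw [show ∑ i, φ i * u i = 1 from h.1]
  obtain ⟨η, hη0, hη1, hη2, hη3⟩ := exists_avoiding_four hq 0 1 (-δ' * z / δ)
    (if (z + z' - 2) * K = -1 then 1 - δ⁻¹ else 1 - z / δ)
  have h3 := h2.conj_refl h hη0
  rw [hδ, hδ'] at h3
  set A := (η - 1) * δ with hA
  set B := (η⁻¹ - 1) * δ' with hB
  obtain ⟨hs3, hp3⟩ := h3.balanced hmon ⟨ζ, hζ1⟩ hno
  have ek : (u' + A • u) k = (z + A) * u k ∧ (φ' + B • φ) k = (z' + B) * φ k := by
    simp only [u', φ', hk, if_true, Pi.add_apply, Pi.smul_apply, smul_eq_mul, hz, hz']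
    exact ⟨by ring, by ring⟩
  have el : (u' + A • u) l = (1 + A) * u l ∧ (φ' + B • φ) l = (1 + B) * φ l := by
    simp [u', φ', hl, add_mul]
  have hη1' : η - 1 ≠ 0 := sub_ne_zero.2 hη1
  -- the two degenerate patterns
  have bad1 : 1 + A = 0 → (z + z' - 2) * K = -1 ∧ δ ≠ 0 ∧ η = 1 - δ⁻¹ := by
    intro hA1
    have hB1 : 1 + B = 0 := by
      have := (hs3 l).1 (by rw [el.1, hA1, zero_mul])
      rw [el.2] at this
      exact (mul_eq_zero.1 this).resolve_right hφl
    have hδ0 : δ ≠ 0 := fun e => by simp [hA, e] at hA1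
    refine ⟨?_, hδ0, ?_⟩
    · have e2 : (η - 1) * δ' = η := by
        rw [hB] at hB1; field_simp at hB1; linear_combination -hB1
      have : δ + δ' = 1 := mul_left_cancel₀ hη1' (by linear_combination hA1 + e2)
      linear_combination this
    · field_simp
      linear_combination hA1
  have bad2 : z + A = 0 → (z + z' - 2) * K = z + z' - 1 ∧ δ ≠ 0 ∧ η = 1 - z / δ := by
    intro hA1
    have hB1 : z' + B = 0 := by
      have := (hs3 k).1 (by rw [ek.1, hA1, zero_mul])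
      rw [ek.2] at this
      exact (mul_eq_zero.1 this).resolve_right hφk
    have hδ0 : δ ≠ 0 := fun e => by simp [hA, e] at hA1; exact ζ.ne_zero (hz ▸ hA1)
    refine ⟨?_, hδ0, ?_⟩
    · have e2 : z * ((η - 1) * δ') = η := by
        rw [hB] at hB1; field_simp at hB1; linear_combination -z * hB1 + η * hzz
      have e3 : z * δ' + z' * δ = 1 :=
        mul_left_cancel₀ hη1' (by linear_combination e2 + z' * hA1 - hzz)
      linear_combination -e3 + 2 * K * hzz
    · field_simp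
      linear_combination hA1
  have hA1 : 1 + A ≠ 0 := fun e => by
    obtain ⟨e1, -, e2⟩ := bad1 e
    rw [if_pos e1] at hη3
    exact hη3 e2
  have hA2 : z + A ≠ 0 := fun e => by
    obtain ⟨e1, -, e2⟩ := bad2 e
    rw [if_neg fun e' => hcond e' e1] at hη3
    exact hη3 e2
  have := hp3 k l (by rw [ek.1]; exact mul_ne_zero hA2 hk0) (by rw [el.1]; exact mul_ne_zero hA1 hl0)
  rw [ek.1, ek.2, el.1, el.2] at this
  have e : (z + A) * (z' + B) = (1 + A) * (1 + B) :=
    mul_right_cancel₀ hκ0 (by linear_combination this + (1 + A) * (1 + B) * hκl)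
  have e' : (z - 1) * (B - z' * A) = 0 := by linear_combination e - (1 + A) * hzz
  rw [mul_eq_zero, or_iff_right (sub_ne_zero.2 hζ1), hA, hB] at e'
  field_simp at e'
  -- `e'` pins down the parameter
  have e3 : η * δ + δ' * z = 0 := by
    refine mul_left_cancel₀ hη1' ?_
    rw [mul_zero]
    linear_combination (-z) * e' - η * δ * (η - 1) * hzz
  by_cases hδ0 : δ = 0
  · have hδ'0 : δ' = 0 := by simpa [hδ0, hz, ζ.ne_zero] using e3
    have : (z - z') * K = 0 := by linear_combination hδ0 - hδ'0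
    rcases mul_eq_zero.1 this with e4 | e4
    · rcases mul_self_eq_one_iff.1 (show z * z = 1 by linear_combination z * e4 + hzz) with e5 | e5
      · exact hζ1 e5
      · exact hζ2 e5
    · rw [hδdef, e4] at hδ0; simp at hδ0
  · exact hη2 (by field_simp; linear_combination e3)

/-- A group of matrices strictly above the monomial group has an elementary root subgroup. -/
theorem hasElem_of_not_mon [Fintype F] (hq : 5 ≤ Fintype.card F) (h3 : 3 ≤ Fintype.card ι) {g : GL ι F}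
    (hg : g ∈ L) (hgm : ¬ IsMon g) : HasElem L := by
  classical
  by_contra hno
  obtain ⟨z, hz0, hz1, hz2, -⟩ := exists_avoiding_four hq 0 1 (-1) 0
  set ζ : Fˣ := Units.mk0 z hz0
  unfold IsMon at hgm
  push Not at hgm
  obtain ⟨i, hi⟩ := hgm
  obtain ⟨a, -, ha⟩ := hi i
  obtain ⟨b, hba, hb⟩ := hi a
  have h := (refl_ev hmon i).conj hg
  rw [Matrix.mulVec_single_one] at h
  set u : ι → F := (g : Matrix ι ι F).col i
  set φ := ev F i ᵥ* (g⁻¹ : GL ι F).1
  have hua : u a ≠ 0 := ha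
  have hub : u b ≠ 0 := hb
  obtain ⟨hsupp, hprod⟩ := h.balanced hmon ⟨ζ, hz1⟩ hno
  by_cases hone : ((ζ : F) + ((ζ⁻¹ : Fˣ) : F) - 2) * (φ a * u a) = -1 →
      ((ζ : F) + ((ζ⁻¹ : Fˣ) : F) - 2) * (φ a * u a) ≠ (ζ : F) + ((ζ⁻¹ : Fˣ) : F) - 1
  · exact scaled_false hmon hq hno h ζ hz1 hz2 {a} (Finset.mem_singleton_self a)
      (by simpa using hba) hua hub (Finset.sum_singleton _ _) hone
  push Not at hone
  obtain ⟨hc1, hc2⟩ := hone
  have hσ : (ζ : F) + ((ζ⁻¹ : Fˣ) : F) - 2 = -2 := by linear_combination hc1 - hc2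
  by_cases h3' : ∃ c, c ≠ a ∧ c ≠ b ∧ u c ≠ 0
  · obtain ⟨c, hca, hcb, huc⟩ := h3'
    refine scaled_false hmon hq hno h ζ hz1 hz2 {a, b} (Finset.mem_insert_self a _)
      (show c ∉ ({a, b} : Finset ι) by simp [hca, hcb]) hua huc (Finset.sum_pair hba.symm) fun hc => ?_
    exfalso
    have hab := hprod a b hua hub
    rw [hσ] at hc hc1
    exact one_ne_zero (α := F) (by linear_combination -hc + 2 * hc1 + 2 * hab)
  · push Not at h3'
    obtain ⟨c, hc⟩ := exists_avoid {a, b} (Finset.card_le_two.trans_lt h3)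
    simp only [Finset.mem_insert, Finset.mem_singleton, not_or] at hc
    exact not_two_support hmon hq hno h hba.symm hc.1 hc.2
      (fun x hxa hxb => ⟨h3' x hxa hxb, (hsupp x).1 (h3' x hxa hxb)⟩) hua hub

end Cfsg.Agent.DecompMax.Lin
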