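import Cfsg.Agent.DecompMax.OrthRel

/-!
A related vector with two components gives the whole sphere, for members of dimension at least three.
-/

set_option autoImplicit false
set_option linter.style.haveILetI false

namespace Cfsg.Agent.DecompMax

open QuadraticMap Module Cfsg.Agent.Classical Cfsg.Agent.GeoClasses
open scoped MatrixGroups

universe u

variable {F : Type u} [Field F] [Finite F] {ι : Type} [Fintype ι] [DecidableEq ι]
variable {Q : QuadraticForm F (ι → F)} {t k : ℕ} {D : Fin t → Submodule F (ι → F)}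

/-- An orthogonal decomposition with members of dimension at least three, outside the exceptions. -/
structure IsBigDec (Q : QuadraticForm F (ι → F)) (k : ℕ) (D : Fin t → Submodule F (ι → F)) : Prop
    extends IsOrthDec Q k D where
  three : 3 ≤ k
  two : (2 : F) = 0 → 4 ≤ k
  threeThree : k = 3 → ∃ μ : F, μ ≠ 0 ∧ μ ^ 2 ≠ 1
  noPlus : (∀ x : F, x = 0 ∨ x = 1) → k = 4 → ∀ i, ∀ S : Submodule F (ι → F), S ≤ D i →
    (∀ s ∈ S, Q s = 0) → finrank F S ≠ 2

variable (h : IsBigDec Q k D)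
include h

theorem IsBigDec.le_dim (i : Fin t) : 3 ≤ finrank F (D i) := by
  rw [h.dec.finrank_eq]; exact h.three

theorem IsBigDec.two_dim (i : Fin t) (h2 : (2 : F) = 0) : 4 ≤ finrank F (D i) := by
  rw [h.dec.finrank_eq]; exact h.two h2

theorem IsBigDec.exists_affine (i : Fin t) {z : ι → F} (hz : z ∈ D i) (hz0 : z ≠ 0) (σ β : F)
    (hs : Q z = 0 → σ = 0 → 4 ≤ k) : ∃ x ∈ D i, polar Q z x = σ ∧ Q x = β :=
  (h.nd i).exists_affine (h.le_dim i) (h.two_dim i) hz hz0 σ β fun a b => by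
    rw [h.dec.finrank_eq]; exact hs a b

variable (C : Components D) {M : Subgroup (OQ Q)} {c : F}
variable (hM : decSub Q D ⊓ commutator (OQ Q) ≤ M) (hc : c ≠ 0)
include hM hc

/-- Reflections of the members preserve the related vectors. -/
theorem refl_any {v : ι → F} (hv : v ∈ Rel M D c) {i : Fin t} {x : ι → F} (hx : x ∈ D i)
    (hx0 : Q x ≠ 0) : (reflQ Q x hx0).1 v ∈ Rel M D c := by
  have hk : 2 ≤ k := le_trans (by norm_num) h.three
  by_cases h2 : (2 : F) = 0
  · exact refl_of_square h.toIsOrthDec hM hk hx hx0 (isSquare_of_two h2 _) hv hc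
  obtain ⟨C⟩ := exists_components h.dec
  obtain ⟨j, hj⟩ := h.toIsOrthDec.exists_proj_ne C (v := v) (hv.1 ▸ hc)
  have hj0 : C.proj j v ≠ 0 := fun e => hj (by rw [e, map_zero])
  obtain ⟨a, ha, hpa, hQa⟩ := h.exists_affine j (C.mem j v) hj0 0 (Q x) fun e => absurd e hj
  exact refl_of_perp h.toIsOrthDec hM hx hx0 ha hQa
    (by rw [h.toIsOrthDec.polar_proj C ha, polar_comm]; exact hpa) hv hk

theorem refls_any {i : Fin t} {l : List {x : ι → F // Q x ≠ 0}} (hl : ∀ x ∈ l, x.1 ∈ D i)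
    {v : ι → F} (hv : v ∈ Rel M D c) :
    (Forms.refls Q l).1 v ∈ Rel M D c ∧ ∀ r, C.proj r ((Forms.refls Q l).1 v) =
      if r = i then (Forms.refls Q l).1 (C.proj i v) else C.proj r v := by
  induction l with
  | nil =>
    refine ⟨by simpa using hv, fun r => ?_⟩
    simp only [Forms.refls_nil, Subgroup.coe_one, LinearEquiv.coe_one, id_eq]
    split_ifs with hr
    · rw [hr]
    · rfl
  | cons x l ih =>
    obtain ⟨h1, h2⟩ := ih fun y hy => hl y (List.mem_cons_of_mem _ hy)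
    simp only [Forms.refls_cons, Subgroup.coe_mul, LinearEquiv.mul_apply]
    refine ⟨refl_any h hM hc h1 (hl x List.mem_cons_self) x.2, fun r => ?_⟩
    rw [h.toIsOrthDec.proj_refl C (hl x List.mem_cons_self) x.2]
    split_ifs with hr
    · rw [h2, if_pos rfl]
    · rw [h2, if_neg hr]

/-- A component can be replaced by any other one of the same value. -/
theorem replace_component {v : ι → F} (hv : v ∈ Rel M D c) {i : Fin t} {z : ι → F} (hz : z ∈ D i)
    (hz0 : z ≠ 0) (h0 : C.proj i v ≠ 0) (hQ : Q (C.proj i v) = Q z) :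
    v - C.proj i v + z ∈ Rel M D c := by
  obtain ⟨l, hl, hlz⟩ := (h.nd i).exists_refls_map
    (fun h01 h4 => h.noPlus h01 (by rw [← h.dec.finrank_eq i]; exact h4) i) (C.mem i v) hz h0 hz0 hQ
  obtain ⟨h1, h2⟩ := refls_any h C hM hc hl hv
  convert h1 using 1
  refine C.ext_proj fun r => ?_
  rw [h2, map_add, map_sub, C.proj_proj]
  by_cases hr : r = i
  · subst hr; rw [if_pos rfl, if_pos rfl, hlz, C.of_mem hz, sub_self, zero_add]
  · rw [if_neg hr, if_neg (Ne.symm hr), C.of_mem_ne (Ne.symm hr) hz, sub_zero, add_zero]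

theorem replace_pair {j l : Fin t} (hjl : j ≠ l) {x x' y y' : ι → F} (hx : x ∈ D j) (hx' : x' ∈ D j)
    (hy : y ∈ D l) (hy' : y' ∈ D l) (h1 : x ≠ 0) (h1' : x' ≠ 0) (h2 : y ≠ 0) (h2' : y' ≠ 0)
    (e1 : Q x = Q x') (e2 : Q y = Q y') (hv : x + y ∈ Rel M D c) : x' + y' ∈ Rel M D c := by
  obtain ⟨C⟩ := exists_components h.dec
  have p1 : C.proj j (x + y) = x := by rw [map_add, C.of_mem hx, C.of_mem_ne hjl.symm hy, add_zero]
  have := replace_component h C hM hc hv hx' h1' (by rwa [p1]) (by rwa [p1])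
  rw [p1, add_sub_cancel_left, add_comm] at this
  have p2 : C.proj l (x' + y) = y := by rw [map_add, C.of_mem_ne hjl hx', C.of_mem hy, zero_add]
  have := replace_component h C hM hc this hy' h2' (by rwa [p2]) (by rwa [p2])
  rwa [p2, add_sub_cancel_right] at this

/-- A pair of moves by reflections gives a related vector supported on two members. -/
theorem pair_of_move {w d : ι → F} (hw : w ∈ Rel M D c) (hwd : w - d ∈ Rel M D c)
    (hp : polar Q w d = c) : d ∈ Rel M D c := by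
  have hk : 2 ≤ k := le_trans (by norm_num) h.three
  have := sub_mem_rel h.toIsOrthDec hM hk hw hwd hc (by
    rw [polar_sub_right, hp, OrthGen.polar_self_two, hw.1]; ring)
  have := neg_mem_rel h.toIsOrthDec hM hk this hc
  simpa using this

/-- Related vectors with two components of non-zero value. -/
theorem pair_nonsing {w : ι → F} (hw : w ∈ Rel M D c) {j l : Fin t} (hjl : j ≠ l)
    (hj : Q (C.proj j w) ≠ 0) (hl : C.proj l w ≠ 0) {x y : ι → F} (hx : x ∈ D j) (hy : y ∈ D l)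
    (hx0 : Q x ≠ 0) (hy0 : Q y ≠ 0) (hs : Q (x + y) = c) : x + y ∈ Rel M D c := by
  have hxy : Q x + Q y = c := by rw [← hs, qf_add, h.orth j l hjl x hx y hy, add_zero]
  obtain ⟨y₁, hy₁, hp₁, hQ₁⟩ := h.exists_affine l (C.mem l w) hl (Q y) (Q y) fun _ e => absurd e hy0
  obtain ⟨x₁, hx₁, hp₂, hQ₂⟩ := h.exists_affine j (C.mem j w) (fun e => hj (by rw [e, map_zero]))
    (Q x) (Q x) fun e => absurd e hj
  have hy₁0 : Q y₁ ≠ 0 := hQ₁ ▸ hy0
  have hx₁0 : Q x₁ ≠ 0 := hQ₂ ▸ hx0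
  have e1 : polar Q y₁ w = Q y := by rw [h.toIsOrthDec.polar_proj C hy₁, polar_comm, hp₁]
  have e2 : polar Q x₁ w = Q x := by rw [h.toIsOrthDec.polar_proj C hx₁, polar_comm, hp₂]
  have h1 := refl_any h hM hc hw hy₁ hy₁0
  rw [reflQ_apply, e1, hQ₁, inv_mul_cancel₀ hy0, one_smul] at h1
  have h2 := refl_any h hM hc h1 hx₁ hx₁0
  rw [reflQ_apply, polar_sub_right, e2, h.orth j l hjl x₁ hx₁ y₁ hy₁, sub_zero, hQ₂,
    inv_mul_cancel₀ hx0, one_smul] at h2
  have hd : x₁ + y₁ ∈ Rel M D c := pair_of_move h hM hc hw (d := x₁ + y₁)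
    (by rwa [sub_add_eq_sub_sub_swap]) (by
      rw [polar_add_right, polar_comm Q w x₁, polar_comm Q w y₁, e1, e2, hxy])
  exact replace_pair h hM hc hjl hx₁ hx hy₁ hy (fun e => hx₁0 (by rw [e, map_zero]))
    (fun e => hx0 (by rw [e, map_zero])) (fun e => hy₁0 (by rw [e, map_zero]))
    (fun e => hy0 (by rw [e, map_zero])) hQ₂ hQ₁ hd

/-- Over the field with two elements: a singular and a non-singular component. -/
theorem pair_two {w : ι → F} (hw : w ∈ Rel M D c) (h01 : ∀ x : F, x = 0 ∨ x = 1) {j l : Fin t}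
    (hjl : j ≠ l) (hj : Q (C.proj j w) ≠ 0) (hl : C.proj l w ≠ 0) {x y : ι → F} (hx : x ∈ D j)
    (hy : y ∈ D l) (hxne : x ≠ 0) (hx0 : Q x = 0) (hy0 : Q y = c) : x + y ∈ Rel M D c := by
  have h2 : (2 : F) = 0 := (h01 2).resolve_right fun e => one_ne_zero (α := F) (by linear_combination e)
  have hj0 : C.proj j w ≠ 0 := fun e => hj (by rw [e, map_zero])
  obtain ⟨y₁, hy₁, hp₁, hQ₁⟩ := h.exists_affine l (C.mem l w) hl c c fun _ e => absurd e hc
  have hy₁0 : Q y₁ ≠ 0 := hQ₁ ▸ hc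
  have e1 : polar Q y₁ w = c := by rw [h.toIsOrthDec.polar_proj C hy₁, polar_comm, hp₁]
  have h1 := refl_any h hM hc hw hy₁ hy₁0
  rw [reflQ_apply, e1, hQ₁, inv_mul_cancel₀ hc, one_smul] at h1
  set z := C.proj j w with hz
  obtain ⟨s, hs, hzs⟩ := (h.nd j).exists_polar_one (C.mem j w) hj0
  obtain ⟨hP, hP2⟩ := ndOn_pair (Q := Q) hzs (by rw [show (4 : F) = 2 * 2 by norm_num, h2]; simp)
  have hPW : Submodule.span F (Set.range ![z, s]) ≤ D j := Submodule.span_le.2 (by
    rintro _ ⟨i, rfl⟩; fin_cases i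
    · exact C.mem j w
    · exact hs)
  obtain ⟨hU, hUd⟩ := (h.nd j).inf_perp hPW hP
  obtain ⟨u, hu, hQu⟩ := hU.exists_value (by rw [hP2] at hUd; have := h.two_dim j h2; omega) (Q z)
  have hu0 : u ≠ 0 := fun e => hj (by rw [← hQu, e, map_zero])
  have hpz : C.proj j (w - y₁) = z := by rw [map_sub, C.of_mem_ne hjl.symm hy₁, sub_zero]
  have h3 := replace_component h C hM hc h1 hu.1 hu0 (by rwa [hpz]) (by rw [hpz, hQu])
  rw [hpz] at h3
  have hzu : polar Q z u = 0 := hu.2 z (Submodule.subset_span ⟨0, rfl⟩)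
  have hd : (z - u) + y₁ ∈ Rel M D c := pair_of_move h hM hc hw (d := (z - u) + y₁) (by
      convert h3 using 1; abel) (by
      rw [polar_add_right, polar_comm Q w (z - u), polar_comm Q w y₁, e1,
        h.toIsOrthDec.polar_proj C ((D j).sub_mem (C.mem j w) hu.1), ← hz, polar_sub_left,
        polar_comm Q u z, hzu, OrthGen.polar_self_two, h2]
      ring)
  have hzu0 : z - u ≠ 0 := fun e => by
    have : polar Q s z = polar Q s u := by rw [sub_eq_zero.1 e]
    have hsu : polar Q s u = 0 := hu.2 s (Submodule.subset_span ⟨1, rfl⟩)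
    rw [hsu, polar_comm, hzs] at this
    exact one_ne_zero this
  exact replace_pair h hM hc hjl ((D j).sub_mem (C.mem j w) hu.1) hx hy₁ hy hzu0 hxne
    (fun e => hy₁0 (by rw [e, map_zero])) (fun e => hc (by rw [← hy0, e, map_zero]))
    (by rw [qf_sub, hzu, hQu, hx0]; linear_combination (Q z) * h2) (by rw [hQ₁, hy0]) hd

omit hc in
/-- The members can be permuted inside `M`. -/
theorem exists_perm_mem (σ : Equiv.Perm (Fin t)) :
    ∃ g ∈ M, g ∈ decSub Q D ∧ ∀ i, (D i).map g.1.toLinearMap = D (σ i) := by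
  have hk : 2 ≤ k := le_trans (by norm_num) h.three
  haveI : Finite (ι → F) := Module.finite_of_finite F
  choose e he using fun i => h.iso i (σ i)
  obtain ⟨C⟩ := exists_components h.dec
  obtain ⟨g, -, hg, -⟩ := exists_gl_of_blockMaps h.dec σ e
  let E := equivOfGL g
  have hE : ∀ v, Q (E v) = Q v := by
    intro v
    have hv : E v = ∑ i, (e i ⟨C.proj i v, C.mem i v⟩ : ι → F) := by
      conv_lhs => rw [← C.sum_eq v, map_sum]
      exact Finset.sum_congr rfl fun i _ => hg i ⟨C.proj i v, C.mem i v⟩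
    have hp : ∀ i, C.proj (σ i) (E v) = e i ⟨C.proj i v, C.mem i v⟩ := fun i => by
      rw [hv, map_sum, Finset.sum_eq_single i (fun r _ hr => C.of_mem_ne (σ.injective.ne hr)
        (e r _).2) (by simp)]
      exact C.of_mem (e i _).2
    rw [h.toIsOrthDec.qf_eq_sum C (E v), h.toIsOrthDec.qf_eq_sum C v, ← Equiv.sum_comp σ]
    exact Finset.sum_congr rfl fun i _ => by rw [hp, he]
  set g₀ : OQ Q := ⟨E, hE⟩
  have hmap : ∀ i, (D i).map g₀.1.toLinearMap = D (σ i) := fun i => by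
    refine Submodule.eq_of_le_of_finrank_eq ?_ (by
      rw [LinearEquiv.finrank_map_eq g₀.1, h.dec.finrank_eq, h.dec.finrank_eq])
    rintro _ ⟨x, hx, rfl⟩
    show E x ∈ _
    rw [equivOfGL_apply, hg i ⟨x, hx⟩]
    exact (e i _).2
  let K : Subgroup (OQ Q) := ⨅ i, Forms.stabSub Q (D i)
  obtain ⟨i0⟩ : Nonempty (Fin t) := ⟨⟨0, by have := h.dec.two_le; omega⟩⟩
  have hrefl : ∀ {a : ι → F} (ha : a ∈ D i0) (h0 : Q a ≠ 0), reflQ Q a h0 ∈ K := fun {a} ha h0 => by
    refine Subgroup.mem_iInf.2 fun r => Forms.mem_stabSub_of_le fun x hx => ?_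
    rcases eq_or_ne r i0 with rfl | hr
    · rw [reflQ_apply]; exact (D r).sub_mem hx ((D r).smul_mem _ ha)
    · rw [OrthGen.reflQ_fix Q h0 (by rw [polar_comm]; exact h.orth r i0 hr x hx a ha)]
      exact hx
  have hne := notExceptional_five (Q := Q) (by have := h.card; omega)
  obtain ⟨a₀, ha₀, hQ₀⟩ := (h.nd i0).exists_value (by rw [h.dec.finrank_eq]; exact hk) 1
  have ha₀0 : Q a₀ ≠ 0 := hQ₀ ▸ one_ne_zero
  obtain ⟨κ, hκ, hκg⟩ := Forms.exists_mul_mem_commutator h.bnd hne K g₀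
    (Or.inr ⟨_, hrefl ha₀ ha₀0, dickson_refl h.bnd ha₀0⟩) (fun h2 => by
      obtain ⟨d, hd0, hd⟩ := OrthGen.exists_nonsquare F h2
      obtain ⟨b, hb, hQb⟩ := (h.nd i0).exists_value (by rw [h.dec.finrank_eq]; exact hk) d
      have hb0 : Q b ≠ 0 := hQb ▸ hd0
      refine ⟨Forms.refls Q [⟨a₀, ha₀0⟩, ⟨b, hb0⟩], ?_, by rw [Forms.dickson_refls h.bnd]; simp,
        fun hh => hd ?_⟩
      · simp only [Forms.refls_cons, Forms.refls_nil, mul_one]
        exact mul_mem (hrefl ha₀ ha₀0) (hrefl hb hb0)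
      · rw [Forms.refls_mem_commutator_iff h.bnd hne] at hh
        simpa [hQ₀, hQb] using hh.2)
  have hmap' : ∀ i, (D i).map (κ * g₀).1.toLinearMap = D (σ i) := fun i =>
    Forms.map_mul_of_mem_stabSub (Subgroup.mem_iInf.1 hκ _) (hmap i)
  have hdec : κ * g₀ ∈ decSub Q D :=
    mem_decSub_of_forall h.dec fun i x hx => ⟨σ i, by rw [← hmap' i]; exact ⟨x, hx, rfl⟩⟩
  exact ⟨κ * g₀, hM ⟨hdec, hκg⟩, hdec, hmap'⟩

/-- Transport of pairs between members. -/
theorem transport_pair {j l a b : Fin t} (hjl : j ≠ l) (hab : a ≠ b) (P : F → F → Prop)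
    (hP : ∀ x ∈ D j, ∀ y ∈ D l, x ≠ 0 → y ≠ 0 → P (Q x) (Q y) → x + y ∈ Rel M D c) :
    ∀ x ∈ D a, ∀ y ∈ D b, x ≠ 0 → y ≠ 0 → P (Q x) (Q y) → x + y ∈ Rel M D c := by
  intro x hx y hy hx0 hy0 hPxy
  set l' := Equiv.swap j a l with hl'
  have hl'a : l' ≠ a := fun e => hjl ((Equiv.swap j a).injective
    ((Equiv.swap_apply_left j a).trans e.symm))
  have ea : (Equiv.swap l' b * Equiv.swap j a) j = a := by
    rw [Equiv.Perm.mul_apply, Equiv.swap_apply_left, Equiv.swap_apply_of_ne_of_ne hl'a.symm hab]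
  have eb : (Equiv.swap l' b * Equiv.swap j a) l = b := by
    rw [Equiv.Perm.mul_apply, ← hl', Equiv.swap_apply_left]
  obtain ⟨g, hgM, -, hg⟩ := exists_perm_mem h hM (Equiv.swap l' b * Equiv.swap j a)
  obtain ⟨x', hx', rfl⟩ : ∃ x' ∈ D j, g.1 x' = x := by rw [← ea, ← hg j] at hx; exact hx
  obtain ⟨y', hy', rfl⟩ : ∃ y' ∈ D l, g.1 y' = y := by rw [← eb, ← hg l] at hy; exact hy
  rw [OQ_map_app, OQ_map_app] at hPxy
  obtain ⟨e, he, hQe⟩ := rel_exists_block h.toIsOrthDec hM (le_trans (by norm_num) h.three) c j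
  have hge : g.1 e ∈ D ((Equiv.swap l' b * Equiv.swap j a) j) := by
    rw [← hg j]; exact ⟨e, he, rfl⟩
  rw [← map_add]
  exact rel_map h.toIsOrthDec hM hgM he hge hQe
    (hP x' hx' y' hy' (fun e => hx0 (by rw [e, map_zero])) (fun e => hy0 (by rw [e, map_zero])) hPxy)

/-- All pairs are related. -/
theorem pair_all {w : ι → F} (hw : w ∈ Rel M D c) {j l : Fin t} (hjl : j ≠ l)
    (hj : Q (C.proj j w) ≠ 0) (hl : C.proj l w ≠ 0) {a b : Fin t} (hab : a ≠ b) :
    ∀ x ∈ D a, ∀ y ∈ D b, Q (x + y) = c → x + y ∈ Rel M D c := by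
  intro x hx y hy hs
  have hk : 2 ≤ k := le_trans (by norm_num) h.three
  rcases eq_or_ne x 0 with rfl | hx0
  · rw [zero_add] at hs ⊢; exact block_mem_rel h.toIsOrthDec hM hy hs
  rcases eq_or_ne y 0 with rfl | hy0
  · rw [add_zero] at hs ⊢; exact block_mem_rel h.toIsOrthDec hM hx hs
  have hsum : ∀ {p q : ι → F} {i i' : Fin t}, i ≠ i' → p ∈ D i → q ∈ D i' →
      Q (p + q) = Q p + Q q := fun {p q i i'} hii hp hq => by
    rw [qf_add, h.orth i i' hii p hp q hq, add_zero]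
  rw [hsum hab hx hy] at hs
  by_cases h01 : ∀ r : F, r = 0 ∨ r = 1
  · -- two elements
    have sing : ∀ {a b}, a ≠ b → ∀ p ∈ D a, ∀ q ∈ D b, p ≠ 0 → q ≠ 0 → (Q p = 0 ∧ Q q = c) →
        p + q ∈ Rel M D c := fun {a b} hab => transport_pair h hM hc hjl hab
      (fun r s => r = 0 ∧ s = c) fun p hp q hq hp0 _ hPP =>
        pair_two h C hM hc hw h01 hjl hj hl hp hq hp0 hPP.1 hPP.2
    rcases h01 (Q x) with hQx | hQx
    · exact sing hab x hx y hy hx0 hy0 ⟨hQx, by rw [hQx, zero_add] at hs; exact hs⟩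
    · have hQy : Q y = 0 := by
        rw [hQx, (h01 c).resolve_left hc] at hs
        linear_combination hs
      rw [add_comm]
      exact sing hab.symm y hy x hx hy0 hx0 ⟨hQy, by rw [hQy, add_zero] at hs; exact hs⟩
  obtain ⟨δ, hδ0, hδ1⟩ : ∃ δ : F, δ ≠ 0 ∧ δ ≠ 1 := by
    push Not at h01
    obtain ⟨δ, h1, h2⟩ := h01
    exact ⟨δ, h1, h2⟩
  have gen : ∀ {a b}, a ≠ b → ∀ p ∈ D a, ∀ q ∈ D b, Q p ≠ 0 → Q q ≠ 0 → Q p + Q q = c →
      p + q ∈ Rel M D c := fun {a b} hab p hp q hq hp0 hq0 hpq =>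
    transport_pair h hM hc hjl hab (fun r s => r ≠ 0 ∧ s ≠ 0 ∧ r + s = c)
      (fun p hp q hq _ _ hPP => pair_nonsing h C hM hc hw hjl hj hl hp hq hPP.1 hPP.2.1
        (by rw [hsum hjl hp hq]; exact hPP.2.2))
      p hp q hq (fun e => hp0 (by rw [e, map_zero])) (fun e => hq0 (by rw [e, map_zero]))
      ⟨hp0, hq0, hpq⟩
  have sing : ∀ {a b}, a ≠ b → ∀ p ∈ D a, ∀ q ∈ D b, q ≠ 0 → Q p = c → Q q = 0 →
      p + q ∈ Rel M D c := by
    intro a b hab p hp q hq hq0 hQp hQq
    obtain ⟨q₁, hq₁, hqq, hβ0, hβc⟩ : ∃ q₁ ∈ D b, polar Q q q₁ = 0 ∧ Q q₁ ≠ 0 ∧ Q q₁ ≠ c := by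
      by_cases h4 : 4 ≤ k
      · obtain ⟨q₁, h1, h2, h3⟩ := h.exists_affine b hq hq0 0 (δ * c) fun _ _ => h4
        exact ⟨q₁, h1, h2, h3 ▸ mul_ne_zero hδ0 hc,
          fun e => hδ1 (mul_right_cancel₀ hc (by rw [← h3, e, one_mul]))⟩
      have hk3 : k = 3 := by have := h.three; omega
      obtain ⟨q₀, hq₀, hqq, hQ0⟩ : ∃ q₀ ∈ D b, polar Q q q₀ = 0 ∧ Q q₀ ≠ 0 := by
        by_contra hno
        push Not at hno
        obtain ⟨U, hUdef⟩ : ∃ U : Submodule F (ι → F),
            U = D b ⊓ LinearMap.ker (polarBilin Q q) := ⟨_, rfl⟩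
        obtain ⟨r, hr, hqr⟩ := (h.nd b).exists_polar_one hq hq0
        have hU := Forms.finrank_eq_inf_ker_add_one (D b) (polarBilin Q q)
          ⟨r, hr, by rw [polarBilin_apply_apply, hqr]; exact one_ne_zero⟩
        rw [h.dec.finrank_eq, hk3, ← hUdef] at hU
        have hUle : U ≤ D b := hUdef ▸ inf_le_left
        have hts : ∀ s ∈ U.comap (D b).subtype, Q.comp (D b).subtype s = 0 := fun s hs => by
          have hs' : (s : ι → F) ∈ D b ⊓ LinearMap.ker (polarBilin Q q) := hUdef ▸ hs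
          exact hno s s.2 hs'.2
        have := OrthGen.two_mul_finrank_le (h.nd b).restrict (U.comap (D b).subtype) hts
        rw [(Submodule.comapSubtypeEquivOfLe hUle).finrank_eq, h.dec.finrank_eq, hk3] at this
        omega
      by_cases he : Q q₀ = c
      · obtain ⟨μ, hμ0, hμ1⟩ := h.threeThree hk3
        refine ⟨μ • q₀, (D b).smul_mem _ hq₀, by rw [polar_smul_right, hqq, smul_zero], ?_, ?_⟩
        · rw [QuadraticMap.map_smul, smul_eq_mul, he]
          exact mul_ne_zero (mul_ne_zero hμ0 hμ0) hc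
        · rw [QuadraticMap.map_smul, smul_eq_mul, he]
          exact fun e => hμ1 (mul_right_cancel₀ hc (by rw [pow_two, e, one_mul]))
      · exact ⟨q₀, hq₀, hqq, hQ0, he⟩
    have hα : c - Q q₁ ≠ 0 := sub_ne_zero.2 (Ne.symm hβc)
    obtain ⟨p₁, hp₁, hpp, hQp₁⟩ := h.exists_affine a hp (fun e => hc (by rw [← hQp, e, map_zero]))
      c (c - Q q₁) fun e => absurd (hQp.symm.trans e) hc
    have h1 : p₁ + q₁ ∈ Rel M D c :=
      gen hab p₁ hp₁ q₁ hq₁ (by rwa [hQp₁]) hβ0 (by rw [hQp₁, sub_add_cancel])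
    have h2 : (p - p₁) + (q - q₁) ∈ Rel M D c := gen hab _ ((D a).sub_mem hp hp₁) _
      ((D b).sub_mem hq hq₁) (by rwa [qf_sub, hpp, hQp, hQp₁, show c + (c - Q q₁) - c = c - Q q₁ by ring])
      (by rw [qf_sub, hqq, hQq]; simpa using hβ0)
      (by rw [qf_sub, qf_sub, hpp, hqq, hQp, hQp₁, hQq]; ring)
    have := add_mem_rel h.toIsOrthDec hM hk h1 h2 hc (by
      rw [polar_add_left, polar_add_right, polar_add_right,
        h.orth a b hab p₁ hp₁ _ ((D b).sub_mem hq hq₁),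
        h.orth b a hab.symm q₁ hq₁ _ ((D a).sub_mem hp hp₁), polar_sub_right, polar_sub_right,
        polar_comm Q p₁ p, hpp, polar_comm Q q₁ q, hqq, OrthGen.polar_self_two,
        OrthGen.polar_self_two, hQp₁]
      ring)
    convert this using 1
    abel
  by_cases hQx : Q x = 0
  · rw [add_comm]
    exact sing hab.symm y hy x hx hx0 (by rwa [hQx, zero_add] at hs) hQx
  by_cases hQy : Q y = 0
  · exact sing hab x hx y hy hy0 (by rwa [hQy, add_zero] at hs) hQy
  exact gen hab x hx y hy hQx hQy hs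

/-- The whole sphere is related. -/
theorem rel_all {w : ι → F} (hw : w ∈ Rel M D c)
    (hw2 : ∃ j l, j ≠ l ∧ C.proj j w ≠ 0 ∧ C.proj l w ≠ 0) : ∀ v, Q v = c → v ∈ Rel M D c := by
  classical
  have hk : 2 ≤ k := le_trans (by norm_num) h.three
  obtain ⟨j, hj⟩ := h.toIsOrthDec.exists_proj_ne C (v := w) (hw.1 ▸ hc)
  obtain ⟨l, hjl, hl⟩ : ∃ l, j ≠ l ∧ C.proj l w ≠ 0 := by
    obtain ⟨p, q, hpq, hp, hq⟩ := hw2
    rcases eq_or_ne j p with rfl | h'
    · exact ⟨q, hpq, hq⟩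
    · exact ⟨p, h', hp⟩
  suffices key : ∀ n v, (Finset.univ.filter fun i => C.proj i v ≠ 0).card = n → Q v = c →
      v ∈ Rel M D c from fun v => key _ v rfl
  intro n
  induction n using Nat.strong_induction_on with
  | _ n ih =>
    intro v hv hQv
    set S := Finset.univ.filter fun i => C.proj i v ≠ 0 with hS
    have hmem : ∀ i, i ∈ S ↔ C.proj i v ≠ 0 := fun i => by simp [hS]
    obtain ⟨b, hb⟩ := h.toIsOrthDec.exists_proj_ne C (v := v) (hQv ▸ hc)
    have hb0 : C.proj b v ≠ 0 := fun e => hb (by rw [e, map_zero])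
    by_cases hone : ∀ i, i ≠ b → C.proj i v = 0
    · exact block_mem_rel h.toIsOrthDec hM (C.mem_of_forall hone) hQv
    push Not at hone
    obtain ⟨a, hab, ha⟩ := hone
    have hpair := pair_all h C hM hc hw hjl hj hl hab
    set σ := c - 2 * Q (C.proj a v) with hσ
    obtain ⟨z, hz, hpz, hQz⟩ := h.exists_affine b (C.mem b v) hb0 σ (c - Q (C.proj a v))
      fun e => absurd e hb
    have haz : polar Q (C.proj a v) z = 0 := h.orth a b hab _ (C.mem a v) _ hz
    set w' := C.proj a v + z with hw'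
    have hw'Q : Q w' = c := by rw [hw', qf_add, haz, hQz]; ring
    have hw'R : w' ∈ Rel M D c := hpair _ (C.mem a v) _ hz hw'Q
    have hp' : polar Q w' v = c := by
      rw [hw', polar_add_left, h.toIsOrthDec.polar_proj C (C.mem a v),
        OrthGen.polar_self_two, h.toIsOrthDec.polar_proj C hz, polar_comm Q z, hpz, hσ]
      ring
    have hproj : ∀ i, C.proj i (v - w') =
        if i = a then 0 else if i = b then C.proj b v - z else C.proj i v := by
      intro i
      rw [map_sub, hw', map_add, C.proj_proj]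
      split_ifs with h1 h2 h3 h4 <;> subst_vars
      all_goals first
        | (exact absurd rfl ‹_›)
        | (rw [C.of_mem hz]; abel)
        | (rw [C.of_mem_ne (Ne.symm ‹_›) hz]; abel)
    have hlt : (Finset.univ.filter fun i => C.proj i (v - w') ≠ 0).card < n := by
      rw [← hv]
      refine Finset.card_lt_card ⟨fun i hi => ?_, fun hle => ?_⟩
      · simp only [Finset.mem_filter, Finset.mem_univ, true_and, hproj] at hi
        rw [hmem]
        split_ifs at hi with h1 h2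
        · exact absurd rfl hi
        · exact h2 ▸ hb0
        · exact hi
      · have := hle ((hmem a).2 ha)
        simp [hproj] at this
    have hu := ih _ hlt _ rfl (by rw [qf_sub, polar_comm, hp', hQv, hw'Q]; ring)
    have := add_mem_rel h.toIsOrthDec hM hk hw'R hu hc
      (by rw [polar_sub_right, hp', OrthGen.polar_self_two, hw'Q]; ring)
    simpa using this

end Cfsg.Agent.DecompMax
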