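import Cfsg.Agent.DecompMax.OrthSeed
import Cfsg.Agent.GeoClasses.OrthOddBase
import Cfsg.Agent.Forms.Alternating

/-!
Maximality of stabilisers of orthogonal decompositions in matrix form.
-/

set_option autoImplicit false
set_option linter.style.haveILetI false

namespace Cfsg.Agent.DecompMax

open QuadraticMap Module Cfsg.Agent.Classical Cfsg.Agent.GeoClasses Cfsg.Geo
open scoped MatrixGroups

universe u

variable {F : Type u} [Field F] [Fintype F] {ι : Type} [Fintype ι] [DecidableEq ι]
variable {t k : ℕ} {D : Fin t → Submodule F (ι → F)}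

theorem isOrthDec_toQF_nine {Q : (ι → F) → F} (hQ : IsNondegenerateQuadraticForm Q)
    (hn : 9 ≤ Fintype.card ι) (hD : IsOrthogonalMDecomposition Q k D) :
    IsOrthDec (toQF hQ) k D where
  bnd := bNondeg_toQF hQ
  card := by rwa [Module.finrank_fintype_fun_eq_card]
  dec := hD.decomp.decomp
  orth i j hij u hu v hv := hD.decomp.orthogonal i j hij u hu v hv
  nd i x hx h := by
    by_contra h0
    obtain ⟨-, y, hy, hxy⟩ := hD.decomp.nondegenerate i x hx h0
    exact hxy (h y hy)
  iso := hD.isometric

theorem isOrthDec_toQF {Q : (ι → F) → F} (hQ : IsNondegenerateQuadraticForm Q)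
    (hn : 10 ≤ Fintype.card ι) (hD : IsOrthogonalMDecomposition Q k D) :
    IsOrthDec (toQF hQ) k D :=
  isOrthDec_toQF_nine hQ (by omega) hD

omit [Fintype F] [DecidableEq ι] in
/-- Plus type passes between isometric members. -/
theorem isPlusTypeOn_of_isometric {Q : (ι → F) → F} {W W' : Submodule F (ι → F)}
    (he : AreIsometricFor Q W W') (h : IsPlusTypeOn Q W) : IsPlusTypeOn Q W' := by
  obtain ⟨e, he⟩ := he
  obtain ⟨U, hU, hts, hd⟩ := h
  refine ⟨((U.comap W.subtype).map e.toLinearMap).map W'.subtype, Submodule.map_subtype_le _ _,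
    ?_, ?_⟩
  · rintro _ ⟨_, ⟨w, hw, rfl⟩, rfl⟩
    exact (he w).trans (hts w hw)
  · rw [← (Submodule.equivMapOfInjective _ W'.injective_subtype _).finrank_eq,
      LinearEquiv.finrank_map_eq, (Submodule.comapSubtypeEquivOfLe hU).finrank_eq, hd, e.finrank_eq]

omit [DecidableEq ι] in
theorem isOrthDec_even_of_two {Q : QuadraticForm F (ι → F)} (h : IsOrthDec Q k D) (h2 : (2 : F) = 0) :
    Even k := by
  set i : Fin t := ⟨0, by have := h.dec.two_le; omega⟩
  set B : LinearMap.BilinForm F (D i) := (polarBilin Q).compl₁₂ (D i).subtype (D i).subtype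
  have hA : B.IsAlt := fun x => by
    show polar Q (x : ι → F) (x : ι → F) = 0
    rw [OrthGen.polar_self_two, h2, zero_mul]
  have hnd : B.Nondegenerate :=
    ⟨fun x hx => (h.nd i).restrict x hx, fun x hx => (h.nd i).restrict x fun y => by
      show polar Q (x : ι → F) (y : ι → F) = 0
      rw [polar_comm]; exact hx y⟩
  obtain ⟨a, b, -⟩ := Forms.exists_symplectic_basis hA hnd
  rw [← h.dec.finrank_eq i, Module.finrank_eq_card_basis b]
  simp

/-- Stabilisers of orthogonal decompositions with members of dimension at least three are maximal in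
`Ω`, outside `k = q = 3` and `k = 4`, `q = 2`, plus type. -/
theorem omegaGL_decomposition_maximal_nine {Q : (ι → F) → F} (hQ : IsNondegenerateQuadraticForm Q)
    (hn : 9 ≤ Fintype.card ι) (hD : IsOrthogonalMDecomposition Q k D) (hk : 3 ≤ k)
    (h33 : ¬ (Fintype.card F = 3 ∧ k = 3))
    (h42 : k = 4 → Fintype.card F = 2 → ∀ i, ¬ IsPlusTypeOn Q (D i)) :
    IsMaximalIn (omegaGL Q) (decompositionStabilizer D ⊓ omegaGL Q) := by
  classical
  have hdec := isOrthDec_toQF_nine hQ hn hD
  have hbig : IsBigDec (toQF hQ) k D := by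
    refine { toIsOrthDec := hdec, three := hk, two := fun h2 => ?_, threeThree := fun h3 => ?_,
             noPlus := fun h01 h4 i S hS hts hd => ?_ }
    · obtain ⟨a, ha⟩ := isOrthDec_even_of_two hdec h2
      omega
    · by_contra hno
      have h2 : (2 : F) ≠ 0 := fun h2 => by
        obtain ⟨a, ha⟩ := isOrthDec_even_of_two hdec h2
        omega
      push Not at hno
      apply h33 ⟨?_, h3⟩
      have hall : ∀ x : F, x = 0 ∨ x = 1 ∨ x = -1 := fun x => by
        by_cases hx : x = 0
        · exact Or.inl hx
        · have := hno x hx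
          have h0 : (x - 1) * (x + 1) = 0 := by linear_combination this
          rcases mul_eq_zero.1 h0 with h | h
          · exact Or.inr (Or.inl (sub_eq_zero.1 h))
          · exact Or.inr (Or.inr (eq_neg_of_add_eq_zero_left h))
      have hle : Fintype.card F ≤ 3 := by
        have : (Finset.univ : Finset F) ⊆ {0, 1, -1} := fun x _ => by
          simpa using hall x
        exact (Finset.card_le_card this).trans Finset.card_le_three
      have h1 : (-1 : F) ≠ 1 := fun e => h2 (by linear_combination -e)
      have hge : 3 ≤ Fintype.card F := by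
        have h3' : ({0, 1, -1} : Finset F).card = 3 := Finset.card_eq_three.2
          ⟨0, 1, -1, zero_ne_one, by simp, Ne.symm h1, rfl⟩
        rw [← h3']
        exact Finset.card_le_univ _
      omega
    · refine h42 h4 (le_antisymm ?_ Fintype.one_lt_card) i ⟨S, hS, fun s hs => hts s hs, by
        rw [hd, hD.decomp.decomp.finrank_eq, h4]⟩
      have : (Finset.univ : Finset F) ⊆ {0, 1} := fun x _ => by simpa using h01 x
      exact (Finset.card_le_card this).trans Finset.card_le_two
  have h := GeoClasses.isMaximalIn_map (oqToGL_injective (toQF hQ))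
    (orth_decomposition_maximal_big hbig)
  rw [Subgroup.map_inf _ _ _ (oqToGL_injective _), map_oqToGL_commutator, coe_toQF] at h
  have he : (decSub (toQF hQ) D).map (oqToGL (toQF hQ)) ⊓ omegaGL Q =
      decompositionStabilizer D ⊓ omegaGL Q := by
    refine le_antisymm (inf_le_inf_right _ (Subgroup.map_comap_le _ _)) fun g hg => ⟨?_, hg.2⟩
    obtain ⟨x, -, hxg⟩ : g ∈ (commutator (OQ (toQF hQ))).map (oqToGL (toQF hQ)) := by
      rw [map_oqToGL_commutator, coe_toQF]; exact hg.2
    exact ⟨x, by rw [decSub, SetLike.mem_coe, Subgroup.mem_comap, hxg]; exact hg.1, hxg⟩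
  rwa [he] at h

/-- The same with the dimension at least ten. -/
theorem omegaGL_decomposition_maximal {Q : (ι → F) → F} (hQ : IsNondegenerateQuadraticForm Q)
    (hn : 10 ≤ Fintype.card ι) (hD : IsOrthogonalMDecomposition Q k D) (hk : 3 ≤ k)
    (h33 : ¬ (Fintype.card F = 3 ∧ k = 3))
    (h42 : k = 4 → Fintype.card F = 2 → ∀ i, ¬ IsPlusTypeOn Q (D i)) :
    IsMaximalIn (omegaGL Q) (decompositionStabilizer D ⊓ omegaGL Q) :=
  omegaGL_decomposition_maximal_nine hQ (by omega) hD hk h33 h42

end Cfsg.Agent.DecompMax
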