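import Mathlib
import Cfsg.Agent.GeoClasses.OrthMaxBase
import Cfsg.Agent.Forms.Witt
import Cfsg.Agent.Forms.OmegaCrit

/-!
Facts on non-degenerate subspaces of quadratic spaces over finite fields used for the maximality of
stabilisers of orthogonal decompositions.
-/

set_option autoImplicit false
set_option linter.style.haveILetI false

namespace Cfsg.Agent.DecompMax

open QuadraticMap Module Cfsg.Agent.Classical Cfsg.Agent.GeoClasses

universe u v

variable {F : Type u} [Field F] {V : Type v} [AddCommGroup V] [Module F V] {Q : QuadraticForm F V}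

/-- The polar form is non-degenerate on `W`. -/
def NdOn (Q : QuadraticForm F V) (W : Submodule F V) : Prop :=
  ∀ x ∈ W, (∀ y ∈ W, polar Q x y = 0) → x = 0

theorem NdOn.restrict {W : Submodule F V} (hW : NdOn Q W) : BNondeg (Q.comp W.subtype) :=
  fun x hx => Subtype.ext (hW x x.2 fun y hy => hx ⟨y, hy⟩)

theorem NdOn.exists_polar_one {W : Submodule F V} (hW : NdOn Q W) {x : V} (hx : x ∈ W) (h0 : x ≠ 0) :
    ∃ y ∈ W, polar Q x y = 1 := by
  by_contra h
  push Not at h
  refine h0 (hW x hx fun y hy => ?_)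
  by_contra hne
  exact h _ (W.smul_mem (polar Q x y)⁻¹ hy)
    (by rw [polar_smul_right, smul_eq_mul, inv_mul_cancel₀ hne])

/-- A partner of a singular vector can be taken singular. -/
theorem NdOn.exists_partner {W : Submodule F V} (hW : NdOn Q W) {x : V} (hx : x ∈ W) (h0 : x ≠ 0)
    (hQ : Q x = 0) : ∃ f ∈ W, Q f = 0 ∧ polar Q x f = 1 := by
  obtain ⟨s, hs, hxs⟩ := hW.exists_polar_one hx h0
  refine ⟨s - Q s • x, W.sub_mem hs (W.smul_mem _ hx), ?_, ?_⟩
  · rw [qf_sub, QuadraticMap.map_smul, hQ, polar_smul_right, polar_comm Q s x, hxs]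
    simp
  · rw [polar_sub_right, polar_smul_right, hxs, OrthGen.polar_self_two, hQ]
    simp

theorem ndOn_singleton {z : V} (hz : polar Q z z ≠ 0) : NdOn Q (F ∙ z) := by
  intro x hx h
  obtain ⟨a, rfl⟩ := Submodule.mem_span_singleton.1 hx
  have := h z (Submodule.mem_span_singleton_self z)
  rw [polar_smul_left, smul_eq_mul, mul_eq_zero] at this
  rw [this.resolve_right hz, zero_smul]

theorem pair_indep {z s : V} (hzs : polar Q z s = 1) (h : 4 * Q z * Q s ≠ 1) {a b : F}
    (h1 : polar Q (a • z + b • s) z = 0) (h2 : polar Q (a • z + b • s) s = 0) : a = 0 ∧ b = 0 := by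
  rw [polar_add_left, polar_smul_left, polar_smul_left, polar_comm Q s z, hzs,
    OrthGen.polar_self_two, smul_eq_mul, smul_eq_mul] at h1
  rw [polar_add_left, polar_smul_left, polar_smul_left, hzs, OrthGen.polar_self_two, smul_eq_mul,
    smul_eq_mul] at h2
  have ha : a = 0 := by
    by_contra ha
    apply h
    apply mul_left_cancel₀ ha
    linear_combination (2 * Q s) * h1 - h2
  exact ⟨ha, by subst ha; linear_combination h1⟩

theorem ndOn_pair {z s : V} (hzs : polar Q z s = 1) (h : 4 * Q z * Q s ≠ 1) :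
    NdOn Q (Submodule.span F (Set.range ![z, s])) ∧
      finrank F (Submodule.span F (Set.range ![z, s])) = 2 := by
  refine ⟨fun x hx h' => ?_, ?_⟩
  · rw [Matrix.range_cons, Matrix.range_cons, Matrix.range_empty, Set.union_empty,
      Set.singleton_union, Submodule.mem_span_pair] at hx
    obtain ⟨a, b, rfl⟩ := hx
    obtain ⟨ha, hb⟩ := pair_indep hzs h (h' z (Submodule.subset_span ⟨0, rfl⟩))
      (h' s (Submodule.subset_span ⟨1, rfl⟩))
    simp [ha, hb]
  · rw [finrank_span_eq_card, Fintype.card_fin]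
    rw [LinearIndependent.pair_iff]
    intro a b hab
    exact pair_indep hzs h (by rw [hab, polar_zero_left]) (by rw [hab, polar_zero_left])

variable [FiniteDimensional F V]

/-- The orthogonal of a non-degenerate subspace inside a non-degenerate one. -/
theorem NdOn.inf_perp {W P : Submodule F V} (hW : NdOn Q W) (hPW : P ≤ W) (hP : NdOn Q P) :
    NdOn Q (W ⊓ OrthGen.perpSub Q P) ∧
      finrank F ↥(W ⊓ OrthGen.perpSub Q P) + finrank F P = finrank F W := by
  let B : LinearMap.BilinForm F P := (polarBilin Q).compl₁₂ P.subtype P.subtype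
  have hnd : B.Nondegenerate := by
    refine ⟨fun a ha => Subtype.ext (hP a a.2 fun y hy => ha ⟨y, hy⟩), fun a ha => Subtype.ext
      (hP a a.2 fun y hy => ?_)⟩
    rw [polar_comm]
    exact ha ⟨y, hy⟩
  have hsplit : ∀ z ∈ W, ∃ p ∈ P, z - p ∈ W ⊓ OrthGen.perpSub Q P := by
    intro z hz
    set p : P := (LinearMap.BilinForm.toDual B hnd).symm ((polarBilin Q z).comp P.subtype) with hp
    refine ⟨p, p.2, W.sub_mem hz (hPW p.2), fun x hx => ?_⟩
    have := LinearMap.BilinForm.apply_toDual_symm_apply (hB := hnd)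
      ((polarBilin Q z).comp P.subtype) ⟨x, hx⟩
    rw [← hp] at this
    change polar Q (p : V) x = polar Q z x at this
    show polar Q x (z - (p : V)) = 0
    rw [polar_comm, polar_sub_left, this, sub_self]
  refine ⟨fun x hx h => hW x hx.1 fun y hy => ?_, ?_⟩
  · obtain ⟨p, hp, hpy⟩ := hsplit y hy
    have h1 := h _ hpy
    have h2 : polar Q x p = 0 := by rw [polar_comm]; exact hx.2 p hp
    rw [polar_sub_right, h2, sub_zero] at h1
    exact h1
  · have hs : P ⊔ (W ⊓ OrthGen.perpSub Q P) = W := by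
      refine le_antisymm (sup_le hPW inf_le_left) fun z hz => ?_
      obtain ⟨p, hp, hzp⟩ := hsplit z hz
      rw [show z = p + (z - p) by abel]
      exact Submodule.add_mem_sup hp hzp
    have hi : P ⊓ (W ⊓ OrthGen.perpSub Q P) = ⊥ := by
      rw [eq_bot_iff]
      intro x hx
      exact hP x hx.1 fun y hy => by rw [polar_comm]; exact hx.2.2 y hy
    have := Submodule.finrank_sup_add_finrank_inf_eq P (W ⊓ OrthGen.perpSub Q P)
    rw [hs, hi, finrank_bot] at this
    omega

theorem NdOn.exists_ne_zero_value {W : Submodule F V} (hW : NdOn Q W) (hd : 1 ≤ finrank F W) :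
    ∃ x ∈ W, Q x ≠ 0 := by
  by_contra hno
  push Not at hno
  have := OrthGen.two_mul_finrank_le hW.restrict ⊤ fun s _ => hno s s.2
  rw [finrank_top] at this
  omega

variable [Finite F]

theorem exists_sq_mul {a c : F} (ha : a ≠ 0) (h : (2 : F) = 0) : ∃ μ : F, μ * μ * a = c := by
  haveI : CharP F 2 := CharTwo.of_one_ne_zero_of_two_eq_zero one_ne_zero h
  haveI := Fintype.ofFinite F
  obtain ⟨μ, hμ⟩ := FiniteField.isSquare_of_char_two (F := F)
    (by rw [ringChar.eq_iff]; infer_instance) (c / a)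
  exact ⟨μ, by rw [← hμ, div_mul_cancel₀ _ ha]⟩

/-- A non-degenerate subspace of dimension at least two represents every scalar. -/
theorem NdOn.exists_value {W : Submodule F V} (hW : NdOn Q W) (hd : 2 ≤ finrank F W) (c : F) :
    ∃ x ∈ W, Q x = c := by
  by_cases h2 : (2 : F) = 0
  · obtain ⟨x, hx, hx0⟩ := hW.exists_ne_zero_value (by omega)
    obtain ⟨μ, hμ⟩ := exists_sq_mul (c := c) hx0 h2
    exact ⟨μ • x, W.smul_mem _ hx, by rw [QuadraticMap.map_smul, smul_eq_mul, hμ]⟩
  · obtain ⟨x, hx⟩ := OrthGen.exists_value hW.restrict h2 hd c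
    exact ⟨x, x.2, hx⟩

/-- A vector with prescribed value and prescribed polar product with a given one. -/
theorem NdOn.exists_affine {W : Submodule F V} (hW : NdOn Q W) (h3 : 3 ≤ finrank F W)
    (h2k : (2 : F) = 0 → 4 ≤ finrank F W) {z : V} (hz : z ∈ W) (hz0 : z ≠ 0) (σ β : F)
    (hs : Q z = 0 → σ = 0 → 4 ≤ finrank F W) :
    ∃ x ∈ W, polar Q z x = σ ∧ Q x = β := by
  by_cases hQ : Q z = 0
  · obtain ⟨f, hf, hQf, hzf⟩ := hW.exists_partner hz hz0 hQ
    by_cases hσ : σ = 0
    · obtain ⟨hP, hP2⟩ := ndOn_pair (Q := Q) hzf (by rw [hQ]; simp)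
      have hPW : Submodule.span F (Set.range ![z, f]) ≤ W := Submodule.span_le.2 (by
        rintro _ ⟨i, rfl⟩; fin_cases i <;> assumption)
      obtain ⟨hU, hUd⟩ := hW.inf_perp hPW hP
      obtain ⟨y, hy, hQy⟩ := hU.exists_value (by have := hs hQ hσ; omega) β
      exact ⟨y, hy.1, hσ ▸ hy.2 z (Submodule.subset_span ⟨0, rfl⟩), hQy⟩
    · refine ⟨σ • f + (β / σ) • z, W.add_mem (W.smul_mem _ hf) (W.smul_mem _ hz), ?_, ?_⟩
      · rw [polar_add_right, polar_smul_right, polar_smul_right, hzf, OrthGen.polar_self_two, hQ]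
        simp
      · rw [qf_add, QuadraticMap.map_smul, QuadraticMap.map_smul, polar_smul_left, polar_smul_right,
          polar_comm Q f z, hzf, hQ, hQf]
        simp only [smul_eq_mul]
        field_simp
        ring
  · by_cases h2 : (2 : F) = 0
    · obtain ⟨s, hsW, hzs⟩ := hW.exists_polar_one hz hz0
      obtain ⟨hP, hP2⟩ := ndOn_pair (Q := Q) hzs (by
        rw [show (4 : F) = 2 * 2 by norm_num, h2]; simp)
      have hPW : Submodule.span F (Set.range ![z, s]) ≤ W := Submodule.span_le.2 (by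
        rintro _ ⟨i, rfl⟩; fin_cases i <;> assumption)
      obtain ⟨hU, hUd⟩ := hW.inf_perp hPW hP
      obtain ⟨y, hy, hQy⟩ := hU.exists_value (by have := h2k h2; omega) (β - σ ^ 2 * Q s)
      have hzy : polar Q z y = 0 := hy.2 z (Submodule.subset_span ⟨0, rfl⟩)
      have hsy : polar Q s y = 0 := hy.2 s (Submodule.subset_span ⟨1, rfl⟩)
      refine ⟨σ • s + y, W.add_mem (W.smul_mem _ hsW) hy.1, ?_, ?_⟩
      · rw [polar_add_right, polar_smul_right, hzs, hzy]
        simp
      · rw [qf_add, QuadraticMap.map_smul, polar_smul_left, hsy, hQy]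
        simp only [smul_eq_mul]
        ring
    · have hzz : polar Q z z ≠ 0 := by
        rw [OrthGen.polar_self_two]; exact mul_ne_zero h2 hQ
      obtain ⟨hU, hUd⟩ := hW.inf_perp ((Submodule.span_singleton_le_iff_mem _ _).2 hz)
        (ndOn_singleton hzz)
      rw [finrank_span_singleton hz0] at hUd
      obtain ⟨y, hy, hQy⟩ := hU.exists_value (by omega) (β - (σ / (2 * Q z)) ^ 2 * Q z)
      have hzy := hy.2 z (Submodule.mem_span_singleton_self z)
      change polar Q z y = 0 at hzy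
      refine ⟨(σ / (2 * Q z)) • z + y, W.add_mem (W.smul_mem _ hz) hy.1, ?_, ?_⟩
      · rw [polar_add_right, polar_smul_right, OrthGen.polar_self_two, hzy]
        simp only [smul_eq_mul, add_zero]
        field_simp
      · rw [qf_add, QuadraticMap.map_smul, polar_smul_left, hzy, hQy]
        simp only [smul_eq_mul]
        ring

/-- The vectors of one value span. -/
theorem NdOn.span_value {W : Submodule F V} (hW : NdOn Q W) (h3 : 3 ≤ finrank F W)
    (h2k : (2 : F) = 0 → 4 ≤ finrank F W) (c : F) :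
    W ≤ Submodule.span F {x | x ∈ W ∧ Q x = c} := by
  set S := Submodule.span F {x | x ∈ W ∧ Q x = c}
  have key : ∀ z ∈ W, (Q z ≠ 0 ∨ 4 ≤ finrank F W) → z ∈ S := by
    intro z hz hcase
    rcases eq_or_ne z 0 with rfl | hz0
    · exact S.zero_mem
    obtain ⟨b, hb, hzb, hQb⟩ := hW.exists_affine h3 h2k hz hz0 (-Q z) c
      (fun hQ _ => hcase.resolve_left (fun h => h hQ))
    have h1 : z + b ∈ S := Submodule.subset_span ⟨W.add_mem hz hb, by rw [qf_add, hzb, hQb]; ring⟩
    simpa using S.sub_mem h1 (Submodule.subset_span ⟨hb, hQb⟩ : b ∈ S)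
  intro z hz
  by_cases h4 : 4 ≤ finrank F W
  · exact key z hz (Or.inr h4)
  by_cases hQ : Q z = 0
  swap
  · exact key z hz (Or.inl hQ)
  rcases eq_or_ne z 0 with rfl | hz0
  · exact S.zero_mem
  have h2 : (2 : F) ≠ 0 := fun h => h4 (h2k h)
  obtain ⟨f, hf, hQf, hzf⟩ := hW.exists_partner hz hz0 hQ
  have h1 := key (z + f) (W.add_mem hz hf) (Or.inl (by rw [qf_add, hQ, hQf, hzf]; simp))
  have h1' := key (z - f) (W.sub_mem hz hf) (Or.inl (by rw [qf_sub, hQ, hQf, hzf]; simp))
  have := S.smul_mem (2 : F)⁻¹ (S.add_mem h1 h1')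
  rwa [show z + f + (z - f) = (2 : F) • z by rw [two_smul]; abel, inv_smul_smul₀ h2] at this

/-- A field in which no square of a non-zero element differs from one has at most three elements. -/
theorem small_field (h : ¬ ∃ μ : F, μ ≠ 0 ∧ μ ^ 2 ≠ 1) :
    ((∀ a : F, a = 0 ∨ a = 1) ∧ (2 : F) = 0) ∨ ((3 : F) = 0 ∧ (2 : F) ≠ 0) := by
  push Not at h
  by_cases h2 : (2 : F) = 0
  · refine Or.inl ⟨fun a => ?_, h2⟩
    by_cases ha : a = 0
    · exact Or.inl ha
    · right
      have := h a ha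
      have h0 : (a - 1) ^ 2 = 0 := by linear_combination this + (1 - a) * h2
      exact sub_eq_zero.1 (pow_eq_zero_iff two_ne_zero |>.1 h0)
  · exact Or.inr ⟨by linear_combination h 2 h2, h2⟩

/-- Two orthogonal summands which both represent `c` give a mixed vector of value `c`. -/
theorem exists_mixed {U U' : Submodule F V} (hU : NdOn Q U) (hU' : NdOn Q U')
    (horth : ∀ u ∈ U, ∀ v ∈ U', polar Q u v = 0) {c : F} (hc : c ≠ 0)
    {a : V} (ha : a ∈ U) (hQa : Q a = c) {a' : V} (ha' : a' ∈ U') (hQa' : Q a' = c)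
    (h3 : 3 ≤ finrank F U + finrank F U')
    (h33 : finrank F U + finrank F U' = 3 → ∃ μ : F, μ ≠ 0 ∧ μ ^ 2 ≠ 1)
    (hplus : (∀ x : F, x = 0 ∨ x = 1) → finrank F U + finrank F U' = 4 →
      ∀ S : Submodule F V, S ≤ U ⊔ U' → (∀ s ∈ S, Q s = 0) → finrank F S ≠ 2) :
    ∃ u ∈ U, ∃ v ∈ U', u ≠ 0 ∧ v ≠ 0 ∧ Q (u + v) = c := by
  have hne : ∀ {x : V} {r : F}, Q x = r → r ≠ 0 → x ≠ 0 := fun {x r} h hr hx => hr (by
    rw [← h, hx, map_zero])
  have hsum : ∀ {u v}, u ∈ U → v ∈ U' → Q (u + v) = Q u + Q v := fun hu hv => by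
    rw [qf_add, horth _ hu _ hv, add_zero]
  by_cases hμ : ∃ μ : F, μ ≠ 0 ∧ μ ^ 2 ≠ 1
  · obtain ⟨μ, hμ0, hμ1⟩ := hμ
    have hval : c * (1 - μ ^ 2) ≠ 0 := mul_ne_zero hc (sub_ne_zero.2 (Ne.symm hμ1))
    rcases le_or_gt 2 (finrank F U) with hd | hd
    · obtain ⟨u, hu, hQu⟩ := hU.exists_value hd (c * (1 - μ ^ 2))
      refine ⟨u, hu, μ • a', U'.smul_mem _ ha', hne hQu hval,
        smul_ne_zero hμ0 (hne hQa' hc), ?_⟩
      rw [hsum hu (U'.smul_mem _ ha'), hQu, QuadraticMap.map_smul, hQa', smul_eq_mul]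
      ring
    · obtain ⟨u, hu, hQu⟩ := hU'.exists_value (by omega) (c * (1 - μ ^ 2))
      refine ⟨μ • a, U.smul_mem _ ha, u, hu, smul_ne_zero hμ0 (hne hQa hc), hne hQu hval, ?_⟩
      rw [hsum (U.smul_mem _ ha) hu, hQu, QuadraticMap.map_smul, hQa, smul_eq_mul]
      ring
  -- fields with at most three elements
  by_cases hs : ∃ u ∈ U, u ≠ 0 ∧ Q u = 0
  · obtain ⟨u, hu, hu0, hQu⟩ := hs
    exact ⟨u, hu, a', ha', hu0, hne hQa' hc, by rw [hsum hu ha', hQu, hQa', zero_add]⟩
  by_cases hs' : ∃ u ∈ U', u ≠ 0 ∧ Q u = 0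
  · obtain ⟨u, hu, hu0, hQu⟩ := hs'
    exact ⟨a, ha, u, hu, hne hQa hc, hu0, by rw [hsum ha hu, hQu, hQa, add_zero]⟩
  have hd : finrank F U ≤ 2 := by
    by_contra hlt
    obtain ⟨u, hu, hu0, hQu⟩ := Forms.exists_singular_vector_of_three_le Q (S := U) (by omega)
    exact hs ⟨u, hu, hu0, hQu⟩
  have hd' : finrank F U' ≤ 2 := by
    by_contra hlt
    obtain ⟨u, hu, hu0, hQu⟩ := Forms.exists_singular_vector_of_three_le Q (S := U') (by omega)
    exact hs' ⟨u, hu, hu0, hQu⟩
  have h4 : finrank F U + finrank F U' = 4 := by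
    have : finrank F U + finrank F U' ≠ 3 := fun h => hμ (h33 h)
    omega
  rcases small_field hμ with ⟨h01, h2⟩ | ⟨h3', h2⟩
  swap
  · obtain ⟨u, hu, hQu⟩ := hU.exists_value (by omega) (2 * c)
    obtain ⟨v, hv, hQv⟩ := hU'.exists_value (by omega) (2 * c)
    exact ⟨u, hu, v, hv, hne hQu (mul_ne_zero h2 hc), hne hQv (mul_ne_zero h2 hc), by
      rw [hsum hu hv, hQu, hQv]; linear_combination c * h3'⟩
  exfalso
  push Not at hs hs'
  have hsec : ∀ {A : Submodule F V}, finrank F A = 2 → ∀ {x}, x ≠ 0 → ∃ y ∈ A, y ∉ F ∙ x := by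
    intro A hA x hx
    by_contra hcon
    push Not at hcon
    have := Submodule.finrank_mono (show A ≤ F ∙ x from hcon)
    rw [finrank_span_singleton hx] at this
    omega
  have hQ1 : ∀ x : V, Q x ≠ 0 → Q x = 1 := fun x hx => (h01 _).resolve_left hx
  obtain ⟨a₂, ha₂, han⟩ := hsec (A := U) (by omega) (hne hQa hc)
  obtain ⟨b₂, hb₂, hbn⟩ := hsec (A := U') (by omega) (hne hQa' hc)
  have ha₂0 : a₂ ≠ 0 := fun h => han (h ▸ Submodule.zero_mem _)
  have hb₂0 : b₂ ≠ 0 := fun h => hbn (h ▸ Submodule.zero_mem _)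
  have hneg : ∀ x : V, -x = x := fun x => by
    rw [neg_eq_iff_add_eq_zero, ← two_smul F x, h2, zero_smul]
  have hpol : ∀ {A : Submodule F V}, (∀ u ∈ A, u ≠ 0 → Q u ≠ 0) → ∀ {x y}, x ∈ A → y ∈ A → x ≠ 0 →
      y ∉ F ∙ x → polar Q x y = 1 := by
    intro A hA x y hx hy hx0 hyn
    have hy0 : y ≠ 0 := fun h => hyn (h ▸ Submodule.zero_mem _)
    have hxy : x + y ≠ 0 := fun h => hyn (by
      rw [eq_neg_of_add_eq_zero_right h, hneg]; exact Submodule.mem_span_singleton_self x)
    rw [show polar Q x y = Q (x + y) - Q x - Q y from rfl, hQ1 _ (hA _ (A.add_mem hx hy) hxy),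
      hQ1 _ (hA _ hx hx0), hQ1 _ (hA _ hy hy0)]
    linear_combination (-1 : F) * h2
  set S := Submodule.span F (Set.range ![a + a', a₂ + b₂]) with hS
  have hUU : ∀ x ∈ S, x ∈ U ⊔ U' := fun x hx => by
    refine (Submodule.span_le.2 ?_) hx
    rintro _ ⟨i, rfl⟩
    fin_cases i
    · exact Submodule.add_mem_sup ha ha'
    · exact Submodule.add_mem_sup ha₂ hb₂
  have hc1 : c = 1 := (h01 c).resolve_left hc
  have q1 : Q (a + a') = 0 := by rw [hsum ha ha', hQa, hQa', hc1]; linear_combination h2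
  have q2 : Q (a₂ + b₂) = 0 := by
    rw [hsum ha₂ hb₂, hQ1 _ (hs _ ha₂ ha₂0), hQ1 _ (hs' _ hb₂ hb₂0)]; linear_combination h2
  have q3 : polar Q (a + a') (a₂ + b₂) = 0 := by
    rw [polar_add_left, polar_add_right, polar_add_right, horth a ha b₂ hb₂, polar_comm Q a' a₂,
      horth a₂ ha₂ a' ha', hpol hs ha ha₂ (hne hQa hc) han, hpol hs' ha' hb₂ (hne hQa' hc) hbn]
    linear_combination h2
  refine hplus h01 h4 S hUU (fun s hs'' => ?_) ?_
  · rw [hS, Matrix.range_cons, Matrix.range_cons, Matrix.range_empty, Set.union_empty,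
      Set.singleton_union, Submodule.mem_span_pair] at hs''
    obtain ⟨p, r, rfl⟩ := hs''
    rw [qf_add, QuadraticMap.map_smul, QuadraticMap.map_smul, polar_smul_left, polar_smul_right, q1,
      q2, q3]
    simp
  · rw [hS, finrank_span_eq_card, Fintype.card_fin]
    rw [LinearIndependent.pair_iff]
    intro p r hpr
    have hzero : ∀ x, x ∈ U → x ∈ U' → x = 0 := fun x hx hx' =>
      hU x hx fun y hy => by rw [polar_comm]; exact horth y hy x hx'
    have e : p • a + r • a₂ = -(p • a' + r • b₂) := by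
      rw [eq_neg_iff_add_eq_zero, ← hpr]; module
    have e0 : p • a + r • a₂ = 0 := hzero _ (U.add_mem (U.smul_mem _ ha) (U.smul_mem _ ha₂))
      (e ▸ U'.neg_mem (U'.add_mem (U'.smul_mem _ ha') (U'.smul_mem _ hb₂)))
    have hr : r = 0 := by
      by_contra hr
      apply han
      rw [Submodule.mem_span_singleton]
      refine ⟨-(r⁻¹ * p), ?_⟩
      have := congrArg (fun v : V => r⁻¹ • v) e0
      simp only [smul_add, smul_zero, smul_smul, inv_mul_cancel₀ hr, one_smul] at this
      rw [neg_smul, eq_comm, eq_neg_iff_add_eq_zero, add_comm, this]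
    subst hr
    rw [zero_smul, add_zero, smul_eq_zero] at e0
    exact ⟨e0.resolve_right (hne hQa hc), rfl⟩

/-- Products of reflections of a non-degenerate subspace are transitive on vectors of one value. -/
theorem NdOn.exists_refls_map {W : Submodule F V} (hW : NdOn Q W)
    (hplus : (∀ x : F, x = 0 ∨ x = 1) → finrank F W = 4 →
      ∀ S : Submodule F V, S ≤ W → (∀ s ∈ S, Q s = 0) → finrank F S ≠ 2)
    {z z' : V} (hz : z ∈ W) (hz' : z' ∈ W) (h0 : z ≠ 0) (h0' : z' ≠ 0) (hQ : Q z = Q z') :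
    ∃ l : List {x : V // Q x ≠ 0}, (∀ x ∈ l, x.1 ∈ W) ∧ (Forms.refls Q l).1 z = z' := by
  haveI : Finite W := Module.finite_of_finite F
  by_cases hx : OrthGen.NotExceptional (Q.comp W.subtype)
  · set QW := Q.comp W.subtype
    have hnd : (polarBilin QW).Nondegenerate :=
      ⟨fun a ha => hW.restrict a ha, fun a ha => hW.restrict a fun y =>
        (polar_comm QW a y).trans (ha y)⟩
    have h0w : (⟨z, hz⟩ : W) ≠ 0 := fun h => h0 (congrArg Subtype.val h)
    have h0w' : (⟨z', hz'⟩ : W) ≠ 0 := fun h => h0' (congrArg Subtype.val h)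
    let e₁ := LinearEquiv.toSpanNonzeroSingleton F W ⟨z, hz⟩ h0w
    let e₂ := LinearEquiv.toSpanNonzeroSingleton F W ⟨z', hz'⟩ h0w'
    obtain ⟨g, hg, hgφ⟩ := Forms.witt_extension_quad_nondeg hnd _ _ (e₁.symm.trans e₂) fun x => by
      obtain ⟨a, rfl⟩ := e₁.surjective x
      rw [LinearEquiv.trans_apply, LinearEquiv.symm_apply_apply]
      show Q (((e₂ a : F ∙ _) : W) : V) = Q (((e₁ a : F ∙ _) : W) : V)
      simp only [e₁, e₂, LinearEquiv.toSpanNonzeroSingleton_apply, Submodule.coe_smul,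
        QuadraticMap.map_smul, hQ]
    have hgz : g ⟨z, hz⟩ = ⟨z', hz'⟩ := by
      have h1 := hgφ (e₁ 1)
      rw [LinearEquiv.trans_apply, LinearEquiv.symm_apply_apply] at h1
      simpa [e₁, e₂, LinearEquiv.toSpanNonzeroSingleton_apply] using h1
    obtain ⟨l, hl⟩ := Forms.exists_refls (OrthGen.RQ_eq_top hW.restrict hx) ⟨g, hg⟩
    refine ⟨l.map fun x => ⟨(x.1 : V), x.2⟩, by
      simp only [List.mem_map]; rintro _ ⟨x, -, rfl⟩; exact x.1.2, ?_⟩
    suffices ∀ w : W, (Forms.refls Q (l.map fun x => (⟨(x.1 : V), x.2⟩ : {x : V // Q x ≠ 0}))).1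
        (w : V) = ((Forms.refls QW l).1 w : V) by
      rw [this ⟨z, hz⟩, ← hl]
      exact congrArg Subtype.val hgz
    clear hl
    induction l with
    | nil => intro w; simp only [List.map_nil, Forms.refls_nil]; rfl
    | cons x l ih =>
      intro w
      rw [List.map_cons, Forms.refls_cons, Forms.refls_cons, Subgroup.coe_mul, Subgroup.coe_mul,
        LinearEquiv.mul_apply, LinearEquiv.mul_apply, ih, reflQ_apply, reflQ_apply]
      rfl
  · have h01 : ∀ a : F, a = 0 ∨ a = 1 := fun a => by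
      by_contra h
      push Not at h
      exact hx (Or.inl ⟨a, h⟩)
    have h4 : finrank F W = 4 := by
      by_contra h
      exact hx (Or.inr h)
    have h2 : (2 : F) = 0 := (h01 2).resolve_right fun h => one_ne_zero (α := F)
      (by linear_combination h)
    rcases eq_or_ne z z' with rfl | hne
    · exact ⟨[], by simp, by simp⟩
    have one : ∀ {u v : V}, u ∈ W → v ∈ W → Q u = Q v → polar Q u v ≠ 0 →
        ∃ x : {x : V // Q x ≠ 0}, x.1 ∈ W ∧ (reflQ Q x.1 x.2).1 u = v := fun {u v} hu hv he hp =>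
      have hn : Q (u - v) ≠ 0 := by
        rw [qf_sub, ← he]
        intro h
        exact hp (by linear_combination (Q u) * h2 - h)
      ⟨⟨u - v, hn⟩, W.sub_mem hu hv, OrthGen.refl_sub_apply he hn⟩
    by_cases hp : polar Q z z' = 0
    swap
    · obtain ⟨x, hxW, hxe⟩ := one hz hz' hQ hp
      exact ⟨[x], by simp [hxW], by simpa using hxe⟩
    have huts : ∀ u v, u ∈ W → v ∈ W → Q u = 0 → Q v = 0 → polar Q u v = 0 →
        u ≠ 0 → v ∉ F ∙ u → False := by
      intro u v hu hv qu qv quv hu0 hvn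
      refine hplus h01 h4 (Submodule.span F (Set.range ![u, v])) (Submodule.span_le.2 (by
        rintro _ ⟨i, rfl⟩; fin_cases i <;> assumption)) (fun s hs => ?_) ?_
      · rw [Matrix.range_cons, Matrix.range_cons, Matrix.range_empty, Set.union_empty,
          Set.singleton_union, Submodule.mem_span_pair] at hs
        obtain ⟨p, r, rfl⟩ := hs
        simp [qf_add, QuadraticMap.map_smul, polar_smul_left, polar_smul_right, qu, qv, quv]
      · rw [finrank_span_eq_card, Fintype.card_fin]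
        rw [LinearIndependent.pair_iff' hu0]
        exact fun a h => hvn (Submodule.mem_span_singleton.2 ⟨a, h⟩)
    have hmul : ∀ {u v : V}, u ≠ 0 → v ≠ 0 → v ∈ F ∙ u → v = u := fun {u v} hu hv h => by
      obtain ⟨a, rfl⟩ := Submodule.mem_span_singleton.1 h
      rcases h01 a with rfl | rfl
      · simp at hv
      · simp
    rcases h01 (Q z) with hQz | hQz
    · exact (huts z z' hz hz' hQz (hQ ▸ hQz) hp h0 fun h => hne (hmul h0 h0' h).symm).elim
    -- a vector of value one meeting both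
    obtain ⟨s, hs, hzs⟩ := hW.exists_polar_one hz h0
    have hneg : ∀ x : V, -x = x := fun x => by
      rw [neg_eq_iff_add_eq_zero, ← two_smul F x, h2, zero_smul]
    have hd0 : z + z' ≠ 0 := fun h => hne (by rw [eq_neg_of_add_eq_zero_right h, hneg])
    obtain ⟨t, ht, hzt, hdt⟩ : ∃ t ∈ W, polar Q z t = 1 ∧ polar Q (z + z') t = 0 := by
      rcases h01 (polar Q (z + z') s) with h | h
      · exact ⟨s, hs, hzs, h⟩
      obtain ⟨r, hr, hdr⟩ := hW.exists_polar_one (W.add_mem hz hz') hd0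
      obtain ⟨r', hr', hdr', hzr'⟩ : ∃ r' ∈ W, polar Q (z + z') r' = 1 ∧ polar Q z r' = 0 := by
        rcases h01 (polar Q z r) with hzr | hzr
        · exact ⟨r, hr, hdr, hzr⟩
        · have hz'r : polar Q z' r = 0 := by
            rw [polar_add_left, hzr] at hdr; linear_combination hdr
          obtain ⟨r'', hr'', hz'r''⟩ := hW.exists_polar_one hz' h0'
          rcases h01 (polar Q z r'') with hzr'' | hzr''
          · exact ⟨r'', hr'', by rw [polar_add_left, hzr'', hz'r'', zero_add], hzr''⟩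
          · exact ⟨r + r'', W.add_mem hr hr'', by
              simp only [polar_add_left, polar_add_right, hzr, hzr'', hz'r, hz'r'']
              linear_combination h2, by
              rw [polar_add_right, hzr, hzr'']; linear_combination h2⟩
      exact ⟨s + r', W.add_mem hs hr', by rw [polar_add_right, hzs, hzr', add_zero], by
        rw [polar_add_right, h, hdr']; linear_combination h2⟩
    have hz't : polar Q z' t = 1 := by
      rw [polar_add_left, hzt] at hdt
      linear_combination hdt - h2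
    rcases h01 (Q t) with hQt | hQt
    · refine (huts (z + z') t (W.add_mem hz hz') ht ?_ hQt hdt hd0 fun h => ?_).elim
      · rw [qf_add, ← hQ, hp]; linear_combination (Q z) * h2
      · obtain ⟨a, rfl⟩ := Submodule.mem_span_singleton.1 h
        have h1 : polar Q z (z + z') = 0 := by
          rw [polar_add_right, hp, OrthGen.polar_self_two, h2]; ring
        rw [polar_smul_right, h1, smul_zero] at hzt
        exact zero_ne_one hzt
    · obtain ⟨x, hxW, hxe⟩ := one hz ht (hQz.trans hQt.symm) (by rw [hzt]; exact one_ne_zero)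
      obtain ⟨y, hyW, hye⟩ := one ht hz' (hQt.trans (hQz.symm.trans hQ))
        (by rw [polar_comm, hz't]; exact one_ne_zero)
      refine ⟨[y, x], by simp [hxW, hyW], ?_⟩
      simp only [Forms.refls_cons, Forms.refls_nil, mul_one, Subgroup.coe_mul,
        LinearEquiv.mul_apply, hxe, hye]

end Cfsg.Agent.DecompMax
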