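import Cfsg.Agent.DecompMax.Comp
import Cfsg.Agent.DecompMax.OrthSub
import Cfsg.Agent.NotMax.OrthBase

/-!
Reflection pairs in an intermediate group over the stabiliser of an orthogonal decomposition.
-/

set_option autoImplicit false
set_option linter.style.haveILetI false

namespace Cfsg.Agent.DecompMax

open QuadraticMap Module Cfsg.Agent.Classical Cfsg.Agent.GeoClasses
open scoped MatrixGroups

universe u

variable {F : Type u} [Field F] {ι : Type} [Fintype ι] [DecidableEq ι]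
variable {Q : QuadraticForm F (ι → F)} {t k : ℕ} {D : Fin t → Submodule F (ι → F)}

/-- An orthogonal decomposition into non-degenerate isometric members. -/
structure IsOrthDec (Q : QuadraticForm F (ι → F)) (k : ℕ) (D : Fin t → Submodule F (ι → F)) : Prop where
  bnd : BNondeg Q
  card : 9 ≤ finrank F (ι → F)
  dec : Cfsg.Geo.IsMDecomposition k D
  orth : ∀ i j, i ≠ j → ∀ u ∈ D i, ∀ v ∈ D j, polar Q u v = 0
  nd : ∀ i, NdOn Q (D i)
  iso : ∀ i j, Cfsg.Geo.AreIsometricFor ⇑Q (D i) (D j)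

/-- The stabiliser of a decomposition among the isometries. -/
noncomputable def decSub (Q : QuadraticForm F (ι → F)) (D : Fin t → Submodule F (ι → F)) :
    Subgroup (OQ Q) :=
  (Cfsg.Geo.decompositionStabilizer D).comap (oqToGL Q)

theorem mem_decSub_of_forall (hD : Cfsg.Geo.IsMDecomposition k D) {g : OQ Q}
    (h : ∀ i, ∀ x ∈ D i, ∃ j, g.1 x ∈ D j) : g ∈ decSub Q D :=
  mem_stabilizer_of_forall_mem hD fun i x hx => by
    obtain ⟨j, hj⟩ := h i x hx
    exact ⟨j, by rwa [oqToGL_mulVec]⟩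

theorem exists_perm_of_mem_decSub {g : OQ Q} (hg : g ∈ decSub Q D) :
    ∃ σ : Equiv.Perm (Fin t), ∀ i, (D i).map g.1.toLinearMap = D (σ i) :=
  NotMax.oqToGL_mem_decomp_iff.1 hg

theorem IsOrthDec.refl_mem_decSub (h : IsOrthDec Q k D) {i : Fin t} {a : ι → F} (ha : a ∈ D i)
    (h0 : Q a ≠ 0) : reflQ Q a h0 ∈ decSub Q D := by
  refine mem_decSub_of_forall h.dec fun j x hx => ⟨j, ?_⟩
  rcases eq_or_ne j i with rfl | hji
  · rw [reflQ_apply]; exact (D j).sub_mem hx ((D j).smul_mem _ ha)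
  · rw [OrthGen.reflQ_fix Q h0 (by rw [polar_comm]; exact h.orth j i hji x hx a ha)]
    exact hx

section Components

variable (h : IsOrthDec Q k D) (C : Components D)
include h

theorem IsOrthDec.polar_proj {i : Fin t} {x : ι → F} (hx : x ∈ D i) (v : ι → F) :
    polar Q x v = polar Q x (C.proj i v) := by
  rw [C.form_eq_sum (f := fun a b => polar Q a b) (fun a b c => polar_add_left Q a b c)
    (fun a b c => polar_add_right Q a b c) (fun a b hab u hu w hw => h.orth a b hab u hu w hw),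
    Finset.sum_eq_single i (fun r _ hr => by rw [C.of_mem_ne hr.symm hx, polar_zero_left]) (by simp),
    C.of_mem hx]

theorem IsOrthDec.qf_eq_sum (v : ι → F) : Q v = ∑ i, Q (C.proj i v) := by
  classical
  have key : ∀ s : Finset (Fin t), Q (∑ i ∈ s, C.proj i v) = ∑ i ∈ s, Q (C.proj i v) := by
    intro s
    induction s using Finset.induction with
    | empty => simp
    | insert a s has ih =>
      rw [Finset.sum_insert has, Finset.sum_insert has, qf_add, ih]
      have : polar Q (C.proj a v) (∑ i ∈ s, C.proj i v) = 0 := by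
        rw [← polarBilin_apply_apply, map_sum]
        exact Finset.sum_eq_zero fun i hi =>
          h.orth a i (fun e => has (e ▸ hi)) _ (C.mem a v) _ (C.mem i v)
      rw [this, add_zero]
  conv_lhs => rw [← C.sum_eq v]
  exact key _

theorem IsOrthDec.exists_proj_ne {v : ι → F} (hv : Q v ≠ 0) : ∃ i, Q (C.proj i v) ≠ 0 := by
  by_contra hno
  push Not at hno
  exact hv (by rw [h.qf_eq_sum C v, Finset.sum_eq_zero fun i _ => hno i])

theorem IsOrthDec.proj_refl {i : Fin t} {x : ι → F} (hx : x ∈ D i) (h0 : Q x ≠ 0) (v : ι → F)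
    (r : Fin t) : C.proj r ((reflQ Q x h0).1 v) =
      if r = i then (reflQ Q x h0).1 (C.proj i v) else C.proj r v := by
  rw [reflQ_apply, map_sub, map_smul]
  split_ifs with hr
  · subst hr
    rw [C.of_mem hx, reflQ_apply, ← h.polar_proj C hx v]
  · rw [C.of_mem_ne (Ne.symm hr) hx, smul_zero, sub_zero]

end Components

variable [Finite F]

theorem isSquare_of_two (h : (2 : F) = 0) (a : F) : IsSquare a := by
  obtain ⟨μ, hμ⟩ := exists_sq_mul (a := (1 : F)) (c := a) one_ne_zero h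
  exact ⟨μ, by rw [← hμ, mul_one]⟩

theorem refl_pair_mem_commutator (h : IsOrthDec Q k D) {a b : ι → F} (ha : Q a ≠ 0) (hb : Q b ≠ 0)
    (hsq : IsSquare (Q a * Q b)) : reflQ Q a ha * reflQ Q b hb ∈ commutator (OQ Q) := by
  haveI : Finite (ι → F) := Module.finite_of_finite F
  have := (Forms.refls_mem_commutator_iff h.bnd (notExceptional_five (by have := h.card; omega))
    [⟨a, ha⟩, ⟨b, hb⟩]).2 ⟨by simp, by simpa using hsq⟩
  simpa using this

/-- The vectors of value `c` whose reflection is tied by `M` to the reflections of the members. -/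
def Rel (M : Subgroup (OQ Q)) (D : Fin t → Submodule F (ι → F)) (c : F) : Set (ι → F) :=
  {v | Q v = c ∧ ∀ (hv : Q v ≠ 0) (i : Fin t), ∀ b ∈ D i, ∀ hb : Q b ≠ 0, Q b = c →
    reflQ Q v hv * reflQ Q b hb ∈ M}

variable {M : Subgroup (OQ Q)} {c : F}
variable (h : IsOrthDec Q k D) (hM : decSub Q D ⊓ commutator (OQ Q) ≤ M)
include h hM

theorem block_pair_mem {i j : Fin t} {a b : ι → F} (ha : a ∈ D i) (hb : b ∈ D j) (ha0 : Q a ≠ 0)
    (hb0 : Q b ≠ 0) (hsq : IsSquare (Q a * Q b)) : reflQ Q a ha0 * reflQ Q b hb0 ∈ M :=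
  hM ⟨mul_mem (h.refl_mem_decSub ha ha0) (h.refl_mem_decSub hb hb0),
    refl_pair_mem_commutator h ha0 hb0 hsq⟩

theorem block_mem_rel {i : Fin t} {a : ι → F} (ha : a ∈ D i) (hQ : Q a = c) : a ∈ Rel M D c :=
  ⟨hQ, fun hv j b hb hb0 hQb => block_pair_mem h hM ha hb hv hb0 ⟨c, by rw [hQ, hQb]⟩⟩

theorem rel_of_pair {v a : ι → F} (hQ : Q v = c) (hv0 : Q v ≠ 0) {i : Fin t} (ha : a ∈ D i)
    (ha0 : Q a ≠ 0) (hQa : Q a = c) (hm : reflQ Q v hv0 * reflQ Q a ha0 ∈ M) : v ∈ Rel M D c := by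
  refine ⟨hQ, fun hv j b hb hb0 hQb => ?_⟩
  have := mul_mem hm (block_pair_mem h hM ha hb ha0 hb0 ⟨c, by rw [hQa, hQb]⟩)
  rwa [mul_assoc, ← mul_assoc (reflQ Q a ha0), reflQ_mul_self, one_mul] at this

theorem rel_map {g : OQ Q} (hg : g ∈ M) {i j : Fin t} {a : ι → F} (ha : a ∈ D i)
    (hga : g.1 a ∈ D j) (hQa : Q a = c) {v : ι → F} (hv : v ∈ Rel M D c) : g.1 v ∈ Rel M D c := by
  refine ⟨by rw [OQ_map_app]; exact hv.1, fun hgv => ?_⟩
  have hv0 : Q v ≠ 0 := by rwa [OQ_map_app] at hgv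
  have hc : c ≠ 0 := hv.1 ▸ hv0
  have ha0 : Q a ≠ 0 := hQa ▸ hc
  have hga0 : Q (g.1 a) ≠ 0 := by rwa [OQ_map_app]
  have := mul_mem (mul_mem hg (hv.2 hv0 i a ha ha0 hQa)) (inv_mem hg)
  rw [show g * (reflQ Q v hv0 * reflQ Q a ha0) * g⁻¹ =
    (g * reflQ Q v hv0 * g⁻¹) * (g * reflQ Q a ha0 * g⁻¹) by group,
    reflQ_conj Q g v hv0 hgv, reflQ_conj Q g a ha0 hga0] at this
  exact (rel_of_pair h hM (by rw [OQ_map_app]; exact hv.1) hgv hga hga0
    (by rw [OQ_map_app]; exact hQa) this).2 hgv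

theorem rel_exists_block (hk : 2 ≤ k) (c : F) (i : Fin t) : ∃ b ∈ D i, Q b = c :=
  (h.nd i).exists_value (by rw [h.dec.finrank_eq]; exact hk) c

/-- The reflections of the related vectors preserve the set of related vectors. -/
theorem refl_rel (hk : 2 ≤ k) {v w : ι → F} (hv : v ∈ Rel M D c) (hw : w ∈ Rel M D c)
    (hv0 : Q v ≠ 0) : (reflQ Q v hv0).1 w ∈ Rel M D c := by
  have hc : c ≠ 0 := hv.1 ▸ hv0
  obtain ⟨b, hb, hQb⟩ := rel_exists_block h hM hk c ⟨0, by have := h.dec.two_le; omega⟩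
  have hb0 : Q b ≠ 0 := hQb ▸ hc
  have hw0 : Q w ≠ 0 := hw.1 ▸ hc
  have hrw0 : Q ((reflQ Q v hv0).1 w) ≠ 0 := by rwa [OQ_map_app]
  refine rel_of_pair h hM (by rw [OQ_map_app]; exact hw.1) hrw0 hb hb0 hQb ?_
  have h1 := hv.2 hv0 _ b hb hb0 hQb
  have h2 := hw.2 hw0 _ b hb hb0 hQb
  have := mul_mem (mul_mem h1 (inv_mem h2)) h1
  rw [← reflQ_conj Q (reflQ Q v hv0) w hw0 hrw0, reflQ_inv]
  rw [mul_inv_rev, reflQ_inv, reflQ_inv] at this
  convert this using 1
  simp only [mul_assoc]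
  rw [← mul_assoc (reflQ Q b hb0) (reflQ Q b hb0), reflQ_mul_self, one_mul]

theorem neg_mem_rel (hk : 2 ≤ k) {v : ι → F} (hv : v ∈ Rel M D c) (hc : c ≠ 0) : -v ∈ Rel M D c := by
  have hv0 : Q v ≠ 0 := hv.1 ▸ hc
  have := refl_rel h hM hk hv hv hv0
  rwa [OrthGen.reflQ_self] at this

/-- The difference of two related vectors with polar product `c` is related. -/
theorem sub_mem_rel (hk : 2 ≤ k) {v w : ι → F} (hv : v ∈ Rel M D c) (hw : w ∈ Rel M D c)
    (hc : c ≠ 0) (hp : polar Q v w = c) : w - v ∈ Rel M D c := by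
  have hv0 : Q v ≠ 0 := hv.1 ▸ hc
  have := refl_rel h hM hk hv hw hv0
  rwa [reflQ_apply, hp, hv.1, inv_mul_cancel₀ hc, one_smul] at this

theorem add_mem_rel (hk : 2 ≤ k) {v w : ι → F} (hv : v ∈ Rel M D c) (hw : w ∈ Rel M D c)
    (hc : c ≠ 0) (hp : polar Q v w = -c) : w + v ∈ Rel M D c := by
  have := sub_mem_rel h hM hk (neg_mem_rel h hM hk hv hc) hw hc
    (by rw [polar_neg_left, hp, neg_neg])
  rwa [sub_neg_eq_add] at this

theorem refl_of_square (hk : 2 ≤ k) {i : Fin t} {x : ι → F} (hx : x ∈ D i) (hx0 : Q x ≠ 0)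
    (hsq : IsSquare (Q x * c)) {v : ι → F} (hv : v ∈ Rel M D c) (hc : c ≠ 0) :
    (reflQ Q x hx0).1 v ∈ Rel M D c := by
  obtain ⟨s, hs⟩ := hsq
  have hl : s / Q x ≠ 0 := div_ne_zero (fun e => by
    rw [e, mul_zero] at hs; exact mul_ne_zero hx0 hc hs) hx0
  have hQ : Q ((s / Q x) • x) = c := by
    rw [QuadraticMap.map_smul, smul_eq_mul]
    field_simp
    linear_combination -hs
  have := refl_rel h hM hk (block_mem_rel h hM ((D i).smul_mem _ hx) hQ) hv (hQ ▸ hc)
  rwa [reflQ_smul Q x hx0 _ hl] at this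

theorem refl_of_perp {i j : Fin t} {x a : ι → F} (hx : x ∈ D i) (hx0 : Q x ≠ 0) (ha : a ∈ D j)
    (hQa : Q a = Q x) {v : ι → F} (hav : polar Q a v = 0) (hv : v ∈ Rel M D c) (hk : 2 ≤ k) :
    (reflQ Q x hx0).1 v ∈ Rel M D c := by
  have ha0 : Q a ≠ 0 := hQa ▸ hx0
  obtain ⟨b, hb, hQb⟩ := rel_exists_block h hM hk c i
  have hg := block_pair_mem h hM hx ha hx0 ha0 ⟨Q x, by rw [hQa]⟩
  obtain ⟨σ, hσ⟩ := exists_perm_of_mem_decSub
    (mul_mem (h.refl_mem_decSub hx hx0) (h.refl_mem_decSub ha ha0))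
  have hmem : (reflQ Q x hx0 * reflQ Q a ha0).1 b ∈ D (σ i) := by
    rw [← hσ i]; exact ⟨b, hb, rfl⟩
  have := rel_map h hM hg hb hmem hQb hv
  rwa [Subgroup.coe_mul, LinearEquiv.mul_apply, OrthGen.reflQ_fix Q ha0 hav] at this

/-- If every vector of value `c` is related, `M` contains the commutator subgroup. -/
theorem commutator_le_of_rel_all (hk : 2 ≤ k) (hc : c ≠ 0) (hall : ∀ v, Q v = c → v ∈ Rel M D c) :
    commutator (OQ Q) ≤ M := by
  have hn : 5 ≤ finrank F (ι → F) := by have := h.card; omega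
  obtain ⟨b, hb, hQb⟩ := rel_exists_block h hM hk c ⟨0, by have := h.dec.two_le; omega⟩
  have hb0 : Q b ≠ 0 := hQb ▸ hc
  have hpair : ∀ {x y : ι → F} (hx : Q x ≠ 0) (hy : Q y ≠ 0), Q x = c → Q y = c →
      reflQ Q x hx * reflQ Q y hy ∈ M := by
    intro x y hx hy hQx hQy
    have := mul_mem ((hall x hQx).2 hx _ b hb hb0 hQb) (inv_mem ((hall y hQy).2 hy _ b hb hb0 hQb))
    rwa [mul_inv_rev, reflQ_inv, reflQ_inv, mul_assoc, ← mul_assoc (reflQ Q b hb0), reflQ_mul_self,
      one_mul] at this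
  have hval : ∀ {u a : ι → F} (hu : Q u = 0) (ha : polar Q u a = 0), Q a = c →
      siegel Q hu ha ∈ M := by
    intro u a hu ha hQa
    have hQ' : Q (a + Q a • u) = c := by
      rw [qf_add, QuadraticMap.map_smul, hu, polar_smul_right, polar_comm Q a u, ha, hQa]; simp
    rw [siegel_eq_refl_mul Q hu ha (hQa ▸ hc) (hQ' ▸ hc)]
    exact hpair _ _ hQa hQ'
  rw [commutator_eq_EQ h.bnd hn, EQ, Subgroup.closure_le]
  rintro _ ⟨u, a, hu, ha, rfl⟩
  -- write `a` as a difference of vectors of value `c`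
  by_cases hdep : a ∈ F ∙ u
  · obtain ⟨r, rfl⟩ := Submodule.mem_span_singleton.1 hdep
    have h1 : siegel Q hu ha = 1 := by
      refine Subtype.ext (LinearEquiv.ext fun v => ?_)
      simp only [siegel_apply, polar_smul_left, QuadraticMap.map_smul, hu, Subgroup.coe_one,
        LinearEquiv.coe_one, id_eq, smul_eq_mul, mul_zero, zero_mul, zero_smul, sub_zero]
      module
    rw [SetLike.mem_coe, h1]
    exact one_mem M
  rcases eq_or_ne u 0 with rfl | hu0
  · have h1 : siegel Q hu ha = 1 := by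
      refine Subtype.ext (LinearEquiv.ext fun v => ?_)
      simp [siegel_apply]
    rw [SetLike.mem_coe, h1]
    exact one_mem M
  obtain ⟨r, hr1, hr2⟩ : ∃ r, polar Q u r = 0 ∧ polar Q a r = 1 := by
    obtain ⟨φ, hφa, hφu⟩ := exists_functional hdep
    have hnd : (polarBilin Q).Nondegenerate :=
      ⟨fun x hx => h.bnd x hx, fun x hx => h.bnd x fun y => (polar_comm Q x y).trans (hx y)⟩
    set r := (LinearMap.BilinForm.toDual (polarBilin Q) hnd).symm φ
    have hr : ∀ z, polar Q r z = φ z := fun z => by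
      rw [← polarBilin_apply_apply]
      exact LinearMap.BilinForm.apply_toDual_symm_apply (hB := hnd) φ z
    exact ⟨r, by rw [polar_comm, hr]; exact hφu u (Submodule.mem_span_singleton_self u),
      by rw [polar_comm, hr, hφa]⟩
  set b₁ := -Q a • r with hb₁
  -- an orthogonal subspace representing every value
  obtain ⟨U, hUdim, hU⟩ : ∃ U : Submodule F (ι → F), finrank F (ι → F) ≤ finrank F U + 3 ∧
      ∀ y ∈ U, polar Q u y = 0 ∧ polar Q a y = 0 ∧ polar Q b₁ y = 0 := by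
    let χ : (ι → F) →ₗ[F] F × F × F :=
      (polarBilin Q u).prod ((polarBilin Q a).prod (polarBilin Q b₁))
    refine ⟨LinearMap.ker χ, ?_, fun y hy => ?_⟩
    · have := LinearMap.finrank_range_add_finrank_ker χ
      have h2 := (LinearMap.range χ).finrank_le
      rw [finrank_prod, finrank_prod, finrank_self] at h2
      omega
    · simpa [χ, Prod.ext_iff] using hy
  obtain ⟨y, hy, hQy⟩ : ∃ y ∈ U, Q y = c - Q b₁ := by
    obtain ⟨W, hW⟩ := (Submodule.comap U.subtype (U ⊓ OrthGen.perpSub Q U)).exists_isCompl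
    have hrad : finrank F ↥(U ⊓ OrthGen.perpSub Q U) ≤ 3 := by
      have := Submodule.finrank_mono (inf_le_right : U ⊓ OrthGen.perpSub Q U ≤ _)
      rw [OrthGen.finrank_orthogonal_polar h.bnd] at this
      omega
    have hdim := Submodule.finrank_add_eq_of_isCompl hW
    rw [(Submodule.comapSubtypeEquivOfLe inf_le_left).finrank_eq] at hdim
    have hWd : finrank F ↥(W.map U.subtype) = finrank F W :=
      (Submodule.equivMapOfInjective _ U.injective_subtype W).finrank_eq.symm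
    obtain ⟨e, ⟨e', he', rfl⟩, he0, hQe⟩ := Forms.exists_singular_vector_of_three_le Q
      (S := W.map U.subtype) (by have := h.card; omega)
    obtain ⟨f, hf, hef⟩ : ∃ f ∈ U, polar Q (e' : ι → F) f ≠ 0 := by
      by_contra hno
      push Not at hno
      have hmem : e' ∈ Submodule.comap U.subtype (U ⊓ OrthGen.perpSub Q U) :=
        ⟨e'.2, fun z hz => by
          show polar Q z (e' : ι → F) = 0
          rw [polar_comm]; exact hno z hz⟩
      exact he0 (by simp [Submodule.disjoint_def.1 hW.disjoint e' hmem he'])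
    refine ⟨f + ((c - Q b₁ - Q f) / polar Q (e' : ι → F) f) • (e' : ι → F),
      U.add_mem hf (U.smul_mem _ e'.2), ?_⟩
    change Q (e' : ι → F) = 0 at hQe
    rw [qf_add, QuadraticMap.map_smul, hQe, polar_smul_right, polar_comm Q f, smul_zero, smul_eq_mul,
      div_mul_cancel₀ _ hef]
    ring
  obtain ⟨hy1, hy2, hy3⟩ := hU y hy
  have hQ1 : Q (b₁ + y) = c := by rw [qf_add, hy3, hQy]; ring
  have hu1 : polar Q u (b₁ + y) = 0 := by
    rw [polar_add_right, hb₁, polar_smul_right, hr1, hy1]; simp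
  have hQ2 : Q (a + (b₁ + y)) = c := by
    rw [qf_add, hQ1, polar_add_right, hb₁, polar_smul_right, hr2, hy2]; simp
  have hu2 : polar Q u (a + (b₁ + y)) = 0 := by rw [polar_add_right, ha, hu1, add_zero]
  have := mul_mem (hval hu hu2 hQ2) (inv_mem (hval hu hu1 hQ1))
  rw [siegel_inv, siegel_mul] at this
  rwa [siegel_congr Q hu _ hu ha rfl (by abel)] at this

end Cfsg.Agent.DecompMax
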