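import Cfsg.Agent.DecompMax.OrthExpand

/-!
An intermediate group outside the stabiliser has a related vector with two components; maximality of
stabilisers of orthogonal decompositions with members of dimension at least three.
-/

set_option autoImplicit false
set_option linter.style.haveILetI false

namespace Cfsg.Agent.DecompMax

open QuadraticMap Module Cfsg.Agent.Classical Cfsg.Agent.GeoClasses
open scoped MatrixGroups

universe u

variable {F : Type u} [Field F] [Finite F] {ι : Type} [Fintype ι] [DecidableEq ι]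
variable {Q : QuadraticForm F (ι → F)} {t k : ℕ} {D : Fin t → Submodule F (ι → F)}

omit [Finite F] [DecidableEq ι] in
theorem refl_pair_fix {u v x : ι → F} (hu : Q u ≠ 0) (hv : Q v ≠ 0)
    (h1 : polar Q u x = 0) (h2 : polar Q v x = 0) :
    (reflQ Q u hu * reflQ Q v hv).1 x = x := by
  rw [Subgroup.coe_mul, LinearEquiv.mul_apply, OrthGen.reflQ_fix Q hv h2, OrthGen.reflQ_fix Q hu h1]

omit [Finite F] [DecidableEq ι] in
theorem refl_pair_sub_mem {u v : ι → F} (hu : Q u ≠ 0) (hv : Q v ≠ 0) (x : ι → F) :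
    x - (reflQ Q u hu * reflQ Q v hv).1 x ∈ Submodule.span F (Set.range ![u, v]) := by
  rw [Subgroup.coe_mul, LinearEquiv.mul_apply, reflQ_apply Q v hv x, reflQ_apply Q u hu,
    Matrix.range_cons, Matrix.range_cons, Matrix.range_empty, Set.union_empty, Set.singleton_union,
    Submodule.mem_span_pair]
  exact ⟨(Q u)⁻¹ * polar Q u (x - ((Q v)⁻¹ * polar Q v x) • v), (Q v)⁻¹ * polar Q v x, by abel⟩

variable (h : IsBigDec Q k D)
include h

theorem IsBigDec.hyperplane_value (i : Fin t) (z : ι → F) :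
    ∃ a ∈ D i, polar Q z a = 0 ∧ Q a ≠ 0 := by
  by_contra hno
  push Not at hno
  obtain ⟨U, hUdef⟩ : ∃ U : Submodule F (ι → F), U = D i ⊓ LinearMap.ker (polarBilin Q z) := ⟨_, rfl⟩
  have hUle : U ≤ D i := hUdef ▸ inf_le_left
  have hts : ∀ s ∈ U.comap (D i).subtype, Q.comp (D i).subtype s = 0 := fun s hs => by
    have hs' : (s : ι → F) ∈ D i ⊓ LinearMap.ker (polarBilin Q z) := hUdef ▸ hs
    exact hno s s.2 hs'.2
  have h1 := OrthGen.two_mul_finrank_le (h.nd i).restrict (U.comap (D i).subtype) hts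
  rw [(Submodule.comapSubtypeEquivOfLe hUle).finrank_eq, h.dec.finrank_eq] at h1
  have h2 : k ≤ finrank F U + 1 := by
    by_cases hz : ∃ s ∈ D i, polarBilin Q z s ≠ 0
    · have := Forms.finrank_eq_inf_ker_add_one (D i) (polarBilin Q z) hz
      rw [h.dec.finrank_eq, ← hUdef] at this
      omega
    · push Not at hz
      have hle : D i ≤ U := hUdef ▸ le_inf le_rfl fun s hs => hz s hs
      have := Submodule.finrank_mono hle
      rw [h.dec.finrank_eq] at this
      omega
  have := h.three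
  omega

/-- For members of dimension three the value can be taken off any given line of the member. -/
theorem IsBigDec.hyperplane_value_off (i : Fin t) (z d : ι → F) :
    ∃ a ∈ D i, polar Q z a = 0 ∧ Q a ≠ 0 ∧ (k = 3 → a ∉ F ∙ d) := by
  obtain ⟨a₀, ha₀, hza₀, hQa₀⟩ := h.hyperplane_value i z
  by_cases hd : k = 3 ∧ a₀ ∈ F ∙ d
  swap
  · exact ⟨a₀, ha₀, hza₀, hQa₀, fun hk e => hd ⟨hk, e⟩⟩
  obtain ⟨hk, had⟩ := hd
  have ha0 : a₀ ≠ 0 := fun e => hQa₀ (by rw [e, map_zero])
  have hline : (F ∙ d) ≤ F ∙ a₀ := by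
    obtain ⟨c, hc⟩ := Submodule.mem_span_singleton.1 had
    rw [Submodule.span_singleton_le_iff_mem, Submodule.mem_span_singleton]
    have hc0 : c ≠ 0 := fun e => ha0 (by rw [← hc, e, zero_smul])
    exact ⟨c⁻¹, by rw [← hc, inv_smul_smul₀ hc0]⟩
  obtain ⟨y, hy, hzy, hya⟩ : ∃ y ∈ D i, polar Q z y = 0 ∧ y ∉ F ∙ a₀ := by
    by_contra hno
    push Not at hno
    have hP : D i ⊓ LinearMap.ker (polarBilin Q z) ≤ F ∙ a₀ := fun y hy => hno y hy.1 hy.2
    have h1 := Submodule.finrank_mono hP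
    rw [finrank_span_singleton ha0] at h1
    by_cases hz : ∃ s ∈ D i, polarBilin Q z s ≠ 0
    · have := Forms.finrank_eq_inf_ker_add_one (D i) (polarBilin Q z) hz
      rw [h.dec.finrank_eq] at this
      omega
    · push Not at hz
      have hsub : D i ≤ D i ⊓ LinearMap.ker (polarBilin Q z) := le_inf le_rfl fun s hs => hz s hs
      have := Submodule.finrank_mono hsub
      rw [h.dec.finrank_eq] at this
      omega
  by_cases hQy : Q y = 0
  swap
  · exact ⟨y, hy, hzy, hQy, fun _ e => hya (hline e)⟩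
  obtain ⟨μ, hμ0, hμ1⟩ := h.threeThree hk
  obtain ⟨s, hs0, hs⟩ : ∃ s : F, s ≠ 0 ∧ s * Q a₀ + polar Q y a₀ ≠ 0 := by
    by_cases h1 : (1 : F) * Q a₀ + polar Q y a₀ = 0
    · refine ⟨μ, hμ0, fun e => hμ1 ?_⟩
      have h2 : (μ - 1) * Q a₀ = 0 := by linear_combination e - h1
      rcases mul_eq_zero.1 h2 with h3 | h3
      · rw [sub_eq_zero.1 h3, one_pow]
      · exact absurd h3 hQa₀
    · exact ⟨1, one_ne_zero, h1⟩
  refine ⟨y + s • a₀, (D i).add_mem hy ((D i).smul_mem _ ha₀), ?_, ?_, fun _ e => hya ?_⟩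
  · rw [polar_add_right, polar_smul_right, hzy, hza₀, smul_zero, add_zero]
  · rw [qf_add, QuadraticMap.map_smul, hQy, polar_smul_right, smul_eq_mul, smul_eq_mul, zero_add]
    rw [mul_assoc, ← mul_add]
    exact mul_ne_zero hs0 hs
  · have h2 := (F ∙ a₀).sub_mem (hline e)
      ((F ∙ a₀).smul_mem s (Submodule.mem_span_singleton_self a₀))
    rwa [add_sub_cancel_right] at h2

/-- An isometry mapping the vectors of one value of each member into members permutes the members. -/
theorem mem_decSub_of_value {c : F} (hc : c ≠ 0) {g : OQ Q}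
    (hg : ∀ i, ∀ a ∈ D i, Q a = c → ∃ p, g.1 a ∈ D p) : g ∈ decSub Q D := by
  obtain ⟨C⟩ := exists_components h.dec
  refine mem_decSub_of_forall h.dec fun i x hx => ?_
  obtain ⟨a, ha, hQa⟩ := (h.nd i).exists_value (by have := h.le_dim i; omega) c
  obtain ⟨p, hp⟩ := hg i a ha hQa
  refine ⟨p, ?_⟩
  set U := D i ⊓ (D p).comap g.1.toLinearMap with hU
  set U' := D i ⊓ LinearMap.ker ((C.proj p).comp g.1.toLinearMap) with hU'
  have hcase : ∀ z ∈ D i, Q z = c → z ∈ U ∨ z ∈ U' := fun z hz hQz => by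
    obtain ⟨r, hr⟩ := hg i z hz hQz
    rcases eq_or_ne r p with rfl | hrp
    · exact Or.inl ⟨hz, hr⟩
    · exact Or.inr ⟨hz, C.of_mem_ne hrp hr⟩
  have hsup : U ⊔ U' = D i := by
    refine le_antisymm (sup_le inf_le_left inf_le_left)
      (((h.nd i).span_value (h.le_dim i) (h.two_dim i) c).trans (Submodule.span_le.2 ?_))
    rintro z ⟨hz, hQz⟩
    rcases hcase z hz hQz with h' | h'
    · exact Submodule.mem_sup_left h'
    · exact Submodule.mem_sup_right h'
  have horth : ∀ u ∈ U, ∀ v ∈ U', polar Q u v = 0 := fun u hu v hv => by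
    have hgu : g.1 u ∈ D p := hu.2
    have hgv : C.proj p (g.1 v) = 0 := hv.2
    rw [← OQ_polar g u v, h.toIsOrthDec.polar_proj C hgu, hgv, polar_zero_right]
  have hdisj : ∀ v, v ∈ U → v ∈ U' → v = 0 := fun v hv hv' => by
    have h1 : C.proj p (g.1 v) = g.1 v := C.of_mem hv.2
    exact g.1.map_eq_zero_iff.1 (h1.symm.trans hv'.2)
  have hmem : ∀ {y}, y ∈ D i → ∃ u ∈ U, ∃ v ∈ U', u + v = y := fun {y} hy =>
    Submodule.mem_sup.1 (hsup.symm ▸ hy)
  have hndU : NdOn Q U := fun z hz hzz => h.nd i z hz.1 fun y hy => by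
    obtain ⟨u, hu, v, hv, rfl⟩ := hmem hy
    rw [polar_add_right, hzz u hu, horth z hz v hv, add_zero]
  have hndU' : NdOn Q U' := fun z hz hzz => h.nd i z hz.1 fun y hy => by
    obtain ⟨u, hu, v, hv, rfl⟩ := hmem hy
    rw [polar_add_right, hzz v hv, polar_comm Q z u, horth u hu z hz, add_zero]
  have hdim : finrank F U + finrank F U' = k := by
    have h1 := Submodule.finrank_sup_add_finrank_inf_eq U U'
    rw [hsup, show U ⊓ U' = ⊥ from eq_bot_iff.2 fun v hv => hdisj v hv.1 hv.2, finrank_bot,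
      h.dec.finrank_eq] at h1
    omega
  by_cases hall : ∀ z ∈ D i, Q z = c → z ∈ U
  · have hle : D i ≤ U := ((h.nd i).span_value (h.le_dim i) (h.two_dim i) c).trans
      (Submodule.span_le.2 fun z hz => hall z hz.1 hz.2)
    exact (hle hx).2
  push Not at hall
  obtain ⟨a', ha', hQa', haU⟩ := hall
  obtain ⟨u, hu, v, hv, hu0, hv0, hQ⟩ := exists_mixed hndU hndU' horth hc
    (show a ∈ U from ⟨ha, hp⟩) hQa ((hcase a' ha' hQa').resolve_left haU) hQa'
    (by rw [hdim]; exact h.three) (by rw [hdim]; exact h.threeThree)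
    (fun h01 h4 S hS hts => h.noPlus h01 (by rw [← hdim]; exact h4) i S (hS.trans hsup.le) hts)
  rcases hcase (u + v) ((D i).add_mem hu.1 hv.1) hQ with h' | h'
  · exact (hv0 (hdisj v (by simpa using U.sub_mem h' hu) hv)).elim
  · exact (hu0 (hdisj u hu (by simpa using U'.sub_mem h' hv))).elim

variable {M : Subgroup (OQ Q)} (hM : decSub Q D ⊓ commutator (OQ Q) ≤ M)
include hM

/-- An element of `M` outside the stabiliser gives one which is a product of two reflections. -/
theorem exists_pair_outside {g : OQ Q} (hgM : g ∈ M) (hg : g ∉ decSub Q D) :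
    ∃ (u v : ι → F) (hu : Q u ≠ 0) (hv : Q v ≠ 0), Q u = 1 ∧ Q v = 1 ∧
      reflQ Q u hu * reflQ Q v hv ∈ M ∧ reflQ Q u hu * reflQ Q v hv ∉ decSub Q D := by
  obtain ⟨C⟩ := exists_components h.dec
  obtain ⟨i, a, ha, hQa, hga⟩ : ∃ i, ∃ a ∈ D i, Q a = 1 ∧ ∀ p, g.1 a ∉ D p := by
    by_contra hno
    push Not at hno
    exact hg (mem_decSub_of_value h one_ne_zero hno)
  by_contra hno
  push Not at hno
  set u := g.1 a with hu_def
  have hQu : Q u = 1 := by rw [hu_def, OQ_map_app]; exact hQa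
  have ha0 : Q a ≠ 0 := hQa ▸ one_ne_zero
  have hu0 : Q u ≠ 0 := hQu ▸ one_ne_zero
  have hune : u ≠ 0 := fun e => hu0 (by rw [e, map_zero])
  obtain ⟨r, hr0, hru⟩ : ∃ r, C.proj r u ≠ 0 ∧ C.proj r u ∉ F ∙ u := by
    obtain ⟨r, hr⟩ : ∃ r, C.proj r u ≠ 0 := by
      by_contra hz
      push Not at hz
      exact hune (by rw [← C.sum_eq u, Finset.sum_eq_zero fun j _ => hz j])
    refine ⟨r, hr, fun hmem => ?_⟩
    obtain ⟨s, hs⟩ := Submodule.mem_span_singleton.1 hmem
    have hs0 : s ≠ 0 := fun e => hr (by rw [← hs, e, zero_smul])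
    apply hga r
    have h1 := C.mem r u
    rw [← hs] at h1
    simpa [hs0] using (D r).smul_mem s⁻¹ h1
  have key : ∀ b ∈ D i, Q b = 1 → g.1 b ∈ Submodule.span F (Set.range ![u, C.proj r u]) := by
    intro b hb hQb
    rw [Matrix.range_cons, Matrix.range_cons, Matrix.range_empty, Set.union_empty,
      Set.singleton_union, Submodule.mem_span_pair]
    set v := g.1 b with hv_def
    by_cases hdep : v ∈ F ∙ u
    · obtain ⟨s, hs⟩ := Submodule.mem_span_singleton.1 hdep
      exact ⟨s, 0, by rw [zero_smul, add_zero, hs]⟩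
    have hb0 : Q b ≠ 0 := hQb ▸ one_ne_zero
    have hQv : Q v = 1 := by rw [hv_def, OQ_map_app]; exact hQb
    have hv0 : Q v ≠ 0 := hQv ▸ one_ne_zero
    have hTM : reflQ Q u hu0 * reflQ Q v hv0 ∈ M := by
      have := mul_mem (mul_mem hgM (block_pair_mem h.toIsOrthDec hM ha hb ha0 hb0
        ⟨1, by rw [hQa, hQb]⟩)) (inv_mem hgM)
      rwa [show g * (reflQ Q a ha0 * reflQ Q b hb0) * g⁻¹ =
        (g * reflQ Q a ha0 * g⁻¹) * (g * reflQ Q b hb0 * g⁻¹) by group,
        reflQ_conj Q g a ha0 hu0, reflQ_conj Q g b hb0 hv0] at this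
    obtain ⟨σ, hσ⟩ := exists_perm_of_mem_decSub (hno u v hu0 hv0 hQu hQv hTM)
    set T := reflQ Q u hu0 * reflQ Q v hv0 with hT
    have hTσ : ∀ j, ∀ z ∈ D j, T.1 z ∈ D (σ j) := fun j z hz => by
      rw [← hσ j]; exact ⟨z, hz, rfl⟩
    have hfix : ∀ j, σ j = j := by
      intro j
      by_contra hne
      let L : D j →ₗ[F] Submodule.span F (Set.range ![u, v]) :=
        ((LinearMap.id - T.1.toLinearMap).comp (D j).subtype).codRestrict _
          fun z => refl_pair_sub_mem hu0 hv0 (z : ι → F)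
      have hinj : Function.Injective L := by
        rw [← LinearMap.ker_eq_bot, LinearMap.ker_eq_bot']
        intro z hz
        have hz' : (z : ι → F) = T.1 z := sub_eq_zero.1 (congrArg Subtype.val hz)
        apply Subtype.ext
        have h1 : C.proj j (T.1 z) = 0 := C.of_mem_ne hne (hTσ j _ z.2)
        rw [← hz', C.of_mem z.2] at h1
        exact h1
      have h1 := LinearMap.finrank_le_finrank_of_injective hinj
      have h2 := finrank_range_le_card (R := F) ![u, v]
      simp only [Fintype.card_fin] at h2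
      rw [h.dec.finrank_eq] at h1
      unfold Set.finrank at h2
      have := h.three
      omega
    have hcomm : ∀ z, C.proj r (T.1 z) = T.1 (C.proj r z) := by
      intro z
      conv_lhs => rw [← C.sum_eq z]
      rw [map_sum, map_sum, Finset.sum_eq_single r (fun j _ hj => ?_) (by simp)]
      · have h1 := hTσ r _ (C.mem r z)
        rw [hfix r] at h1
        exact C.of_mem h1
      · have h1 := hTσ j _ (C.mem j z)
        rw [hfix j] at h1
        exact C.of_mem_ne hj h1
    obtain ⟨z, hzu, hzv⟩ : ∃ z, polar Q u z = 1 ∧ polar Q v z = 0 := by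
      obtain ⟨φ, hφu, hφv⟩ := exists_functional (p := F ∙ v) (x := u) (fun hmem => by
        obtain ⟨s, hs⟩ := Submodule.mem_span_singleton.1 hmem
        have hs0 : s ≠ 0 := fun e => hune (by rw [← hs, e, zero_smul])
        exact hdep (Submodule.mem_span_singleton.2 ⟨s⁻¹, by rw [← hs, inv_smul_smul₀ hs0]⟩))
      have hnd : (polarBilin Q).Nondegenerate :=
        ⟨fun x hx => h.bnd x hx, fun x hx => h.bnd x fun y => (polar_comm Q x y).trans (hx y)⟩
      refine ⟨(LinearMap.BilinForm.toDual (polarBilin Q) hnd).symm φ, ?_, ?_⟩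
      all_goals rw [polar_comm, ← polarBilin_apply_apply,
        LinearMap.BilinForm.apply_toDual_symm_apply (hB := hnd)]
      exacts [hφu, hφv v (Submodule.mem_span_singleton_self v)]
    have hTz : z - T.1 z = u := by
      rw [hT, Subgroup.coe_mul, LinearEquiv.mul_apply, OrthGen.reflQ_fix Q hv0 hzv, reflQ_apply,
        hzu, hQu, inv_one, one_mul, one_smul]
      abel
    have hmem : C.proj r u ∈ Submodule.span F (Set.range ![u, v]) := by
      have h' := congrArg (C.proj r) hTz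
      rw [map_sub, hcomm] at h'
      rw [← h']
      exact refl_pair_sub_mem hu0 hv0 _
    rw [Matrix.range_cons, Matrix.range_cons, Matrix.range_empty, Set.union_empty,
      Set.singleton_union, Submodule.mem_span_pair] at hmem
    obtain ⟨α, β, hαβ⟩ := hmem
    have hβ : β ≠ 0 := fun e => hru (Submodule.mem_span_singleton.2 ⟨α, by
      rw [← hαβ, e, zero_smul, add_zero]⟩)
    refine ⟨-(β⁻¹ * α), β⁻¹, ?_⟩
    rw [← hαβ, smul_add, smul_smul, smul_smul, inv_mul_cancel₀ hβ, one_smul, neg_smul]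
    abel
  have hle : (D i).map g.1.toLinearMap ≤ Submodule.span F (Set.range ![u, C.proj r u]) := by
    rw [Submodule.map_le_iff_le_comap]
    exact ((h.nd i).span_value (h.le_dim i) (h.two_dim i) 1).trans
      (Submodule.span_le.2 fun b hb => key b hb.1 hb.2)
  have h1 := Submodule.finrank_mono hle
  have h2 := finrank_range_le_card (R := F) ![u, C.proj r u]
  simp only [Fintype.card_fin] at h2
  rw [LinearEquiv.finrank_map_eq g.1, h.dec.finrank_eq] at h1
  unfold Set.finrank at h2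
  have := h.three
  omega

/-- A related vector with two components. -/
theorem exists_seed (C : Components D) {g : OQ Q} (hgM : g ∈ M) (hg : g ∉ decSub Q D) :
    ∃ c : F, c ≠ 0 ∧ ∃ w ∈ Rel M D c, ∃ j l, j ≠ l ∧ C.proj j w ≠ 0 ∧ C.proj l w ≠ 0 := by
  classical
  obtain ⟨u, v, hu0, hv0, hQu, hQv, hTM, hT⟩ := exists_pair_outside h hM hgM hg
  set T := reflQ Q u hu0 * reflQ Q v hv0 with hTdef
  by_cases hA : ∃ s, ∃ a ∈ D s, polar Q u a = 0 ∧ polar Q v a = 0 ∧ Q a ≠ 0
  · obtain ⟨s, a₀, ha₀, h1, h2, hQa⟩ := hA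
    refine ⟨Q a₀, hQa, ?_⟩
    obtain ⟨i, b, hb, hQb, hTb⟩ : ∃ i, ∃ b ∈ D i, Q b = Q a₀ ∧ ∀ p, T.1 b ∉ D p := by
      by_contra hno
      push Not at hno
      exact hT (mem_decSub_of_value h hQa hno)
    have hw : T.1 b ∈ Rel M D (Q a₀) := rel_map h.toIsOrthDec hM hTM ha₀
      (by rw [hTdef, refl_pair_fix hu0 hv0 h1 h2]; exact ha₀) rfl
      (block_mem_rel h.toIsOrthDec hM hb hQb)
    obtain ⟨j, hj⟩ : ∃ j, C.proj j (T.1 b) ≠ 0 := by
      by_contra hz
      push Not at hz
      exact hTb i (C.mem_of_forall fun l _ => hz l)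
    refine ⟨_, hw, j, ?_⟩
    by_contra hno
    push Not at hno
    exact hTb j (C.mem_of_forall fun l hl => hno l (Ne.symm hl) hj)
  push Not at hA
  -- no member has a fixed vector of non-zero value
  have hdimle : ∀ (s : Fin t) (U : Submodule F (ι → F)), U ≤ D s → (∀ z ∈ U, Q z = 0) →
      2 * finrank F U ≤ k := fun s U hU hz => by
    have := OrthGen.two_mul_finrank_le (h.nd s).restrict (U.comap (D s).subtype) fun z hz' => hz z hz'
    rwa [(Submodule.comapSubtypeEquivOfLe hU).finrank_eq, h.dec.finrank_eq] at this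
  have hker : ∀ s, k ≤ finrank F
      ↥(D s ⊓ LinearMap.ker (polarBilin Q u) ⊓ LinearMap.ker (polarBilin Q v)) + 2 := fun s => by
    have := fun (S : Submodule F (ι → F)) (f : (ι → F) →ₗ[F] F) =>
      show finrank F S ≤ finrank F ↥(S ⊓ LinearMap.ker f) + 1 by
        by_cases hz : ∃ z ∈ S, f z ≠ 0
        · have := Forms.finrank_eq_inf_ker_add_one S f hz; omega
        · push Not at hz
          have hSf : S ≤ S ⊓ LinearMap.ker f := le_inf le_rfl fun z hz' => hz z hz'
          have := Submodule.finrank_mono hSf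
          omega
    have h1 := this (D s) (polarBilin Q u)
    have h2 := this (D s ⊓ LinearMap.ker (polarBilin Q u)) (polarBilin Q v)
    rw [h.dec.finrank_eq] at h1
    omega
  have hu_s : ∀ s, C.proj s u ≠ 0 := fun s e => by
    obtain ⟨a, ha, hva, hQa⟩ := h.hyperplane_value s v
    refine hQa (hA s a ha ?_ hva)
    rw [polar_comm, h.toIsOrthDec.polar_proj C ha, e, polar_zero_right]
  have hk4 : k ≤ 4 := by
    have h0 : Nonempty (Fin t) := ⟨⟨0, by have := h.dec.two_le; omega⟩⟩
    obtain ⟨s⟩ := h0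
    have := hdimle s (D s ⊓ LinearMap.ker (polarBilin Q u) ⊓ LinearMap.ker (polarBilin Q v))
      (inf_le_left.trans inf_le_left) fun z hz => hA s z hz.1.1 hz.1.2 hz.2
    have := hker s
    omega
  have hkt : 9 ≤ k * t := by
    obtain ⟨b, -⟩ := ClassicalMax.exists_adapted_basis h.dec
    have := Module.finrank_eq_card_basis b
    rw [Fintype.card_prod, Fintype.card_fin, Fintype.card_fin] at this
    have := h.card
    omega
  have ht3 : 3 ≤ t := by nlinarith
  obtain ⟨J, hJ⟩ := (⟨Fin.castLE ht3, Fin.castLE_injective ht3⟩ :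
    ∃ j : Fin 3 → Fin t, Function.Injective j)
  choose a ha hva hQa hoff using fun s => h.hyperplane_value_off s v (C.proj s u)
  obtain ⟨i₁, i₂, h12, hsq⟩ : ∃ i₁ i₂ : Fin 3, i₁ ≠ i₂ ∧
      IsSquare (Q (a (J i₁)) * Q (a (J i₂))) := by
    by_cases h2 : (2 : F) = 0
    · exact ⟨0, 1, by decide, isSquare_of_two h2 _⟩
    obtain ⟨i₁, i₂, hne, he⟩ := Fintype.exists_ne_map_eq_of_card_lt
      (fun i : Fin 3 => decide (IsSquare (Q (a (J i))))) (by simp)
    exact ⟨i₁, i₂, hne, OrthGen.isSquare_mul_iff_same (hQa _) (hQa _) (by simpa using he)⟩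
  set l := J i₁ with hl
  set r := J i₂ with hr
  have hlr : l ≠ r := hJ.ne h12
  obtain ⟨i₃, h31, h32⟩ : ∃ i : Fin 3, i ≠ i₁ ∧ i ≠ i₂ ∧ True := by
    obtain ⟨i, -, hi⟩ := Finset.exists_mem_notMem_of_card_lt_card
      (s := ({i₁, i₂} : Finset (Fin 3))) (t := Finset.univ)
      (by rw [Finset.card_univ, Fintype.card_fin]
          exact lt_of_le_of_lt Finset.card_le_two (by norm_num))
    simp only [Finset.mem_insert, Finset.mem_singleton, not_or] at hi
    exact ⟨i, hi.1, hi.2, trivial⟩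
  set s := J i₃ with hs
  have hsl : s ≠ l := hJ.ne h31
  have hsr : s ≠ r := hJ.ne h32.1
  obtain ⟨μ₀, hμ₀⟩ := hsq
  obtain ⟨b', hb', hvb', hQb'⟩ : ∃ b' ∈ D r, polar Q v b' = 0 ∧ Q b' = Q (a l) := by
    refine ⟨(μ₀ / Q (a r)) • a r, (D r).smul_mem _ (ha r), by rw [polar_smul_right, hva, smul_zero], ?_⟩
    rw [QuadraticMap.map_smul, smul_eq_mul]
    have := hQa r
    field_simp
    linear_combination -hμ₀
  have hb'0 : Q b' ≠ 0 := hQb' ▸ hQa l
  set α := polar Q u (a l) with hαdef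
  set β := polar Q u b' with hβdef
  have hα : α ≠ 0 := fun e => hQa l (hA l _ (ha l) e (hva l))
  have hβ : β ≠ 0 := fun e => hb'0 (hA r _ hb' e hvb')
  have hTapp : ∀ x, polar Q v x = 0 → T.1 x = x - polar Q u x • u := fun x hx => by
    rw [hTdef, Subgroup.coe_mul, LinearEquiv.mul_apply, OrthGen.reflQ_fix Q hv0 hx, reflQ_apply,
      hQu, inv_one, one_mul]
  set u₁ := T.1 (a l) with hu₁def
  set v₁ := T.1 b' with hv₁def
  have hu₁ : u₁ = a l - α • u := hTapp _ (hva l)
  have hv₁ : v₁ = b' - β • u := hTapp _ hvb'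
  have hu₁0 : Q u₁ ≠ 0 := by rw [hu₁def, OQ_map_app]; exact hQa l
  have hv₁0 : Q v₁ ≠ 0 := by rw [hv₁def, OQ_map_app]; exact hb'0
  have hT'M : reflQ Q u₁ hu₁0 * reflQ Q v₁ hv₁0 ∈ M := by
    have := mul_mem (mul_mem hTM (block_pair_mem h.toIsOrthDec hM (ha l) hb' (hQa l) hb'0
      ⟨Q (a l), by rw [hQb']⟩)) (inv_mem hTM)
    rwa [show T * (reflQ Q (a l) (hQa l) * reflQ Q b' hb'0) * T⁻¹ =
      (T * reflQ Q (a l) (hQa l) * T⁻¹) * (T * reflQ Q b' hb'0 * T⁻¹) by group,
      reflQ_conj Q T _ (hQa l) hu₁0, reflQ_conj Q T _ hb'0 hv₁0] at this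
  obtain ⟨a₀, ha₀, hua₀, hQa₀, ha₀k⟩ : ∃ a₀ ∈ D s, polar Q u a₀ = 0 ∧ Q a₀ ≠ 0 ∧
      (k = 3 → ∀ γ : F, γ * γ * Q (C.proj s u) ≠ Q a₀) := by
    by_cases hks : k = 3 ∧ Q (C.proj s u) ≠ 0
    · -- a value outside the square class of the component of `u`
      obtain ⟨hk3, hq0⟩ := hks
      have h2F : (2 : F) ≠ 0 := fun e => by have := h.two e; omega
      obtain ⟨ε, hε⟩ := FiniteField.exists_nonsquare (F := F) fun hc => h2F (by
        haveI := ringChar.of_eq hc
        exact_mod_cast CharP.cast_eq_zero F 2)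
      have hε0 : ε ≠ 0 := fun e => hε (e ▸ IsSquare.zero)
      set P := D s ⊓ LinearMap.ker (polarBilin Q u) with hP
      set d := C.proj s u with hd
      have hud : polar Q u d = Q d + Q d := by
        rw [polar_comm, h.toIsOrthDec.polar_proj C (C.mem s u), QuadraticMap.polar_self, ← hd,
          two_nsmul]
      have hud0 : polar Q u d ≠ 0 := by
        rw [hud, ← two_mul]
        exact mul_ne_zero h2F hq0
      have hsplit : ∀ y ∈ D s, y - (polar Q u y / polar Q u d) • d ∈ P := fun y hy =>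
        ⟨(D s).sub_mem hy ((D s).smul_mem _ (C.mem s u)), by
          show polar Q u _ = 0
          rw [polar_sub_right, polar_smul_right, smul_eq_mul, div_mul_cancel₀ _ hud0, sub_self]⟩
      have hnd : NdOn Q P := fun z hz hzz => h.nd s z hz.1 fun y hy => by
        have hzd : polar Q z d = 0 := by
          rw [hd, ← h.toIsOrthDec.polar_proj C hz.1, polar_comm]
          exact hz.2
        have h1 := hzz _ (hsplit y hy)
        rwa [polar_sub_right, polar_smul_right, hzd, smul_zero, sub_zero] at h1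
      have hPd : 2 ≤ finrank F P := by
        by_cases hz : ∃ z ∈ D s, polarBilin Q u z ≠ 0
        · have := Forms.finrank_eq_inf_ker_add_one (D s) (polarBilin Q u) hz
          rw [h.dec.finrank_eq, ← hP] at this
          omega
        · push Not at hz
          exact absurd (hz d (C.mem s u)) hud0
      obtain ⟨x, hx, hQx⟩ := hnd.exists_value hPd (ε * Q d)
      refine ⟨x, hx.1, hx.2, by rw [hQx]; exact mul_ne_zero hε0 hq0, fun _ γ e => hε ⟨γ, ?_⟩⟩
      exact (mul_right_cancel₀ hq0 (e.trans hQx)).symm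
    · obtain ⟨x, hx, hux, hQx⟩ := h.hyperplane_value s u
      refine ⟨x, hx, hux, hQx, fun hk3 γ e => hQx ?_⟩
      have hq0 : Q (C.proj s u) = 0 := by_contra fun hne => hks ⟨hk3, hne⟩
      rw [← e, hq0, mul_zero]
  have hfix : (reflQ Q u₁ hu₁0 * reflQ Q v₁ hv₁0).1 a₀ = a₀ := by
    apply refl_pair_fix
    · rw [hu₁, polar_sub_left, polar_smul_left, hua₀, h.orth l s hsl.symm _ (ha l) _ ha₀]
      simp
    · rw [hv₁, polar_sub_left, polar_smul_left, hua₀, h.orth r s hsr.symm _ hb' _ ha₀]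
      simp
  obtain ⟨b, hb, hub, hQb⟩ : ∃ b ∈ D s, polar Q u b ≠ 0 ∧ Q b = Q a₀ := by
    by_contra hno
    push Not at hno
    have hle : D s ≤ LinearMap.ker (polarBilin Q u) :=
      ((h.nd s).span_value (h.le_dim s) (h.two_dim s) (Q a₀)).trans (Submodule.span_le.2 fun z hz =>
        by_contra fun hne => hno z hz.1 hne hz.2)
    exact hu_s s (h.nd s _ (C.mem s u) fun y hy => by
      rw [polar_comm, ← h.toIsOrthDec.polar_proj C hy, polar_comm]
      exact hle hy)
  refine ⟨Q a₀, hQa₀, _, rel_map h.toIsOrthDec hM hT'M ha₀ (by rw [hfix]; exact ha₀) rfl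
    (block_mem_rel h.toIsOrthDec hM hb hQb), ?_⟩
  -- the components of the image
  set μ := (Q v₁)⁻¹ * polar Q v₁ b with hμdef
  have hμ : μ ≠ 0 := by
    refine mul_ne_zero (inv_ne_zero hv₁0) ?_
    rw [hv₁, polar_sub_left, polar_smul_left, h.orth r s hsr.symm _ hb' _ hb, zero_sub, smul_eq_mul]
    exact neg_ne_zero.2 (mul_ne_zero hβ hub)
  set ν := (Q u₁)⁻¹ * polar Q u₁ (b - μ • v₁) with hνdef
  have hw : (reflQ Q u₁ hu₁0 * reflQ Q v₁ hv₁0).1 b =
      b - μ • b' - ν • a l + (μ * β + ν * α) • u := by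
    rw [Subgroup.coe_mul, LinearEquiv.mul_apply, reflQ_apply Q v₁ hv₁0 b, ← hμdef,
      reflQ_apply Q u₁ hu₁0, ← hνdef, hu₁, hv₁]
    module
  rw [hw]
  set γ := μ * β + ν * α
  have hproj : ∀ q, C.proj q (b - μ • b' - ν • a l + γ • u) =
      C.proj q b - μ • C.proj q b' - ν • C.proj q (a l) + γ • C.proj q u := fun q => by
    simp only [map_add, map_sub, map_smul]
  have hproj_s : C.proj s (b - μ • b' - ν • a l + γ • u) = b + γ • C.proj s u := by
    rw [hproj, C.of_mem hb, C.of_mem_ne hsr.symm hb', C.of_mem_ne hsl.symm (ha l)]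
    simp only [smul_zero, sub_zero]
  have hproj_r : C.proj r (b - μ • b' - ν • a l + γ • u) = -(μ • b') + γ • C.proj r u := by
    rw [hproj, C.of_mem_ne hsr hb, C.of_mem hb', C.of_mem_ne hlr (ha l)]
    simp only [smul_zero, sub_zero, zero_sub]
  rcases Nat.lt_or_ge k 4 with hk3 | hk4'
  · -- members of dimension three
    have hk3 : k = 3 := by have := h.three; omega
    have hs0 : C.proj s (b - μ • b' - ν • a l + γ • u) ≠ 0 := by
      rw [hproj_s]
      intro e
      apply ha₀k hk3 γ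
      rw [← hQb, eq_neg_of_add_eq_zero_left e, QuadraticMap.map_neg, QuadraticMap.map_smul,
        smul_eq_mul]
    by_cases hγ : γ = 0
    · refine ⟨s, r, hsr, hs0, ?_⟩
      rw [hproj_r, hγ, zero_smul, add_zero, neg_ne_zero]
      exact smul_ne_zero hμ fun e => hb'0 (by rw [e, map_zero])
    refine ⟨s, l, hsl, hs0, ?_⟩
    rw [hproj, C.of_mem_ne hsl hb, C.of_mem_ne hlr.symm hb', C.of_mem (ha l)]
    intro e
    have e1 : ν • a l = γ • C.proj l u := by
      simp only [smul_zero, sub_zero, zero_sub, neg_add_eq_zero] at e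
      exact e
    have hν : ν ≠ 0 := fun e0 => smul_ne_zero hγ (hu_s l) (by rw [← e1, e0, zero_smul])
    exact hoff l hk3 (Submodule.mem_span_singleton.2
      ⟨ν⁻¹ * γ, by rw [← smul_smul, ← e1, inv_smul_smul₀ hν]⟩)
  -- members of dimension four: the components of `u` are singular
  have hus : ∀ q, Q (C.proj q u) = 0 := by
    intro q
    by_contra hne
    obtain ⟨K, hKdef⟩ : ∃ K : Submodule F (ι → F),
        K = D q ⊓ LinearMap.ker (polarBilin Q u) ⊓ LinearMap.ker (polarBilin Q v) := ⟨_, rfl⟩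
    have hK0 : ∀ z ∈ K, Q z = 0 := fun z hz => by
      rw [hKdef] at hz
      exact hA q z hz.1.1 hz.1.2 hz.2
    have hKle : K ≤ D q := hKdef ▸ inf_le_left.trans inf_le_left
    set K₀ := K.comap (D q).subtype with hK₀
    have hd := OrthGen.finrank_orthogonal_polar (h.nd q).restrict K₀
    rw [hK₀, (Submodule.comapSubtypeEquivOfLe hKle).finrank_eq, h.dec.finrank_eq, ← hK₀] at hd
    set w₀ : D q := ⟨C.proj q u, C.mem q u⟩
    have hw₀ : w₀ ∈ OrthGen.perpSub (Q.comp (D q).subtype) K₀ := fun z hz => by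
      show polar Q (z : ι → F) (C.proj q u) = 0
      rw [← h.toIsOrthDec.polar_proj C z.2, polar_comm]
      have hz' : (z : ι → F) ∈ D q ⊓ LinearMap.ker (polarBilin Q u) ⊓
          LinearMap.ker (polarBilin Q v) := hKdef ▸ hz
      exact hz'.1.2
    have hle : K₀ ⊔ (F ∙ w₀) ≤ OrthGen.perpSub (Q.comp (D q).subtype) K₀ := by
      refine sup_le (fun z hz y hy => ?_) ((Submodule.span_singleton_le_iff_mem _ _).2 hw₀)
      show polar Q (y : ι → F) (z : ι → F) = 0
      exact Forms.polar_eq_zero_of_totallySingular (fun x hx => hK0 x hx) hy hz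
    have hlt : K₀ < K₀ ⊔ (F ∙ w₀) := lt_of_le_of_ne le_sup_left fun he => hne (by
      have : w₀ ∈ K₀ := he ▸ Submodule.mem_sup_right (Submodule.mem_span_singleton_self w₀)
      exact hK0 _ this)
    have h1 := Submodule.finrank_lt_finrank_of_lt hlt
    have h2 := Submodule.finrank_mono hle
    rw [hK₀, (Submodule.comapSubtypeEquivOfLe hKle).finrank_eq, ← hK₀] at h1
    have h3 := hker q
    rw [← hKdef] at h3
    have h4 := hdimle q K hKle hK0
    omega
  refine ⟨s, r, hsr, ?_, ?_⟩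
  · rw [hproj_s]
    intro e
    apply hQa₀
    rw [← hQb, eq_neg_of_add_eq_zero_left e, QuadraticMap.map_neg, QuadraticMap.map_smul, hus,
      smul_zero]
  · rw [hproj_r]
    intro e
    apply mul_ne_zero (mul_ne_zero hμ hμ) hb'0
    have h1 := congrArg Q (neg_add_eq_zero.1 e)
    rw [QuadraticMap.map_smul, QuadraticMap.map_smul, hus, smul_zero, smul_eq_mul] at h1
    exact h1

omit hM in
theorem commutator_not_le_decSub : ¬ commutator (OQ Q) ≤ decSub Q D := by
  intro hle
  obtain ⟨C⟩ := exists_components h.dec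
  have ht := h.dec.two_le
  set i : Fin t := ⟨0, by omega⟩
  set j : Fin t := ⟨1, by omega⟩
  have hij : i ≠ j := by simp [i, j]
  obtain ⟨a, ha, hQa⟩ := (h.nd i).exists_value (by have := h.le_dim i; omega) 1
  obtain ⟨y, hy, hy0, hQy⟩ := Forms.exists_singular_vector_of_three_le Q (h.le_dim j)
  have ha0 : Q a ≠ 0 := hQa ▸ one_ne_zero
  have hQx : Q (a + y) = 1 := by rw [qf_add, hQa, hQy, h.orth i j hij a ha y hy]; simp
  have hx0 : Q (a + y) ≠ 0 := hQx ▸ one_ne_zero
  have hmem : reflQ Q (a + y) hx0 ∈ decSub Q D := by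
    have := mul_mem (hle (refl_pair_mem_commutator h.toIsOrthDec hx0 ha0 ⟨1, by rw [hQx, hQa]⟩))
      (h.toIsOrthDec.refl_mem_decSub ha ha0)
    rwa [mul_assoc, reflQ_mul_self, mul_one] at this
  obtain ⟨σ, hσ⟩ := exists_perm_of_mem_decSub hmem
  have hane : a ≠ 0 := fun e => ha0 (by rw [e, map_zero])
  obtain ⟨b, hb, hab, hba⟩ : ∃ b ∈ D i, polar Q a b = 1 ∧ b ≠ a := by
    obtain ⟨b, hb, hab⟩ := (h.nd i).exists_polar_one ha hane
    rcases eq_or_ne b a with rfl | hne
    · obtain ⟨e, he, hbe, hQe⟩ := h.hyperplane_value i b |>.imp fun e => id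
      exact ⟨b + e, (D i).add_mem hb he, by rw [polar_add_right, hab, hbe, add_zero],
        fun e0 => hQe (by rw [add_eq_left.1 e0, map_zero])⟩
    · exact ⟨b, hb, hab, hne⟩
  have himg : (reflQ Q (a + y) hx0).1 b ∈ D (σ i) := by rw [← hσ i]; exact ⟨b, hb, rfl⟩
  rw [reflQ_apply, hQx, inv_one, one_mul, polar_add_left, hab,
    show polar Q y b = 0 by rw [polar_comm]; exact h.orth i j hij b hb y hy, add_zero, one_smul] at himg
  rcases eq_or_ne (σ i) i with e | e
  · rw [e] at himg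
    have := C.of_mem_ne hij himg
    rw [map_sub, map_add, C.of_mem_ne hij hb, C.of_mem_ne hij ha, C.of_mem hy] at this
    simp [hy0] at this
  · have := C.of_mem_ne e himg
    rw [map_sub, map_add, C.of_mem hb, C.of_mem ha, C.of_mem_ne hij.symm hy, add_zero, sub_eq_zero] at this
    exact hba this

omit hM in
/-- Stabilisers of orthogonal decompositions with members of dimension at least three are maximal. -/
theorem orth_decomposition_maximal_big :
    Cfsg.Geo.IsMaximalIn (commutator (OQ Q)) (decSub Q D ⊓ commutator (OQ Q)) := by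
  refine ⟨lt_of_le_not_ge inf_le_right fun hle =>
    commutator_not_le_decSub h (hle.trans inf_le_left), fun M hM hMK => ?_⟩
  by_cases hMD : M ≤ decSub Q D
  · exact Or.inl (le_antisymm (le_inf hMD hMK) hM)
  refine Or.inr (le_antisymm hMK ?_)
  obtain ⟨g, hgM, hg⟩ := SetLike.not_le_iff_exists.1 hMD
  obtain ⟨C⟩ := exists_components h.dec
  obtain ⟨c, hc, w, hw, hw2⟩ := exists_seed h hM C hgM hg
  exact commutator_le_of_rel_all h.toIsOrthDec hM (le_trans (by norm_num) h.three) hc
    (rel_all h C hM hc hw hw2)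

end Cfsg.Agent.DecompMax
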