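import Cfsg.Agent.DecompMax.PlaneSub
import Cfsg.Agent.DecompMax.OrthRel

/-!
Orthogonal decompositions into planes: counting on the members, moves inside two members, and
interchanges of two members.
-/

set_option autoImplicit false
set_option linter.style.haveILetI false

namespace Cfsg.Agent.DecompMax

open QuadraticMap Module Cfsg.Agent.Classical Cfsg.Agent.GeoClasses
open scoped MatrixGroups

universe u

variable {F : Type u} [Field F] {ι : Type} [Fintype ι] [DecidableEq ι]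
variable {Q : QuadraticForm F (ι → F)} {t : ℕ} {D : Fin t → Submodule F (ι → F)}

/-- An orthogonal decomposition into planes, outside the exceptions. -/
structure IsPlaneDec (Q : QuadraticForm F (ι → F)) (D : Fin t → Submodule F (ι → F)) : Prop
    extends IsOrthDec Q 2 D where
  good : ((∀ i, ∀ x ∈ D i, Q x = 0 → x = 0) ∧ Nat.card F ≠ 3) ∨ 7 ≤ Nat.card F

variable (h : IsPlaneDec Q D)
include h

theorem IsPlaneDec.dim (i : Fin t) : finrank F (D i) = 2 := h.dec.finrank_eq i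

theorem IsPlaneDec.five : 5 ≤ t := by
  obtain ⟨b, -⟩ := ClassicalMax.exists_adapted_basis h.dec
  have := Module.finrank_eq_card_basis b
  rw [Fintype.card_prod, Fintype.card_fin, Fintype.card_fin] at this
  have := h.card
  omega

theorem IsPlaneDec.cases : ((∀ i, ∀ x ∈ D i, Q x = 0 → x = 0) ∧ Nat.card F ≠ 3) ∨
    ((∀ i, ∃ e ∈ D i, e ≠ 0 ∧ Q e = 0) ∧ 7 ≤ Nat.card F) := by
  by_cases ha : ∀ i, ∀ x ∈ D i, Q x = 0 → x = 0
  · exact Or.inl ⟨ha, h.good.elim And.right fun h7 => by omega⟩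
  push Not at ha
  obtain ⟨i, x, hx, hQ, hx0⟩ := ha
  refine Or.inr ⟨fun j => ?_, h.good.resolve_left fun hl => hx0 (hl.1 i x hx hQ)⟩
  obtain ⟨e, he⟩ := h.iso i j
  refine ⟨e ⟨x, hx⟩, (e _).2, fun e0 => hx0 ?_, (he ⟨x, hx⟩).trans hQ⟩
  have : (⟨x, hx⟩ : D i) = 0 := e.map_eq_zero_iff.1 (Subtype.ext e0)
  exact congrArg Subtype.val this

/-- A member has a vector outside a small set of exceptions. -/
theorem IsPlaneDec.exists_ne_of_three (s : Finset (Fin t)) (hs : s.card < t) : ∃ m, m ∉ s := by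
  have := h.dim
  obtain ⟨m, -, hm⟩ := Finset.exists_mem_notMem_of_card_lt_card (s := s) (t := Finset.univ)
    (by rw [Finset.card_univ, Fintype.card_fin]; exact hs)
  exact ⟨m, hm⟩

variable [Finite F]

theorem IsPlaneDec.sphere_ge (i : Fin t) {c : F} (hc : c ≠ 0) :
    3 ≤ (sphere Q (D i) c).ncard ∧ ((2 : F) ≠ 0 → 5 ≤ (sphere Q (D i) c).ncard) := by
  haveI := Fintype.ofFinite F
  obtain ⟨h1, h2⟩ := plane_sphere_ge (h.nd i) (h.dim i) hc
  rcases h.cases with ⟨ha, h3⟩ | ⟨-, h7⟩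
  · have h1' := h1 (ha i)
    have hq : 2 ≤ Nat.card F := Finite.one_lt_card
    refine ⟨by omega, fun h20 => ?_⟩
    have : Nat.card F ≠ 2 := fun hq2 => h20 (by
      have h0 := FiniteField.cast_card_eq_zero F
      rw [← Nat.card_eq_fintype_card, hq2] at h0
      simpa using h0)
    omega
  · exact ⟨by omega, fun _ => by omega⟩

omit [Finite F] in
theorem IsPlaneDec.span_sphere_le (i : Fin t) {c : F} (hc : c ≠ 0) (x : ι → F) :
    ∃ y₀ : ι → F, {y | y ∈ sphere Q (D i) c ∧ y ∈ F ∙ x} ⊆ {y₀, -y₀} := by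
  by_cases hne : ∃ y, y ∈ sphere Q (D i) c ∧ y ∈ F ∙ x
  · obtain ⟨y₀, ⟨-, hQ₀⟩, hm₀⟩ := hne
    refine ⟨y₀, fun y ⟨⟨_, hQy⟩, hm⟩ => ?_⟩
    obtain ⟨μ₀, rfl⟩ := Submodule.mem_span_singleton.1 hm₀
    obtain ⟨μ, rfl⟩ := Submodule.mem_span_singleton.1 hm
    rw [QuadraticMap.map_smul, smul_eq_mul] at hQ₀ hQy
    have hQx : Q x ≠ 0 := fun e => hc (by rw [← hQ₀, e, mul_zero])
    have : (μ - μ₀) * (μ + μ₀) = 0 := by
      apply mul_right_cancel₀ hQx
      linear_combination hQy - hQ₀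
    rcases mul_eq_zero.1 this with e | e
    · exact Or.inl (by rw [sub_eq_zero.1 e])
    · exact Or.inr (by rw [eq_neg_of_add_eq_zero_left e, neg_smul]; rfl)
  · exact ⟨0, fun y hy => (hne ⟨y, hy⟩).elim⟩

/-- A vector of prescribed value, not orthogonal to `z` and not on the line of `x`. -/
theorem IsPlaneDec.exists_avoid (i : Fin t) {z : ι → F} (hz : z ∈ D i) (hz0 : z ≠ 0) (x : ι → F)
    {c : F} (hc : c ≠ 0) : ∃ y ∈ D i, Q y = c ∧ polar Q z y ≠ 0 ∧ y ∉ F ∙ x := by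
  classical
  haveI : Finite (ι → F) := Module.finite_of_finite F
  by_contra hno
  push Not at hno
  set P := {y | y ∈ sphere Q (D i) c ∧ polar Q z y = 0}
  obtain ⟨y₀, hS⟩ := h.span_sphere_le i hc x
  have hsub : sphere Q (D i) c ⊆ P ∪ {y₀, -y₀} := fun y hy => by
    by_cases hp : polar Q z y = 0
    · exact Or.inl ⟨hy, hp⟩
    · exact Or.inr (hS ⟨hy, hno y hy.1 hy.2 hp⟩)
  have h1 := (Set.ncard_le_ncard hsub (Set.toFinite _)).trans (Set.ncard_union_le _ _)
  have h2 := plane_fibre_le (h.nd i) (h.dim i) hz hz0 hc (0 : F)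
  obtain ⟨h3, h5⟩ := h.sphere_ge i hc
  by_cases h20 : (2 : F) = 0
  · have hneg : ∀ w : ι → F, -w = w := fun w => by
      rw [neg_eq_iff_add_eq_zero, ← two_smul F w, h20, zero_smul]
    obtain ⟨z₀, hz₀⟩ := h.span_sphere_le i hc z
    have hP : P ⊆ {z₀, -z₀} := fun y hy => hz₀ ⟨hy.1, plane_perp_dep (h.nd i) (h.dim i) hz hz0 hz
      hy.1.1 hz0 (by rw [OrthGen.polar_self_two, h20, zero_mul]) hy.2⟩
    have h4 := Set.ncard_le_ncard hP (Set.toFinite _)
    rw [hneg, Set.pair_eq_singleton, Set.ncard_singleton] at h4 h1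
    omega
  · have h4 : ({y₀, -y₀} : Set (ι → F)).ncard ≤ 2 :=
      (Set.ncard_insert_le _ _).trans (by rw [Set.ncard_singleton])
    have := h5 h20
    change P.ncard ≤ 2 at h2
    omega

omit [Finite F] in
theorem polar_sub_self_value {x y : ι → F} (hQ : Q y = Q x) :
    polar Q x (y - x) = -Q (y - x) := by
  rw [qf_sub, polar_sub_right, OrthGen.polar_self_two, hQ, polar_comm Q y x]
  ring

/-- Two non-singular vectors of two members can be moved by vectors with cancelling values. -/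
theorem IsPlaneDec.exists_move_pair {j l : Fin t} {x y : ι → F} (hx : x ∈ D j) (hy : y ∈ D l)
    (hx0 : Q x ≠ 0) (hy0 : Q y ≠ 0) : ∃ δ ∈ D j, ∃ ε ∈ D l, Q δ ≠ 0 ∧ Q δ + Q ε = 0 ∧
      polar Q x δ = -Q δ ∧ polar Q y ε = -Q ε := by
  classical
  haveI : Finite (ι → F) := Module.finite_of_finite F
  haveI := Fintype.ofFinite F
  rcases h.cases with ⟨ha, -⟩ | ⟨hs, h7⟩
  · have key : ∀ {i : Fin t} {z : ι → F}, z ∈ D i → Q z ≠ 0 → ∃ T : Finset F, (0 : F) ∉ T ∧
        Nat.card F ≤ 2 * T.card ∧ ∀ σ ∈ T, ∃ δ ∈ D i, Q δ = σ ∧ polar Q z δ = -σ := by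
      intro i z hz hz0
      set S := (Set.toFinite (sphere Q (D i) (Q z))).toFinset.erase z with hS
      have hS' : ∀ w ∈ S, w ≠ z ∧ w ∈ D i ∧ Q w = Q z := fun w hw => by
        simp only [hS, Finset.mem_erase, Set.Finite.mem_toFinset] at hw
        exact ⟨hw.1, hw.2.1, hw.2.2⟩
      refine ⟨S.image fun w => Q (w - z), ?_, ?_, fun σ hσ => ?_⟩
      · simp only [Finset.mem_image, not_exists, not_and]
        intro w hw e
        obtain ⟨h1, h2, -⟩ := hS' w hw
        exact sub_ne_zero.2 h1 (ha i _ ((D i).sub_mem h2 hz) e)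
      · have h1 : S.card ≤ 2 * (S.image fun w => Q (w - z)).card := by
          refine Finset.card_le_mul_card_image _ _ fun σ _ => ?_
          have hf := plane_fibre_le (h.nd i) (h.dim i) hz (fun e => hz0 (by rw [e, map_zero])) hz0
            (2 * Q z - σ)
          refine le_trans ?_ hf
          rw [← Set.ncard_coe_finset]
          refine Set.ncard_le_ncard (fun w hw => ?_) (Set.toFinite _)
          simp only [Finset.coe_filter, Set.mem_ofPred_eq] at hw
          obtain ⟨-, h2, h3⟩ := hS' w hw.1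
          refine ⟨⟨h2, h3⟩, ?_⟩
          have e := hw.2
          rw [qf_sub, h3, polar_comm Q w z] at e
          linear_combination -e
        have h2 : (sphere Q (D i) (Q z)).ncard ≤ S.card + 1 := by
          rw [hS, Finset.card_erase_of_mem (by simp [sphere, hz]), ← Set.ncard_eq_toFinset_card]
          omega
        have := (plane_sphere_ge (h.nd i) (h.dim i) hz0).1 (ha i)
        omega
      · simp only [Finset.mem_image] at hσ
        obtain ⟨w, hw, rfl⟩ := hσ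
        obtain ⟨-, h2, h3⟩ := hS' w hw
        exact ⟨w - z, (D i).sub_mem h2 hz, rfl, polar_sub_self_value h h3⟩
    obtain ⟨T, hT0, hTc, hT⟩ := key hx hx0
    obtain ⟨T', hT'0, hT'c, hT'⟩ := key hy hy0
    obtain ⟨σ, hσ, hσ'⟩ : ∃ σ ∈ T, -σ ∈ T' := by
      by_contra hno
      push Not at hno
      have hd : Disjoint T (T'.image fun σ => -σ) := by
        rw [Finset.disjoint_left]
        intro σ hσ hσ'
        simp only [Finset.mem_image] at hσ'
        obtain ⟨ρ, hρ, rfl⟩ := hσ'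
        exact hno _ hσ (by rwa [neg_neg])
      have hle : (T ∪ T'.image fun σ => -σ) ⊆ Finset.univ.erase 0 := fun σ hσ => by
        simp only [Finset.mem_union, Finset.mem_image] at hσ
        simp only [Finset.mem_erase, Finset.mem_univ, and_true]
        rintro rfl
        rcases hσ with hσ | ⟨ρ, hρ, e⟩
        · exact hT0 hσ
        · exact hT'0 ((neg_eq_zero.1 e) ▸ hρ)
      have := Finset.card_le_card hle
      rw [Finset.card_union_of_disjoint hd, Finset.card_image_of_injective _ neg_injective,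
        Finset.card_erase_of_mem (Finset.mem_univ _), Finset.card_univ,
        ← Nat.card_eq_fintype_card] at this
      have : 0 < Nat.card F := Nat.card_pos
      omega
    obtain ⟨δ, hδ, hQδ, hpδ⟩ := hT σ hσ
    obtain ⟨ε, hε, hQε, hpε⟩ := hT' _ hσ'
    exact ⟨δ, hδ, ε, hε, fun e => hT0 (by rw [← e, hQδ]; exact hσ), by rw [hQδ, hQε, add_neg_cancel],
      by rw [hpδ, hQδ], by rw [hpε, hQε]⟩
  · -- hyperbolic members
    have key : ∀ {i : Fin t} {z : ι → F}, z ∈ D i → Q z ≠ 0 → ∀ μ : F, μ ≠ 0 →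
        ∃ δ ∈ D i, Q δ = -(Q z * (μ - 1) ^ 2 / μ) ∧ polar Q z δ = Q z * (μ - 1) ^ 2 / μ := by
      intro i z hz hz0 μ hμ
      obtain ⟨e, he, he0, hQe⟩ := hs i
      obtain ⟨f, hf, hQf, hef⟩ := (h.nd i).exists_partner he he0 hQe
      have hfe : f ∉ F ∙ e := fun hm => by
        obtain ⟨r, rfl⟩ := Submodule.mem_span_singleton.1 hm
        rw [polar_smul_right, OrthGen.polar_self_two, hQe, mul_zero, smul_zero] at hef
        exact zero_ne_one hef
      obtain ⟨a, b, rfl⟩ := plane_span_pair (h.dim i) he hf he0 hfe hz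
      have hQz : Q (a • e + b • f) = a * b := by
        simp [qf_add, QuadraticMap.map_smul, hQe, hQf, hef, polar_smul_left, polar_smul_right, mul_comm]
      refine ⟨(a * (μ - 1)) • e + (b * (μ⁻¹ - 1)) • f,
        (D i).add_mem ((D i).smul_mem _ he) ((D i).smul_mem _ hf), ?_, ?_⟩
      · rw [hQz]
        simp [qf_add, QuadraticMap.map_smul, hQe, hQf, hef, polar_smul_left, polar_smul_right]
        field_simp
        ring
      · rw [hQz]
        simp [QuadraticMap.polar_add_left, polar_add_right, polar_smul_left, polar_smul_right,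
          OrthGen.polar_self_two, polar_comm Q f e, hQe, hQf, hef]
        field_simp
        ring
    set r := -Q y / Q x with hr
    have hr0 : r ≠ 0 := div_ne_zero (neg_ne_zero.2 hy0) hx0
    obtain ⟨s₀, hs₀⟩ : ∃ s₀ : F, ∀ m : F, m ^ 2 = r → m = s₀ ∨ m = -s₀ := by
      by_cases hsq : ∃ m : F, m ^ 2 = r
      · obtain ⟨s₀, hs₀⟩ := hsq
        exact ⟨s₀, fun m hm => sq_eq_sq_iff_eq_or_eq_neg.1 (hm.trans hs₀.symm)⟩
      · exact ⟨0, fun m hm => absurd ⟨m, hm⟩ hsq⟩
    obtain ⟨m, -, hm⟩ := Finset.exists_mem_notMem_of_card_lt_card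
      (s := ({0, 1, r, s₀, -s₀} : Finset F)) (t := Finset.univ) (by
        rw [Finset.card_univ, ← Nat.card_eq_fintype_card]
        exact lt_of_le_of_lt Finset.card_le_five (by omega))
    simp only [Finset.mem_insert, Finset.mem_singleton, not_or] at hm
    obtain ⟨hm0, hm1, hmr, hms, hms'⟩ := hm
    have hm2 : m ^ 2 ≠ r := fun e => (hs₀ m e).elim hms hms'
    have h1m : (1 : F) - m ≠ 0 := sub_ne_zero.2 (Ne.symm hm1)
    have hmr' : m - r ≠ 0 := sub_ne_zero.2 hmr
    set κ := r * (1 - m) / (m * (m - r)) with hκ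
    set μ := m * (1 - m) / (m - r) with hμ
    have hμ0 : μ ≠ 0 := div_ne_zero (mul_ne_zero hm0 h1m) hmr'
    have hκ0 : κ ≠ 0 := div_ne_zero (mul_ne_zero hr0 h1m) (mul_ne_zero hm0 hmr')
    obtain ⟨δ, hδ, hQδ, hpδ⟩ := key hx hx0 μ hμ0
    obtain ⟨ε, hε, hQε, hpε⟩ := key hy hy0 κ hκ0
    have hμ1 : μ - 1 = (r - m ^ 2) / (m - r) := by rw [hμ]; field_simp; ring
    have hκ1 : κ - 1 = (r - m ^ 2) / (m * (m - r)) := by rw [hκ]; field_simp; ring
    refine ⟨δ, hδ, ε, hε, ?_, ?_, by rw [hpδ, hQδ, neg_neg], by rw [hpε, hQε, neg_neg]⟩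
    · rw [hQδ, neg_ne_zero]
      refine div_ne_zero (mul_ne_zero hx0 (pow_ne_zero _ ?_)) hμ0
      rw [hμ1]
      exact div_ne_zero (sub_ne_zero.2 (Ne.symm hm2)) hmr'
    · have hy' : Q y = -r * Q x := by rw [hr]; field_simp
      rw [hQδ, hQε, hμ1, hκ1, hy', hμ, hκ]
      field_simp
      ring

variable {M : Subgroup (OQ Q)} (hM : decSub Q D ⊓ commutator (OQ Q) ≤ M)
include hM

/-- Two members can be interchanged inside `M`, fixing the others pointwise. -/
theorem IsPlaneDec.exists_swap {a b : Fin t} (hab : a ≠ b) :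
    ∃ g ∈ M, (D a).map g.1.toLinearMap = D b ∧ ∀ i, i ≠ a → i ≠ b → ∀ x ∈ D i, g.1 x = x := by
  classical
  haveI : Finite (ι → F) := Module.finite_of_finite F
  set σ := Equiv.swap a b with hσ
  have hid : ∀ i, i ≠ a → i ≠ b → σ i = i := fun i ha hb => Equiv.swap_apply_of_ne_of_ne ha hb
  have hall : ∀ i, ∃ e : D i ≃ₗ[F] D (σ i), (∀ w : D i, Q (e w : ι → F) = Q (w : ι → F)) ∧
      (i ≠ a → i ≠ b → ∀ w : D i, (e w : ι → F) = w) := by
    intro i
    by_cases hi : i ≠ a ∧ i ≠ b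
    · exact ⟨LinearEquiv.ofEq _ _ (by rw [hid i hi.1 hi.2]), fun w => rfl, fun _ _ w => rfl⟩
    · obtain ⟨e, he⟩ := h.iso i (σ i)
      exact ⟨e, he, fun ha hb => absurd ⟨ha, hb⟩ hi⟩
  choose e he hefix using hall
  obtain ⟨C⟩ := exists_components h.dec
  obtain ⟨g, -, hg, -⟩ := exists_gl_of_blockMaps h.dec σ e
  let E := equivOfGL g
  have hE : ∀ v, Q (E v) = Q v := by
    intro v
    have hv : E v = ∑ i, (e i ⟨C.proj i v, C.mem i v⟩ : ι → F) := by
      conv_lhs => rw [← C.sum_eq v, map_sum]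
      exact Finset.sum_congr rfl fun i _ => hg i ⟨C.proj i v, C.mem i v⟩
    have hp : ∀ i, C.proj (σ i) (E v) = e i ⟨C.proj i v, C.mem i v⟩ := fun i => by
      rw [hv, map_sum, Finset.sum_eq_single i (fun r _ hr => C.of_mem_ne (σ.injective.ne hr)
        (e r _).2) (by simp)]
      exact C.of_mem (e i _).2
    rw [h.toIsOrthDec.qf_eq_sum C (E v), h.toIsOrthDec.qf_eq_sum C v, ← Equiv.sum_comp σ]
    exact Finset.sum_congr rfl fun i _ => by rw [hp, he]
  set g₀ : OQ Q := ⟨E, hE⟩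
  have happ : ∀ i, ∀ x (hx : x ∈ D i), g₀.1 x = e i ⟨x, hx⟩ := fun i x hx => by
    show E x = _
    rw [equivOfGL_apply, hg i ⟨x, hx⟩]
  let K : Subgroup (OQ Q) :=
    { carrier := {k | ∀ x, (∀ y ∈ D b, polar Q x y = 0) → k.1 x = x}
      mul_mem' := fun {k k'} hk hk' x hx => by
        rw [Subgroup.coe_mul, LinearEquiv.mul_apply, hk' x hx, hk x hx]
      one_mem' := fun x _ => rfl
      inv_mem' := fun {k} hk x hx => by
        show k.1.symm x = x
        rw [LinearEquiv.symm_apply_eq]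
        exact (hk x hx).symm }
  have hrefl : ∀ {w : ι → F}, w ∈ D b → ∀ h0 : Q w ≠ 0, reflQ Q w h0 ∈ K := fun {w} hw h0 x hx =>
    OrthGen.reflQ_fix Q h0 (by rw [polar_comm]; exact hx w hw)
  have hperp : ∀ {i : Fin t}, i ≠ b → ∀ x ∈ D i, ∀ y ∈ D b, polar Q x y = 0 :=
    fun {i} hi x hx y hy => h.orth i b hi x hx y hy
  have hKb : ∀ k ∈ K, ∀ x ∈ D b, k.1 x ∈ D b := fun k hk x hx => C.mem_of_forall fun i hi => by
    refine h.nd i _ (C.mem i _) fun z hz => ?_
    rw [polar_comm, ← h.toIsOrthDec.polar_proj C hz, ← hk z (hperp hi z hz), OQ_polar]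
    exact h.orth i b hi z hz x hx
  have hne := notExceptional_five (Q := Q) (by have := h.card; omega)
  obtain ⟨a₀, ha₀, hQ₀⟩ := (h.nd b).exists_value (le_of_eq (h.dim b).symm) 1
  have ha₀0 : Q a₀ ≠ 0 := hQ₀ ▸ one_ne_zero
  obtain ⟨κ, hκ, hκg⟩ := Forms.exists_mul_mem_commutator h.bnd hne K g₀
    (Or.inr ⟨_, hrefl ha₀ ha₀0, dickson_refl h.bnd ha₀0⟩) (fun h2 => by
      obtain ⟨d, hd0, hd⟩ := OrthGen.exists_nonsquare F h2
      obtain ⟨w, hw, hQw⟩ := (h.nd b).exists_value (le_of_eq (h.dim b).symm) d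
      have hw0 : Q w ≠ 0 := hQw ▸ hd0
      refine ⟨Forms.refls Q [⟨a₀, ha₀0⟩, ⟨w, hw0⟩], ?_, by rw [Forms.dickson_refls h.bnd]; simp,
        fun hh => hd ?_⟩
      · simp only [Forms.refls_cons, Forms.refls_nil, mul_one]
        exact mul_mem (hrefl ha₀ ha₀0) (hrefl hw hw0)
      · rw [Forms.refls_mem_commutator_iff h.bnd hne] at hh
        simpa [hQ₀, hQw] using hh.2)
  have hmem : ∀ i, ∀ x ∈ D i, (κ * g₀).1 x ∈ D (σ i) := fun i x hx => by
    rw [Subgroup.coe_mul, LinearEquiv.mul_apply, happ i x hx]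
    by_cases hib : σ i = b
    · obtain ⟨z, hz⟩ : ∃ z, z = (e i ⟨x, hx⟩ : ι → F) := ⟨_, rfl⟩
      have hzmem : z ∈ D (σ i) := hz ▸ (e i ⟨x, hx⟩).2
      rw [← hz]
      rw [hib] at hzmem ⊢
      exact hKb κ hκ _ hzmem
    · rw [hκ _ (hperp hib _ (e i ⟨x, hx⟩).2)]
      exact (e i ⟨x, hx⟩).2
  refine ⟨κ * g₀, hM ⟨mem_decSub_of_forall h.dec fun i x hx => ⟨σ i, hmem i x hx⟩, hκg⟩, ?_,
    fun i ha hb x hx => ?_⟩
  · refine Submodule.eq_of_le_of_finrank_eq ?_ (by
      rw [LinearEquiv.finrank_map_eq, h.dim, h.dim])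
    rintro _ ⟨x, hx, rfl⟩
    have := hmem a x hx
    rwa [hσ, Equiv.swap_apply_left] at this
  · rw [Subgroup.coe_mul, LinearEquiv.mul_apply, happ i x hx, hefix i ha hb, hκ _ (hperp hb x hx)]

end Cfsg.Agent.DecompMax
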