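import Cfsg.Agent.DecompMax.PlaneSeed
import Cfsg.Agent.DecompMax.OrthMat

/-!
Maximality of stabilisers of orthogonal decompositions into planes, in matrix form.
-/

set_option autoImplicit false
set_option linter.style.haveILetI false

namespace Cfsg.Agent.DecompMax

open QuadraticMap Module Cfsg.Agent.Classical Cfsg.Agent.GeoClasses Cfsg.Geo
open scoped MatrixGroups

universe u

variable {F : Type u} [Field F] [Fintype F] {ι : Type} [Fintype ι] [DecidableEq ι]
variable {t : ℕ} {D : Fin t → Submodule F (ι → F)}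

/-- Stabilisers of orthogonal decompositions into planes are maximal in `Ω`, unless `q = 3` or the
planes are of plus type and `q ≤ 5`. -/
theorem omegaGL_plane_decomposition_maximal {Q : (ι → F) → F} (hQ : IsNondegenerateQuadraticForm Q)
    (hn : 10 ≤ Fintype.card ι) (hD : IsOrthogonalMDecomposition Q 2 D)
    (hgood : ((∀ i, ¬ IsPlusTypeOn Q (D i)) ∧ Fintype.card F ≠ 3) ∨ 7 ≤ Fintype.card F) :
    IsMaximalIn (omegaGL Q) (decompositionStabilizer D ⊓ omegaGL Q) := by
  classical
  have hdec := isOrthDec_toQF hQ hn hD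
  have hpl : IsPlaneDec (toQF hQ) D := by
    refine { toIsOrthDec := hdec, good := ?_ }
    rw [Nat.card_eq_fintype_card]
    refine hgood.imp (fun hg => ⟨fun i x hx hQx => ?_, hg.2⟩) id
    by_contra hx0
    refine hg.1 i ⟨Submodule.span F {x}, (Submodule.span_singleton_le_iff_mem _ _).2 hx,
      fun s hs => ?_, ?_⟩
    · obtain ⟨r, rfl⟩ := Submodule.mem_span_singleton.1 hs
      show toQF hQ (r • x) = 0
      rw [QuadraticMap.map_smul, hQx, smul_zero]
    · rw [finrank_span_singleton hx0, hdec.dec.finrank_eq]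
  have h := GeoClasses.isMaximalIn_map (oqToGL_injective (toQF hQ))
    (orth_decomposition_maximal_plane hpl)
  rw [Subgroup.map_inf _ _ _ (oqToGL_injective _), map_oqToGL_commutator, coe_toQF] at h
  have he : (decSub (toQF hQ) D).map (oqToGL (toQF hQ)) ⊓ omegaGL Q =
      decompositionStabilizer D ⊓ omegaGL Q := by
    refine le_antisymm (inf_le_inf_right _ (Subgroup.map_comap_le _ _)) fun g hg => ⟨?_, hg.2⟩
    obtain ⟨x, -, hxg⟩ : g ∈ (commutator (OQ (toQF hQ))).map (oqToGL (toQF hQ)) := by
      rw [map_oqToGL_commutator, coe_toQF]; exact hg.2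
    exact ⟨x, by rw [decSub, SetLike.mem_coe, Subgroup.mem_comap, hxg]; exact hg.1, hxg⟩
  rwa [he] at h

omit [DecidableEq ι] in
theorem card_ne_six : Fintype.card F ≠ 6 := by
  intro h6
  obtain ⟨p, -, n, hp, hc⟩ := FiniteField.card' F
  rw [h6] at hc
  have h2 : (2 : ℕ) = p := (Nat.prime_dvd_prime_iff_eq Nat.prime_two hp).1
    (Nat.prime_two.dvd_of_dvd_pow (n := (n : ℕ)) (by rw [← hc]; norm_num))
  have h3 : (3 : ℕ) = p := (Nat.prime_dvd_prime_iff_eq Nat.prime_three hp).1
    (Nat.prime_three.dvd_of_dvd_pow (n := (n : ℕ)) (by rw [← hc]; norm_num))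
  omega

end Cfsg.Agent.DecompMax
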