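import Cfsg.Agent.DecompMax.PlaneSiegel

/-!
A related vector with two components generates everything, for decompositions into planes.
-/

set_option autoImplicit false
set_option linter.style.haveILetI false

namespace Cfsg.Agent.DecompMax

open QuadraticMap Module Cfsg.Agent.Classical Cfsg.Agent.GeoClasses
open scoped MatrixGroups

universe u

variable {F : Type u} [Field F] [Finite F] {ι : Type} [Fintype ι] [DecidableEq ι]
variable {Q : QuadraticForm F (ι → F)} {t : ℕ} {D : Fin t → Submodule F (ι → F)}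
variable (h : IsPlaneDec Q D) (C : Components D)
variable {M : Subgroup (OQ Q)} {c : F}
variable (hM : decSub Q D ⊓ commutator (OQ Q) ≤ M) (hc : c ≠ 0)
include h C hM hc

/-- An Eichler transformation from two related vectors with singular difference. -/
theorem siegel_of_two_rel {v d : ι → F} (hv : v ∈ Rel M D c) (hv' : v + d ∈ Rel M D c)
    (hd : Q d = 0) (hvd : polar Q v d = 0) {m : Fin t} (hdm : C.proj m d = 0) (hmv : C.proj m v ≠ 0) :
    ∃ x ∈ D m, x ≠ 0 ∧ SiegelIn M (c⁻¹ • d) x := by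
  set w := c⁻¹ • d with hw
  have hQw : Q w = 0 := by rw [hw, QuadraticMap.map_smul, hd, smul_zero]
  have key : ∀ z : ι → F, z ∈ Rel M D c → z + d ∈ Rel M D c → polar Q z d = 0 → SiegelIn M w z := by
    intro z hz hzd hp hu ha
    have hz0 : Q z ≠ 0 := hz.1 ▸ hc
    have e1 : z + Q z • w = z + d := by rw [hz.1, hw, smul_inv_smul₀ hc]
    have hzd0 : Q (z + Q z • w) ≠ 0 := by rw [e1, hzd.1]; exact hc
    rw [siegel_eq_refl_mul Q hu ha hz0 hzd0]
    obtain ⟨b, hb, hQb⟩ := rel_exists_block h.toIsOrthDec hM le_rfl c m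
    have hb0 : Q b ≠ 0 := hQb ▸ hc
    have h1 := hz.2 hz0 m b hb hb0 hQb
    have h2 : reflQ Q (z + Q z • w) hzd0 * reflQ Q b hb0 ∈ M := by
      obtain ⟨y, hy⟩ : ∃ y, y = z + Q z • w := ⟨_, rfl⟩
      have hy' : y ∈ Rel M D c := by rw [hy, e1]; exact hzd
      subst hy
      exact hy'.2 hzd0 m b hb hb0 hQb
    have := mul_mem h1 (inv_mem h2)
    rwa [mul_inv_rev, reflQ_inv, reflQ_inv, mul_assoc, ← mul_assoc (reflQ Q b hb0), reflQ_mul_self,
      one_mul] at this
  obtain ⟨b, hb, hQb, hbv, -⟩ := h.exists_avoid m (C.mem m v) hmv 0 hc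
  have hb0 : Q b ≠ 0 := hQb ▸ hc
  have hbR := block_mem_rel h.toIsOrthDec hM hb hQb
  have hbd : polar Q b d = 0 := by
    rw [h.toIsOrthDec.polar_proj C hb, hdm, polar_zero_right]
  have hfd : (reflQ Q b hb0).1 d = d := OrthGen.reflQ_fix Q hb0 hbd
  set v₁ := (reflQ Q b hb0).1 v with hv₁
  have hv₁R : v₁ ∈ Rel M D c := refl_rel h.toIsOrthDec hM le_rfl hbR hv hb0
  have hv₁d : v₁ + d ∈ Rel M D c := by
    have := refl_rel h.toIsOrthDec hM le_rfl hbR hv' hb0
    rwa [map_add, hfd] at this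
  have hp₁ : polar Q v₁ d = 0 := by
    rw [hv₁, ← hfd, OQ_polar]; exact hvd
  have hwv : polar Q w v = 0 := by rw [hw, polar_smul_left, polar_comm Q d v, hvd, smul_zero]
  have hwv₁ : polar Q w v₁ = 0 := by rw [hw, polar_smul_left, polar_comm Q d v₁, hp₁, smul_zero]
  have hs := SiegelIn.add hQw hwv₁ (by rw [polar_neg_right, hwv, neg_zero]) (key v₁ hv₁R hv₁d hp₁)
    (SiegelIn.neg hQw hwv (key v hv hv' hvd))
  rw [hv₁, reflQ_apply, ← sub_eq_add_neg, sub_sub_cancel_left, ← neg_smul] at hs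
  refine ⟨_, (D m).smul_mem _ hb, ?_, hs⟩
  refine smul_ne_zero (neg_ne_zero.2 (mul_ne_zero (inv_ne_zero hb0) ?_))
    (fun e => hb0 (by rw [e, map_zero]))
  rw [h.toIsOrthDec.polar_proj C hb, polar_comm]
  exact hbv

/-- Two related vectors with singular difference orthogonal to them. -/
theorem commutator_le_of_two_rel {v d : ι → F} (hv : v ∈ Rel M D c) (hv' : v + d ∈ Rel M D c)
    (hd : Q d = 0) (hd0 : d ≠ 0) (hvd : polar Q v d = 0) {J : Finset (Fin t)}
    (hJ : J.card + 2 ≤ t) (hJd : ∀ i, i ∈ J ↔ C.proj i d ≠ 0) {m : Fin t} (hm : m ∉ J)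
    (hmv : C.proj m v ≠ 0) : commutator (OQ Q) ≤ M := by
  obtain ⟨x, hx, hx0, hs⟩ := siegel_of_two_rel h C hM hc hv hv' hd hvd
    (not_not.1 fun hne => hm ((hJd m).2 hne)) hmv
  refine commutator_le_of_siegel h C hM
    (show Q (c⁻¹ • d) = 0 by rw [QuadraticMap.map_smul, hd, smul_zero]) hJ (fun i => ?_)
    (smul_ne_zero (inv_ne_zero hc) hd0) hm hx hx0 hs
  rw [hJd, map_smul, smul_ne_zero_iff]
  simp [hc]

/-- A singular component. -/
theorem commutator_le_of_singular_component {w : ι → F} (hw : w ∈ Rel M D c) {j : Fin t}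
    (hj : C.proj j w ≠ 0) (hjs : Q (C.proj j w) = 0) : commutator (OQ Q) ≤ M := by
  classical
  haveI := Fintype.ofFinite F
  set e := C.proj j w with he
  rcases h.cases with ⟨ha, -⟩ | ⟨-, h7⟩
  · exact (hj (ha j e (C.mem j w) hjs)).elim
  obtain ⟨m, hm⟩ := h.toIsOrthDec.exists_proj_ne C (v := w) (hw.1 ▸ hc)
  have hmj : m ≠ j := fun e' => hm (e' ▸ hjs)
  have hm0 : C.proj m w ≠ 0 := fun e' => hm (by rw [e', map_zero])
  obtain ⟨f, hf, hQf, hef⟩ := (h.nd j).exists_partner (C.mem j w) hj hjs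
  rw [← he] at hef
  have hej : e ∈ D j := C.mem j w
  obtain ⟨s, -, hs⟩ := Finset.exists_mem_notMem_of_card_lt_card
    (s := ({0, 1, -1} : Finset F)) (t := Finset.univ) (by
      rw [Finset.card_univ, ← Nat.card_eq_fintype_card]
      exact lt_of_le_of_lt Finset.card_le_three (by omega))
  simp only [Finset.mem_insert, Finset.mem_singleton, not_or] at hs
  set κ := s ^ 2 with hκ
  have hκ0 : κ ≠ 0 := pow_ne_zero _ hs.1
  have hκ1 : κ - 1 ≠ 0 := fun e' => by
    have : (s - 1) * (s + 1) = 0 := by rw [hκ] at e'; linear_combination e'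
    rcases mul_eq_zero.1 this with h' | h'
    · exact hs.2.1 (sub_eq_zero.1 h')
    · exact hs.2.2 (eq_neg_of_add_eq_zero_left h')
  have hQ1 : Q (e - f) = -1 := by rw [qf_sub, hjs, hQf, hef]; ring
  have hQ2 : Q (e - κ • f) = -κ := by
    rw [qf_sub, QuadraticMap.map_smul, hjs, hQf, polar_smul_right, hef]; simp
  have h10 : Q (e - f) ≠ 0 := by rw [hQ1]; exact neg_ne_zero.2 one_ne_zero
  have h20 : Q (e - κ • f) ≠ 0 := by rw [hQ2]; exact neg_ne_zero.2 hκ0
  have hm1 : e - f ∈ D j := (D j).sub_mem hej hf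
  have hm2 : e - κ • f ∈ D j := (D j).sub_mem hej ((D j).smul_mem _ hf)
  set g := reflQ Q (e - f) h10 * reflQ Q (e - κ • f) h20 with hg
  have hgM : g ∈ M := block_pair_mem h.toIsOrthDec hM hm1 hm2 h10 h20
    ⟨s, by rw [hQ1, hQ2, hκ]; ring⟩
  have hfix : ∀ z, C.proj j z = 0 → g.1 z = z := fun z hz => by
    rw [hg, Subgroup.coe_mul, LinearEquiv.mul_apply,
      OrthGen.reflQ_fix Q h20 (by rw [h.toIsOrthDec.polar_proj C hm2, hz, polar_zero_right]),
      OrthGen.reflQ_fix Q h10 (by rw [h.toIsOrthDec.polar_proj C hm1, hz, polar_zero_right])]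
  have hge : g.1 e = κ • e := by
    have e1 : (reflQ Q (e - κ • f) h20).1 e = κ • f := by
      rw [reflQ_apply, hQ2, polar_sub_left, OrthGen.polar_self_two, hjs, polar_smul_left,
        polar_comm Q f e, hef]
      match_scalars <;> field_simp <;> ring
    rw [hg, Subgroup.coe_mul, LinearEquiv.mul_apply, e1, map_smul, reflQ_apply, hQ1, polar_sub_left,
      OrthGen.polar_self_two, hQf, hef]
    match_scalars <;> ring
  have hgw : g.1 w = w + (κ - 1) • e := by
    have h0 : C.proj j (w - e) = 0 := by rw [map_sub, C.of_mem hej, ← he, sub_self]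
    conv_lhs => rw [show w = (w - e) + e by abel, map_add, hfix _ h0, hge]
    rw [sub_smul, one_smul]; abel
  obtain ⟨a, ha, hQa⟩ := rel_exists_block h.toIsOrthDec hM le_rfl c m
  have hga : g.1 a ∈ D m := by rw [hfix a (C.of_mem_ne hmj ha)]; exact ha
  have hv' := rel_map h.toIsOrthDec hM hgM ha hga hQa hw
  rw [hgw] at hv'
  refine commutator_le_of_two_rel h C hM hc hw hv' (by rw [QuadraticMap.map_smul, hjs, smul_zero])
    (smul_ne_zero hκ1 hj) ?_ (J := {j}) (by have := h.five; simp; omega) (fun i => ?_) (by simpa using hmj) hm0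
  · rw [polar_smul_right, polar_comm, h.toIsOrthDec.polar_proj C hej, ← he,
      OrthGen.polar_self_two, hjs]
    simp
  · rw [Finset.mem_singleton, map_smul]
    constructor
    · rintro rfl; rw [C.of_mem hej]; exact smul_ne_zero hκ1 hj
    · intro hne
      by_contra hij
      exact hne (by rw [C.of_mem_ne (Ne.symm hij) hej, smul_zero])

/-- Two moved components and an empty one. -/
theorem commutator_le_of_pair {v : ι → F} (hv : v ∈ Rel M D c) {j l m s : Fin t} (hjl : j ≠ l)
    (hmj : m ≠ j) (hml : m ≠ l) (hj : Q (C.proj j v) ≠ 0) (hl : Q (C.proj l v) ≠ 0)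
    (hm : C.proj m v ≠ 0) (hs : C.proj s v = 0) : commutator (OQ Q) ≤ M := by
  classical
  have hsj : s ≠ j := fun e => hj (by rw [← e, hs, map_zero])
  have hsl : s ≠ l := fun e => hl (by rw [← e, hs, map_zero])
  obtain ⟨δ, hδ, ε, hε, hδ0, hsum, hpδ, hpε⟩ := h.exists_move_pair (C.mem j v) (C.mem l v) hj hl
  have hε0 : Q ε ≠ 0 := fun e => hδ0 (by rw [e, add_zero] at hsum; exact hsum)
  have hmove : ∀ {i : Fin t} {z δ : ι → F}, δ ∈ D i → ∀ h0 : Q δ ≠ 0, i ≠ s →
      z ∈ Rel M D c → C.proj s z = 0 → polar Q (C.proj i z) δ = -Q δ → z + δ ∈ Rel M D c := by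
    intro i z δ hδ h0 his hz hzs hp
    obtain ⟨a, ha, hQa⟩ := rel_exists_block h.toIsOrthDec hM le_rfl (Q δ) s
    have := refl_of_perp h.toIsOrthDec hM hδ h0 ha hQa
      (by rw [h.toIsOrthDec.polar_proj C ha, hzs, polar_zero_right]) hz le_rfl
    rwa [reflQ_apply, h.toIsOrthDec.polar_proj C hδ, polar_comm, hp,
      show (Q δ)⁻¹ * -Q δ = -1 by field_simp, neg_one_smul, sub_neg_eq_add] at this
  have h1 := hmove hδ hδ0 hsj.symm hv hs hpδ
  have h2 := hmove hε hε0 hsl.symm h1 (by rw [map_add, hs, C.of_mem_ne hsj.symm hδ, add_zero])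
    (by rw [map_add, C.of_mem_ne hjl hδ, add_zero]; exact hpε)
  rw [add_assoc] at h2
  refine commutator_le_of_two_rel h C hM hc hv h2 ?_ ?_ ?_ (J := {j, l})
    (by have := h.five; have := Finset.card_le_two (a := j) (b := l); omega) (fun i => ?_) (by simp [hmj, hml]) hm
  · rw [qf_add, hsum, h.orth j l hjl δ hδ ε hε, add_zero]
  · intro e
    have := congrArg (C.proj j) e
    rw [map_add, C.of_mem hδ, C.of_mem_ne hjl.symm hε, add_zero, map_zero] at this
    exact hδ0 (by rw [this, map_zero])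
  · rw [polar_add_right, polar_comm Q v δ, polar_comm Q v ε, h.toIsOrthDec.polar_proj C hδ,
      h.toIsOrthDec.polar_proj C hε, polar_comm Q δ, hpδ, polar_comm Q ε, hpε]
    linear_combination -hsum
  · rw [Finset.mem_insert, Finset.mem_singleton, map_add]
    constructor
    · rintro (rfl | rfl)
      · rw [C.of_mem hδ, C.of_mem_ne hjl.symm hε, add_zero]; exact fun e => hδ0 (by rw [e, map_zero])
      · rw [C.of_mem hε, C.of_mem_ne hjl hδ, zero_add]; exact fun e => hε0 (by rw [e, map_zero])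
    · intro hne
      by_contra hij
      rw [not_or] at hij
      exact hne (by rw [C.of_mem_ne (Ne.symm hij.1) hδ, C.of_mem_ne (Ne.symm hij.2) hε, add_zero])

/-- A related vector with exactly two components. -/
theorem commutator_le_of_two {w : ι → F} (hw : w ∈ Rel M D c) {j l : Fin t} (hjl : j ≠ l)
    (hj : C.proj j w ≠ 0) (hl : C.proj l w ≠ 0)
    (hthree : ∀ m, m ≠ j → m ≠ l → C.proj m w = 0) : commutator (OQ Q) ≤ M := by
  classical
  have ht := h.five
  have three : ∀ {v : ι → F}, v ∈ Rel M D c → ∀ {p r m : Fin t}, p ≠ r → m ≠ p → m ≠ r →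
      C.proj p v ≠ 0 → C.proj r v ≠ 0 → C.proj m v ≠ 0 →
      (∀ s, s ≠ p → s ≠ r → s ≠ m → C.proj s v = 0) → commutator (OQ Q) ≤ M := by
    intro v hv p r m hpr hmp hmr hp hr hm hrest
    by_cases hsing : ∃ i, C.proj i v ≠ 0 ∧ Q (C.proj i v) = 0
    · obtain ⟨i, hi, hi'⟩ := hsing
      exact commutator_le_of_singular_component h C hM hc hv hi hi'
    push Not at hsing
    obtain ⟨s, hs⟩ := h.exists_ne_of_three {p, r, m}
      (Finset.card_le_three.trans_lt (by omega))
    simp only [Finset.mem_insert, Finset.mem_singleton, not_or] at hs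
    exact commutator_le_of_pair h C hM hc hv hpr hmp hmr (hsing p hp) (hsing r hr) hm
      (hrest s hs.1 hs.2.1 hs.2.2)
  by_cases hls : Q (C.proj l w) = 0
  · exact commutator_le_of_singular_component h C hM hc hw hl hls
  set x := C.proj j w with hx
  set y := C.proj l w with hy
  have hwxy : w = x + y := C.ext_proj fun i => by
    rw [map_add, hx, hy, C.proj_proj, C.proj_proj]
    rcases eq_or_ne i j with rfl | hij
    · rw [if_pos rfl, if_neg hjl.symm, add_zero]
    · rcases eq_or_ne i l with rfl | hil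
      · rw [if_neg hij.symm, if_pos rfl, zero_add]
      · rw [if_neg hij.symm, if_neg hil.symm, hthree i hij hil, add_zero]
  obtain ⟨m, hm⟩ := h.exists_ne_of_three {j, l} (Finset.card_le_two.trans_lt (by omega))
  simp only [Finset.mem_insert, Finset.mem_singleton, not_or] at hm
  obtain ⟨g, hgM, hgmap, hgfix⟩ := h.exists_swap hM (Ne.symm hm.1)
  obtain ⟨a, ha, hQa⟩ := rel_exists_block h.toIsOrthDec hM le_rfl c j
  have hv0 := rel_map h.toIsOrthDec hM hgM ha (by rw [← hgmap]; exact ⟨a, ha, rfl⟩) hQa hw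
  have hym : y ∈ D l := C.mem l w
  rw [hwxy, map_add, hgfix l hjl.symm (Ne.symm hm.2) y hym] at hv0
  set z := g.1 x
  have hzm : z ∈ D m := by rw [← hgmap]; exact ⟨x, C.mem j w, rfl⟩
  have hz0 : z ≠ 0 := fun e => hj ((LinearEquiv.map_eq_zero_iff _).1 e)
  obtain ⟨y₁, hy₁, hQy₁, hyy₁, hy₁n⟩ := h.exists_avoid l hym hl y hls
  obtain ⟨y', hy', hQy', hyy', hy'n, hd⟩ : ∃ y' ∈ D l, Q y' = Q y ∧ polar Q y y' ≠ 0 ∧
      y' ∉ F ∙ y ∧ Q (y - y') ≠ 0 := by
    by_cases hd : Q (y - y₁) = 0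
    · refine ⟨-y₁, (D l).neg_mem hy₁, by rw [QuadraticMap.map_neg, hQy₁],
        by rw [polar_neg_right, neg_ne_zero]; exact hyy₁,
        fun hm' => hy₁n (by simpa using (F ∙ y).neg_mem hm'), ?_⟩
      intro hd'
      rw [qf_sub, hQy₁] at hd
      rw [sub_neg_eq_add, qf_add, hQy₁] at hd'
      have h4 : (2 : F) * 2 * Q y = 0 := by linear_combination hd + hd'
      by_cases h2 : (2 : F) = 0
      · exact hyy₁ (by linear_combination (Q y) * h2 - hd)
      · exact hls ((mul_eq_zero.1 h4).resolve_left (mul_ne_zero h2 h2))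
    · exact ⟨y₁, hy₁, hQy₁, hyy₁, hy₁n, hd⟩
  obtain ⟨a', ha', hQa'⟩ := rel_exists_block h.toIsOrthDec hM le_rfl (Q (y - y')) j
  have hv1 := refl_of_perp h.toIsOrthDec hM ((D l).sub_mem hym hy') hd ha' hQa'
    (by rw [polar_add_right, h.orth j m (Ne.symm hm.1) a' ha' z hzm, h.orth j l hjl a' ha' y hym,
      add_zero]) hv0 le_rfl
  rw [map_add, OrthGen.reflQ_fix Q hd (h.orth l m (Ne.symm hm.2) _ ((D l).sub_mem hym hy') z hzm),
    OrthGen.refl_sub_apply hQy'.symm hd] at hv1
  have hv2 := refl_rel h.toIsOrthDec hM le_rfl hw hv1 (hw.1 ▸ hc)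
  rw [reflQ_apply, hw.1] at hv2
  set τ := c⁻¹ * polar Q w (z + y')
  have hτ : τ ≠ 0 := by
    refine mul_ne_zero (inv_ne_zero hc) ?_
    rw [polar_add_right, hwxy, polar_add_left, polar_add_left,
      h.orth j m (Ne.symm hm.1) x (C.mem j w) z hzm, h.orth l m (Ne.symm hm.2) y hym z hzm,
      h.orth j l hjl x (C.mem j w) y' hy', zero_add, zero_add, zero_add]
    exact hyy'
  refine three hv2 (p := j) (r := m) (m := l) (Ne.symm hm.1) hjl.symm (Ne.symm hm.2) ?_ ?_ ?_
    fun s hsj hsm hsl => by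
      rw [map_sub, map_add, map_smul, C.of_mem_ne (Ne.symm hsm) hzm, C.of_mem_ne (Ne.symm hsl) hy',
        hthree s hsj hsl, smul_zero, add_zero, sub_zero]
  · rw [map_sub, map_add, map_smul, C.of_mem_ne hm.1 hzm, C.of_mem_ne hjl.symm hy', add_zero,
      zero_sub, neg_ne_zero, ← hx]
    exact smul_ne_zero hτ hj
  · rw [map_sub, map_add, map_smul, C.of_mem hzm, C.of_mem_ne (Ne.symm hm.2) hy', add_zero,
      hthree m hm.1 hm.2, smul_zero, sub_zero]
    exact hz0
  · rw [map_sub, map_add, map_smul, C.of_mem_ne hm.2 hzm, C.of_mem hy', zero_add, ← hy,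
      sub_ne_zero]
    exact fun e => hy'n (Submodule.mem_span_singleton.2 ⟨τ, e.symm⟩)

omit [Finite F] [DecidableEq ι] h C hM hc in
theorem refl_pair_fix' {u v x : ι → F} (hu : Q u ≠ 0) (hv : Q v ≠ 0)
    (h1 : polar Q u x = 0) (h2 : polar Q v x = 0) :
    (reflQ Q u hu * reflQ Q v hv).1 x = x := by
  rw [Subgroup.coe_mul, LinearEquiv.mul_apply, OrthGen.reflQ_fix Q hv h2, OrthGen.reflQ_fix Q hu h1]

omit [Finite F] C hM hc in
/-- A vector orthogonal to a given one inside a member. -/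
theorem exists_perp_in_member {i : Fin t} {z : ι → F} (hz : z ∈ D i) (hz0 : Q z ≠ 0)
    (h2 : (2 : F) ≠ 0) : ∃ a ∈ D i, polar Q z a = 0 ∧ Q a ≠ 0 ∧ a ∉ F ∙ z := by
  have hzne : z ≠ 0 := fun e => hz0 (by rw [e, map_zero])
  obtain ⟨w, hw, hwn⟩ := plane_exists_not_mem (h.dim i) hzne
  have hs : polar Q z z ≠ 0 := by
    rw [OrthGen.polar_self_two]; exact mul_ne_zero h2 hz0
  set a := w - (polar Q z w / polar Q z z) • z with ha
  have hza : polar Q z a = 0 := by
    rw [ha, polar_sub_right, polar_smul_right, smul_eq_mul, div_mul_cancel₀ _ hs, sub_self]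
  have han : a ∉ F ∙ z := fun hm => hwn (by
    simpa [ha] using (F ∙ z).add_mem hm ((F ∙ z).smul_mem (polar Q z w / polar Q z z)
      (Submodule.mem_span_singleton_self z)))
  have haD : a ∈ D i := (D i).sub_mem hw ((D i).smul_mem _ hz)
  refine ⟨a, haD, hza, fun hQa => han ?_, han⟩
  have : a = 0 := h.nd i a haD fun y hy => by
    obtain ⟨p, r, rfl⟩ := plane_span_pair (h.dim i) hz haD hzne han hy
    rw [polar_add_right, polar_smul_right, polar_smul_right, polar_comm Q a z, hza,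
      OrthGen.polar_self_two, hQa]
    simp
  rw [this]; exact zero_mem _

/-- Two opposite components of the centre of one Eichler transformation. -/
theorem commutator_le_of_siegel_opposite (hm1 : ¬ IsSquare (-1 : F)) {u : ι → F} (hu : Q u = 0)
    {i k m : Fin t} (him : i ≠ m) (hkm : k ≠ m) (hik : i ≠ k) (hmu : C.proj m u = 0)
    (hi0 : Q (C.proj i u) ≠ 0) (hopp : Q (C.proj k u) = -Q (C.proj i u))
    {x : ι → F} (hx : x ∈ D m) (hx0 : x ≠ 0) (hs : SiegelIn M u x) : commutator (OQ Q) ≤ M := by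
  classical
  haveI := Fintype.ofFinite F
  have h2 : (2 : F) ≠ 0 := fun e => hm1 (isSquare_of_two e _)
  have hk0 : Q (C.proj k u) ≠ 0 := by rw [hopp]; exact neg_ne_zero.2 hi0
  obtain ⟨a, ha, hpa, hQa, han⟩ := exists_perp_in_member h (C.mem i u) hi0 h2
  obtain ⟨b, hb, hpb, hQb, -⟩ := exists_perp_in_member h (C.mem k u) hk0 h2
  have hua : polar Q u a = 0 := by
    rw [polar_comm, h.toIsOrthDec.polar_proj C ha, polar_comm, hpa]
  have hub : polar Q u b = 0 := by
    rw [polar_comm, h.toIsOrthDec.polar_proj C hb, polar_comm, hpb]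
  -- the values of the two orthogonal vectors have different classes
  have hcls : ¬ IsSquare (Q a * Q b) := by
    obtain ⟨φ, hφ⟩ := h.iso k i
    obtain ⟨p, r, hpr⟩ := plane_span_pair (h.dim i) (C.mem i u) ha
      (fun e => hi0 (by rw [e, map_zero])) han (φ ⟨_, C.mem k u⟩).2
    obtain ⟨p', r', hpr'⟩ := plane_span_pair (h.dim i) (C.mem i u) ha
      (fun e => hi0 (by rw [e, map_zero])) han (φ ⟨b, hb⟩).2
    set A := Q a
    set c₀ := Q (C.proj i u) with hc₀
    have e1 : p * p * c₀ + r * r * A = -c₀ := by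
      have := (hφ ⟨_, C.mem k u⟩).symm
      simp only at this
      rw [← hpr, qf_add, QuadraticMap.map_smul, QuadraticMap.map_smul, polar_smul_left,
        polar_smul_right, hpa, hopp] at this
      simpa using this.symm
    have e2 : p' * p' * c₀ + r' * r' * A = Q b := by
      have := (hφ ⟨b, hb⟩).symm
      simp only at this
      rw [← hpr', qf_add, QuadraticMap.map_smul, QuadraticMap.map_smul, polar_smul_left,
        polar_smul_right, hpa] at this
      simpa using this.symm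
    have e3 : p * p' * c₀ + r * r' * A = 0 := by
      have h0 := hφ (⟨_, C.mem k u⟩ + ⟨b, hb⟩)
      rw [map_add] at h0
      simp only [Submodule.coe_add, qf_add, hφ, hpb, ← hpr, ← hpr', polar_add_left, polar_add_right,
        polar_smul_left, polar_smul_right, OrthGen.polar_self_two, polar_comm Q a (C.proj i u), hpa,
        add_zero, smul_eq_mul, mul_zero, zero_add] at h0
      simp only [QuadraticMap.map_smul, smul_eq_mul] at h0
      have h0' : (2 : F) * (p * p' * c₀ + r * r' * A) = 0 := by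
        linear_combination h0 - e1 - e2 + hopp
      exact (mul_eq_zero.1 h0').resolve_left h2
    have e4 : -c₀ * Q b = c₀ * A * (p * r' - p' * r) ^ 2 := by
      linear_combination -(p' * p' * c₀ + r' * r' * A) * e1 + c₀ * e2 +
        (p * p' * c₀ + r * r' * A) * e3
    rintro ⟨s, hs'⟩
    have hd : p * r' - p' * r ≠ 0 := fun e0 => by
      rw [e0] at e4
      exact mul_ne_zero (neg_ne_zero.2 hi0) hQb (by simpa using e4)
    have he : Q b = -(A * (p * r' - p' * r) ^ 2) := by
      apply mul_left_cancel₀ (neg_ne_zero.2 hi0)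
      linear_combination e4
    refine hm1 ⟨s / (A * (p * r' - p' * r)), ?_⟩
    rw [he] at hs'
    field_simp
    linear_combination hs'
  have hfix : ∀ σ : F, σ ≠ 0 → ∃ l, (l = i ∨ l = k) ∧ ∃ y ∈ D l, polar Q u y = 0 ∧ Q y ≠ 0 ∧
      IsSquare (σ * Q y) := fun σ hσ => by
    by_cases hh : IsSquare (σ * Q a)
    · exact ⟨i, Or.inl rfl, a, ha, hua, hQa, hh⟩
    · refine ⟨k, Or.inr rfl, b, hb, hub, hQb, OrthGen.isSquare_mul_iff_same hσ hQb ?_⟩
      have h1 : ¬(IsSquare σ ↔ IsSquare (Q a)) := fun e =>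
        hh (OrthGen.isSquare_mul_iff_same hσ hQa e)
      have h2' : ¬(IsSquare (Q a) ↔ IsSquare (Q b)) := fun e =>
        hcls (OrthGen.isSquare_mul_iff_same hQa hQb e)
      tauto
  have hblock := siegel_block h C hM hu hmu (fun σ hσ => by
    obtain ⟨l, hl, rest⟩ := hfix σ hσ
    exact ⟨l, hl.elim (· ▸ him) (· ▸ hkm), rest⟩) hx hx0 hs
  -- a vector of value `c` fixed by the centres
  obtain ⟨l, hl, y₁, hy₁, hpy₁, hy₁0, s₁, hs₁⟩ := hfix c hc
  obtain ⟨j, hjm, hjl, hju⟩ : ∃ j, j ≠ m ∧ j ≠ l ∧ C.proj j u ≠ 0 := by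
    rcases hl with rfl | rfl
    · exact ⟨k, hkm, hik.symm, fun e => hk0 (by rw [e, map_zero])⟩
    · exact ⟨i, him, hik, fun e => hi0 (by rw [e, map_zero])⟩
  have hlm : l ≠ m := hl.elim (· ▸ him) (· ▸ hkm)
  set a₀ := (s₁ / Q y₁) • y₁ with ha₀
  have ha₀D : a₀ ∈ D l := (D l).smul_mem _ hy₁
  have hQa₀ : Q a₀ = c := by
    rw [ha₀, QuadraticMap.map_smul, smul_eq_mul]; field_simp; linear_combination -hs₁
  have hua₀ : polar Q u a₀ = 0 := by rw [ha₀, polar_smul_right, hpy₁, smul_zero]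
  obtain ⟨y, hy, hQy, huy, -⟩ := h.exists_avoid j (C.mem j u) hju 0 (one_ne_zero (α := F))
  rw [polar_comm, ← h.toIsOrthDec.polar_proj C hy] at huy
  have hy0 : Q y ≠ 0 := hQy ▸ one_ne_zero
  obtain ⟨y', hy', hQy'⟩ := (h.nd m).exists_value (le_of_eq (h.dim m).symm) 1
  have hy'0 : Q y' ≠ 0 := hQy' ▸ one_ne_zero
  have hg := block_pair_mem h.toIsOrthDec hM hy hy' hy0 hy'0 ⟨1, by rw [hQy, hQy']⟩
  set u₂ := (reflQ Q y hy0).1 u with hu₂def
  have hu₂ : u₂ = u - polar Q y u • y := by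
    rw [hu₂def, reflQ_apply, hQy, inv_one, one_mul]
  have hy'u : polar Q y' u = 0 := by rw [polar_comm]; exact h.polar_outside C hy' hmu
  have hblock₂ : ∀ z ∈ D m, SiegelIn M u₂ z := by
    intro z hz
    have hz' : (reflQ Q y' hy'0).1 z ∈ D m := by
      rw [reflQ_apply]; exact (D m).sub_mem hz ((D m).smul_mem _ hy')
    have := (hblock _ hz').map hg
    rw [Subgroup.coe_mul, LinearEquiv.mul_apply, LinearEquiv.mul_apply,
      OrthGen.reflQ_fix Q hy'0 hy'u, ← hu₂def] at this
    rw [show (reflQ Q y' hy'0).1 ((reflQ Q y' hy'0).1 z) = z by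
      rw [← LinearEquiv.mul_apply, ← Subgroup.coe_mul, reflQ_mul_self]; rfl,
      OrthGen.reflQ_fix Q hy0 (h.orth j m hjm y hy z hz)] at this
    exact this
  set β := polar Q u u₂ with hβ
  have hβ0 : β ≠ 0 := by
    rw [hβ, hu₂, polar_sub_right, polar_smul_right, OrthGen.polar_self_two, hu, smul_eq_mul,
      polar_comm Q u y]
    simpa using huy
  obtain ⟨b₀, hb₀, hQb₀⟩ := rel_exists_block h.toIsOrthDec hM le_rfl c m
  -- a scalar avoiding two values
  have hq : 4 ≤ Fintype.card F := by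
    have hne2 : Fintype.card F ≠ 2 := fun e => h2 (by
      have := FiniteField.cast_card_eq_zero F
      rw [e] at this
      simpa using this)
    have hne3 : Fintype.card F ≠ 3 := by
      rcases h.cases with ⟨-, h3⟩ | ⟨-, h7⟩ <;> rw [Nat.card_eq_fintype_card] at * <;> omega
    have := Fintype.one_lt_card (α := F)
    omega
  obtain ⟨s, hs0, hsp, hsn⟩ : ∃ s : F, s ≠ 0 ∧ c * s ^ 2 * β ≠ 1 ∧ c * s ^ 2 * β ≠ -1 := by
    obtain ⟨s₀, hs₀⟩ : ∃ s₀ : F, ∀ s : F, c * s ^ 2 * β = 1 ∨ c * s ^ 2 * β = -1 →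
        s = s₀ ∨ s = -s₀ := by
      by_cases hex : ∃ s : F, c * s ^ 2 * β = 1 ∨ c * s ^ 2 * β = -1
      · obtain ⟨s₀, hs₀⟩ := hex
        refine ⟨s₀, fun s hs' => sq_eq_sq_iff_eq_or_eq_neg.1 ?_⟩
        have hcb : c * β ≠ 0 := mul_ne_zero hc hβ0
        have key : ∀ {s s' : F}, c * s ^ 2 * β = 1 → c * s' ^ 2 * β = -1 → False := fun {s s'} e e' =>
          hm1 ⟨s' / s, by
            have hs0 : s ≠ 0 := fun h0 => by rw [h0] at e; simp at e
            field_simp
            apply mul_left_cancel₀ hcb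
            linear_combination -e' - e⟩
        apply mul_left_cancel₀ hcb
        rcases hs' with e | e <;> rcases hs₀ with e' | e'
        · linear_combination e - e'
        · exact (key e e').elim
        · exact (key e' e).elim
        · linear_combination e - e'
      · push Not at hex
        exact ⟨0, fun s hs' => absurd hs' (not_or.2 (hex s))⟩
    obtain ⟨s, -, hs'⟩ := Finset.exists_mem_notMem_of_card_lt_card
      (s := ({0, s₀, -s₀} : Finset F)) (t := Finset.univ)
      (by rw [Finset.card_univ]; exact lt_of_le_of_lt Finset.card_le_three (by omega))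
    simp only [Finset.mem_insert, Finset.mem_singleton, not_or] at hs'
    exact ⟨s, hs'.1, fun e => (hs₀ s (Or.inl e)).elim hs'.2.1 hs'.2.2,
      fun e => (hs₀ s (Or.inr e)).elim hs'.2.1 hs'.2.2⟩
  obtain ⟨r, hr⟩ : ∃ r : F, r * (c * s ^ 2 * β - 1) = s :=
    ⟨s / (c * s ^ 2 * β - 1), div_mul_cancel₀ _ (sub_ne_zero.2 hsp)⟩
  have hr0 : r ≠ 0 := fun e => hs0 (by rw [← hr, e, zero_mul])
  have hu₂Q : Q u₂ = 0 := by rw [hu₂def, OQ_map_app, hu]
  have hub₀ : polar Q u b₀ = 0 := h.polar_outside C hb₀ hmu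
  have hu₂b₀ : polar Q u₂ b₀ = 0 := by
    rw [hu₂, polar_sub_left, polar_smul_left, hub₀, h.orth j m hjm y hy b₀ hb₀]; simp
  have h1 : polar Q u (s • b₀) = 0 := by rw [polar_smul_right, hub₀, smul_zero]
  have h1' : polar Q u₂ (r • b₀) = 0 := by rw [polar_smul_right, hu₂b₀, smul_zero]
  have hT1 := hblock _ ((D m).smul_mem s hb₀) hu h1
  have hT2 := hblock₂ _ ((D m).smul_mem r hb₀) hu₂Q h1'
  set T := siegel Q hu h1 * siegel Q hu₂Q h1' with hT
  have hTa : T.1 a₀ = a₀ := by
    have e0 : polar Q b₀ a₀ = 0 := h.orth m l (Ne.symm hlm) b₀ hb₀ a₀ ha₀D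
    have e2 : polar Q u₂ a₀ = 0 := by
      rw [hu₂, polar_sub_left, polar_smul_left, hua₀, h.orth j l hjl y hy a₀ ha₀D]; simp
    rw [hT, Subgroup.coe_mul, LinearEquiv.mul_apply, siegel_apply Q hu₂Q h1', e2, polar_smul_left, e0]
    simp [siegel_apply, hua₀, e0, polar_smul_left]
  have hwR := rel_map h.toIsOrthDec hM (mul_mem hT1 hT2) ha₀D (by rw [← hT, hTa]; exact ha₀D) hQa₀
    (block_mem_rel h.toIsOrthDec hM hb₀ hQb₀)
  have hb₀b : polar Q b₀ b₀ = 2 * c := by rw [OrthGen.polar_self_two, hQb₀]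
  have hw : T.1 b₀ = (1 - 2 * c * r * s * β) • b₀ + (2 * c * r * polar Q y u) • y := by
    rw [hT, Subgroup.coe_mul, LinearEquiv.mul_apply, siegel_apply Q hu₂Q h1', siegel_apply Q hu h1]
    simp only [polar_smul_left, polar_smul_right, polar_sub_right, polar_add_right, polar_comm Q b₀ u,
      polar_comm Q b₀ u₂, hub₀, hu₂b₀, hb₀b, QuadraticMap.map_smul, hQb₀, ← hβ, smul_eq_mul, zero_smul,
      mul_zero, sub_zero, add_zero, zero_sub, zero_add]
    have hu₂' : (2 * c * r * polar Q y u) • y = (2 * c * r) • (u - u₂) := by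
      rw [hu₂, sub_sub_cancel, smul_smul]
    rw [hu₂']
    match_scalars <;> first | ring1 | linear_combination (2 * c) * hr
  rw [← hT, hw] at hwR
  have hcoef : 1 - 2 * c * r * s * β ≠ 0 := fun e => hsn (by
    linear_combination (-(c * s ^ 2 * β - 1)) * e - (2 * c * s * β) * hr)
  have hcy : 2 * c * r * polar Q y u ≠ 0 :=
    mul_ne_zero (mul_ne_zero (mul_ne_zero h2 hc) hr0) huy
  refine commutator_le_of_two h C hM hc hwR hjm.symm ?_ ?_ fun q hqm hqj => ?_
  · rw [map_add, map_smul, map_smul, C.of_mem hb₀, C.of_mem_ne hjm hy, smul_zero, add_zero]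
    exact smul_ne_zero hcoef fun e => hc (by rw [← hQb₀, e, map_zero])
  · rw [map_add, map_smul, map_smul, C.of_mem_ne hjm.symm hb₀, C.of_mem hy, smul_zero, zero_add]
    exact smul_ne_zero hcy fun e => hy0 (by rw [e, map_zero])
  · rw [map_add, map_smul, map_smul, C.of_mem_ne (Ne.symm hqm) hb₀, C.of_mem_ne (Ne.symm hqj) hy,
      smul_zero, smul_zero, add_zero]

/-- No component is singular. -/
theorem commutator_le_of_full {v : ι → F} (hv : v ∈ Rel M D c)
    (hall : ∀ i, Q (C.proj i v) ≠ 0) : commutator (OQ Q) ≤ M := by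
  classical
  have ht := h.five
  let a : Fin 5 → Fin t := fun i => ⟨i.1, by omega⟩
  have hne : ∀ {p r : Fin 5}, p ≠ r → a p ≠ a r := fun {p r} hpr e => hpr (Fin.ext (by
    simpa [a] using congrArg Fin.val e))
  obtain ⟨δ, hδ, ε, hε, hδ0, hsum, hpδ, hpε⟩ :=
    h.exists_move_pair (C.mem (a 0) v) (C.mem (a 1) v) (hall _) (hall _)
  have hε0 : Q ε ≠ 0 := fun e => hδ0 (by rw [e, add_zero] at hsum; exact hsum)
  by_cases hm1 : IsSquare (-1 : F)
  · -- the two moves alone
    have hgM : reflQ Q δ hδ0 * reflQ Q ε hε0 ∈ M := by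
      refine block_pair_mem h.toIsOrthDec hM hδ hε hδ0 hε0 ?_
      obtain ⟨s, hs⟩ := hm1
      exact ⟨s * Q δ, by
        rw [eq_neg_of_add_eq_zero_right hsum]; linear_combination (Q δ) * (Q δ) * hs⟩
    have hgv : (reflQ Q δ hδ0 * reflQ Q ε hε0).1 v = v + (δ + ε) := by
      rw [Subgroup.coe_mul, LinearEquiv.mul_apply, reflQ_apply Q ε hε0 v,
        h.toIsOrthDec.polar_proj C hε, polar_comm Q ε, hpε,
        show (Q ε)⁻¹ * -Q ε = -1 by field_simp, neg_one_smul, sub_neg_eq_add, reflQ_apply,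
        polar_add_right, h.orth _ _ (hne (by decide)) δ hδ ε hε, add_zero,
        h.toIsOrthDec.polar_proj C hδ, polar_comm Q δ, hpδ,
        show (Q δ)⁻¹ * -Q δ = -1 by field_simp, neg_one_smul, sub_neg_eq_add]
      abel
    obtain ⟨b, hb, hQb⟩ := rel_exists_block h.toIsOrthDec hM le_rfl c (a 4)
    have hgb : (reflQ Q δ hδ0 * reflQ Q ε hε0).1 b ∈ D (a 4) := by
      rw [refl_pair_fix' hδ0 hε0 (h.orth _ _ (hne (by decide)) δ hδ b hb)
        (h.orth _ _ (hne (by decide)) ε hε b hb)]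
      exact hb
    have hv' := rel_map h.toIsOrthDec hM hgM hb hgb hQb hv
    rw [hgv] at hv'
    refine commutator_le_of_two_rel h C hM hc hv hv' ?_ ?_ ?_ (J := {a 0, a 1})
      (by have := Finset.card_le_two (a := a 0) (b := a 1); omega) (fun i => ?_) (m := a 4)
      (by simp only [Finset.mem_insert, Finset.mem_singleton, not_or]
          exact ⟨hne (by decide), hne (by decide)⟩)
      (fun e => hall _ (by rw [e, map_zero]))
    · rw [qf_add, hsum, h.orth _ _ (hne (by decide)) δ hδ ε hε, add_zero]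
    · intro e
      have := congrArg (C.proj (a 0)) e
      rw [map_add, C.of_mem hδ, C.of_mem_ne (hne (by decide)) hε, add_zero, map_zero] at this
      exact hδ0 (by rw [this, map_zero])
    · rw [polar_add_right, polar_comm Q v δ, polar_comm Q v ε, h.toIsOrthDec.polar_proj C hδ,
        h.toIsOrthDec.polar_proj C hε, polar_comm Q δ, hpδ, polar_comm Q ε, hpε]
      linear_combination -hsum
    · rw [Finset.mem_insert, Finset.mem_singleton, map_add]
      constructor
      · rintro (rfl | rfl)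
        · rw [C.of_mem hδ, C.of_mem_ne (hne (by decide)) hε, add_zero]
          exact fun e => hδ0 (by rw [e, map_zero])
        · rw [C.of_mem hε, C.of_mem_ne (hne (by decide)) hδ, zero_add]
          exact fun e => hε0 (by rw [e, map_zero])
      · intro hn
        by_contra hij
        rw [not_or] at hij
        exact hn (by rw [C.of_mem_ne (Ne.symm hij.1) hδ, C.of_mem_ne (Ne.symm hij.2) hε, add_zero])
  obtain ⟨δ', hδ', ε', hε', hδ'0, hsum', hpδ', hpε'⟩ :=
    h.exists_move_pair (C.mem (a 2) v) (C.mem (a 3) v) (hall _) (hall _)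
  have hε'0 : Q ε' ≠ 0 := fun e => hδ'0 (by rw [e, add_zero] at hsum'; exact hsum')
  set l : List {x : ι → F // Q x ≠ 0} := [⟨δ, hδ0⟩, ⟨ε, hε0⟩, ⟨δ', hδ'0⟩, ⟨ε', hε'0⟩] with hl
  have hgM : Forms.refls Q l ∈ M := by
    refine hM ⟨?_, (Forms.refls_mem_commutator_iff h.bnd
      (notExceptional_five (by have := h.card; omega)) l).2 ⟨⟨2, by simp [hl]⟩, ?_⟩⟩
    · simp only [hl, Forms.refls_cons, Forms.refls_nil, mul_one]
      exact mul_mem (h.refl_mem_decSub hδ hδ0) (mul_mem (h.refl_mem_decSub hε hε0)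
        (mul_mem (h.refl_mem_decSub hδ' hδ'0) (h.refl_mem_decSub hε' hε'0)))
    · refine ⟨Q δ * Q δ', ?_⟩
      simp only [hl, List.map_cons, List.map_nil, List.prod_cons, List.prod_nil, mul_one]
      rw [eq_neg_of_add_eq_zero_right hsum, eq_neg_of_add_eq_zero_right hsum']
      ring
  have step : ∀ {i : Fin t} {z δ : ι → F}, δ ∈ D i → ∀ h0 : Q δ ≠ 0,
      polar Q (C.proj i z) δ = -Q δ → (reflQ Q δ h0).1 z = z + δ := by
    intro i z δ hδ h0 hp
    rw [reflQ_apply, h.toIsOrthDec.polar_proj C hδ, polar_comm, hp,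
      show (Q δ)⁻¹ * -Q δ = -1 by field_simp, neg_one_smul, sub_neg_eq_add]
  have hgv : (Forms.refls Q l).1 v = v + (δ + ε + δ' + ε') := by
    simp only [hl, Forms.refls_cons, Forms.refls_nil, mul_one, Subgroup.coe_mul,
      LinearEquiv.mul_apply]
    rw [step hε' hε'0 hpε']
    rw [step hδ' hδ'0 (by rw [map_add, C.of_mem_ne (hne (by decide)) hε', add_zero]; exact hpδ')]
    rw [step hε hε0 (by rw [map_add, map_add, C.of_mem_ne (hne (by decide)) hε',
      C.of_mem_ne (hne (by decide)) hδ', add_zero, add_zero]; exact hpε)]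
    rw [step hδ hδ0 (by
      rw [map_add, map_add, map_add, C.of_mem_ne (hne (by decide)) hε',
        C.of_mem_ne (hne (by decide)) hδ', C.of_mem_ne (hne (by decide)) hε, add_zero, add_zero,
        add_zero]
      exact hpδ)]
    abel
  obtain ⟨b, hb, hQb⟩ := rel_exists_block h.toIsOrthDec hM le_rfl c (a 4)
  have hgb : (Forms.refls Q l).1 b ∈ D (a 4) := by
    simp only [hl, Forms.refls_cons, Forms.refls_nil, mul_one, Subgroup.coe_mul,
      LinearEquiv.mul_apply]
    rw [OrthGen.reflQ_fix Q hε'0 (h.orth _ _ (hne (by decide)) ε' hε' b hb),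
      OrthGen.reflQ_fix Q hδ'0 (h.orth _ _ (hne (by decide)) δ' hδ' b hb),
      OrthGen.reflQ_fix Q hε0 (h.orth _ _ (hne (by decide)) ε hε b hb),
      OrthGen.reflQ_fix Q hδ0 (h.orth _ _ (hne (by decide)) δ hδ b hb)]
    exact hb
  have hv' := rel_map h.toIsOrthDec hM hgM hb hgb hQb hv
  rw [hgv] at hv'
  have hp : ∀ i, C.proj i (δ + ε + δ' + ε') = if i = a 0 then δ else if i = a 1 then ε
      else if i = a 2 then δ' else if i = a 3 then ε' else 0 := by
    intro i
    simp only [map_add]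
    split_ifs with e0 e1 e2 e3 <;> subst_vars
    · rw [C.of_mem hδ, C.of_mem_ne (hne (by decide)) hε, C.of_mem_ne (hne (by decide)) hδ',
        C.of_mem_ne (hne (by decide)) hε']; abel
    · rw [C.of_mem hε, C.of_mem_ne (hne (by decide)) hδ, C.of_mem_ne (hne (by decide)) hδ',
        C.of_mem_ne (hne (by decide)) hε']; abel
    · rw [C.of_mem hδ', C.of_mem_ne (hne (by decide)) hδ, C.of_mem_ne (hne (by decide)) hε,
        C.of_mem_ne (hne (by decide)) hε']; abel
    · rw [C.of_mem hε', C.of_mem_ne (hne (by decide)) hδ, C.of_mem_ne (hne (by decide)) hε,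
        C.of_mem_ne (hne (by decide)) hδ']; abel
    · rw [C.of_mem_ne (Ne.symm e0) hδ, C.of_mem_ne (Ne.symm e1) hε, C.of_mem_ne (Ne.symm e2) hδ',
        C.of_mem_ne (Ne.symm e3) hε']; abel
  have hQd : Q (δ + ε + δ' + ε') = 0 := by
    rw [qf_add, qf_add, qf_add, polar_add_left, polar_add_left, polar_add_left,
      h.orth _ _ (hne (by decide)) δ hδ ε hε, h.orth _ _ (hne (by decide)) δ hδ δ' hδ',
      h.orth _ _ (hne (by decide)) ε hε δ' hδ', h.orth _ _ (hne (by decide)) δ hδ ε' hε',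
      h.orth _ _ (hne (by decide)) ε hε ε' hε', h.orth _ _ (hne (by decide)) δ' hδ' ε' hε']
    linear_combination hsum + hsum'
  have hvd : polar Q v (δ + ε + δ' + ε') = 0 := by
    rw [polar_add_right, polar_add_right, polar_add_right, polar_comm Q v δ, polar_comm Q v ε,
      polar_comm Q v δ', polar_comm Q v ε', h.toIsOrthDec.polar_proj C hδ,
      h.toIsOrthDec.polar_proj C hε, h.toIsOrthDec.polar_proj C hδ',
      h.toIsOrthDec.polar_proj C hε', polar_comm Q δ, hpδ, polar_comm Q ε, hpε, polar_comm Q δ',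
      hpδ', polar_comm Q ε', hpε']
    linear_combination -hsum - hsum'
  obtain ⟨x, hx, hx0, hs⟩ := siegel_of_two_rel h C hM hc hv hv' hQd hvd (m := a 4)
    (by rw [hp, if_neg (hne (by decide)), if_neg (hne (by decide)), if_neg (hne (by decide)),
      if_neg (hne (by decide))]) (fun e => hall _ (by rw [e, map_zero]))
  refine commutator_le_of_siegel_opposite h C hM hc hm1
    (show Q (c⁻¹ • (δ + ε + δ' + ε')) = 0 by rw [QuadraticMap.map_smul, hQd, smul_zero])
    (hne (show (0 : Fin 5) ≠ 4 by decide)) (hne (show (1 : Fin 5) ≠ 4 by decide))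
    (hne (show (0 : Fin 5) ≠ 1 by decide)) ?_ ?_ ?_ hx hx0 hs
  · rw [map_smul, hp, if_neg (hne (by decide)), if_neg (hne (by decide)), if_neg (hne (by decide)),
      if_neg (hne (by decide)), smul_zero]
  · rw [map_smul, hp, if_pos rfl, QuadraticMap.map_smul, smul_eq_mul]
    exact mul_ne_zero (mul_self_ne_zero.2 (inv_ne_zero hc)) hδ0
  · rw [(C.proj (a 1)).map_smul, (C.proj (a 0)).map_smul, hp, hp, if_pos rfl, if_neg (hne (by decide)), if_pos rfl,
      QuadraticMap.map_smul, QuadraticMap.map_smul, eq_neg_of_add_eq_zero_right hsum, smul_eq_mul,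
      smul_eq_mul, mul_neg]

/-- A related vector with two components generates everything. -/
theorem commutator_le_of_multi {w : ι → F} (hw : w ∈ Rel M D c) {j l : Fin t} (hjl : j ≠ l)
    (hj : C.proj j w ≠ 0) (hl : C.proj l w ≠ 0) : commutator (OQ Q) ≤ M := by
  classical
  have three : ∀ {v : ι → F}, v ∈ Rel M D c → ∀ {p r m : Fin t}, p ≠ r → m ≠ p → m ≠ r →
      C.proj p v ≠ 0 → C.proj r v ≠ 0 → C.proj m v ≠ 0 → commutator (OQ Q) ≤ M := by
    intro v hv p r m hpr hmp hmr hp hr hm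
    by_cases hsing : ∃ i, C.proj i v ≠ 0 ∧ Q (C.proj i v) = 0
    · obtain ⟨i, hi, hi'⟩ := hsing
      exact commutator_le_of_singular_component h C hM hc hv hi hi'
    push Not at hsing
    by_cases hz : ∃ s, C.proj s v = 0
    · obtain ⟨s, hs⟩ := hz
      exact commutator_le_of_pair h C hM hc hv hpr hmp hmr (hsing p hp) (hsing r hr) hm hs
    · push Not at hz
      exact commutator_le_of_full h C hM hc hv fun i => hsing i (hz i)
  by_cases hthree : ∃ m, m ≠ j ∧ m ≠ l ∧ C.proj m w ≠ 0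
  · obtain ⟨m, h1, h2, h3⟩ := hthree
    exact three hw hjl h1 h2 hj hl h3
  push Not at hthree
  exact commutator_le_of_two h C hM hc hw hjl hj hl hthree

end Cfsg.Agent.DecompMax
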