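import Cfsg.Agent.DecompMax.PlaneRel
import Cfsg.Agent.DecompMax.OrthSeed
import Mathlib.Combinatorics.Enumerative.DoubleCounting

/-!
An intermediate group outside the stabiliser of a decomposition into planes has a related vector with
two components; maximality.
-/

set_option autoImplicit false
set_option linter.style.haveILetI false

namespace Cfsg.Agent.DecompMax

open QuadraticMap Module Cfsg.Agent.Classical Cfsg.Agent.GeoClasses
open scoped MatrixGroups

universe u

variable {F : Type u} [Field F] [Finite F] {ι : Type} [Fintype ι] [DecidableEq ι]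
variable {Q : QuadraticForm F (ι → F)} {t : ℕ} {D : Fin t → Submodule F (ι → F)}
variable (h : IsPlaneDec Q D) (C : Components D)
include h C

omit C in
theorem IsPlaneDec.sphere_not_two_lines (i : Fin t) {c : F} (hc : c ≠ 0) (a a' : ι → F) :
    ∃ z ∈ D i, Q z = c ∧ z ∉ F ∙ a ∧ z ∉ F ∙ a' := by
  haveI : Finite (ι → F) := Module.finite_of_finite F
  by_contra hno
  push Not at hno
  obtain ⟨y₀, hy⟩ := h.span_sphere_le i hc a
  obtain ⟨y₁, hy'⟩ := h.span_sphere_le i hc a'
  have hsub : sphere Q (D i) c ⊆ {y₀, -y₀} ∪ {y₁, -y₁} := fun z hz => by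
    by_cases hm : z ∈ F ∙ a
    · exact Or.inl (hy ⟨hz, hm⟩)
    · exact Or.inr (hy' ⟨hz, hno z hz.1 hz.2 hm⟩)
  have h1 := (Set.ncard_le_ncard hsub (Set.toFinite _)).trans (Set.ncard_union_le _ _)
  obtain ⟨h3, h5⟩ := h.sphere_ge i hc
  by_cases h2 : (2 : F) = 0
  · have hneg : ∀ w : ι → F, -w = w := fun w => by
      rw [neg_eq_iff_add_eq_zero, ← two_smul F w, h2, zero_smul]
    rw [hneg, hneg, Set.pair_eq_singleton, Set.pair_eq_singleton, Set.ncard_singleton,
      Set.ncard_singleton] at h1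
    omega
  · have hp : ∀ w : ι → F, ({w, -w} : Set (ι → F)).ncard ≤ 2 := fun w =>
      (Set.ncard_insert_le _ _).trans (by rw [Set.ncard_singleton])
    have := hp y₀
    have := hp y₁
    have := h5 h2
    omega

/-- An isometry mapping the vectors of one value of each member into members permutes the members. -/
theorem plane_mem_decSub_of_value {c : F} (hc : c ≠ 0) {g : OQ Q}
    (hg : ∀ i, ∀ a ∈ D i, Q a = c → ∃ p, g.1 a ∈ D p) : g ∈ decSub Q D := by
  refine mem_decSub_of_forall h.dec fun i x hx => ?_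
  obtain ⟨a, ha, hQa⟩ := (h.nd i).exists_value (le_of_eq (h.dim i).symm) c
  obtain ⟨p, hp⟩ := hg i a ha hQa
  have hane : a ≠ 0 := fun e => hc (by rw [← hQa, e, map_zero])
  refine ⟨p, ?_⟩
  have horth : ∀ {w z : ι → F}, g.1 w ∈ D p → ∀ {r}, r ≠ p → g.1 z ∈ D r → polar Q w z = 0 := by
    intro w z hw r hr hz
    rw [← OQ_polar g w z]
    exact h.orth p r (Ne.symm hr) _ hw _ hz
  by_cases hall : ∀ z ∈ D i, Q z = c → g.1 z ∈ D p
  · obtain ⟨y, hy, hQy, -, hyn⟩ := h.exists_avoid i ha hane a hc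
    obtain ⟨α, β, rfl⟩ := plane_span_pair (h.dim i) ha hy hane hyn hx
    rw [map_add, map_smul, map_smul]
    exact (D p).add_mem ((D p).smul_mem _ hp) ((D p).smul_mem _ (hall y hy hQy))
  push Not at hall
  obtain ⟨a', ha', hQa', hga'⟩ := hall
  obtain ⟨r, hr⟩ := hg i a' ha' hQa'
  have hrp : r ≠ p := fun e => hga' (e ▸ hr)
  have ha'0 : a' ≠ 0 := fun e => hc (by rw [← hQa', e, map_zero])
  have haa' : polar Q a a' = 0 := horth hp hrp hr
  obtain ⟨z, hz, hQz, hz1, hz2⟩ := h.sphere_not_two_lines i hc a a'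
  obtain ⟨r', hr'⟩ := hg i z hz hQz
  rcases eq_or_ne r' p with rfl | hne
  · exact (hz1 (plane_perp_dep (h.nd i) (h.dim i) ha' ha'0 ha hz hane
      (by rw [polar_comm]; exact haa') (by rw [polar_comm]; exact horth hr' hrp hr))).elim
  · exact (hz2 (plane_perp_dep (h.nd i) (h.dim i) ha hane ha' hz ha'0 haa' (horth hp hne hr'))).elim

variable {M : Subgroup (OQ Q)} (hM : decSub Q D ⊓ commutator (OQ Q) ≤ M)
include hM

/-- An element of `M` outside the stabiliser gives a member whose reflection pairs are outside. -/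
theorem plane_exists_pair_outside {g : OQ Q} (hgM : g ∈ M) (hg : g ∉ decSub Q D) :
    ∃ (i : Fin t) (a b : ι → F) (ha0 : Q a ≠ 0) (hb0 : Q b ≠ 0), a ∈ D i ∧ b ∈ D i ∧ b ∉ F ∙ a ∧
      reflQ Q (g.1 a) (by rwa [OQ_map_app]) * reflQ Q (g.1 b) (by rwa [OQ_map_app]) ∈ M ∧
      reflQ Q (g.1 a) (by rwa [OQ_map_app]) * reflQ Q (g.1 b) (by rwa [OQ_map_app]) ∉ decSub Q D := by
  obtain ⟨i, a, ha, hQa, hga⟩ : ∃ i, ∃ a ∈ D i, Q a = 1 ∧ ∀ p, g.1 a ∉ D p := by
    by_contra hno
    push Not at hno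
    exact hg (plane_mem_decSub_of_value h C one_ne_zero hno)
  have ha0 : Q a ≠ 0 := hQa ▸ one_ne_zero
  have hane : a ≠ 0 := fun e => ha0 (by rw [e, map_zero])
  obtain ⟨b, hb, hQb, hab, hba⟩ := h.exists_avoid i ha hane a (one_ne_zero (α := F))
  have hb0 : Q b ≠ 0 := hQb ▸ one_ne_zero
  refine ⟨i, a, b, ha0, hb0, ha, hb, hba, ?_, ?_⟩
  · rw [← reflQ_conj Q g a ha0, ← reflQ_conj Q g b hb0, show g * reflQ Q a ha0 * g⁻¹ *
      (g * reflQ Q b hb0 * g⁻¹) = g * (reflQ Q a ha0 * reflQ Q b hb0) * g⁻¹ by group]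
    exact mul_mem (mul_mem hgM (block_pair_mem h.toIsOrthDec hM ha hb ha0 hb0
      ⟨1, by rw [hQa, hQb]⟩)) (inv_mem hgM)
  intro hT
  set u := g.1 a
  set v := g.1 b
  have hu0 : Q u ≠ 0 := by rwa [OQ_map_app]
  have hv0 : Q v ≠ 0 := by rwa [OQ_map_app]
  have hQu : Q u = 1 := by rw [OQ_map_app]; exact hQa
  have hQv : Q v = 1 := by rw [OQ_map_app]; exact hQb
  have huv : polar Q u v ≠ 0 := by rw [OQ_polar]; exact hab
  have hune : u ≠ 0 := fun e => hu0 (by rw [e, map_zero])
  set T := reflQ Q u hu0 * reflQ Q v hv0 with hTdef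
  set P := Submodule.span F (Set.range ![u, v]) with hPdef
  have hP2 : finrank F P = 2 := by
    rw [hPdef, finrank_span_eq_card, Fintype.card_fin]
    rw [LinearIndependent.pair_iff' hune]
    intro r hr
    exact hba (Submodule.mem_span_singleton.2 ⟨r, g.1.injective (by rw [map_smul]; exact hr)⟩)
  have hmemP : ∀ z ∈ P, ∃ p r : F, p • u + r • v = z := fun z hz => by
    rwa [hPdef, Matrix.range_cons, Matrix.range_cons, Matrix.range_empty, Set.union_empty,
      Set.singleton_union, Submodule.mem_span_pair] at hz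
  -- `T` is not an involution
  have hT2 : (∀ z, T.1 (T.1 z) = z) → False := by
    intro hinv
    have h1 := hinv u
    have h2 : T.1 ((reflQ Q v hv0 * reflQ Q u hu0).1 u) = u := by
      rw [hTdef, ← LinearEquiv.mul_apply, ← Subgroup.coe_mul,
        show reflQ Q u hu0 * reflQ Q v hv0 * (reflQ Q v hv0 * reflQ Q u hu0) = 1 by
          rw [mul_assoc, ← mul_assoc (reflQ Q v hv0), reflQ_mul_self, one_mul, reflQ_mul_self]]
      rfl
    have h3 := T.1.injective (h2.trans h1.symm)
    rw [Subgroup.coe_mul, LinearEquiv.mul_apply, hTdef, Subgroup.coe_mul, LinearEquiv.mul_apply,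
      OrthGen.reflQ_self, map_neg, reflQ_apply Q v hv0 u, map_sub, map_smul, OrthGen.reflQ_self,
      reflQ_apply Q u hu0 v, hQu, hQv, polar_comm Q v u] at h3
    simp only [inv_one, one_mul] at h3
    have h4 : (polar Q u v ^ 2) • u = (2 * polar Q u v) • v := by
      linear_combination (norm := module) -h3
    have : v ∈ F ∙ u := by
      by_cases h20 : (2 : F) = 0
      · rw [h20, zero_mul, zero_smul] at h4
        exact absurd ((smul_eq_zero.1 h4).resolve_right hune) (pow_ne_zero _ huv)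
      · exact Submodule.mem_span_singleton.2 ⟨(2 * polar Q u v)⁻¹ * polar Q u v ^ 2, by
          rw [mul_smul, h4, inv_smul_smul₀ (mul_ne_zero h20 huv)]⟩
    obtain ⟨r, hr⟩ := Submodule.mem_span_singleton.1 this
    exact hba (Submodule.mem_span_singleton.2 ⟨r, g.1.injective (by rw [map_smul]; exact hr)⟩)
  obtain ⟨σ, hσ⟩ := exists_perm_of_mem_decSub hT
  have hTσ : ∀ j, ∀ z ∈ D j, T.1 z ∈ D (σ j) := fun j z hz => by
    rw [← hσ j]; exact ⟨z, hz, rfl⟩
  have hsub : ∀ z, z - T.1 z ∈ P := fun z => refl_pair_sub_mem hu0 hv0 z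
  by_cases hid : ∀ j, σ j = j
  · -- every member is invariant
    have hcomm : ∀ z r, C.proj r (T.1 z) = T.1 (C.proj r z) := by
      intro z r
      conv_lhs => rw [← C.sum_eq z]
      rw [map_sum, map_sum, Finset.sum_eq_single r (fun j _ hj => ?_) (by simp)]
      · have h1 := hTσ r _ (C.mem r z)
        rw [hid r] at h1
        exact C.of_mem h1
      · have h1 := hTσ j _ (C.mem j z)
        rw [hid j] at h1
        exact C.of_mem_ne hj h1
    obtain ⟨r, hr⟩ : ∃ r, Q (C.proj r u) ≠ 0 := h.toIsOrthDec.exists_proj_ne C hu0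
    set x₁ := C.proj r u with hx₁
    set x₂ := u - x₁ with hx₂
    have hx₂0 : x₂ ≠ 0 := fun e => hga r (by rw [sub_eq_zero.1 e, hx₁]; exact C.mem r u)
    have hx₁0 : x₁ ≠ 0 := fun e => hr (by rw [e, map_zero])
    have hx₁P : x₁ ∈ P := by
      obtain ⟨z, hzu, hzv⟩ : ∃ z, polar Q u z = 1 ∧ polar Q v z = 0 := by
        obtain ⟨φ, hφu, hφv⟩ := exists_functional (p := F ∙ v) (x := u) (fun hmem => by
          obtain ⟨s, hs⟩ := Submodule.mem_span_singleton.1 hmem
          have hs0 : s ≠ 0 := fun e => hune (by rw [← hs, e, zero_smul])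
          exact hba (Submodule.mem_span_singleton.2 ⟨s⁻¹, g.1.injective (by
            rw [map_smul]
            show s⁻¹ • u = v
            rw [← hs, inv_smul_smul₀ hs0])⟩))
        have hnd : (polarBilin Q).Nondegenerate :=
          ⟨fun x hx => h.bnd x hx, fun x hx => h.bnd x fun y => (polar_comm Q x y).trans (hx y)⟩
        refine ⟨(LinearMap.BilinForm.toDual (polarBilin Q) hnd).symm φ, ?_, ?_⟩
        all_goals rw [polar_comm, ← polarBilin_apply_apply,
          LinearMap.BilinForm.apply_toDual_symm_apply (hB := hnd)]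
        exacts [hφu, hφv v (Submodule.mem_span_singleton_self v)]
      have hTz : z - T.1 z = u := by
        rw [hTdef, Subgroup.coe_mul, LinearEquiv.mul_apply, OrthGen.reflQ_fix Q hv0 hzv, reflQ_apply,
          hzu, hQu, inv_one, one_mul, one_smul]
        abel
      rw [hx₁, ← hTz, map_sub, hcomm]
      exact hsub _
    have hx₂P : x₂ ∈ P := P.sub_mem (Submodule.subset_span ⟨0, rfl⟩) hx₁P
    have h12 : polar Q x₁ x₂ = 0 := by
      rw [hx₂, polar_sub_right, hx₁, h.toIsOrthDec.polar_proj C (C.mem r u), OrthGen.polar_self_two]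
      ring
    have hx₂r : C.proj r x₂ = 0 := by rw [hx₂, map_sub, hx₁, C.proj_proj, if_pos rfl, sub_self]
    have hne : x₂ ∉ F ∙ x₁ := fun hmem => by
      obtain ⟨s, hs⟩ := Submodule.mem_span_singleton.1 hmem
      apply hx₂0
      rw [← hs, map_smul, C.of_mem (C.mem r u)] at hx₂r
      rw [← hs]; exact hx₂r
    have hspan : ∀ z ∈ P, ∃ p q : F, p • x₁ + q • x₂ = z := fun z hz =>
      plane_span_pair hP2 hx₁P hx₂P hx₁0 hne hz
    have huv' : ∀ w ∈ P, polar Q w u = 0 → polar Q w v = 0 → w = 0 := by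
      intro w hw h1 h2
      obtain ⟨p, q, rfl⟩ := hmemP w hw
      have e : p • u + q • v = g.1 (p • a + q • b) := by rw [map_add, map_smul, map_smul]
      rw [e] at h1 h2 ⊢
      rw [OQ_polar] at h1 h2
      rw [h.nd i (p • a + q • b) ((D i).add_mem ((D i).smul_mem _ ha) ((D i).smul_mem _ hb))
        (fun z hz => by
          obtain ⟨p', q', rfl⟩ := plane_span_pair (h.dim i) ha hb hane hba hz
          rw [polar_add_right, polar_smul_right, polar_smul_right, h1, h2]
          simp), map_zero]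
    have hperp : ∀ w ∈ P, polar Q w x₁ = 0 → polar Q w x₂ = 0 → w = 0 := by
      intro w hw h1 h2
      refine huv' w hw ?_ ?_
      · obtain ⟨p, q, e⟩ := hspan u (Submodule.subset_span ⟨0, rfl⟩)
        rw [← e, polar_add_right, polar_smul_right, polar_smul_right, h1, h2]; simp
      · obtain ⟨p, q, e⟩ := hspan v (Submodule.subset_span ⟨1, rfl⟩)
        rw [← e, polar_add_right, polar_smul_right, polar_smul_right, h1, h2]; simp
    have h20 : (2 : F) ≠ 0 := fun h2 => hx₁0 (hperp x₁ hx₁P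
      (by rw [OrthGen.polar_self_two, h2, zero_mul]) h12)
    have hQ2 : Q x₂ ≠ 0 := fun e => hx₂0 (hperp x₂ hx₂P (by rw [polar_comm]; exact h12)
      (by rw [OrthGen.polar_self_two, e, mul_zero]))
    have hTP : ∀ z ∈ P, T.1 z ∈ P := fun z hz => by
      have := P.sub_mem hz (hsub z); rwa [sub_sub_cancel] at this
    have he1 : T.1 (T.1 x₁) = x₁ := by
      obtain ⟨p, q, e⟩ := hspan _ (hTP x₁ hx₁P)
      have h1 : C.proj r (T.1 x₁) = T.1 x₁ := by rw [hcomm, hx₁, C.of_mem (C.mem r u)]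
      have hq : q = 0 := by
        rw [← e, map_add, map_smul, map_smul, hx₂r, smul_zero, add_zero, hx₁,
          C.of_mem (C.mem r u), left_eq_add, smul_eq_zero] at h1
        exact h1.resolve_right hx₂0
      rw [hq, zero_smul, add_zero] at e
      have hp : p * p = 1 := by
        have h3 : Q (p • x₁) = Q x₁ := by rw [e, OQ_map_app]
        rw [QuadraticMap.map_smul, smul_eq_mul] at h3
        exact mul_right_cancel₀ hr (by rw [h3, one_mul])
      rw [← e, map_smul, ← e, smul_smul, hp, one_smul]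
    have he2 : T.1 (T.1 x₂) = x₂ := by
      obtain ⟨p, q, e⟩ := hspan _ (hTP x₂ hx₂P)
      have h1 : C.proj r (T.1 x₂) = 0 := by rw [hcomm, hx₂r, map_zero]
      have hp : p = 0 := by
        rw [← e, map_add, map_smul, map_smul, hx₂r, smul_zero, add_zero, hx₁,
          C.of_mem (C.mem r u), smul_eq_zero] at h1
        exact h1.resolve_right hx₁0
      rw [hp, zero_smul, zero_add] at e
      have hq : q * q = 1 := by
        have h3 : Q (q • x₂) = Q x₂ := by rw [e, OQ_map_app]
        rw [QuadraticMap.map_smul, smul_eq_mul] at h3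
        exact mul_right_cancel₀ hQ2 (by rw [h3, one_mul])
      rw [← e, map_smul, ← e, smul_smul, hq, one_smul]
    refine hT2 fun z => ?_
    have hz : ∀ w ∈ P, T.1 (T.1 w) = w := fun w hw => by
      obtain ⟨p, q, rfl⟩ := hspan w hw
      simp only [map_add, map_smul, he1, he2]
    -- reduce to `P` and its orthogonal
    obtain ⟨p, q, hpu, hpv⟩ : ∃ p q : F, polar Q (z - (p • x₁ + q • x₂)) x₁ = 0 ∧
        polar Q (z - (p • x₁ + q • x₂)) x₂ = 0 := by
      refine ⟨(2 * Q x₁)⁻¹ * polar Q z x₁, (2 * Q x₂)⁻¹ * polar Q z x₂, ?_, ?_⟩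
      · rw [polar_sub_left, polar_add_left, polar_smul_left, polar_smul_left, polar_comm Q x₂ x₁, h12,
          OrthGen.polar_self_two]
        simp only [smul_eq_mul, mul_zero, add_zero]
        field_simp
        ring
      · rw [polar_sub_left, polar_add_left, polar_smul_left, polar_smul_left, h12,
          OrthGen.polar_self_two]
        simp only [smul_eq_mul, mul_zero, zero_add]
        field_simp
        ring
    set w := p • x₁ + q • x₂
    have hzw : ∀ y ∈ P, polar Q (z - w) y = 0 := fun y hy => by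
      obtain ⟨p', q', rfl⟩ := hspan y hy
      rw [polar_add_right, polar_smul_right, polar_smul_right, hpu, hpv]; simp
    have hfix : T.1 (z - w) = z - w := refl_pair_fix hu0 hv0
      (by rw [polar_comm]; exact hzw u (Submodule.subset_span ⟨0, rfl⟩))
      (by rw [polar_comm]; exact hzw v (Submodule.subset_span ⟨1, rfl⟩))
    conv_lhs => rw [show z = (z - w) + w by abel, map_add, hfix, map_add, hfix,
      hz w (P.add_mem (P.smul_mem _ hx₁P) (P.smul_mem _ hx₂P))]
    abel
  push Not at hid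
  obtain ⟨j, hj⟩ := hid
  set l := σ j with hl
  let L : ∀ s : Fin t, D s →ₗ[F] P := fun s =>
    ((LinearMap.id - T.1.toLinearMap).comp (D s).subtype).codRestrict _ fun z => hsub (z : ι → F)
  have hLsurj : ∀ s, σ s ≠ s → Function.Surjective (L s) := by
    intro s hs
    have hinj : Function.Injective (L s) := by
      rw [← LinearMap.ker_eq_bot, LinearMap.ker_eq_bot']
      intro z hz
      have hz' : (z : ι → F) = T.1 z := sub_eq_zero.1 (congrArg Subtype.val hz)
      apply Subtype.ext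
      have h1 : C.proj s (T.1 z) = 0 := C.of_mem_ne hs (hTσ s _ z.2)
      rw [← hz', C.of_mem z.2] at h1
      exact h1
    exact (LinearMap.injective_iff_surjective_of_finrank_eq_finrank
      (by rw [hP2, h.dim])).1 hinj
  have hPjl : ∀ w ∈ P, ∀ r, r ≠ j → r ≠ l → C.proj r w = 0 := fun w hw r hrj hrl => by
    obtain ⟨z, hz⟩ := hLsurj j hj ⟨w, hw⟩
    rw [← show (z : ι → F) - T.1 z = w from congrArg Subtype.val hz, map_sub,
      C.of_mem_ne hrj.symm z.2, C.of_mem_ne hrl.symm (hTσ j _ z.2), sub_zero]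
  have hσl' : σ l ≠ l := fun e => hj (σ.injective e)
  have hσl : σ l = j := by
    by_contra hne
    refine hga l (C.mem_of_forall fun r hr => ?_)
    by_cases hrj : r = j
    · subst hrj
      obtain ⟨y, hy⟩ := hLsurj l hσl' ⟨u, Submodule.subset_span ⟨0, rfl⟩⟩
      show C.proj r u = 0
      rw [← show (y : ι → F) - T.1 y = u from congrArg Subtype.val hy, map_sub,
        C.of_mem_ne (Ne.symm hr) y.2, C.of_mem_ne hne (hTσ l _ y.2), sub_zero]
    · exact hPjl u (Submodule.subset_span ⟨0, rfl⟩) r hrj hr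
  have hjl : j ≠ l := fun e => hj e.symm
  have hswap : ∀ x ∈ D j, T.1 (T.1 x) = x := by
    intro x hx
    obtain ⟨y, hy⟩ := hLsurj l hσl' ⟨x - T.1 x, hsub x⟩
    have hy' : (y : ι → F) - T.1 y = x - T.1 x := congrArg Subtype.val hy
    have hTy : T.1 y ∈ D j := hσl ▸ hTσ l _ y.2
    have h1 := congrArg (C.proj l) hy'
    rw [map_sub, map_sub, C.of_mem y.2, C.of_mem_ne hjl hTy, C.of_mem_ne hjl hx,
      C.of_mem (hTσ j _ hx), sub_zero, zero_sub] at h1
    have h2 := congrArg (C.proj j) hy'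
    rw [map_sub, map_sub, C.of_mem_ne hjl.symm y.2, C.of_mem hTy, C.of_mem hx,
      C.of_mem_ne hjl.symm (hTσ j _ hx), sub_zero, zero_sub, h1, map_neg, neg_neg] at h2
    exact h2
  refine hT2 fun z => ?_
  conv_lhs => rw [← C.sum_eq z, map_sum, map_sum]
  conv_rhs => rw [← C.sum_eq z]
  refine Finset.sum_congr rfl fun r _ => ?_
  rcases eq_or_ne r j with rfl | hrj
  · exact hswap _ (C.mem r z)
  rcases eq_or_ne r l with rfl | hrl
  · obtain ⟨x, hx, hxe⟩ : ∃ x ∈ D j, T.1 x = C.proj l z := by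
      have := C.mem l z
      rw [hl, ← hσ j] at this
      exact this
    rw [← hxe, hswap x hx]
  · have hσr : σ r = r := by
      by_contra hne
      obtain ⟨y, hy⟩ := hLsurj r hne ⟨u, Submodule.subset_span ⟨0, rfl⟩⟩
      have hy' : (y : ι → F) - T.1 y = u := congrArg Subtype.val hy
      have h1 := congrArg (C.proj r) hy'
      rw [map_sub, C.of_mem y.2, C.of_mem_ne hne (hTσ r _ y.2), sub_zero,
        hPjl u (Submodule.subset_span ⟨0, rfl⟩) r hrj hrl] at h1
      rw [h1, map_zero, sub_self] at hy'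
      exact hune hy'.symm
    have hfix : T.1 (C.proj r z) = C.proj r z := by
      have h1 := hPjl _ (hsub (C.proj r z)) r hrj hrl
      have hmem : T.1 (C.proj r z) ∈ D r := by have := hTσ r _ (C.mem r z); rwa [hσr] at this
      rw [map_sub, C.of_mem (C.mem r z), C.of_mem hmem, sub_eq_zero] at h1
      exact h1.symm
    rw [hfix, hfix]

omit C in
/-- A fixed vector of non-zero value. -/
theorem plane_commutator_le_of_fixed {T : OQ Q} (hTM : T ∈ M) (hT : T ∉ decSub Q D) {s : Fin t}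
    {a₀ : ι → F} (ha₀ : a₀ ∈ D s) (hQ : Q a₀ ≠ 0) (hfix : T.1 a₀ = a₀) :
    commutator (OQ Q) ≤ M := by
  obtain ⟨C⟩ := exists_components h.dec
  obtain ⟨i, b, hb, hQb, hTb⟩ : ∃ i, ∃ b ∈ D i, Q b = Q a₀ ∧ ∀ p, T.1 b ∉ D p := by
    by_contra hno
    push Not at hno
    exact hT (plane_mem_decSub_of_value h C hQ hno)
  have hw : T.1 b ∈ Rel M D (Q a₀) := rel_map h.toIsOrthDec hM hTM ha₀ (by rw [hfix]; exact ha₀) rfl
    (block_mem_rel h.toIsOrthDec hM hb hQb)
  obtain ⟨j, hj⟩ : ∃ j, C.proj j (T.1 b) ≠ 0 := by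
    by_contra hz
    push Not at hz
    exact hTb i (C.mem_of_forall fun l _ => hz l)
  by_contra hcon
  exact hTb j (C.mem_of_forall fun l hl => by
    by_contra hne
    exact hcon (commutator_le_of_multi h C hM hQ hw hl hne hj))

set_option maxHeartbeats 1600000 in
/-- No member has a fixed vector of non-zero value. -/
theorem plane_commutator_le_of_free {g : OQ Q} (hgM : g ∈ M) {i : Fin t}
    (hfree : ∀ s, ∀ x ∈ D s, (∀ y ∈ D i, polar Q (g.1 y) x = 0) → Q x = 0) :
    commutator (OQ Q) ≤ M := by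
  classical
  haveI : Finite (ι → F) := Module.finite_of_finite F
  haveI := Fintype.ofFinite F
  have hpair : ∀ {y y' : ι → F}, y ∈ D i → y' ∈ D i → ∀ (h1 : Q y ≠ 0) (h2 : Q y' ≠ 0),
      IsSquare (Q y * Q y') → reflQ Q (g.1 y) (by rwa [OQ_map_app]) *
        reflQ Q (g.1 y') (by rwa [OQ_map_app]) ∈ M := by
    intro y y' hy hy' h1 h2 hsq
    rw [← reflQ_conj Q g y h1, ← reflQ_conj Q g y' h2, show g * reflQ Q y h1 * g⁻¹ *
      (g * reflQ Q y' h2 * g⁻¹) = g * (reflQ Q y h1 * reflQ Q y' h2) * g⁻¹ by group]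
    exact mul_mem (mul_mem hgM (block_pair_mem h.toIsOrthDec hM hy hy' h1 h2 hsq)) (inv_mem hgM)
  have hperp : ∀ {y : ι → F} {s : Fin t} {x : ι → F}, x ∈ D s →
      polar Q (g.1 y) x = polar Q (C.proj s (g.1 y)) x := fun {y s x} hx => by
    rw [polar_comm, h.toIsOrthDec.polar_proj C hx, polar_comm]
  -- the members onto which the image of `D i` projects injectively
  set R := Finset.univ.filter fun s => ∀ y ∈ D i, C.proj s (g.1 y) = 0 → y = 0 with hRdef
  have htype : ∀ s, s ∉ R → ∃ e ∈ D s, e ≠ 0 ∧ Q e = 0 ∧ ∀ y ∈ D i, polar Q (g.1 y) e = 0 := by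
    intro s hs
    simp only [hRdef, Finset.mem_filter, Finset.mem_univ, true_and, not_forall] at hs
    obtain ⟨y₀, hy₀, hy₀p, hy₀0⟩ := hs
    obtain ⟨z, hz, hzn⟩ := plane_exists_not_mem (h.dim i) hy₀0
    obtain ⟨e, he, he0, hze⟩ : ∃ e ∈ D s, e ≠ 0 ∧ polar Q (g.1 z) e = 0 := by
      obtain ⟨e, he, he0⟩ := (Submodule.ne_bot_iff _).1 (show D s ⊓ LinearMap.ker (polarBilin Q (g.1 z))
          ≠ ⊥ from fun hbot => by
        by_cases hex : ∃ x ∈ D s, polarBilin Q (g.1 z) x ≠ 0
        · have := Forms.finrank_eq_inf_ker_add_one (D s) (polarBilin Q (g.1 z)) hex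
          rw [hbot, finrank_bot, h.dim] at this
          omega
        · push Not at hex
          have hle : D s ≤ D s ⊓ LinearMap.ker (polarBilin Q (g.1 z)) := le_inf le_rfl hex
          have := Submodule.finrank_mono (hbot ▸ hle)
          rw [finrank_bot, h.dim] at this
          omega)
      exact ⟨e, he.1, he0, he.2⟩
    have hall : ∀ y ∈ D i, polar Q (g.1 y) e = 0 := fun y hy => by
      obtain ⟨p, r, rfl⟩ := plane_span_pair (h.dim i) hy₀ hz hy₀0 hzn hy
      rw [map_add, map_smul, map_smul, polar_add_left, polar_smul_left, polar_smul_left, hze,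
        hperp he, hy₀p, polar_zero_left]
      simp
    exact ⟨e, he, he0, hfree s e he hall, hall⟩
  have hsing : ∀ s, s ∉ R → ∀ y ∈ D i, Q (C.proj s (g.1 y)) = 0 := fun s hs y hy => by
    obtain ⟨e, he, he0, hQe, hall⟩ := htype s hs
    obtain ⟨r, hr⟩ := Submodule.mem_span_singleton.1 (plane_perp_dep (h.nd s) (h.dim s) he he0 he
      (C.mem s (g.1 y)) he0 (by rw [OrthGen.polar_self_two, hQe, mul_zero])
      (by rw [polar_comm, ← hperp he]; exact hall y hy))
    rw [← hr, QuadraticMap.map_smul, hQe, smul_zero]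
  by_cases hcon : commutator (OQ Q) ≤ M
  · exact hcon
  -- every member is reached
  have hRall : ∀ l, l ∈ R := by
    intro l
    by_contra hl
    refine hcon ?_
    obtain ⟨e, he, he0, hQe, hall⟩ := htype l hl
    rcases h.cases with ⟨ha, -⟩ | ⟨-, h7⟩
    · exact (he0 (ha l e he hQe)).elim
    obtain ⟨f, hf, hQf, hef⟩ := (h.nd l).exists_partner he he0 hQe
    obtain ⟨a, ha, hQa⟩ := (h.nd i).exists_value (le_of_eq (h.dim i).symm) 1
    have ha0 : Q a ≠ 0 := hQa ▸ one_ne_zero
    obtain ⟨b, hb, hQb, hab, hba⟩ := h.exists_avoid i ha (fun e' => ha0 (by rw [e', map_zero])) a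
      (one_ne_zero (α := F))
    have hb0 : Q b ≠ 0 := hQb ▸ one_ne_zero
    have hga0 : Q (g.1 a) ≠ 0 := by rwa [OQ_map_app]
    have hgb0 : Q (g.1 b) ≠ 0 := by rwa [OQ_map_app]
    set T := reflQ Q (g.1 a) hga0 * reflQ Q (g.1 b) hgb0 with hTdef
    have hTM : T ∈ M := hpair ha hb ha0 hb0 ⟨1, by rw [hQa, hQb]⟩
    have hTe : T.1 e = e := refl_pair_fix hga0 hgb0 (hall a ha) (hall b hb)
    set f' := T.1 f with hf'
    have hef' : polar Q e f' = 1 := by rw [← hTe, hf', OQ_polar]; exact hef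
    have hQf' : Q f' = 0 := by rw [hf', OQ_map_app]; exact hQf
    -- the torus of the member
    obtain ⟨s₀, -, hs₀⟩ := Finset.exists_mem_notMem_of_card_lt_card
      (s := ({0, 1, -1} : Finset F)) (t := Finset.univ) (by
        rw [Finset.card_univ, ← Nat.card_eq_fintype_card]
        exact lt_of_le_of_lt Finset.card_le_three (by omega))
    simp only [Finset.mem_insert, Finset.mem_singleton, not_or] at hs₀
    set κ := s₀ ^ 2 with hκ
    have hκ0 : κ ≠ 0 := pow_ne_zero _ hs₀.1
    have hκ1 : κ - 1 ≠ 0 := fun e' => by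
      have : (s₀ - 1) * (s₀ + 1) = 0 := by rw [hκ] at e'; linear_combination e'
      rcases mul_eq_zero.1 this with h' | h'
      · exact hs₀.2.1 (sub_eq_zero.1 h')
      · exact hs₀.2.2 (eq_neg_of_add_eq_zero_left h')
    have hQ1 : Q (e - f) = -1 := by rw [qf_sub, hQe, hQf, hef]; ring
    have hQ2 : Q (e - κ • f) = -κ := by
      rw [qf_sub, QuadraticMap.map_smul, hQe, hQf, polar_smul_right, hef]; simp
    have h10 : Q (e - f) ≠ 0 := by rw [hQ1]; exact neg_ne_zero.2 one_ne_zero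
    have h20 : Q (e - κ • f) ≠ 0 := by rw [hQ2]; exact neg_ne_zero.2 hκ0
    have h10' : Q (T.1 (e - f)) ≠ 0 := by rwa [OQ_map_app]
    have h20' : Q (T.1 (e - κ • f)) ≠ 0 := by rwa [OQ_map_app]
    have hT'M : reflQ Q (T.1 (e - f)) h10' * reflQ Q (T.1 (e - κ • f)) h20' ∈ M := by
      rw [← reflQ_conj Q T _ h10, ← reflQ_conj Q T _ h20, show T * reflQ Q (e - f) h10 * T⁻¹ *
        (T * reflQ Q (e - κ • f) h20 * T⁻¹) =
          T * (reflQ Q (e - f) h10 * reflQ Q (e - κ • f) h20) * T⁻¹ by group]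
      exact mul_mem (mul_mem hTM (block_pair_mem h.toIsOrthDec hM ((D l).sub_mem he hf)
        ((D l).sub_mem he ((D l).smul_mem _ hf)) h10 h20 ⟨s₀, by rw [hQ1, hQ2, hκ]; ring⟩))
        (inv_mem hTM)
    set T' := reflQ Q (T.1 (e - f)) h10' * reflQ Q (T.1 (e - κ • f)) h20'
    have hTapp : ∀ x : ι → F, polar Q e x = 0 → T'.1 x = x + ((κ - 1) * polar Q f' x) • e := by
      intro x hx
      have e1 : T.1 (e - f) = e - f' := by rw [map_sub, hTe]
      have e2 : T.1 (e - κ • f) = e - κ • f' := by rw [map_sub, map_smul, hTe]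
      have hQ1' : Q (e - f') = -1 := by rw [← e1, OQ_map_app, hQ1]
      have hQ2' : Q (e - κ • f') = -κ := by rw [← e2, OQ_map_app, hQ2]
      simp only [T', Subgroup.coe_mul, LinearEquiv.mul_apply, reflQ_apply, e1,
        e2, hQ1', hQ2', polar_sub_left, polar_sub_right, polar_smul_left, polar_smul_right, hx,
        OrthGen.polar_self_two, hQe, hQf', hef', polar_comm Q f' e, smul_eq_mul]
      match_scalars <;> field_simp <;> ring
    set θ := T.1 f - f with hθdef
    have hθP : θ ∈ (D i).map g.1.toLinearMap := by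
      have h1 := refl_pair_sub_mem hga0 hgb0 f
      rw [← hTdef] at h1
      have hle : Submodule.span F (Set.range ![g.1 a, g.1 b]) ≤ (D i).map g.1.toLinearMap :=
        Submodule.span_le.2 (by
          rintro _ ⟨r, rfl⟩; fin_cases r
          · exact ⟨a, ha, rfl⟩
          · exact ⟨b, hb, rfl⟩)
      rw [hθdef, ← neg_sub]
      exact Submodule.neg_mem _ (hle h1)
    have hfθ : f' = f + θ := by rw [hθdef, hf']; abel
    have hpf : ∀ {s : Fin t} {x : ι → F}, s ≠ l → x ∈ D s →
        polar Q e x = 0 ∧ polar Q f' x = polar Q (C.proj s θ) x := by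
      intro s x hs hx
      refine ⟨h.orth l s hs.symm e he x hx, ?_⟩
      rw [hfθ, polar_add_left, h.orth l s hs.symm f hf x hx, zero_add,
        polar_comm Q θ x, h.toIsOrthDec.polar_proj C hx, polar_comm]
    have hθ0 : ∃ s, s ≠ l ∧ C.proj s θ ≠ 0 := by
      by_contra hno
      push Not at hno
      have hθl : θ ∈ D l := C.mem_of_forall hno
      obtain ⟨r, hr⟩ := Submodule.mem_span_singleton.1 (plane_perp_dep (h.nd l) (h.dim l) he he0 he
        hθl he0 (by rw [OrthGen.polar_self_two, hQe, mul_zero]) (by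
          rw [hθdef, ← hf', polar_sub_right, hef', hef, sub_self]))
      have hr0 : r = 0 := by
        rw [hfθ, qf_add, hQf, ← hr, QuadraticMap.map_smul, hQe, polar_smul_right, polar_comm Q f e,
          hef] at hQf'
        simpa using hQf'
      rw [hr0, zero_smul] at hr
      have hTf : T.1 f = f := by rw [← hf', hfθ, ← hr, add_zero]
      have hTx : T.1 (e - f) = e - f := by rw [map_sub, hTe, hTf]
      -- `e - f` is orthogonal to the whole image
      have horth : ∀ y ∈ D i, polar Q (g.1 y) (e - f) = 0 := by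
        have hx := hTx
        rw [hTdef, Subgroup.coe_mul, LinearEquiv.mul_apply] at hx
        have hx' := congrArg (reflQ Q (g.1 a) hga0).1 hx
        rw [← LinearEquiv.mul_apply, ← Subgroup.coe_mul, reflQ_mul_self] at hx'
        change (reflQ Q (g.1 b) hgb0).1 (e - f) = _ at hx'
        rw [reflQ_apply, reflQ_apply, sub_right_inj] at hx'
        have key : ∀ {p r : F}, p • g.1 b = r • g.1 a → p = 0 ∧ r = 0 := by
          intro p r he'
          rw [← map_smul, ← map_smul] at he'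
          have he'' := g.1.injective he'
          have hp : p = 0 := by
            by_contra hp
            exact hba (Submodule.mem_span_singleton.2 ⟨p⁻¹ * r, by
              rw [mul_smul, ← he'', inv_smul_smul₀ hp]⟩)
          refine ⟨hp, ?_⟩
          rw [hp, zero_smul, eq_comm, smul_eq_zero] at he''
          exact he''.resolve_right fun e' => ha0 (by rw [e', map_zero])
        obtain ⟨h1, h2⟩ := key hx'
        have h1' := (mul_eq_zero.1 h1).resolve_left (inv_ne_zero hgb0)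
        have h2' := (mul_eq_zero.1 h2).resolve_left (inv_ne_zero hga0)
        intro y hy
        obtain ⟨p, r, rfl⟩ := plane_span_pair (h.dim i) ha hb (fun e' => ha0 (by rw [e', map_zero]))
          hba hy
        rw [map_add, map_smul, map_smul, polar_add_left, polar_smul_left, polar_smul_left, h1', h2']
        simp
      exact h10 (hfree l _ ((D l).sub_mem he hf) horth)
    obtain ⟨s, hsl, hθs⟩ := hθ0
    -- an Eichler transformation centred in the member
    have heW : ∀ z ∈ (D i).map g.1.toLinearMap, polar Q e z = 0 := by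
      rintro _ ⟨z, hz, rfl⟩
      rw [polar_comm]
      exact hall z hz
    have heθ : polar Q e θ = 0 := heW θ hθP
    have hea : polar Q e ((-(κ - 1)) • θ) = 0 := by rw [polar_smul_right, heθ, smul_zero]
    set h₀ := reflQ Q (e - f) h10 * reflQ Q (e - κ • f) h20 with hh₀
    have hh₀M : h₀ ∈ M := block_pair_mem h.toIsOrthDec hM ((D l).sub_mem he hf)
      ((D l).sub_mem he ((D l).smul_mem _ hf)) h10 h20 ⟨s₀, by rw [hQ1, hQ2, hκ]; ring⟩
    have hh₀e : ∀ x : ι → F, polar Q e x = 0 → h₀.1 x = x + ((κ - 1) * polar Q f x) • e := by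
      intro x hx
      simp only [h₀, Subgroup.coe_mul, LinearEquiv.mul_apply, reflQ_apply, hQ1, hQ2, polar_sub_left,
        polar_sub_right, polar_smul_left, polar_smul_right, hx, OrthGen.polar_self_two, hQe, hQf,
        hef, polar_comm Q f e, smul_eq_mul]
      match_scalars <;> field_simp <;> ring
    have hh₀f : h₀.1 f = κ⁻¹ • f := by
      simp only [h₀, Subgroup.coe_mul, LinearEquiv.mul_apply, reflQ_apply, hQ1, hQ2, polar_sub_left,
        polar_sub_right, polar_smul_left, polar_smul_right, OrthGen.polar_self_two, hQe, hQf,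
        hef, polar_comm Q f e, smul_eq_mul]
      match_scalars <;> field_simp <;> ring
    have hT'f' : T'.1 f' = κ⁻¹ • f' := by
      have hh : T' = T * h₀ * T⁻¹ := by
        rw [show T * h₀ * T⁻¹ = T * reflQ Q (e - f) h10 * T⁻¹ *
          (T * reflQ Q (e - κ • f) h20 * T⁻¹) by rw [hh₀]; group, reflQ_conj Q T _ h10 h10',
          reflQ_conj Q T _ h20 h20']
      rw [hh, hf']
      show (T * h₀).1 (T.1.symm (T.1 f)) = _
      rw [LinearEquiv.symm_apply_apply, Subgroup.coe_mul, LinearEquiv.mul_apply, hh₀f, map_smul]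
    have hfθ0 : polar Q f θ = -Q θ := by
      have h0 := hQf'
      rw [hfθ, qf_add, hQf] at h0
      linear_combination h0
    have hTh : T' = siegel Q hQe hea * h₀ := by
      apply Subtype.ext
      ext1 v
      obtain ⟨v₀, hv₀, hv⟩ : ∃ v₀, polar Q e v₀ = 0 ∧ v = v₀ + polar Q e v • f :=
        ⟨v - polar Q e v • f, by rw [polar_sub_right, polar_smul_right, hef]; simp, by abel⟩
      rw [hv, map_add, map_add, map_smul, map_smul]
      congr 1
      · rw [hTapp v₀ hv₀, Subgroup.coe_mul, LinearEquiv.mul_apply, hh₀e v₀ hv₀, siegel_apply,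
          hfθ]
        simp only [polar_add_left, polar_add_right, polar_smul_left, polar_smul_right, hv₀,
          OrthGen.polar_self_two, hQe, polar_comm Q θ e, heθ, smul_eq_mul]
        match_scalars <;> ring
      · congr 1
        have e1 : T'.1 f = κ⁻¹ • f' - T'.1 θ := by
          rw [eq_sub_iff_add_eq, ← map_add, ← hfθ, hT'f']
        rw [e1, hTapp θ heθ, Subgroup.coe_mul, LinearEquiv.mul_apply, hh₀f, map_smul, siegel_apply,
          hfθ]
        simp only [polar_add_left, polar_smul_left, polar_smul_right, OrthGen.polar_self_two, hef,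
          hfθ0, polar_comm Q θ f, QuadraticMap.map_smul, smul_eq_mul]
        match_scalars <;> field_simp <;> ring
    have hsiegel : SiegelIn M e ((-(κ - 1)) • θ) := fun _ _ => by
      have h1 := mul_mem hT'M (inv_mem hh₀M)
      rwa [show T' * h₀⁻¹ = siegel Q hQe hea by rw [hTh, mul_inv_cancel_right]] at h1
    -- move it inside one member
    set z := C.proj s ((-(κ - 1)) • θ) with hz
    have hz0 : z ≠ 0 := by
      rw [hz, map_smul]; exact smul_ne_zero (neg_ne_zero.2 hκ1) hθs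
    obtain ⟨y₁, hy₁, hQy₁, hzy₁, -⟩ := h.exists_avoid s (C.mem s _) hz0 0 (one_ne_zero (α := F))
    have hy₁0 : Q y₁ ≠ 0 := hQy₁ ▸ one_ne_zero
    obtain ⟨y₂, hy₂, hQy₂, -, hy₂n⟩ := h.exists_avoid s hy₁ (fun e' => hy₁0 (by rw [e', map_zero]))
      y₁ (one_ne_zero (α := F))
    have hy₂0 : Q y₂ ≠ 0 := hQy₂ ▸ one_ne_zero
    set ρ := reflQ Q y₁ hy₁0 * reflQ Q y₂ hy₂0 with hρ
    have hρM : ρ ∈ M := block_pair_mem h.toIsOrthDec hM hy₁ hy₂ hy₁0 hy₂0 ⟨1, by rw [hQy₁, hQy₂]⟩
    have hρe : ρ.1 e = e :=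
      refl_pair_fix hy₁0 hy₂0 (h.orth s l hsl y₁ hy₁ e he) (h.orth s l hsl y₂ hy₂ e he)
    set a' := (-(κ - 1)) • θ with ha'
    obtain ⟨x, hx⟩ : ∃ x, x = ρ.1 a' + -a' := ⟨_, rfl⟩
    have hxs : x ∈ D s := by
      have h1 := refl_pair_sub_mem hy₁0 hy₂0 a'
      have hle : Submodule.span F (Set.range ![y₁, y₂]) ≤ D s := Submodule.span_le.2 (by
        rintro _ ⟨r, rfl⟩; fin_cases r
        exacts [hy₁, hy₂])
      rw [hx, ← sub_eq_add_neg, ← neg_sub]
      exact (D s).neg_mem (hle h1)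
    have hx0 : x ≠ 0 := by
      intro e'
      have h1 : ρ.1 a' = a' := by
        rw [hx] at e'; exact eq_of_sub_eq_zero (by rw [sub_eq_add_neg]; exact e')
      rw [hρ, Subgroup.coe_mul, LinearEquiv.mul_apply] at h1
      have h2 := congrArg (reflQ Q y₁ hy₁0).1 h1
      rw [← LinearEquiv.mul_apply, ← Subgroup.coe_mul, reflQ_mul_self] at h2
      change (reflQ Q y₂ hy₂0).1 a' = _ at h2
      rw [reflQ_apply, reflQ_apply, sub_right_inj, hQy₁, hQy₂, inv_one, one_mul, one_mul] at h2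
      have hp : polar Q y₁ a' ≠ 0 := by
        rw [h.toIsOrthDec.polar_proj C hy₁, ← hz, polar_comm]; exact hzy₁
      have hp2 : polar Q y₂ a' ≠ 0 := fun e2 => by
        rw [e2, zero_smul] at h2
        exact (smul_ne_zero hp fun e3 => hy₁0 (by rw [e3, map_zero])) h2.symm
      exact hy₂n (Submodule.mem_span_singleton.2 ⟨(polar Q y₂ a')⁻¹ * polar Q y₁ a', by
        rw [mul_smul, ← h2, inv_smul_smul₀ hp2]⟩)
    have h1 := hsiegel.map hρM
    rw [hρe] at h1
    have hρa : polar Q e (ρ.1 a') = 0 := by rw [← hρe, OQ_polar]; exact hea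
    have hs' := SiegelIn.add hQe hρa (by rw [polar_neg_right, hea, neg_zero]) h1
      (SiegelIn.neg hQe hea hsiegel)
    rw [← hx] at hs'
    refine commutator_le_of_siegel h C hM hQe (J := {l}) (by have := h.five; simp; omega)
      (fun r => ?_) he0 (by simpa using hsl) hxs hx0 hs'
    rw [Finset.mem_singleton]
    constructor
    · rintro rfl; rw [C.of_mem he]; exact he0
    · intro hr
      by_contra hrl
      exact hr (C.of_mem_ne (Ne.symm hrl) he)
  have hR5 : 5 ≤ R.card := by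
    rw [Finset.eq_univ_of_forall hRall, Finset.card_univ, Fintype.card_fin]
    exact h.five
  let G : (ι → F) → Finset (Fin t) := fun y => R.filter fun s => Q (C.proj s (g.1 y)) ≠ 0
  have hGne : ∀ y ∈ D i, Q y ≠ 0 → (G y).Nonempty := by
    intro y hy hy0
    obtain ⟨s, hs⟩ := h.toIsOrthDec.exists_proj_ne C (v := g.1 y) (by rwa [OQ_map_app])
    refine ⟨s, Finset.mem_filter.2 ⟨?_, hs⟩⟩
    by_contra hsR
    exact hsR (hRall s)
  have hRne : ∀ {s : Fin t}, s ∈ R → ∀ y ∈ D i, y ≠ 0 → C.proj s (g.1 y) ≠ 0 := fun hs y hy hy0 e' =>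
    hy0 ((Finset.mem_filter.1 hs).2 y hy e')
  obtain ⟨p, hp, hp0, hGp⟩ : ∃ p ∈ D i, Q p ≠ 0 ∧ 4 ≤ (G p).card := by
    rcases h.cases with ⟨ha, -⟩ | ⟨hs, h7⟩
    · obtain ⟨p, hp, hQp⟩ := (h.nd i).exists_value (le_of_eq (h.dim i).symm) 1
      have hp0 : Q p ≠ 0 := hQp ▸ one_ne_zero
      refine ⟨p, hp, hp0, ?_⟩
      have : G p = R := Finset.filter_true_of_mem fun s hs e' =>
        hRne hs p hp (fun e'' => hp0 (by rw [e'', map_zero])) (ha s _ (C.mem s _) e')
      rw [this]; omega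
    obtain ⟨E, hE, hE0, hQE⟩ := hs i
    obtain ⟨E', hE', hQE', hEE'⟩ := (h.nd i).exists_partner hE hE0 hQE
    by_contra hno
    push Not at hno
    set S := Finset.univ.erase (0 : F)
    have hQS : ∀ x : F, Q (E + x • E') = x := fun x => by
      rw [qf_add, QuadraticMap.map_smul, hQE, hQE', polar_smul_right, hEE']; simp
    have hcount := Finset.card_mul_le_card_mul (s := S) (t := R)
      (fun (x : F) (s : Fin t) => Q (C.proj s (g.1 (E + x • E'))) = 0) (m := R.card - 3) (n := 2)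
      (fun x hx => ?_) (fun s hs' => ?_)
    · rw [Finset.card_erase_of_mem (Finset.mem_univ _), Finset.card_univ,
        ← Nat.card_eq_fintype_card] at hcount
      have : 6 * (R.card - 3) ≤ (Nat.card F - 1) * (R.card - 3) := Nat.mul_le_mul_right _ (by omega)
      omega
    · have hx0 : x ≠ 0 := (Finset.mem_erase.1 hx).1
      have h1 := hno (E + x • E') ((D i).add_mem hE ((D i).smul_mem _ hE')) (by rwa [hQS])
      have h2 := Finset.card_filter_add_card_filter_not (s := R)
        (p := fun s => Q (C.proj s (g.1 (E + x • E'))) = 0)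
      change _ + (G (E + x • E')).card = _ at h2
      rw [Finset.bipartiteAbove]
      omega
    · by_contra hlt
      obtain ⟨x₀, x₁, x₂, h0, h1, h2, h01, h02, h12⟩ := Finset.two_lt_card_iff.1 (not_le.1 hlt)
      simp only [Finset.bipartiteBelow, Finset.mem_filter, map_add, map_smul, qf_add,
        QuadraticMap.map_smul, polar_smul_right, smul_eq_mul] at h0 h1 h2
      set A := Q (C.proj s (g.1 E))
      set A' := Q (C.proj s (g.1 E'))
      set B' := polar Q (C.proj s (g.1 E)) (C.proj s (g.1 E'))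
      have r1 : A' * (x₀ + x₁) + B' = 0 := by
        apply mul_left_cancel₀ (sub_ne_zero.2 h01); rw [mul_zero]; linear_combination h0.2 - h1.2
      have r2 : A' * (x₀ + x₂) + B' = 0 := by
        apply mul_left_cancel₀ (sub_ne_zero.2 h02); rw [mul_zero]; linear_combination h0.2 - h2.2
      have hA' : A' = 0 := mul_left_cancel₀ (sub_ne_zero.2 h12) (by
        rw [mul_zero]; linear_combination r1 - r2)
      have hB' : B' = 0 := by linear_combination r1 - (x₀ + x₁) * hA'
      have hA : A = 0 := by linear_combination h0.2 - x₀ * x₀ * hA' - x₀ * hB'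
      have hind : E' ∉ F ∙ E := fun hm => by
        obtain ⟨r, rfl⟩ := Submodule.mem_span_singleton.1 hm
        rw [polar_smul_right, OrthGen.polar_self_two, hQE, mul_zero, smul_zero] at hEE'
        exact zero_ne_one hEE'
      refine hRne hs' E hE hE0 ?_
      refine h.nd s _ (C.mem s _) fun z hz => ?_
      have hne : C.proj s (g.1 E') ∉ F ∙ C.proj s (g.1 E) := fun hm => by
        obtain ⟨r, hr⟩ := Submodule.mem_span_singleton.1 hm
        refine hRne hs' (E' - r • E) ((D i).sub_mem hE' ((D i).smul_mem _ hE))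
          (fun e' => hind (Submodule.mem_span_singleton.2 ⟨r, (sub_eq_zero.1 e').symm⟩)) ?_
        rw [map_sub, map_sub, map_smul, map_smul, hr, sub_self]
      obtain ⟨α, β, rfl⟩ := plane_span_pair (h.dim s) (C.mem s _) (C.mem s _) (hRne hs' E hE hE0)
        hne hz
      show polar Q _ _ = 0
      rw [polar_add_right, polar_smul_right, polar_smul_right, OrthGen.polar_self_two]
      change α • (2 * A) + β • B' = 0
      rw [hA, hB']; simp
  have hpne : p ≠ 0 := fun e' => hp0 (by rw [e', map_zero])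
  obtain ⟨p', hp', hQp', hpp', hp'n⟩ := h.exists_avoid i hp hpne p hp0
  have hp'0 : Q p' ≠ 0 := by rwa [hQp']
  obtain ⟨s, hs⟩ := hGne p' hp' hp'0
  obtain ⟨hsR, hps⟩ := Finset.mem_filter.1 hs
  set P := g.1 p with hPdef
  set P' := g.1 p' with hP'def
  have hP0 : Q P ≠ 0 := by rwa [OQ_map_app]
  have hP'0 : Q P' ≠ 0 := by rwa [OQ_map_app]
  set T := reflQ Q P' hP'0 * reflQ Q P hP0 with hTdef
  have hTM : T ∈ M := hpair hp' hp hp'0 hp0 ⟨Q p, by rw [hQp']⟩
  have hzero : ∀ {l : Fin t} {x : ι → F}, x ∈ D l → polar Q P x = 0 → polar Q P' x = 0 → Q x = 0 := by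
    intro l x hx h1 h2
    refine hfree l x hx fun y hy => ?_
    obtain ⟨α, β, rfl⟩ := plane_span_pair (h.dim i) hp hp' hpne hp'n hy
    rw [map_add, map_smul, map_smul, polar_add_left, polar_smul_left, polar_smul_left, h1, h2]
    simp
  have hgood : ∀ {l : Fin t} {z : ι → F}, Q (C.proj l z) ≠ 0 →
      ∃ a ∈ D l, polar Q z a = 0 ∧ Q a ≠ 0 := by
    intro l z hz
    have hz0 : C.proj l z ≠ 0 := fun e' => hz (by rw [e', map_zero])
    obtain ⟨a, ha, ha0⟩ := (Submodule.ne_bot_iff _).1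
      (show D l ⊓ LinearMap.ker (polarBilin Q (C.proj l z)) ≠ ⊥ from fun hbot => by
        by_cases hex : ∃ x ∈ D l, polarBilin Q (C.proj l z) x ≠ 0
        · have := Forms.finrank_eq_inf_ker_add_one (D l) (polarBilin Q (C.proj l z)) hex
          rw [hbot, finrank_bot, h.dim] at this
          omega
        · push Not at hex
          exact hz0 (h.nd l _ (C.mem l z) hex))
    refine ⟨a, ha.1, ?_, fun hQ0 => ?_⟩
    · rw [polar_comm, h.toIsOrthDec.polar_proj C ha.1, polar_comm]; exact ha.2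
    obtain ⟨r, hr⟩ := Submodule.mem_span_singleton.1 (plane_perp_dep (h.nd l) (h.dim l) ha.1 ha0
      ha.1 (C.mem l z) ha0 (by rw [OrthGen.polar_self_two, hQ0, mul_zero])
      (by rw [polar_comm]; exact ha.2))
    exact hz (by rw [← hr, QuadraticMap.map_smul, hQ0, smul_zero])
  obtain ⟨J, hJsub, hJcard⟩ := Finset.exists_subset_card_eq (s := (G p).erase s) (n := 3)
    (by have := Finset.pred_card_le_card_erase (s := G p) (a := s); omega)
  have hJ : ∀ l ∈ J, l ≠ s ∧ ∃ a ∈ D l, polar Q P a = 0 ∧ Q a ≠ 0 := fun l hl => by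
    obtain ⟨h1, h2⟩ := Finset.mem_erase.1 (hJsub hl)
    exact ⟨h1, hgood (Finset.mem_filter.1 h2).2⟩
  obtain ⟨l, hlJ, r, hrJ, hlr, a', ha', hPa', hQa', b', hb', hPb', hQb'⟩ :
      ∃ l ∈ J, ∃ r ∈ J, l ≠ r ∧ ∃ a' ∈ D l, polar Q P a' = 0 ∧ Q a' ≠ 0 ∧
        ∃ b' ∈ D r, polar Q P b' = 0 ∧ Q b' = Q a' := by
    choose a ha hpa hQa using fun l (hl : l ∈ J) => (hJ l hl).2
    obtain ⟨l, hl, r, hr, hlr, hsq⟩ : ∃ l, ∃ hl : l ∈ J, ∃ r, ∃ hr : r ∈ J,
        l ≠ r ∧ IsSquare (Q (a l hl) * Q (a r hr)) := by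
      obtain ⟨l₀, l₁, l₂, h01, h02, h12, rfl⟩ := Finset.card_eq_three.1 hJcard
      have m0 : l₀ ∈ ({l₀, l₁, l₂} : Finset (Fin t)) := by simp
      have m1 : l₁ ∈ ({l₀, l₁, l₂} : Finset (Fin t)) := by simp
      have m2 : l₂ ∈ ({l₀, l₁, l₂} : Finset (Fin t)) := by simp
      by_cases h0 : IsSquare (Q (a l₀ m0)) ↔ IsSquare (Q (a l₁ m1))
      · exact ⟨l₀, m0, l₁, m1, h01, OrthGen.isSquare_mul_iff_same (hQa _ _) (hQa _ _) h0⟩
      by_cases h1 : IsSquare (Q (a l₀ m0)) ↔ IsSquare (Q (a l₂ m2))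
      · exact ⟨l₀, m0, l₂, m2, h02, OrthGen.isSquare_mul_iff_same (hQa _ _) (hQa _ _) h1⟩
      · exact ⟨l₁, m1, l₂, m2, h12, OrthGen.isSquare_mul_iff_same (hQa _ _) (hQa _ _) (by tauto)⟩
    obtain ⟨μ, hμ⟩ := hsq
    refine ⟨l, hl, r, hr, hlr, a l hl, ha l hl, hpa l hl, hQa l hl, (μ / Q (a r hr)) • a r hr,
      (D r).smul_mem _ (ha r hr), by rw [polar_smul_right, hpa r hr, smul_zero], ?_⟩
    rw [QuadraticMap.map_smul, smul_eq_mul]
    have := hQa r hr
    field_simp
    linear_combination -hμ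
  have hls : l ≠ s := (hJ l hlJ).1
  have hrs : r ≠ s := (hJ r hrJ).1
  have hlR : l ∈ R := (Finset.mem_filter.1 (Finset.mem_erase.1 (hJsub hlJ)).2).1
  have hb'0 : Q b' ≠ 0 := hQb' ▸ hQa'
  set α := (Q P')⁻¹ * polar Q P' a' with hα
  set β := (Q P')⁻¹ * polar Q P' b' with hβ
  have hα0 : α ≠ 0 := mul_ne_zero (inv_ne_zero hP'0) fun e' => hQa' (hzero ha' hPa' e')
  have hβ0 : β ≠ 0 := mul_ne_zero (inv_ne_zero hP'0) fun e' => hb'0 (hzero hb' hPb' e')
  set u₁ := T.1 a' with hu₁def
  set v₁ := T.1 b' with hv₁def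
  have hu₁ : u₁ = a' - α • P' := by
    rw [hu₁def, hTdef, Subgroup.coe_mul, LinearEquiv.mul_apply, OrthGen.reflQ_fix Q hP0 hPa',
      reflQ_apply]
  have hv₁ : v₁ = b' - β • P' := by
    rw [hv₁def, hTdef, Subgroup.coe_mul, LinearEquiv.mul_apply, OrthGen.reflQ_fix Q hP0 hPb',
      reflQ_apply]
  have hu₁0 : Q u₁ ≠ 0 := by rw [hu₁def, OQ_map_app]; exact hQa'
  have hv₁0 : Q v₁ ≠ 0 := by rw [hv₁def, OQ_map_app]; exact hb'0
  have hT'M : reflQ Q u₁ hu₁0 * reflQ Q v₁ hv₁0 ∈ M := by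
    have := mul_mem (mul_mem hTM (block_pair_mem h.toIsOrthDec hM ha' hb' hQa' hb'0
      ⟨Q a', by rw [hQb']⟩)) (inv_mem hTM)
    rwa [show T * (reflQ Q a' hQa' * reflQ Q b' hb'0) * T⁻¹ =
      (T * reflQ Q a' hQa' * T⁻¹) * (T * reflQ Q b' hb'0 * T⁻¹) by group,
      reflQ_conj Q T _ hQa' hu₁0, reflQ_conj Q T _ hb'0 hv₁0] at this
  obtain ⟨a₀, ha₀, hPa₀, hQa₀⟩ := hgood (z := P') hps
  have hfix : (reflQ Q u₁ hu₁0 * reflQ Q v₁ hv₁0).1 a₀ = a₀ := by
    apply refl_pair_fix
    · rw [hu₁, polar_sub_left, polar_smul_left, hPa₀, h.orth l s hls a' ha' a₀ ha₀]; simp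
    · rw [hv₁, polar_sub_left, polar_smul_left, hPa₀, h.orth r s hrs b' hb' a₀ ha₀]; simp
  obtain ⟨b, hb, hQb, hbP, -⟩ := h.exists_avoid s (C.mem s P')
    (fun e' => hps (by rw [e', map_zero])) 0 hQa₀
  rw [polar_comm, ← h.toIsOrthDec.polar_proj C hb, polar_comm] at hbP
  have hwR := rel_map h.toIsOrthDec hM hT'M ha₀ (by rw [hfix]; exact ha₀) rfl
    (block_mem_rel h.toIsOrthDec hM hb hQb)
  set μ := (Q v₁)⁻¹ * polar Q v₁ b with hμdef
  have hμ : μ ≠ 0 := by
    refine mul_ne_zero (inv_ne_zero hv₁0) ?_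
    rw [hv₁, polar_sub_left, polar_smul_left, h.orth r s hrs _ hb' _ hb, zero_sub, smul_eq_mul]
    exact neg_ne_zero.2 (mul_ne_zero hβ0 hbP)
  set ν := (Q u₁)⁻¹ * polar Q u₁ (b - μ • v₁) with hνdef
  have hw : (reflQ Q u₁ hu₁0 * reflQ Q v₁ hv₁0).1 b =
      b - μ • b' - ν • a' + (μ * β + ν * α) • P' := by
    rw [Subgroup.coe_mul, LinearEquiv.mul_apply, reflQ_apply Q v₁ hv₁0 b, ← hμdef,
      reflQ_apply Q u₁ hu₁0, ← hνdef, hu₁, hv₁]
    module
  rw [hw] at hwR
  set γ := μ * β + ν * α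
  by_cases hγ : γ = 0
  · rw [hγ, zero_smul, add_zero] at hwR
    refine commutator_le_of_multi h C hM hQa₀ hwR hrs.symm ?_ ?_
    · rw [map_sub, map_sub, map_smul, map_smul, C.of_mem hb, C.of_mem_ne hrs hb',
        C.of_mem_ne hls ha', smul_zero, smul_zero, sub_zero, sub_zero]
      exact fun e' => hQa₀ (by rw [← hQb, e', map_zero])
    · rw [map_sub, map_sub, map_smul, map_smul, C.of_mem_ne hrs.symm hb, C.of_mem hb',
        C.of_mem_ne hlr ha', smul_zero, sub_zero, zero_sub, neg_ne_zero]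
      exact smul_ne_zero hμ fun e' => hb'0 (by rw [e', map_zero])
  obtain ⟨q, hqR, q', hq'R, hqq', hq, hq'⟩ : ∃ q ∈ R, ∃ q' ∈ R, q ≠ q' ∧
      q ∉ ({s, l, r} : Finset (Fin t)) ∧ q' ∉ ({s, l, r} : Finset (Fin t)) := by
    have h1 : 2 ≤ (R \ {s, l, r}).card := by
      have h3 : ({s, l, r} : Finset (Fin t)).card ≤ 3 := Finset.card_le_three
      have := Finset.card_le_card_sdiff_add_card (s := R) (t := ({s, l, r} : Finset (Fin t)))
      omega
    obtain ⟨q, q', hq, hq', hne⟩ := Finset.one_lt_card_iff.1 h1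
    rw [Finset.mem_sdiff] at hq hq'
    exact ⟨q, hq.1, q', hq'.1, hne, hq.2, hq'.2⟩
  have hother : ∀ {q : Fin t}, q ∈ R → q ∉ ({s, l, r} : Finset (Fin t)) →
      C.proj q (b - μ • b' - ν • a' + γ • P') ≠ 0 := by
    intro q hqR hq
    simp only [Finset.mem_insert, Finset.mem_singleton, not_or] at hq
    rw [map_add, map_sub, map_sub, map_smul, map_smul, map_smul, C.of_mem_ne (Ne.symm hq.1) hb,
      C.of_mem_ne (Ne.symm hq.2.2) hb', C.of_mem_ne (Ne.symm hq.2.1) ha', smul_zero, smul_zero,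
      sub_zero, sub_zero, zero_add]
    exact smul_ne_zero hγ (hRne hqR p' hp' fun e' => hp'0 (by rw [e', map_zero]))
  exact commutator_le_of_multi h C hM hQa₀ hwR hqq' (hother hqR hq) (hother hq'R hq')

omit C hM in
theorem plane_commutator_not_le_decSub : ¬ commutator (OQ Q) ≤ decSub Q D := by
  intro hle
  obtain ⟨C⟩ := exists_components h.dec
  have ht := h.five
  set i : Fin t := ⟨0, by omega⟩
  set j : Fin t := ⟨1, by omega⟩
  set l : Fin t := ⟨2, by omega⟩
  have hij : i ≠ j := by simp [i, j]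
  have hil : i ≠ l := by simp [i, l]
  have hjl : j ≠ l := by simp [j, l]
  obtain ⟨a, ha, hQa⟩ := (h.nd i).exists_value (le_of_eq (h.dim i).symm) 1
  obtain ⟨y, hy, hQy⟩ := (h.nd j).exists_value (le_of_eq (h.dim j).symm) 1
  obtain ⟨z, hz, hQz⟩ := (h.nd l).exists_value (le_of_eq (h.dim l).symm) (-1)
  have ha0 : Q a ≠ 0 := hQa ▸ one_ne_zero
  have hQx : Q (a + y + z) = 1 := by
    rw [qf_add, qf_add, polar_add_left, h.orth i j hij a ha y hy, h.orth i l hil a ha z hz,
      h.orth j l hjl y hy z hz, hQa, hQy, hQz]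
    ring
  have hx0 : Q (a + y + z) ≠ 0 := hQx ▸ one_ne_zero
  have hmem : reflQ Q (a + y + z) hx0 ∈ decSub Q D := by
    have := mul_mem (hle (refl_pair_mem_commutator h.toIsOrthDec hx0 ha0 ⟨1, by rw [hQx, hQa]⟩))
      (h.toIsOrthDec.refl_mem_decSub ha ha0)
    rwa [mul_assoc, reflQ_mul_self, mul_one] at this
  obtain ⟨σ, hσ⟩ := exists_perm_of_mem_decSub hmem
  obtain ⟨b, hb, -, hab, hba⟩ := h.exists_avoid i ha (fun e => ha0 (by rw [e, map_zero])) a
    (one_ne_zero (α := F))
  have himg : (reflQ Q (a + y + z) hx0).1 b ∈ D (σ i) := by rw [← hσ i]; exact ⟨b, hb, rfl⟩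
  rw [reflQ_apply, hQx, inv_one, one_mul, polar_add_left, polar_add_left,
    h.orth j i hij.symm y hy b hb, h.orth l i hil.symm z hz b hb, add_zero, add_zero] at himg
  by_cases e : σ i = i
  · rw [e] at himg
    have := C.of_mem_ne hij himg
    rw [map_sub, map_smul, map_add, map_add, C.of_mem_ne hij hb, C.of_mem_ne hij ha, C.of_mem hy,
      C.of_mem_ne hjl.symm hz, zero_add, add_zero, zero_sub, neg_eq_zero, smul_eq_zero] at this
    exact this.elim hab fun e' => one_ne_zero (α := F) (by rw [← hQy, e', map_zero])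
  · have := C.of_mem_ne e himg
    rw [map_sub, map_smul, map_add, map_add, C.of_mem hb, C.of_mem ha, C.of_mem_ne hij.symm hy,
      C.of_mem_ne hil.symm hz, add_zero, add_zero, sub_eq_zero] at this
    exact hba (Submodule.mem_span_singleton.2 ⟨_, this.symm⟩)

omit C hM in
/-- Stabilisers of orthogonal decompositions into planes are maximal. -/
theorem orth_decomposition_maximal_plane :
    Cfsg.Geo.IsMaximalIn (commutator (OQ Q)) (decSub Q D ⊓ commutator (OQ Q)) := by
  refine ⟨lt_of_le_not_ge inf_le_right fun hle =>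
    plane_commutator_not_le_decSub h (hle.trans inf_le_left), fun M hM hMK => ?_⟩
  by_cases hMD : M ≤ decSub Q D
  · exact Or.inl (le_antisymm (le_inf hMD hMK) hM)
  refine Or.inr (le_antisymm hMK ?_)
  obtain ⟨g, hgM, hg⟩ := SetLike.not_le_iff_exists.1 hMD
  obtain ⟨C⟩ := exists_components h.dec
  obtain ⟨i, a, b, ha0, hb0, ha, hb, hba, hTM, hT⟩ := plane_exists_pair_outside h C hM hgM hg
  by_cases hA : ∃ s, ∃ x ∈ D s, (∀ y ∈ D i, polar Q (g.1 y) x = 0) ∧ Q x ≠ 0
  · obtain ⟨s, x, hx, hperp, hQx⟩ := hA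
    exact plane_commutator_le_of_fixed h hM hTM hT hx hQx
      (refl_pair_fix _ _ (hperp a ha) (hperp b hb))
  · push Not at hA
    exact plane_commutator_le_of_free h C hM hgM hA

end Cfsg.Agent.DecompMax
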