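import Cfsg.Agent.DecompMax.PlaneDec
import Cfsg.Agent.GeoClasses.OrthNondeg

/-!
One Eichler transformation between a few members and another member generates everything.
-/

set_option autoImplicit false
set_option linter.style.haveILetI false

namespace Cfsg.Agent.DecompMax

open QuadraticMap Module Cfsg.Agent.Classical Cfsg.Agent.GeoClasses
open scoped MatrixGroups

universe u

variable {F : Type u} [Field F] {ι : Type}
variable {Q : QuadraticForm F (ι → F)} {M : Subgroup (OQ Q)}

/-- The Eichler transformation of `u` and `x` lies in `M`, whenever it is defined. -/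
def SiegelIn (M : Subgroup (OQ Q)) (u x : ι → F) : Prop :=
  ∀ (hu : Q u = 0) (ha : polar Q u x = 0), siegel Q hu ha ∈ M

theorem SiegelIn.map {u x : ι → F} (hs : SiegelIn M u x) {g : OQ Q} (hg : g ∈ M) :
    SiegelIn M (g.1 u) (g.1 x) := by
  intro hu ha
  have hu' : Q u = 0 := by rwa [OQ_map_app] at hu
  have ha' : polar Q u x = 0 := by rwa [OQ_polar] at ha
  have := mul_mem (mul_mem hg (hs hu' ha')) (inv_mem hg)
  rwa [siegel_conj] at this

theorem SiegelIn.zero (u : ι → F) : SiegelIn M u 0 := fun hu ha => by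
  rw [siegel_zero Q hu ha]; exact one_mem M

theorem SiegelIn.add {u a b : ι → F} (hu : Q u = 0) (ha : polar Q u a = 0) (hb : polar Q u b = 0)
    (h1 : SiegelIn M u a) (h2 : SiegelIn M u b) : SiegelIn M u (a + b) := fun _ _ => by
  have := mul_mem (h1 hu ha) (h2 hu hb)
  rwa [siegel_mul] at this

theorem SiegelIn.neg {u a : ι → F} (hu : Q u = 0) (ha : polar Q u a = 0) (h1 : SiegelIn M u a) :
    SiegelIn M u (-a) := fun _ _ => by
  have := inv_mem (h1 hu ha)
  rwa [siegel_inv] at this

variable [Finite F] [Fintype ι] [DecidableEq ι] {t : ℕ} {D : Fin t → Submodule F (ι → F)}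
variable (h : IsPlaneDec Q D) (C : Components D)
variable (hM : decSub Q D ⊓ commutator (OQ Q) ≤ M)
include h hM

omit hM in
theorem IsPlaneDec.polar_outside {i : Fin t} {u y : ι → F} (hy : y ∈ D i) (hi : C.proj i u = 0) :
    polar Q u y = 0 := by
  rw [polar_comm, h.toIsOrthDec.polar_proj C hy, hi, polar_zero_right]

/-- One Eichler transformation gives those of a whole member. -/
theorem siegel_block {u : ι → F} (hu : Q u = 0) {m : Fin t} (hmu : C.proj m u = 0)
    (hfix : ∀ σ : F, σ ≠ 0 → ∃ i, i ≠ m ∧ ∃ y ∈ D i, polar Q u y = 0 ∧ Q y ≠ 0 ∧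
      IsSquare (σ * Q y))
    {x : ι → F} (hx : x ∈ D m) (hx0 : x ≠ 0) (hs : SiegelIn M u x) :
    ∀ z ∈ D m, SiegelIn M u z := by
  classical
  haveI := Fintype.ofFinite F
  set G : Set (ι → F) := {z | z ∈ D m ∧ SiegelIn M u z}
  have hpm : ∀ {z : ι → F}, z ∈ D m → polar Q u z = 0 := fun hz =>
    h.polar_outside C hz hmu
  have hG0 : (0 : ι → F) ∈ G := ⟨zero_mem _, SiegelIn.zero u⟩
  have hGadd : ∀ {a b}, a ∈ G → b ∈ G → a + b ∈ G := fun ha hb =>
    ⟨(D m).add_mem ha.1 hb.1, SiegelIn.add hu (hpm ha.1) (hpm hb.1) ha.2 hb.2⟩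
  have hGneg : ∀ {a}, a ∈ G → -a ∈ G := fun ha =>
    ⟨(D m).neg_mem ha.1, SiegelIn.neg hu (hpm ha.1) ha.2⟩
  have hGr : ∀ {a y : ι → F} (hy0 : Q y ≠ 0), y ∈ D m → a ∈ G → (reflQ Q y hy0).1 a ∈ G := by
    intro a y hy0 hy ha
    obtain ⟨m', hm', y', hy', hpy', hy'0, hsq⟩ := hfix (Q y) hy0
    have hg := block_pair_mem h.toIsOrthDec hM hy hy' hy0 hy'0 hsq
    have hfix : (reflQ Q y hy0 * reflQ Q y' hy'0).1 u = u := by
      rw [Subgroup.coe_mul, LinearEquiv.mul_apply,
        OrthGen.reflQ_fix Q hy'0 (by rw [polar_comm]; exact hpy'),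
        OrthGen.reflQ_fix Q hy0 (by rw [polar_comm]; exact hpm hy)]
    have hap : (reflQ Q y hy0 * reflQ Q y' hy'0).1 a = (reflQ Q y hy0).1 a := by
      rw [Subgroup.coe_mul, LinearEquiv.mul_apply,
        OrthGen.reflQ_fix Q hy'0 (h.orth m' m hm' y' hy' a ha.1)]
    refine ⟨?_, ?_⟩
    · rw [reflQ_apply]; exact (D m).sub_mem ha.1 ((D m).smul_mem _ hy)
    · have := ha.2.map hg
      rwa [hfix, hap] at this
  set K : Set F := {τ | ∀ a ∈ G, τ • a ∈ G}
  have hK1 : (1 : F) ∈ K := fun a ha => by rwa [one_smul]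
  have hKadd : ∀ {p r}, p ∈ K → r ∈ K → p + r ∈ K := fun hp hr a ha => by
    rw [add_smul]; exact hGadd (hp a ha) (hr a ha)
  have hKneg : ∀ {p}, p ∈ K → -p ∈ K := fun hp a ha => by
    rw [neg_smul]; exact hGneg (hp a ha)
  have hKmul : ∀ {p r}, p ∈ K → r ∈ K → p * r ∈ K := fun hp hr a ha => by
    rw [mul_smul]; exact hp _ (hr a ha)
  have hK0 : (0 : F) ∈ K := fun a _ => by rw [zero_smul]; exact hG0
  have hKsub : ∀ {p r}, p ∈ K → r ∈ K → p - r ∈ K := fun hp hr => by
    rw [sub_eq_add_neg]; exact hKadd hp (hKneg hr)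
  have hKinv : ∀ {p}, p ∈ K → p⁻¹ ∈ K := by
    intro p hp
    rcases eq_or_ne p 0 with rfl | hp0
    · rwa [inv_zero]
    have hpow : ∀ n : ℕ, p ^ n ∈ K := fun n => by
      induction n with
      | zero => rwa [pow_zero]
      | succ n ih => rw [pow_succ]; exact hKmul ih hp
    have hq : 2 ≤ Fintype.card F := Fintype.one_lt_card
    have : p ^ (Fintype.card F - 2) * p = 1 := by
      rw [← pow_succ, show Fintype.card F - 2 + 1 = Fintype.card F - 1 by omega]
      exact FiniteField.pow_card_sub_one_eq_one p hp0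
    rw [← eq_inv_of_mul_eq_one_left this]
    exact hpow _
  have hτ : ∀ {b y : ι → F}, b ∈ D m → y ∈ D m → y ∉ F ∙ b → Q b ≠ 0 → Q y ≠ 0 →
      (Q b)⁻¹ * (Q y)⁻¹ * polar Q b y ^ 2 - 2 ∈ K := by
    intro b y hb hy hyn hb0 hy0 a ha
    rw [← plane_refl_pair_add (h.dim m) hb hy hyn hb0 hy0 ha.1]
    simp only [Subgroup.coe_mul, LinearEquiv.mul_apply]
    exact hGadd (hGr hb0 hb (hGr hy0 hy ha)) (hGr hy0 hy (hGr hb0 hb ha))
  obtain ⟨b, hb, hQb⟩ := (h.nd m).exists_value (le_of_eq (h.dim m).symm) 1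
  have hb0 : Q b ≠ 0 := hQb ▸ one_ne_zero
  have hbne : b ≠ 0 := fun e => hb0 (by rw [e, map_zero])
  have hK : ∀ τ : F, τ ∈ K := by
    by_cases h2 : (2 : F) = 0
    · obtain ⟨b', hb', hbb'⟩ := (h.nd m).exists_polar_one hb hbne
      have hb'n : b' ∉ F ∙ b := fun hm' => by
        obtain ⟨r, rfl⟩ := Submodule.mem_span_singleton.1 hm'
        rw [polar_smul_right, OrthGen.polar_self_two, h2, zero_mul, smul_zero] at hbb'
        exact zero_ne_one hbb'
      set e := Q b' with he
      have h2' : ∀ w : F, 2 * w = 0 := fun w => by rw [h2, zero_mul]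
      have hz : ∀ z : F, z ≠ 0 → z ^ 2 + z + e ∈ K := by
        intro z hz0
        by_cases hzero : z ^ 2 + z + e = 0
        · rwa [hzero]
        have hQy : Q (b + z⁻¹ • b') = (z ^ 2 + z + e) / z ^ 2 := by
          rw [qf_add, QuadraticMap.map_smul, polar_smul_right, hQb, hbb', ← he, smul_eq_mul,
            smul_eq_mul]
          field_simp
          ring
        have hyn : b + z⁻¹ • b' ∉ F ∙ b := fun hm' => hb'n (by
          have h' := (F ∙ b).sub_mem hm' (Submodule.mem_span_singleton_self b)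
          rw [add_sub_cancel_left] at h'
          simpa [smul_inv_smul₀ hz0] using (F ∙ b).smul_mem z h')
        have hy0 : Q (b + z⁻¹ • b') ≠ 0 := by
          rw [hQy]; exact div_ne_zero hzero (pow_ne_zero _ hz0)
        have h' := hτ hb ((D m).add_mem hb ((D m).smul_mem _ hb')) hyn hb0 hy0
        have e1 : (Q b)⁻¹ * (Q (b + z⁻¹ • b'))⁻¹ * polar Q b (b + z⁻¹ • b') ^ 2 - 2 =
            (z ^ 2 + z + e)⁻¹ := by
          rw [hQy, hQb, polar_add_right, polar_smul_right, hbb', OrthGen.polar_self_two, hQb, h2]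
          simp only [inv_one, one_mul, zero_mul, zero_add, smul_eq_mul, mul_one, sub_zero, inv_div]
          field_simp
        rw [e1] at h'
        have := hKinv h'
        rwa [inv_inv] at this
      have he' : e ∈ K := by
        have := hz 1 one_ne_zero
        rwa [show (1 : F) ^ 2 + 1 + e = e by linear_combination h2' 1] at this
      have hP : ∀ z : F, z ^ 2 + z ∈ K := fun z => by
        rcases eq_or_ne z 0 with rfl | hz0
        · simpa using hK0
        · have := hKsub (hz z hz0) he'
          rwa [add_sub_cancel_right] at this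
      by_cases h01 : ∀ z : F, z = 0 ∨ z = 1
      · intro τ
        rcases h01 τ with rfl | rfl
        exacts [hK0, hK1]
      push Not at h01
      obtain ⟨z₁, hz10, hz11⟩ := h01
      obtain ⟨κ, hκ, hκ0, hκ1⟩ : ∃ κ ∈ K, κ ≠ 0 ∧ κ ≠ 1 := by
        by_contra hno
        push Not at hno
        have hP01 : ∀ z : F, z ^ 2 + z = 0 ∨ z ^ 2 + z = 1 := fun z =>
          (em (z ^ 2 + z = 0)).imp id fun h0 => hno _ (hP z) h0
        have he01 : e = 0 ∨ e = 1 := (em (e = 0)).imp id fun h0 => hno _ he' h0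
        rcases h.cases with ⟨ha, -⟩ | ⟨-, h7⟩
        · rcases he01 with he0 | he1
          · have hb'0 := ha m b' hb' he0
            rw [hb'0, polar_zero_right] at hbb'
            exact zero_ne_one hbb'
          · have hz1 : z₁ ^ 2 + z₁ = 1 := by
              refine (hP01 z₁).resolve_left fun h0 => ?_
              have : z₁ * (z₁ + 1) = 0 := by linear_combination h0
              rcases mul_eq_zero.1 this with e1 | e1
              · exact hz10 e1
              · exact hz11 (by linear_combination e1 - h2' 1)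
            have hQy : Q (b + z₁⁻¹ • b') = 0 := by
              rw [qf_add, QuadraticMap.map_smul, polar_smul_right, hQb, hbb', ← he, he1, smul_eq_mul,
                smul_eq_mul]
              field_simp
              linear_combination hz1 + h2' 1
            have hy0 := ha m _ ((D m).add_mem hb ((D m).smul_mem _ hb')) hQy
            have : polar Q b (b + z₁⁻¹ • b') = 0 := by rw [hy0, polar_zero_right]
            rw [polar_add_right, polar_smul_right, hbb', OrthGen.polar_self_two, h2, zero_mul,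
              zero_add, smul_eq_mul, mul_one, inv_eq_zero] at this
            exact hz10 this
        · obtain ⟨z, -, hzn⟩ := Finset.exists_mem_notMem_of_card_lt_card
            (s := ({0, 1, z₁, z₁ + 1} : Finset F)) (t := Finset.univ) (by
              rw [Finset.card_univ, ← Nat.card_eq_fintype_card]
              exact lt_of_le_of_lt Finset.card_le_four (by omega))
          simp only [Finset.mem_insert, Finset.mem_singleton, not_or] at hzn
          obtain ⟨n0, n1, n2, n3⟩ := hzn
          have root : ∀ w : F, w ≠ 0 → w ≠ 1 → w ^ 2 + w = 1 := fun w w0 w1 => by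
            refine (hP01 w).resolve_left fun h0 => ?_
            have : w * (w + 1) = 0 := by linear_combination h0
            rcases mul_eq_zero.1 this with e1 | e1
            · exact w0 e1
            · exact w1 (by linear_combination e1 - h2' 1)
          have : (z - z₁) * (z + z₁ + 1) = 0 := by
            linear_combination root z n0 n1 - root z₁ hz10 hz11
          rcases mul_eq_zero.1 this with e1 | e1
          · exact n2 (sub_eq_zero.1 e1)
          · exact n3 (by linear_combination e1 - h2' (z₁ + 1))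
      intro τ
      have hne : κ + κ ^ 2 ≠ 0 := fun h0 => by
        have : κ * (κ + 1) = 0 := by linear_combination h0
        rcases mul_eq_zero.1 this with e1 | e1
        · exact hκ0 e1
        · exact hκ1 (by linear_combination e1 - h2' 1)
      have := hKmul (hKinv (hKadd hκ (hKmul hκ hκ)))
        (hKsub (hP (κ * τ)) (hKmul (hKmul hκ hκ) (hP τ)))
      rwa [show ((κ * τ) ^ 2 + κ * τ) - κ * κ * (τ ^ 2 + τ) = (κ + κ * κ) * τ by
        linear_combination -(h2' (κ ^ 2 * τ)), ← mul_assoc,
        inv_mul_cancel₀ (by rwa [← pow_two]), one_mul] at this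
    · obtain ⟨w, hw, hwn⟩ := plane_exists_not_mem (h.dim m) hbne
      set a := w - (polar Q b w / 2) • b with ha'
      have ha : a ∈ D m := (D m).sub_mem hw ((D m).smul_mem _ hb)
      have hba : polar Q b a = 0 := by
        rw [ha', polar_sub_right, polar_smul_right, OrthGen.polar_self_two, hQb, smul_eq_mul]
        field_simp
        ring
      have han : a ∉ F ∙ b := fun hm' => hwn (by
        have := (F ∙ b).add_mem hm' ((F ∙ b).smul_mem (polar Q b w / 2)
          (Submodule.mem_span_singleton_self b))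
        rwa [ha', sub_add_cancel] at this)
      set e := Q a with he
      have he0 : e ≠ 0 := fun h0 => han (by
        have hab : a = 0 := h.nd m a ha fun z hz => by
          obtain ⟨p, r, rfl⟩ := plane_span_pair (h.dim m) hb ha hbne han hz
          rw [polar_add_right, polar_smul_right, polar_smul_right, polar_comm Q a b, hba,
            OrthGen.polar_self_two, ← he, h0]
          simp
        rw [hab]; exact zero_mem _)
      have h4 : ((4 : F))⁻¹ ∈ K := hKinv (by
        rw [show (4 : F) = 1 + 1 + 1 + 1 by norm_num]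
        exact hKadd (hKadd (hKadd hK1 hK1) hK1) hK1)
      have hse : ∀ s : F, s ^ 2 * e ∈ K := by
        intro s
        rcases eq_or_ne s 0 with rfl | hs0
        · simpa using hK0
        by_cases hzero : 1 + s ^ 2 * e = 0
        · rw [show s ^ 2 * e = -1 by linear_combination hzero]
          exact hKneg hK1
        have hQy : Q (b + s • a) = 1 + s ^ 2 * e := by
          rw [qf_add, QuadraticMap.map_smul, polar_smul_right, hba, hQb, ← he]
          simp [pow_two]
        have hyn : b + s • a ∉ F ∙ b := fun hm' => han (by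
          have h' := (F ∙ b).sub_mem hm' (Submodule.mem_span_singleton_self b)
          rw [add_sub_cancel_left] at h'
          simpa [inv_smul_smul₀ hs0] using (F ∙ b).smul_mem s⁻¹ h')
        have h' := hKadd (hτ hb ((D m).add_mem hb ((D m).smul_mem _ ha)) hyn hb0 (hQy ▸ hzero))
          (hKadd hK1 hK1)
        rw [hQy, hQb, polar_add_right, polar_smul_right, hba, OrthGen.polar_self_two, hQb] at h'
        have h20 : (4 : F) ≠ 0 := by
          rw [show (4 : F) = 2 * 2 by norm_num]; exact mul_ne_zero h2 h2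
        replace h' : (1 + s ^ 2 * e)⁻¹ * 4 ∈ K := by
          convert h' using 1
          simp only [smul_eq_mul, mul_zero, add_zero, mul_one, inv_one, one_mul]
          ring
        have h'' := hKsub (hKinv (hKmul h' h4)) hK1
        rwa [mul_assoc, mul_inv_cancel₀ h20, mul_one, inv_inv, add_sub_cancel_left] at h''
      have hs2 : ∀ s : F, s ^ 2 ∈ K := fun s => by
        have := hKmul (hse s) (hKinv (hse 1))
        rwa [one_pow, one_mul, mul_assoc, mul_inv_cancel₀ he0, mul_one] at this
      intro τ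
      have h2inv : (2 : F)⁻¹ ∈ K := hKinv (by
        rw [show (2 : F) = 1 + 1 by norm_num]; exact hKadd hK1 hK1)
      have := hKmul h2inv (hKsub (hKsub (hs2 (τ + 1)) (hs2 τ)) hK1)
      convert this using 1
      field_simp
      ring
  -- two independent vectors
  obtain ⟨y, hy, hQy, hxy, hyx⟩ := h.exists_avoid m hx hx0 x one_ne_zero
  have hy0 : Q y ≠ 0 := hQy ▸ one_ne_zero
  have hxG : x ∈ G := ⟨hx, hs⟩
  have h1 := hGadd hxG (hGneg (hGr hy0 hy hxG))
  rw [reflQ_apply, hQy, inv_one, one_mul, neg_sub, add_sub_cancel, polar_comm] at h1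
  have h2 := hK (polar Q x y)⁻¹ _ h1
  rw [inv_smul_smul₀ hxy] at h2
  intro z hz
  obtain ⟨p, r, rfl⟩ := plane_span_pair (h.dim m) hx hy hx0 hyx hz
  exact (hGadd (hK p x hxG) (hK r y h2)).2

/-- One Eichler transformation between a few members and another member generates everything. -/
theorem commutator_le_of_siegel {u : ι → F} (hu : Q u = 0) {J : Finset (Fin t)}
    (hJ : J.card + 2 ≤ t)
    (hJu : ∀ i, i ∈ J ↔ C.proj i u ≠ 0) (hu0 : u ≠ 0) {m : Fin t} (hm : m ∉ J) {x : ι → F}
    (hx : x ∈ D m) (hx0 : x ≠ 0) (hs : SiegelIn M u x) : commutator (OQ Q) ≤ M := by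
  classical
  haveI : Finite (ι → F) := Module.finite_of_finite F
  have hJu' : ∀ i, i ∉ J → C.proj i u = 0 := fun i hi =>
    not_not.1 fun hne => hi ((hJu i).2 hne)
  have hmfix : ∀ σ : F, σ ≠ 0 → ∃ i, i ≠ m ∧ ∃ y ∈ D i, polar Q u y = 0 ∧ Q y ≠ 0 ∧
      IsSquare (σ * Q y) := by
    intro σ hσ
    obtain ⟨m', hm'⟩ := h.exists_ne_of_three (insert m J)
      ((Finset.card_insert_le _ _).trans_lt (by omega))
    simp only [Finset.mem_insert, not_or] at hm'
    obtain ⟨y', hy', hQy'⟩ := (h.nd m').exists_value (le_of_eq (h.dim m').symm) σ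
    exact ⟨m', hm'.1, y', hy', h.polar_outside C hy' (hJu' m' hm'.2), hQy' ▸ hσ, σ, by rw [hQy']⟩
  have hblock : ∀ i, i ∉ J → ∀ z ∈ D i, SiegelIn M u z := by
    intro i hi
    rcases eq_or_ne m i with rfl | hmi
    · exact siegel_block h C hM hu (hJu' _ hm) hmfix hx hx0 hs
    obtain ⟨g, hg, hmap, hfix⟩ := h.exists_swap hM hmi
    have hgu : g.1 u = u := by
      conv_lhs => rw [← C.sum_eq u, map_sum]
      conv_rhs => rw [← C.sum_eq u]
      refine Finset.sum_congr rfl fun r _ => ?_
      by_cases hr : C.proj r u = 0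
      · rw [hr, map_zero]
      · have hrJ := (hJu r).2 hr
        exact hfix r (fun e => hm (e ▸ hrJ)) (fun e => hi (e ▸ hrJ)) _ (C.mem r u)
    intro z hz
    obtain ⟨z', hz', rfl⟩ : ∃ z' ∈ D m, g.1 z' = z := by rw [← hmap] at hz; exact hz
    have := (siegel_block h C hM hu (hJu' _ hm) hmfix hx hx0 hs z' hz').map hg
    rwa [hgu] at this
  -- vectors outside `J`
  have hperp : ∀ {w a : ι → F}, (∀ i, i ∉ J → C.proj i w = 0) → (∀ i ∈ J, C.proj i a = 0) →
      polar Q w a = 0 := fun {w a} hw ha => by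
    rw [C.form_eq_sum (f := fun a b => polar Q a b) (fun a b c => polar_add_left Q a b c)
      (fun a b c => polar_add_right Q a b c) (fun a b hab u hu w hw => h.orth a b hab u hu w hw)]
    refine Finset.sum_eq_zero fun i _ => ?_
    by_cases hi : i ∈ J
    · rw [ha i hi, polar_zero_right]
    · rw [hw i hi, polar_zero_left]
  have hR : ∀ a, (∀ i ∈ J, C.proj i a = 0) → SiegelIn M u a := by
    intro a ha
    have key : ∀ S : Finset (Fin t), SiegelIn M u (∑ i ∈ S, C.proj i a) ∧
        polar Q u (∑ i ∈ S, C.proj i a) = 0 := by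
      intro S
      induction S using Finset.induction with
      | empty => exact ⟨by simpa using SiegelIn.zero (M := M) u, by simp⟩
      | insert i S hiS ih =>
        rw [Finset.sum_insert hiS]
        have h1 : SiegelIn M u (C.proj i a) ∧ polar Q u (C.proj i a) = 0 := by
          by_cases hi : i ∈ J
          · rw [ha i hi]; exact ⟨SiegelIn.zero u, polar_zero_right _ _⟩
          · exact ⟨hblock i hi _ (C.mem i a), h.polar_outside C (C.mem i a) (hJu' i hi)⟩
        exact ⟨SiegelIn.add hu h1.2 ih.2 h1.1 ih.1, by rw [polar_add_right, h1.2, ih.2, add_zero]⟩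
    have := (key Finset.univ).1
    rwa [C.sum_eq] at this
  -- the reflected centres
  have hrefl : ∀ {j : Fin t} {y : ι → F} (hy0 : Q y ≠ 0), j ∈ J → y ∈ D j →
      ∀ a, (∀ i ∈ J, C.proj i a = 0) → SiegelIn M ((reflQ Q y hy0).1 u) a := by
    intro j y hy0 hj hy a ha
    have hjm : j ≠ m := fun e => hm (e ▸ hj)
    obtain ⟨y', hy', hQy'⟩ := (h.nd m).exists_value (le_of_eq (h.dim m).symm) (Q y)
    have hy'0 : Q y' ≠ 0 := hQy' ▸ hy0
    have hg := block_pair_mem h.toIsOrthDec hM hy hy' hy0 hy'0 ⟨Q y, by rw [hQy']⟩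
    have hfix : (reflQ Q y hy0 * reflQ Q y' hy'0).1 u = (reflQ Q y hy0).1 u := by
      rw [Subgroup.coe_mul, LinearEquiv.mul_apply,
        OrthGen.reflQ_fix Q hy'0 (by rw [polar_comm]; exact h.polar_outside C hy' (hJu' m hm))]
    set a' := (reflQ Q y' hy'0).1 a with ha'
    have ha'J : ∀ i ∈ J, C.proj i a' = 0 := fun i hi => by
      rw [ha', h.toIsOrthDec.proj_refl C hy' hy'0, if_neg (fun e : i = m => hm (e ▸ hi))]
      exact ha i hi
    have := (hR a' ha'J).map hg
    rw [hfix, Subgroup.coe_mul, LinearEquiv.mul_apply, ha'] at this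
    rw [show (reflQ Q y' hy'0).1 ((reflQ Q y' hy'0).1 a) = a by
      rw [← LinearEquiv.mul_apply, ← Subgroup.coe_mul, reflQ_mul_self]; rfl] at this
    have hfa : (reflQ Q y hy0).1 a = a := OrthGen.reflQ_fix Q hy0 (by
      rw [h.toIsOrthDec.polar_proj C hy, ha j hj, polar_zero_right])
    rwa [hfa] at this
  -- a second centre in the span of the components
  obtain ⟨j, hj⟩ : ∃ j, C.proj j u ≠ 0 := by
    by_contra hz
    push Not at hz
    exact hu0 (by rw [← C.sum_eq u, Finset.sum_eq_zero fun i _ => hz i])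
  have hjJ := (hJu j).2 hj
  obtain ⟨y, hy, hQy, huy, -⟩ := h.exists_avoid j (C.mem j u) hj 0 (one_ne_zero (α := F))
  have hy0 : Q y ≠ 0 := hQy ▸ one_ne_zero
  rw [polar_comm, ← h.toIsOrthDec.polar_proj C hy] at huy
  set u₂ := (reflQ Q y hy0).1 u with hu₂
  have hu₂J : ∀ i, i ∉ J → C.proj i u₂ = 0 := fun i hi => by
    rw [hu₂, h.toIsOrthDec.proj_refl C hy hy0, if_neg (fun e : i = j => hi (e ▸ hjJ))]
    exact hJu' i hi
  have hβ : polar Q u u₂ ≠ 0 := by
    rw [hu₂, reflQ_apply, polar_sub_right, polar_smul_right, OrthGen.polar_self_two, hu, hQy,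
      polar_comm Q u y]
    simpa using huy
  -- singular centres outside `J`
  have hcentre : ∀ e : ι → F, Q e = 0 → (∀ i ∈ J, C.proj i e = 0) → e ∈ siegelCentres Q M := by
    intro e he heJ
    let A : Submodule F (ι → F) :=
      { carrier := {a | polar Q e a = 0 ∧ ∀ r : F, SiegelIn M e (r • a)}
        add_mem' := fun {a b} ha hb => ⟨by rw [polar_add_right, ha.1, hb.1, add_zero], fun r => by
          rw [smul_add]
          exact SiegelIn.add he (by rw [polar_smul_right, ha.1, smul_zero])
            (by rw [polar_smul_right, hb.1, smul_zero]) (ha.2 r) (hb.2 r)⟩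
        zero_mem' := ⟨polar_zero_right _ _, fun r => by rw [smul_zero]; exact SiegelIn.zero e⟩
        smul_mem' := fun s a ha => ⟨by rw [polar_smul_right, ha.1, smul_zero], fun r => by
          rw [smul_smul]; exact ha.2 _⟩ }
    have hswap : ∀ {w : ι → F}, Q w = 0 → (∀ i, i ∉ J → C.proj i w = 0) →
        (∀ a, (∀ i ∈ J, C.proj i a = 0) → SiegelIn M w a) → w ∈ A := by
      intro w hw hwJ hwa
      have hwe : polar Q e w = 0 := by rw [polar_comm]; exact hperp hwJ heJ
      refine ⟨hwe, fun r hu' ha' => ?_⟩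
      have hQrw : Q (r • w) = 0 := by rw [QuadraticMap.map_smul, hw, smul_zero]
      have h' : polar Q (r • w) (-e) = 0 := by
        rw [polar_neg_right, polar_comm, ha', neg_zero]
      rw [siegel_swap Q hu' hQrw ha' h']
      have h'' : polar Q w (r • -e) = 0 := by
        rw [polar_smul_right, polar_neg_right, polar_comm, hwe]; simp
      rw [siegel_smul_left Q r hw (by rw [polar_neg_right, polar_comm, hwe, neg_zero]) hQrw h'' h']
      exact hwa _ (fun i hi => by rw [map_smul, map_neg, heJ i hi]; simp) hw h''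
    have huA : u ∈ A := hswap hu hJu' hR
    have hblockA : ∀ i ∈ J, ∀ z ∈ D i, z ∈ A := by
      intro i hi z hz
      have hui : C.proj i u ≠ 0 := (hJu i).1 hi
      have hmemA : ∀ {w : ι → F}, w ∈ D i → Q w ≠ 0 → polar Q (C.proj i u) w ≠ 0 → w ∈ A := by
        intro w hw hw0 hp
        have h1 : (reflQ Q w hw0).1 u ∈ A := hswap (by rw [OQ_map_app]; exact hu)
          (fun r hr => by
            rw [h.toIsOrthDec.proj_refl C hw hw0, if_neg (fun e : r = i => hr (e ▸ hi))]
            exact hJu' r hr)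
          (hrefl hw0 hi hw)
        have h2 := A.sub_mem huA h1
        rw [reflQ_apply, sub_sub_cancel] at h2
        have hne : (Q w)⁻¹ * polar Q w u ≠ 0 := mul_ne_zero (inv_ne_zero hw0) (by
          rw [h.toIsOrthDec.polar_proj C hw, polar_comm]; exact hp)
        have := A.smul_mem ((Q w)⁻¹ * polar Q w u)⁻¹ h2
        rwa [inv_smul_smul₀ hne] at this
      obtain ⟨y₁, hy₁, hQ₁, hp₁, -⟩ := h.exists_avoid i (C.mem i u) hui 0 (one_ne_zero (α := F))
      obtain ⟨y₂, hy₂, hQ₂, hp₂, hn⟩ := h.exists_avoid i (C.mem i u) hui y₁ (one_ne_zero (α := F))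
      obtain ⟨p, r, rfl⟩ := plane_span_pair (h.dim i) hy₁ hy₂
        (fun e0 => hp₁ (by rw [e0, polar_zero_right])) hn hz
      exact A.add_mem (A.smul_mem _ (hmemA hy₁ (hQ₁ ▸ one_ne_zero) hp₁))
        (A.smul_mem _ (hmemA hy₂ (hQ₂ ▸ one_ne_zero) hp₂))
    have hE : ∀ w : ι → F, (∀ i, i ∉ J → C.proj i w = 0) → w ∈ A := fun w hw => by
      rw [← C.sum_eq w]
      refine A.sum_mem fun i _ => ?_
      by_cases hi : i ∈ J
      · exact hblockA i hi _ (C.mem i w)
      · rw [hw i hi]; exact zero_mem A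
    have hRA : ∀ a, (∀ i ∈ J, C.proj i a = 0) → polar Q e a = 0 → a ∈ A := by
      intro a haJ hea
      have hua : polar Q u a = 0 := hperp hJu' haJ
      set T := siegel Q hu hua
      have hTe : T.1 e = e := siegel_fix Q hu hua (hperp hJu' heJ) (by rw [polar_comm]; exact hea)
      have hu₂A := hE u₂ hu₂J
      have hT2 : T.1 u₂ ∈ A := by
        refine ⟨by rw [← hTe, OQ_polar]; exact hu₂A.1, fun r => ?_⟩
        have := (hu₂A.2 r).map (hR a haJ hu hua)
        rwa [hTe, map_smul] at this
      rw [siegel_apply, polar_comm Q a u₂, hperp hu₂J haJ, zero_smul, sub_zero] at hT2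
      have h3 := A.add_mem (A.sub_mem hT2 hu₂A) (A.smul_mem (Q a * polar Q u u₂) huA)
      have h4 := A.smul_mem (polar Q u u₂)⁻¹ h3
      rwa [show u₂ + polar Q u u₂ • a - (Q a * polar Q u u₂) • u - u₂ +
        (Q a * polar Q u u₂) • u = polar Q u u₂ • a by abel, inv_smul_smul₀ hβ] at h4
    refine ⟨he, fun a ha => ?_⟩
    set aE := ∑ i ∈ J, C.proj i a with haE
    have hpr : ∀ r, C.proj r aE = if r ∈ J then C.proj r a else 0 := fun r => by
      rw [haE, map_sum]
      simp only [C.proj_proj, Finset.sum_ite_eq']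
    have haEJ : ∀ i, i ∉ J → C.proj i aE = 0 := fun i hi => by rw [hpr, if_neg hi]
    have haRJ : ∀ i ∈ J, C.proj i (a - aE) = 0 := fun i hi => by
      rw [map_sub, hpr, if_pos hi, sub_self]
    have hmem : a ∈ A := by
      rw [← add_sub_cancel aE a]
      refine A.add_mem (hE _ haEJ) (hRA _ haRJ ?_)
      rw [polar_sub_right, ha, polar_comm, hperp haEJ heJ, sub_zero]
    have := hmem.2 1
    rw [one_smul] at this
    exact this he ha
  -- a hyperbolic pair outside `J`
  obtain ⟨p, hp⟩ := h.exists_ne_of_three J (by omega)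
  obtain ⟨r, hr⟩ := h.exists_ne_of_three (insert p J)
    ((Finset.card_insert_le _ _).trans_lt (by omega))
  simp only [Finset.mem_insert, not_or] at hr
  obtain ⟨a₀, ha₀, hQa₀⟩ := (h.nd p).exists_value (le_of_eq (h.dim p).symm) 1
  obtain ⟨b₀, hb₀, hQb₀⟩ := (h.nd r).exists_value (le_of_eq (h.dim r).symm) (-1)
  obtain ⟨a₁, ha₁, haa⟩ := (h.nd p).exists_polar_one ha₀
    (fun e => by rw [e, map_zero] at hQa₀; exact zero_ne_one hQa₀)
  set e := a₀ + b₀ with he'
  have horth : polar Q a₀ b₀ = 0 := h.orth p r (Ne.symm hr.1) a₀ ha₀ b₀ hb₀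
  have he : Q e = 0 := by rw [he', qf_add, horth, hQa₀, hQb₀]; ring
  have heJ : ∀ i ∈ J, C.proj i e = 0 := fun i hi => by
    rw [he', map_add, C.of_mem_ne (fun e : p = i => hp (e ▸ hi)) ha₀,
      C.of_mem_ne (fun e : r = i => hr.2 (e ▸ hi)) hb₀, add_zero]
  have hpe : polar Q e a₁ = 1 := by
    rw [he', polar_add_left, haa, h.orth r p hr.1 b₀ hb₀ a₁ ha₁, add_zero]
  set f := a₁ - Q a₁ • e with hf'
  have hf : Q f = 0 := by
    rw [hf', qf_sub, QuadraticMap.map_smul, he, polar_smul_right, polar_comm Q a₁ e, hpe]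
    simp
  have hef : polar Q f e = 1 := by
    rw [hf', polar_sub_left, polar_smul_left, polar_comm Q a₁ e, hpe, OrthGen.polar_self_two, he]
    simp
  have hfJ : ∀ i ∈ J, C.proj i f = 0 := fun i hi => by
    rw [hf', map_sub, map_smul, C.of_mem_ne (fun e : p = i => hp (e ▸ hi)) ha₁, heJ i hi]
    simp
  exact commutator_le_of_centre_pair h.bnd (by have := h.card; omega) (hcentre e he heJ)
    (hcentre f hf hfJ) (by rw [hef]; exact one_ne_zero)

end Cfsg.Agent.DecompMax
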