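import Mathlib
import Cfsg.Agent.DecompMax.OrthSub

/-!
Non-degenerate planes over finite fields: number of vectors of a given value, and auxiliary facts.
-/

set_option autoImplicit false
set_option linter.style.haveILetI false

namespace Cfsg.Agent.DecompMax

open QuadraticMap Module Cfsg.Agent.Classical Cfsg.Agent.GeoClasses

universe u v

variable {F : Type u} [Field F] {V : Type v} [AddCommGroup V] [Module F V] {Q : QuadraticForm F V}

/-- The vectors of value `c` in `W`. -/
def sphere (Q : QuadraticForm F V) (W : Submodule F V) (c : F) : Set V := {x | x ∈ W ∧ Q x = c}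

variable [FiniteDimensional F V] {W : Submodule F V}

theorem plane_exists_not_mem (h2 : finrank F W = 2) {x : V} (hx : x ≠ 0) : ∃ y ∈ W, y ∉ F ∙ x := by
  by_contra hcon
  push Not at hcon
  have := Submodule.finrank_mono (show W ≤ F ∙ x from hcon)
  rw [finrank_span_singleton hx] at this
  omega

theorem plane_span_pair (h2 : finrank F W = 2) {x y : V} (hx : x ∈ W) (hy : y ∈ W) (hx0 : x ≠ 0)
    (hyn : y ∉ F ∙ x) {z : V} (hz : z ∈ W) : ∃ a b : F, a • x + b • y = z := by
  have hle : Submodule.span F (Set.range ![x, y]) ≤ W :=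
    Submodule.span_le.2 (by rintro _ ⟨i, rfl⟩; fin_cases i <;> assumption)
  have heq : Submodule.span F (Set.range ![x, y]) = W := by
    refine Submodule.eq_of_le_of_finrank_eq hle ?_
    rw [h2, finrank_span_eq_card, Fintype.card_fin]
    rw [LinearIndependent.pair_iff' hx0]
    exact fun a h => hyn (Submodule.mem_span_singleton.2 ⟨a, h⟩)
  rw [← heq, Matrix.range_cons, Matrix.range_cons, Matrix.range_empty, Set.union_empty,
    Set.singleton_union, Submodule.mem_span_pair] at hz
  exact hz

/-- In a non-degenerate plane the vectors orthogonal to a non-zero vector form a line. -/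
theorem plane_perp_dep (hW : NdOn Q W) (h2 : finrank F W = 2) {z x y : V} (hz : z ∈ W) (hz0 : z ≠ 0)
    (hx : x ∈ W) (hy : y ∈ W) (hx0 : x ≠ 0) (h1 : polar Q z x = 0) (h1' : polar Q z y = 0) :
    y ∈ F ∙ x := by
  by_contra hyn
  refine hz0 (hW z hz fun w hw => ?_)
  obtain ⟨a, b, rfl⟩ := plane_span_pair h2 hx hy hx0 hyn hw
  rw [polar_add_right, polar_smul_right, polar_smul_right, h1, h1']
  simp

variable [Finite F]

/-- At most two vectors of one value have the same polar product with a given non-zero vector. -/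
theorem plane_fibre_le (hW : NdOn Q W) (h2 : finrank F W = 2) {z : V} (hz : z ∈ W) (hz0 : z ≠ 0)
    {c : F} (hc : c ≠ 0) (σ : F) : {x | x ∈ sphere Q W c ∧ polar Q z x = σ}.ncard ≤ 2 := by
  haveI : Finite V := Module.finite_of_finite F
  classical
  by_contra hlt
  push Not at hlt
  obtain ⟨x₀, x₁, x₂, h0, h1, h2', h01, h02, h12⟩ := (Set.two_lt_ncard_iff (Set.toFinite _)).1 hlt
  obtain ⟨⟨hx0W, hQ0⟩, hp0⟩ := h0
  obtain ⟨⟨hx1W, hQ1⟩, hp1⟩ := h1
  obtain ⟨⟨hx2W, hQ2⟩, hp2⟩ := h2'
  set d := x₁ - x₀ with hd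
  have hd0 : d ≠ 0 := sub_ne_zero.2 (Ne.symm h01)
  have hdW : d ∈ W := W.sub_mem hx1W hx0W
  have hzd : polar Q z d = 0 := by rw [hd, polar_sub_right, hp1, hp0, sub_self]
  obtain ⟨s, hs⟩ := Submodule.mem_span_singleton.1 (plane_perp_dep hW h2 hz hz0 hdW
    (W.sub_mem hx2W hx0W) hd0 hzd (by rw [polar_sub_right, hp2, hp0, sub_self]))
  have e2 : x₂ = x₀ + s • d := by rw [hs]; abel
  have e1 : x₁ = x₀ + d := by rw [hd]; abel
  have hs0 : s ≠ 0 := fun h => h02 (by rw [e2, h, zero_smul, add_zero])
  have hs1 : s ≠ 1 := fun h => h12 (by rw [e2, h, one_smul, ← e1])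
  rw [e1, qf_add, hQ0] at hQ1
  rw [e2, qf_add, hQ0, QuadraticMap.map_smul, polar_smul_right, smul_eq_mul, smul_eq_mul] at hQ2
  have hQd : Q d = 0 := by
    apply mul_left_cancel₀ (mul_ne_zero hs0 (sub_ne_zero.2 hs1))
    rw [mul_zero]
    linear_combination hQ2 - s * hQ1
  have hxd : polar Q x₀ d = 0 := by linear_combination hQ1 - hQd
  have hdd : polar Q d d = 0 := by rw [OrthGen.polar_self_two, hQd, mul_zero]
  obtain ⟨r, hr⟩ := Submodule.mem_span_singleton.1 (plane_perp_dep hW h2 hdW hd0 hdW hx0W hd0 hdd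
    (by rw [polar_comm]; exact hxd))
  rw [← hr, QuadraticMap.map_smul, hQd, smul_zero] at hQ0
  exact hc hQ0.symm

/-- Anisotropic planes contain at least `q + 1` vectors of each non-zero value, others `q - 1`. -/
theorem plane_sphere_ge (hW : NdOn Q W) (h2 : finrank F W = 2) {c : F} (hc : c ≠ 0) :
    ((∀ x ∈ W, Q x = 0 → x = 0) → Nat.card F + 1 ≤ (sphere Q W c).ncard) ∧
      Nat.card F - 1 ≤ (sphere Q W c).ncard := by
  haveI : Finite V := Module.finite_of_finite F
  classical
  haveI := Fintype.ofFinite F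
  obtain ⟨x₀, hx₀, hQ₀⟩ := hW.exists_value (le_of_eq h2.symm) c
  have hx00 : x₀ ≠ 0 := fun e => hc (by rw [← hQ₀, e, map_zero])
  obtain ⟨y, hy, hyn⟩ := plane_exists_not_mem h2 hx00
  let d : Option F → V := fun o => o.elim x₀ fun s => y + s • x₀
  have hdW : ∀ o, d o ∈ W := fun o => by
    cases o with
    | none => exact hx₀
    | some s => exact W.add_mem hy (W.smul_mem _ hx₀)
  have hindep : ∀ o o', d o' ∈ F ∙ d o → o = o' := by
    intro o o' hmem
    obtain ⟨r, hr⟩ := Submodule.mem_span_singleton.1 hmem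
    rcases o with _ | s <;> rcases o' with _ | s'
    · rfl
    · refine absurd (Submodule.mem_span_singleton.2 ⟨r - s', ?_⟩) hyn
      change r • x₀ = y + s' • x₀ at hr
      rw [sub_smul, hr]; abel
    · change r • (y + s • x₀) = x₀ at hr
      rcases eq_or_ne r 0 with rfl | hr0
      · rw [zero_smul] at hr; exact absurd hr.symm hx00
      · refine absurd (Submodule.mem_span_singleton.2 ⟨r⁻¹ - s, ?_⟩) hyn
        have := congrArg (fun v : V => r⁻¹ • v) hr
        simp only [inv_smul_smul₀ hr0] at this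
        rw [sub_smul, ← this]; abel
    · change r • (y + s • x₀) = y + s' • x₀ at hr
      by_cases hr1 : r = 1
      · subst hr1
        rw [one_smul] at hr
        exact congrArg some (smul_left_injective F hx00 (add_left_cancel hr))
      · refine absurd (Submodule.mem_span_singleton.2 ⟨(r - 1)⁻¹ * (s' - r * s), ?_⟩) hyn
        have e : (r - 1) • y = (s' - r * s) • x₀ := by
          linear_combination (norm := module) hr
        rw [mul_smul, ← e, inv_smul_smul₀ (sub_ne_zero.2 hr1)]
  set G : Finset (Option F) := Finset.univ.filter fun o => Q (d o) ≠ 0 with hG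
  let f : Option F → V := fun o => x₀ - ((Q (d o))⁻¹ * polar Q (d o) x₀) • d o
  have hf : ∀ o ∈ G, f o ∈ sphere Q W c := by
    intro o ho
    simp only [hG, Finset.mem_filter, Finset.mem_univ, true_and] at ho
    refine ⟨W.sub_mem hx₀ (W.smul_mem _ (hdW o)), ?_⟩
    show Q (x₀ - _) = c
    rw [← reflQ_apply Q (d o) ho x₀, OQ_map_app, hQ₀]
  have hinj : Set.InjOn f (G : Set (Option F)) := by
    intro o ho o' ho' he
    simp only [hG, Finset.coe_filter, Finset.mem_univ, true_and, Set.mem_ofPred_eq] at ho ho'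
    have e := sub_right_inj.1 he
    by_cases hp : polar Q (d o) x₀ = 0
    · rw [hp, mul_zero, zero_smul, eq_comm, smul_eq_zero] at e
      have hp' : polar Q (d o') x₀ = 0 := (e.resolve_right fun h => ho' (by rw [h, map_zero]))
        |> fun h => (mul_eq_zero.1 h).resolve_left (inv_ne_zero ho')
      exact hindep o o' (plane_perp_dep hW h2 hx₀ hx00 (hdW o) (hdW o') (fun h => ho (by rw [h, map_zero]))
        (by rw [polar_comm]; exact hp) (by rw [polar_comm]; exact hp'))
    · refine (hindep o' o ?_).symm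
      have hk : (Q (d o))⁻¹ * polar Q (d o) x₀ ≠ 0 := mul_ne_zero (inv_ne_zero ho) hp
      rw [Submodule.mem_span_singleton]
      exact ⟨((Q (d o))⁻¹ * polar Q (d o) x₀)⁻¹ * ((Q (d o'))⁻¹ * polar Q (d o') x₀), by
        rw [mul_smul, ← e, inv_smul_smul₀ hk]⟩
  have hcard : G.card ≤ (sphere Q W c).ncard := by
    rw [← Set.ncard_coe_finset]
    exact Set.ncard_le_ncard_of_injOn f hf hinj
  refine ⟨fun hani => ?_, ?_⟩
  · have : G = Finset.univ := Finset.filter_true_of_mem fun o _ h => by
      have h0 := hani _ (hdW o) h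
      rcases o with _ | s
      · exact hx00 h0
      · exact hyn (Submodule.mem_span_singleton.2 ⟨-s, by
          rw [neg_smul, neg_eq_iff_add_eq_zero, add_comm]; exact h0⟩)
    rw [this, Finset.card_univ, Fintype.card_option, ← Nat.card_eq_fintype_card] at hcard
    exact hcard
  · set B : Finset (Option F) := Finset.univ.filter fun o => Q (d o) = 0
    have hB : B.card ≤ 2 := by
      by_contra hlt
      obtain ⟨o₀, o₁, o₂, h0, h1, h2', h01, h02, h12⟩ := Finset.two_lt_card_iff.1 (not_le.1 hlt)
      simp only [B, Finset.mem_filter, Finset.mem_univ, true_and] at h0 h1 h2'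
      rcases o₀ with _ | a
      · exact hc (hQ₀ ▸ h0)
      rcases o₁ with _ | b
      · exact hc (hQ₀ ▸ h1)
      rcases o₂ with _ | e
      · exact hc (hQ₀ ▸ h2')
      change Q (y + _ • x₀) = 0 at h0 h1 h2'
      simp only [qf_add, QuadraticMap.map_smul, polar_smul_right, hQ₀, smul_eq_mul] at h0 h1 h2'
      have hab : a - b ≠ 0 := sub_ne_zero.2 fun h => h01 (by rw [h])
      have hae : a - e ≠ 0 := sub_ne_zero.2 fun h => h02 (by rw [h])
      have hbe : b - e ≠ 0 := sub_ne_zero.2 fun h => h12 (by rw [h])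
      have r1 : c * (a + b) + polar Q y x₀ = 0 := by
        apply mul_left_cancel₀ hab; rw [mul_zero]; linear_combination h0 - h1
      have r2 : c * (a + e) + polar Q y x₀ = 0 := by
        apply mul_left_cancel₀ hae; rw [mul_zero]; linear_combination h0 - h2'
      exact hbe (mul_left_cancel₀ hc (by rw [mul_zero]; linear_combination r1 - r2))
    have := Finset.card_filter_add_card_filter_not (s := (Finset.univ : Finset (Option F)))
      (p := fun o => Q (d o) = 0)
    rw [Finset.card_univ, Fintype.card_option, ← Nat.card_eq_fintype_card] at this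
    change B.card + G.card = _ at this
    omega

/-- The reflection group of a plane: the sum of a rotation and its inverse is a scalar. -/
theorem plane_refl_pair_add (h2 : finrank F W = 2) {b y : V} (hb : b ∈ W) (hy : y ∈ W)
    (hyn : y ∉ F ∙ b) (hb0 : Q b ≠ 0) (hy0 : Q y ≠ 0) {z : V} (hz : z ∈ W) :
    (reflQ Q b hb0 * reflQ Q y hy0).1 z + (reflQ Q y hy0 * reflQ Q b hb0).1 z =
      ((Q b)⁻¹ * (Q y)⁻¹ * polar Q b y ^ 2 - 2) • z := by
  obtain ⟨α, β, rfl⟩ := plane_span_pair h2 hb hy (fun e => hb0 (by rw [e, map_zero])) hyn hz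
  simp only [Subgroup.coe_mul, LinearEquiv.mul_apply, reflQ_apply, map_add, map_smul, polar_add_right,
    polar_sub_right, polar_smul_right, OrthGen.polar_self_two, polar_comm Q y b, smul_eq_mul]
  match_scalars <;> field_simp <;> ring

end Cfsg.Agent.DecompMax
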