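import Cfsg.Agent.DecompMax.Comp
import Cfsg.Agent.GeoClasses.SympMax
import Cfsg.Agent.Forms.Restrict

/-!
Stabilisers of decompositions into non-degenerate members are maximal in the symplectic group.
-/

set_option autoImplicit false
set_option linter.style.haveILetI false

namespace Cfsg.Agent.DecompMax

open Matrix Cfsg.Geo Module Cfsg.Agent.GeoClasses Cfsg.Agent.ClassicalMax Cfsg.Agent.Forms
open scoped MatrixGroups Matrix

variable {F : Type*} [Field F] {m : ℕ}

local notation "V" => (Fin m ⊕ Fin m → F)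
local notation "β" => sympBil m F

variable {M : Subgroup (GL (Fin m ⊕ Fin m) F)}

/-- The component in a non-degenerate subspace of centres can be replaced by any other non-zero one. -/
theorem move_component {A : Submodule F V} (hAX : (A : Set V) ⊆ spCentres M)
    (hnd : ∀ u ∈ A, u ≠ 0 → ∃ v ∈ A, β v u ≠ 0) {a b c : V} (ha : a ∈ A) (h0 : a ≠ 0)
    (hc : ∀ v ∈ A, β c v = 0) (hmem : a + c ∈ spCentres M) (hb : b ∈ A) (h1 : b ≠ 0) :
    b + c ∈ spCentres M := by
  obtain ⟨v, hv, h2, h3⟩ := exists_ne_zero_of_two (φ := (β).flip a) (ψ := (β).flip b)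
    (hnd _ ha h0) (hnd _ hb h1)
  change β v a ≠ 0 at h2
  change β v b ≠ 0 at h3
  have one : ∀ {p q : V}, p + c ∈ spCentres M → q ∈ A → β q p ≠ 0 → p ∈ A →
      q + c ∈ spCentres M := by
    intro p q hp hq hpq hpA
    have hne : β (p + c) (q - p) ≠ 0 := by
      simp only [map_add, map_sub, LinearMap.add_apply, hc q hq, hc p hpA,
        sympBil_isAlt.self_eq_zero, spB_swap q p]
      simpa using hpq
    have := plane_mem_spCentres hp (hAX (A.sub_mem hq hpA)) hne 1 1
    simpa [add_comm, add_left_comm, add_assoc] using this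
  exact one (one hmem hv h2 ha) hb (by rw [spB_swap v b]; simpa using h3) hv

theorem nd_of_isNondegenerateOn {W : Submodule F V}
    (hW : IsNondegenerateOn (Cfsg.sympForm m F) W) : ∀ u ∈ W, u ≠ 0 → ∃ v ∈ W, β v u ≠ 0 :=
  fun u hu h0 => by
    obtain ⟨⟨y, hy, h⟩, -⟩ := hW u hu h0
    exact ⟨y, hy, by rwa [sympBil_apply]⟩

theorem finrank_even {W : Submodule F V} (hW : IsNondegenerateOn (Cfsg.sympForm m F) W) :
    (LinearMap.BilinForm.restrict β W).Nondegenerate ∧ (LinearMap.BilinForm.restrict β W).IsAlt ∧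
      ∃ a, finrank F W = 2 * a := by
  have hA : (LinearMap.BilinForm.restrict β W).IsAlt := fun u => sympBil_isAlt.self_eq_zero (u : V)
  have hnd : (LinearMap.BilinForm.restrict β W).Nondegenerate := by
    constructor <;>
    · rintro ⟨w, hw⟩ h
      by_contra hne
      have hw0 : w ≠ 0 := fun h0 => hne (Subtype.ext h0)
      obtain ⟨⟨x, hx, h1⟩, ⟨y, hy, h2⟩⟩ := hW w hw hw0
      first
        | exact h2 (by rw [← sympBil_apply]; exact h ⟨y, hy⟩)
        | exact h1 (by rw [← sympBil_apply]; exact h ⟨x, hx⟩)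
  obtain ⟨a, b, -⟩ := exists_symplectic_basis hA hnd
  exact ⟨hnd, hA, a, by rw [Module.finrank_eq_card_basis b]; simp; omega⟩

variable {k t : ℕ} {D : Fin t → Submodule F (Fin m ⊕ Fin m → F)}

/-- The stabiliser of a non-degenerate decomposition permutes the members arbitrarily. -/
theorem exists_spGL_perm (hD : IsNondegenerateMDecomposition (Cfsg.sympForm m F) k D)
    (σ : Equiv.Perm (Fin t)) :
    ∃ h ∈ decompositionStabilizer D ⊓ Cfsg.spGL m F, ∀ i, ∀ x ∈ D i,
      (h : Matrix (Fin m ⊕ Fin m) (Fin m ⊕ Fin m) F) *ᵥ x ∈ D (σ i) := by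
  have he : ∀ i, ∃ e : D i ≃ₗ[F] (Fin (k / 2) ⊕ Fin (k / 2) → F), ∀ u v,
      Cfsg.sympForm (k / 2) F (e u) (e v) = β (u : V) (v : V) := by
    intro i
    obtain ⟨hnd, hA, a, ha⟩ := finrank_even (hD.nondegenerate i)
    rw [hD.decomp.finrank_eq] at ha
    exact exists_equiv_sympForm hA hnd (by rw [hD.decomp.finrank_eq]; omega)
  choose e he using he
  obtain ⟨h, hh, hx, hf⟩ := exists_gl_of_blockMaps hD.decomp σ fun i => (e i).trans (e (σ i)).symm
  refine ⟨h, ⟨hh, GeoClasses.mem_spGL_iff.2 fun u v => ?_⟩, fun i x hxi => ?_⟩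
  · refine hf (fun u v => β u v) (fun u u' v => by simp) (fun u v v' => by simp)
      (fun i j hij u hu v hv => by simpa [sympBil_apply] using hD.orthogonal i j hij u hu v hv)
      (fun i x y => ?_) u v
    rw [← he, ← he]
    simp
  · rw [hx i ⟨x, hxi⟩]
    exact (((e i).trans (e (σ i)).symm) _).2

/-- A vector of a plane orthogonal to a given one. -/
theorem exists_orth_other [Fintype F] {W : Submodule F V} (hk : finrank F W = k) (hk2 : 2 ≤ k)
    (hex : ¬ (k = 2 ∧ Fintype.card F = 2)) (heven : k ≠ 3) {u : V} (hu : u ∈ W) (h0 : u ≠ 0) :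
    ∃ z ∈ W, z ≠ 0 ∧ z ≠ u ∧ β u z = 0 := by
  classical
  by_cases hq : Fintype.card F = 2
  · have hk4 : 4 ≤ k := by
      have : k ≠ 2 := fun h => hex ⟨h, hq⟩
      omega
    set K : Submodule F W := LinearMap.ker ((β u).comp W.subtype) with hK
    have hKdim : 3 ≤ finrank F K := by
      have := LinearMap.finrank_range_add_finrank_ker ((β u).comp W.subtype)
      have h1 := Submodule.finrank_le (LinearMap.range ((β u).comp W.subtype))
      rw [Module.finrank_self] at h1
      rw [hk, ← hK] at this
      omega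
    have hne : ¬ K ≤ Submodule.span F {(⟨u, hu⟩ : W)} := fun hle => by
      have := Submodule.finrank_mono hle
      rw [finrank_span_singleton (fun e => h0 (congrArg Subtype.val e))] at this
      omega
    obtain ⟨z, hzK, hz⟩ := SetLike.not_le_iff_exists.1 hne
    refine ⟨z, z.2, fun e => hz ?_, fun e => hz ?_, by simpa [hK] using hzK⟩
    · rw [show z = 0 from Subtype.ext e]; exact zero_mem _
    · rw [show z = ⟨u, hu⟩ from Subtype.ext e]; exact Submodule.subset_span rfl
  · have h3 : 3 ≤ Fintype.card F := by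
      have := Fintype.one_lt_card (α := F)
      omega
    obtain ⟨a, -, ha⟩ : ∃ a ∈ (Finset.univ : Finset F), a ∉ ({0, 1} : Finset F) :=
      Finset.exists_mem_notMem_of_card_lt_card (lt_of_le_of_lt Finset.card_le_two h3)
    simp only [Finset.mem_insert, Finset.mem_singleton, not_or] at ha
    refine ⟨a • u, W.smul_mem _ hu, smul_ne_zero ha.1 h0, fun e => ha.2 ?_, by
      simp [sympBil_isAlt.self_eq_zero]⟩
    exact smul_left_injective F h0 (by simpa using e)

/-- Stabilisers of decompositions into non-degenerate members are maximal in the symplectic group. -/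
theorem spGL_decomposition_maximal [Fintype F]
    (hD : IsNondegenerateMDecomposition (Cfsg.sympForm m F) k D)
    (hex : ¬ (k = 2 ∧ Fintype.card F = 2)) :
    IsMaximalIn (Cfsg.spGL m F) (decompositionStabilizer D ⊓ Cfsg.spGL m F) := by
  classical
  have ht := hD.decomp.two_le
  obtain ⟨hnd0, hA0, a0, ha0⟩ := finrank_even (hD.nondegenerate ⟨0, by omega⟩)
  rw [hD.decomp.finrank_eq] at ha0
  have hk : 2 ≤ k := by have := hD.decomp.pos; omega
  refine ⟨lt_of_le_not_ge inf_le_right fun hle =>
    spGL_not_le_decompositionStabilizer hD.decomp hk (hle.trans inf_le_left), fun M hM hMK => ?_⟩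
  by_cases hMW : M ≤ decompositionStabilizer D
  · exact Or.inl (le_antisymm (le_inf hMW hMK) hM)
  refine Or.inr (le_antisymm hMK ?_)
  obtain ⟨C⟩ := exists_components hD.decomp
  have horth : ∀ {i j}, i ≠ j → ∀ {u v : V}, u ∈ D i → v ∈ D j → β u v = 0 := fun hij u v hu hv => by
    rw [sympBil_apply]; exact hD.orthogonal _ _ hij u hu v hv
  have hnd : ∀ i, ∀ u ∈ D i, u ≠ 0 → ∃ v ∈ D i, β v u ≠ 0 := fun i =>
    nd_of_isNondegenerateOn (hD.nondegenerate i)
  have hblock : ∀ i, ((D i : Submodule F V) : Set V) ⊆ spCentres M := fun i a ha c => by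
    refine hM ⟨mem_stabilizer_of_forall_mem hD.decomp fun j x hx => ⟨j, ?_⟩, spTau_mem _ _⟩
    rw [spTau_apply]
    rcases eq_or_ne j i with rfl | hji
    · exact (D j).add_mem hx ((D j).smul_mem _ ha)
    · rw [horth hji hx ha, mul_zero, zero_smul, add_zero]; exact hx
  have hone : ∀ {i} {u : V}, u ∈ D i → u ≠ 0 → ∃ z ∈ D i, β u z = 1 := fun {i u} hu h0 => by
    obtain ⟨v, hv, hne⟩ := hnd i u hu h0
    refine ⟨(β u v)⁻¹ • v, (D i).smul_mem _ hv, ?_⟩
    have : β u v ≠ 0 := by rw [spB_swap v u]; simpa using hne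
    simp [this]
  -- a centre with two components
  obtain ⟨g, hgM, hgD⟩ := SetLike.not_le_iff_exists.1 hMW
  obtain ⟨i0, x0, hx0, j, l, hjl, hj, hl⟩ := exists_two_components C hD.decomp hgD
  obtain ⟨w, hw, hj, hl⟩ : ∃ w ∈ spCentres M, C.proj j w ≠ 0 ∧ C.proj l w ≠ 0 :=
    ⟨_, mulVec_mem_spCentres (hblock i0 hx0) hgM (hMK hgM), hj, hl⟩
  set p := C.proj j w with hp
  set q := C.proj l w with hq
  set r := w - p - q with hr
  have hpj : p ∈ D j := C.mem j w
  have hql : q ∈ D l := C.mem l w
  have hrj : ∀ v ∈ D j, β r v = 0 := fun v hv => by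
    rw [C.form_eq_sum (f := fun a b => β a b) (fun a b c => by simp) (fun a b c => by simp)
      (fun i i' hii a ha b hb => horth hii ha hb)]
    refine Finset.sum_eq_zero fun i _ => ?_
    rcases eq_or_ne i j with rfl | hij
    · simp [hr, hp, C.of_mem (C.mem i w), C.of_mem_ne hjl.symm hql]
    · simp [C.of_mem_ne hij.symm hv]
  have hrl : ∀ v ∈ D l, β r v = 0 := fun v hv => by
    rw [C.form_eq_sum (f := fun a b => β a b) (fun a b c => by simp) (fun a b c => by simp)
      (fun i i' hii a ha b hb => horth hii ha hb)]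
    refine Finset.sum_eq_zero fun i _ => ?_
    rcases eq_or_ne i l with rfl | hij
    · simp [hr, hq, C.of_mem (C.mem i w), C.of_mem_ne hjl hpj]
    · simp [C.of_mem_ne hij.symm hv]
  -- a pair of members
  have hw' : p + (q + r) = w := by rw [hr]; abel
  obtain ⟨z, hz, hz0, hzq, hqz⟩ := exists_orth_other (hD.decomp.finrank_eq l) hk hex
    (by omega) hql hl
  obtain ⟨y, hy, hpy⟩ := hone hpj hj
  have hy0 : y ≠ 0 := fun e => by simp [e] at hpy
  have hy1 : p - y ≠ 0 := sub_ne_zero.2 fun e => by simp [← e, sympBil_isAlt.self_eq_zero] at hpy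
  have hv1 : y + (q + r) ∈ spCentres M := move_component (hblock j) (hnd j) hpj hj
    (fun v hv => by simp [horth hjl.symm hql hv, hrj v hv]) (hw'.symm ▸ hw) hy hy0
  have hv2 : z + (y + r) ∈ spCentres M := move_component (hblock l) (hnd l) hql hl
    (fun v hv => by simp [horth hjl hy hv, hrl v hv]) (by rwa [add_left_comm] at hv1) hz hz0
  have hβ : β w (z + (y + r)) ≠ 0 := by
    have : β w (z + (y + r)) = 1 := by
      have h1 : β r r = 0 := sympBil_isAlt.self_eq_zero _
      have h2 : β r y = 0 := hrj y hy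
      have h3 : β r z = 0 := hrl z hz
      have h4 : β p r = 0 := by rw [spB_swap r p, hrj p hpj, neg_zero]
      have h5 : β q r = 0 := by rw [spB_swap r q, hrl q hql, neg_zero]
      rw [← hw']
      simp [h1, h2, h3, h4, h5, horth hjl hpj hz, horth hjl.symm hql hy, hqz, hpy]
    rw [this]; exact one_ne_zero
  have hpair : (p - y) + (q - z) ∈ spCentres M := by
    have := plane_mem_spCentres hw hv2 hβ 1 (-1)
    have e : (1 : F) • w + (-1 : F) • (z + (y + r)) = (p - y) + (q - z) := by
      rw [← hw']; module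
    rwa [e] at this
  -- every pair
  have pair : ∀ {a b}, a ≠ b → ∀ {u v : V}, u ∈ D a → u ≠ 0 → v ∈ D b → v ≠ 0 →
      u + v ∈ spCentres M := by
    intro a b hab u v hu hu0 hv hv0
    set l' := Equiv.swap j a l with hl'
    have hl'a : l' ≠ a := fun e => hjl ((Equiv.swap j a).injective
      ((Equiv.swap_apply_left j a).trans e.symm))
    obtain ⟨h, hh, hmap⟩ := exists_spGL_perm hD (Equiv.swap l' b * Equiv.swap j a)
    have ea : (Equiv.swap l' b * Equiv.swap j a) j = a := by
      rw [Equiv.Perm.mul_apply, Equiv.swap_apply_left, Equiv.swap_apply_of_ne_of_ne hl'a.symm hab]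
    have eb : (Equiv.swap l' b * Equiv.swap j a) l = b := by
      rw [Equiv.Perm.mul_apply, ← hl', Equiv.swap_apply_left]
    have hu1 := hmap j _ ((D j).sub_mem hpj hy)
    have hv1' := hmap l _ ((D l).sub_mem hql hz)
    rw [ea] at hu1
    rw [eb] at hv1'
    have hmem := mulVec_mem_spCentres hpair (hM hh) hh.2
    rw [Matrix.mulVec_add] at hmem
    have hinj := GeoClasses.mulVec_injective h
    have h1 := move_component (hblock a) (hnd a) hu1
      (fun e => hy1 (hinj (by simpa using e)))
      (fun v hv => horth hab.symm hv1' hv) hmem hu hu0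
    rw [add_comm] at h1 ⊢
    exact move_component (hblock b) (hnd b) hv1'
      (fun e => sub_ne_zero.2 hzq.symm (hinj (by simpa using e)))
      (fun v hv => horth hab hu hv) h1 hv hv0
  -- every vector
  suffices key : ∀ n v, (Finset.univ.filter fun i => C.proj i v ≠ 0).card = n → v ∈ spCentres M from
    spGL_le_of_spTau_mem fun v c => key _ v rfl c
  intro n
  induction n using Nat.strong_induction_on with
  | _ n ih =>
    intro v hv
    set S := Finset.univ.filter fun i => C.proj i v ≠ 0 with hS
    rcases le_or_gt n 1 with hn | hn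
    · rcases S.eq_empty_or_nonempty with he | ⟨a, ha⟩
      · refine hblock j (C.mem_of_forall fun i _ => ?_)
        simpa [hS] using Finset.eq_empty_iff_forall_notMem.1 he i
      · refine hblock a (C.mem_of_forall fun i hi => ?_)
        by_contra hne
        exact hi (Finset.card_le_one.1 (hv ▸ hn) i (by simp [hS, hne]) a ha)
    obtain ⟨a, ha, b, hb, hab⟩ := Finset.one_lt_card.1 (hv ▸ hn)
    simp only [hS, Finset.mem_filter, Finset.mem_univ, true_and] at ha hb
    obtain ⟨z', hz', hbz⟩ := hone (C.mem b v) hb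
    have hz'0 : z' ≠ 0 := fun e => by simp [e] at hbz
    set w₂ := C.proj a v + z' with hw₂
    have hw₂C : w₂ ∈ spCentres M := pair hab (C.mem a v) ha hz' hz'0
    have hproj : ∀ i, C.proj i (v - w₂) =
        if i = a then 0 else if i = b then C.proj b v - z' else C.proj i v := by
      intro i
      rw [map_sub, hw₂, map_add, C.proj_proj]
      split_ifs with h1 h2 h3 h4 <;> subst_vars
      all_goals first
        | (exact absurd rfl ‹_›)
        | (rw [C.of_mem hz']; abel)
        | (rw [C.of_mem_ne (Ne.symm ‹_›) hz']; abel)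
    have hlt : (Finset.univ.filter fun i => C.proj i (v - w₂) ≠ 0).card < n := by
      rw [← hv]
      refine Finset.card_lt_card ⟨fun i hi => ?_, fun hle => ?_⟩
      · simp only [hS, Finset.mem_filter, Finset.mem_univ, true_and, hproj] at hi ⊢
        split_ifs at hi with h1 h2
        · exact absurd rfl hi
        · exact h2 ▸ hb
        · exact hi
      · have := hle (show a ∈ S by simpa [hS] using ha)
        simp [hproj] at this
    have hne : β (v - w₂) w₂ ≠ 0 := by
      rw [C.form_eq_sum (f := fun a b => β a b) (fun a b c => by simp) (fun a b c => by simp)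
        (fun i i' hii a ha b hb => horth hii ha hb), Finset.sum_eq_single b]
      · rw [hproj, if_neg hab.symm, if_pos rfl, hw₂, map_add, C.proj_proj, if_neg hab, C.of_mem hz',
          zero_add, map_sub, LinearMap.sub_apply, hbz, sympBil_isAlt.self_eq_zero, sub_zero]
        exact one_ne_zero
      · intro i _ hib
        rw [hproj]
        split_ifs with h1
        · simp
        · rw [hw₂, map_add, C.proj_proj, if_neg (Ne.symm h1), C.of_mem_ne hib.symm hz']
          simp
      · simp
    simpa using plane_mem_spCentres (ih _ hlt _ rfl) hw₂C hne 1 1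

end Cfsg.Agent.DecompMax
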