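import Cfsg.Agent.Classical.UBasic

/-!
Numbers of solutions of linear equations in norm-one elements, with or without a prescribed product,
bounded below by fourth moments of character sums.
-/

set_option autoImplicit false
set_option linter.style.haveILetI false
set_option linter.unusedSectionVars false

namespace Cfsg.Agent.DecompMax.UCount

open Cfsg.Agent.Classical.U Finset ComplexConjugate

universe u

section moments

variable {G : Type*} [AddCommGroup G] [Fintype G] [DecidableEq G]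
variable {X : Type*} [Fintype X]

theorem fourth_moment_le (φ : X → G) (w : X → ℂ) (hw : ∀ a, ‖w a‖ ≤ 1) (E : ℕ)
    (hE : (univ.filter fun p : (X × X) × X × X => φ p.1.1 + φ p.1.2 = φ p.2.1 + φ p.2.2).card ≤ E) :
    ∑ ψ : AddChar G ℂ, ‖∑ a, w a * ψ (φ a)‖ ^ 4 ≤ (Fintype.card G : ℝ) * E := by
  classical
  set W : (X × X) × X × X → ℂ := fun p => w p.1.1 * w p.1.2 * conj (w p.2.1 * w p.2.2)
  have key : ∀ ψ : AddChar G ℂ, ((‖∑ a, w a * ψ (φ a)‖ ^ 4 : ℝ) : ℂ) =
      ∑ p : (X × X) × X × X, W p * ψ (φ p.1.1 + φ p.1.2 - (φ p.2.1 + φ p.2.2)) := by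
    intro ψ
    set S := ∑ a, w a * ψ (φ a) with hS
    have e : ((‖S‖ ^ 4 : ℝ) : ℂ) = S * S * conj (S * S) := by
      rw [Complex.mul_conj', norm_mul]
      push_cast
      ring
    rw [e, hS, Finset.sum_mul_sum, ← Fintype.sum_prod_type', map_sum, Finset.sum_mul_sum,
      ← Fintype.sum_prod_type']
    refine Finset.sum_congr rfl fun p _ => ?_
    simp only [W, map_mul, sub_eq_add_neg, neg_add, AddChar.map_add_eq_mul, AddChar.map_neg_eq_conj]
    ring
  have h2 : ((∑ ψ : AddChar G ℂ, ‖∑ a, w a * ψ (φ a)‖ ^ 4 : ℝ) : ℂ) =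
      (Fintype.card G : ℂ) *
        ∑ p ∈ univ.filter (fun p : (X × X) × X × X => φ p.1.1 + φ p.1.2 = φ p.2.1 + φ p.2.2), W p := by
    rw [Complex.ofReal_sum]
    simp only [key]
    rw [Finset.sum_comm, Finset.mul_sum, Finset.sum_filter]
    refine Finset.sum_congr rfl fun p _ => ?_
    rw [← Finset.mul_sum, AddChar.sum_apply_eq_ite]
    simp only [sub_eq_zero, mul_ite, mul_zero]
    split_ifs <;> ring
  have h3 := congrArg norm h2
  rw [Complex.norm_real, Real.norm_eq_abs, abs_of_nonneg (Finset.sum_nonneg fun ψ _ => by positivity),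
    norm_mul, Complex.norm_natCast] at h3
  rw [h3]
  refine mul_le_mul_of_nonneg_left ((norm_sum_le _ _).trans ((Finset.sum_le_sum fun p _ => ?_).trans
    (by rw [Finset.sum_const, nsmul_one]; exact_mod_cast hE))) (Nat.cast_nonneg _)
  simp only [W, map_mul, norm_mul, Complex.norm_conj]
  exact mul_le_one₀ (mul_le_one₀ (hw _) (norm_nonneg _) (hw _)) (by positivity)
    (mul_le_one₀ (hw _) (norm_nonneg _) (hw _))

/-- Solutions of `∑ φ i (x i) = s`, counted by characters. -/
theorem card_solutions_ge {n : ℕ} (φ : Fin n → X → G) (s : G) (Err : ℝ)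
    (hErr : ∑ ψ ∈ (univ : Finset (AddChar G ℂ)).erase 0, ∏ i, ‖∑ a, ψ (φ i a)‖ ≤ Err) :
    (Fintype.card X : ℝ) ^ n - Err ≤
      (Fintype.card G : ℝ) * (univ.filter fun x : Fin n → X => ∑ i, φ i (x i) = s).card := by
  classical
  have key : ((Fintype.card G * (univ.filter fun x : Fin n → X => ∑ i, φ i (x i) = s).card : ℕ) : ℂ) =
      ∑ ψ : AddChar G ℂ, ψ (-s) * ∏ i, ∑ a, ψ (φ i a) := by
    have hprod : ∀ (ψ : AddChar G ℂ) (x : Fin n → X),
        ∏ i, ψ (φ i (x i)) = ψ (∑ i, φ i (x i)) := fun ψ x =>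
      (map_prod ψ.toMonoidHom (fun i => Multiplicative.ofAdd (φ i (x i))) univ).symm
    simp only [Fintype.prod_sum, hprod, Finset.mul_sum, ← AddChar.map_add_eq_mul]
    rw [Finset.sum_comm]
    simp only [AddChar.sum_apply_eq_ite, neg_add_eq_zero]
    rw [Finset.sum_ite, Finset.sum_const_zero, add_zero, Finset.sum_const, nsmul_eq_mul, Nat.cast_mul,
      mul_comm]
    congr 3
    ext x
    simp [eq_comm]
  rw [← Finset.sum_erase_add univ _ (Finset.mem_univ (0 : AddChar G ℂ))] at key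
  simp only [AddChar.zero_apply, Finset.sum_const, Finset.card_univ, nsmul_eq_mul, mul_one,
    Finset.prod_const, Fintype.card_fin, one_mul] at key
  have h2 := congrArg Complex.re key
  rw [Complex.add_re, Complex.natCast_re, Nat.cast_mul] at h2
  have h3 : -Err ≤ (∑ ψ ∈ (univ : Finset (AddChar G ℂ)).erase 0,
      ψ (-s) * ∏ i, ∑ a, ψ (φ i a)).re := by
    have h4 : |(∑ ψ ∈ (univ : Finset (AddChar G ℂ)).erase 0,
        ψ (-s) * ∏ i, ∑ a, ψ (φ i a)).re| ≤ Err := (Complex.abs_re_le_norm _).trans ((norm_sum_le _ _).trans (le_trans (le_of_eq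
      (Finset.sum_congr rfl fun ψ _ => by rw [norm_mul, AddChar.norm_apply ψ (-s), one_mul, norm_prod])) hErr))
    exact neg_le_of_abs_le h4
  have h5 : (((Fintype.card X : ℂ)) ^ n).re = (Fintype.card X : ℝ) ^ n := by
    rw [← Nat.cast_pow, Complex.natCast_re, Nat.cast_pow]
  rw [h5] at h2
  rw [h2]
  linarith

end moments

variable {F : Type u} [Field F] {q : ℕ}

/-- The elements of norm one. -/
def NU (F : Type u) [Field F] (q : ℕ) : Subgroup Fˣ := (powMonoidHom (q + 1) : Fˣ →* Fˣ).ker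

noncomputable instance [Fintype F] : Fintype (NU F q) := Fintype.ofFinite _

theorem NU.norm_eq (x : NU F q) : ((x : Fˣ) : F) ^ (q + 1) = 1 := by
  simpa using congrArg Units.val (MonoidHom.mem_ker.1 x.2)

variable (hF : SqField F q)
include hF

theorem card_NU : Nat.card (NU F q) = q + 1 := by
  obtain ⟨h, e⟩ := id hF
  rw [NU, IsCyclic.card_powMonoidHom_ker, hF.card_units, Nat.gcd_eq_right (Dvd.intro_left _ rfl)]

variable [Fintype F] [DecidableEq F]

theorem fintype_card_NU : Fintype.card (NU F q) = q + 1 := by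
  rw [← Nat.card_eq_fintype_card, card_NU hF]

theorem card_F : Fintype.card F = q ^ 2 := by rw [← Nat.card_eq_fintype_card, hF.2]

/-- Pairs of norm-one elements with a given sum: two, unless the sum is zero. -/
theorem pair_fibre {c : F} (hc : c ≠ 0) (p : NU F q × NU F q) :
    (univ.filter fun r : NU F q × NU F q =>
      c * ((p.1 : Fˣ) : F) + c * ((p.2 : Fˣ) : F) = c * ((r.1 : Fˣ) : F) + c * ((r.2 : Fˣ) : F)).card ≤
      if ((p.1 : Fˣ) : F) + ((p.2 : Fˣ) : F) = 0 then q + 1 else 2 := by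
  classical
  split_ifs with h0
  · rw [← fintype_card_NU hF, ← Finset.card_univ]
    refine Finset.card_le_card_of_injOn Prod.fst (fun r _ => Finset.mem_univ _) ?_
    intro r hr r' hr' e
    simp only [Finset.coe_filter, Finset.mem_univ, true_and, Set.mem_setOf_eq, ← mul_add, h0,
      mul_zero] at hr hr'
    have e1 := (mul_eq_zero.1 hr.symm).resolve_left hc
    have e2 := (mul_eq_zero.1 hr'.symm).resolve_left hc
    rw [e] at e1
    exact Prod.ext e (Subtype.ext (Units.ext (by linear_combination e1 - e2)))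
  · refine (Finset.card_le_card (t := {p, p.swap}) fun r hr => ?_).trans Finset.card_le_two
    rw [Finset.mem_filter] at hr
    have hs : ((p.1 : Fˣ) : F) + ((p.2 : Fˣ) : F) = ((r.1 : Fˣ) : F) + ((r.2 : Fˣ) : F) :=
      mul_left_cancel₀ hc (by linear_combination hr.2)
    set a := ((p.1 : Fˣ) : F) with ha
    set b := ((p.2 : Fˣ) : F) with hb
    set a' := ((r.1 : Fˣ) : F) with ha'
    set b' := ((r.2 : Fˣ) : F) with hb'
    have e1 : a * a ^ q = 1 := by rw [← pow_succ']; exact NU.norm_eq p.1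
    have e2 : b * b ^ q = 1 := by rw [← pow_succ']; exact NU.norm_eq p.2
    have e3 : a' * a' ^ q = 1 := by rw [← pow_succ']; exact NU.norm_eq r.1
    have e4 : b' * b' ^ q = 1 := by rw [← pow_succ']; exact NU.norm_eq r.2
    have hsq : a ^ q + b ^ q = a' ^ q + b' ^ q := by rw [← hF.add_pow, ← hF.add_pow, hs]
    have hprod : (a + b) * (a' * b' - a * b) = 0 := by
      linear_combination (a' * b') * (a + b) * 0 + (a * b * a' * b') * hsq - (a' * b') * b * e1 -
        (a' * b') * a * e2 + (a * b) * b' * e3 + (a * b) * a' * e4 + (-(a * b)) * hs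
    have hp := (mul_eq_zero.1 hprod).resolve_left h0
    have h : (a' - a) * (a' - b) = 0 := by linear_combination -hp + a' * (-hs)
    simp only [Finset.mem_insert, Finset.mem_singleton]
    rcases mul_eq_zero.1 h with h' | h'
    · refine Or.inl (Prod.ext (Subtype.ext (Units.ext (sub_eq_zero.1 h'))) (Subtype.ext (Units.ext ?_)))
      change b' = b
      linear_combination -hs - h'
    · refine Or.inr (Prod.ext (Subtype.ext (Units.ext (sub_eq_zero.1 h'))) (Subtype.ext (Units.ext ?_)))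
      change b' = a
      linear_combination -hs - h'

theorem energy_le {c : F} (hc : c ≠ 0) :
    (univ.filter fun p : (NU F q × NU F q) × NU F q × NU F q =>
      c * ((p.1.1 : Fˣ) : F) + c * ((p.1.2 : Fˣ) : F) =
        c * ((p.2.1 : Fˣ) : F) + c * ((p.2.2 : Fˣ) : F)).card ≤ 3 * (q + 1) ^ 2 := by
  classical
  rw [Finset.card_filter, Fintype.sum_prod_type]
  simp only [← Finset.card_filter]
  refine (Finset.sum_le_sum (g := fun p : NU F q × NU F q =>
    2 + if ((p.1 : Fˣ) : F) + ((p.2 : Fˣ) : F) = 0 then q + 1 else 0) fun p _ =>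
      (pair_fibre hF hc p).trans (by split_ifs <;> omega)).trans ?_
  rw [Finset.sum_add_distrib, ← Finset.sum_filter, Finset.sum_const, Finset.sum_const, Finset.card_univ,
    Fintype.card_prod, fintype_card_NU hF, smul_eq_mul, smul_eq_mul]
  have : (univ.filter fun p : NU F q × NU F q =>
      ((p.1 : Fˣ) : F) + ((p.2 : Fˣ) : F) = 0).card ≤ q + 1 := by
    refine le_trans ?_ (Finset.card_univ.trans (fintype_card_NU hF)).le
    refine Finset.card_le_card_of_injOn Prod.fst (fun r _ => Finset.mem_univ _) fun r hr r' hr' e => ?_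
    simp only [Finset.coe_filter, Finset.mem_univ, true_and, Set.mem_setOf_eq] at hr hr'
    rw [e] at hr
    exact Prod.ext e (Subtype.ext (Units.ext (by linear_combination hr - hr')))
  nlinarith

/-- Sums of a non-trivial additive character over norm-one elements, with a twist. -/
theorem sum_le (χ : NU F q → ℂ) (hmul : ∀ a b, χ (a * b) = χ a * χ b) (hnorm : ∀ a, ‖χ a‖ = 1)
    (e : AddChar F ℂ) (he : e ≠ 0) {c : F} (hc : c ≠ 0) :
    ‖∑ μ : NU F q, χ μ * e (c * ((μ : Fˣ) : F))‖ ^ 4 ≤ 3 * (q : ℝ) ^ 2 * (q + 1) := by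
  classical
  set T : ℝ := ‖∑ μ : NU F q, χ μ * e (c * ((μ : Fˣ) : F))‖ with hT
  let Φ : NU F q → AddChar F ℂ := fun ν =>
    e.compAddMonoidHom (AddMonoidHom.mulLeft ((ν : Fˣ) : F))
  have hΦ : ∀ ν x, Φ ν x = e (((ν : Fˣ) : F) * x) := fun ν x => rfl
  have hinj : Function.Injective Φ := by
    intro a b hab
    by_contra hne
    refine he ?_
    have hd : ((a : Fˣ) : F) - ((b : Fˣ) : F) ≠ 0 :=
      sub_ne_zero.2 fun h => hne (Subtype.ext (Units.ext h))
    ext y
    have h := DFunLike.congr_fun hab (y / (((a : Fˣ) : F) - ((b : Fˣ) : F)))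
    rw [hΦ, hΦ] at h
    rw [AddChar.zero_apply]
    calc e y = e (((a : Fˣ) : F) * (y / (((a : Fˣ) : F) - ((b : Fˣ) : F))) -
          ((b : Fˣ) : F) * (y / (((a : Fˣ) : F) - ((b : Fˣ) : F)))) := by
            congr 1; rw [← sub_mul, mul_div_cancel₀ _ hd]
      _ = 1 := by
            rw [AddChar.map_sub_eq_div, h, div_self]
            intro h0
            have hn := AddChar.norm_apply e (((b : Fˣ) : F) * (y / (((a : Fˣ) : F) - ((b : Fˣ) : F))))
            rw [h0, norm_zero] at hn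
            exact zero_ne_one hn
  have horb : ∀ ν, ‖∑ μ : NU F q, χ μ * Φ ν (c * ((μ : Fˣ) : F))‖ = T := fun ν => by
    rw [hT, ← Equiv.sum_comp (Equiv.mulLeft ν) (fun μ => χ μ * e (c * ((μ : Fˣ) : F)))]
    simp only [Equiv.coe_mulLeft, hmul, Subgroup.coe_mul, Units.val_mul, mul_assoc, hΦ]
    rw [← Finset.mul_sum, norm_mul, hnorm, one_mul]
    congr 1
    exact Finset.sum_congr rfl fun μ _ => by congr 2; ring
  have h1 : ((q : ℝ) + 1) * T ^ 4 ≤ (q : ℝ) ^ 2 * (3 * (q + 1) ^ 2) := by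
    have h := fourth_moment_le (G := F) (fun μ : NU F q => c * ((μ : Fˣ) : F)) χ
      (fun a => (hnorm a).le) _ (energy_le hF hc)
    rw [card_F hF] at h
    push_cast at h
    refine le_trans (le_of_eq ?_) ((Finset.sum_le_sum_of_subset_of_nonneg
      (Finset.subset_univ (univ.image Φ)) fun ψ _ _ => by positivity).trans h)
    rw [Finset.sum_image fun a _ b _ hab => hinj hab]
    simp only [horb, Finset.sum_const, Finset.card_univ, fintype_card_NU hF, nsmul_eq_mul]
    push_cast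
    ring
  have hq : (0 : ℝ) < q + 1 := by positivity
  nlinarith

theorem prod_four_le {a b c d : ℝ} : a * b * c * d ≤ (a ^ 4 + b ^ 4 + c ^ 4 + d ^ 4) / 4 := by
  nlinarith [sq_nonneg (a * b - c * d), sq_nonneg (a ^ 2 - b ^ 2), sq_nonneg (c ^ 2 - d ^ 2),
    sq_nonneg (a ^ 2), sq_nonneg (c * d)]

/-- Error terms: four moments and a uniform bound for the other factors. -/
theorem error_le {G : Type*} [AddCommGroup G] [Fintype G] {m r : ℕ}
    (f : Fin (4 + (m + r)) → AddChar G ℂ → ℝ) (hf0 : ∀ i ψ, 0 ≤ f i ψ)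
    (hf1 : ∀ i ψ, f i ψ ≤ q + 1) {P T : ℝ} (hP : 0 ≤ P)
    (hbound : ∀ ψ : AddChar G ℂ, ψ ≠ 0 → (∀ i, f i ψ ^ 4 ≤ P) ∨ ∀ i, f i ψ = 0)
    (hT : 0 ≤ T) (hPT : P ^ m ≤ T ^ 4) {L : ℝ}
    (hL : ∀ i, ∑ ψ ∈ (univ : Finset (AddChar G ℂ)).erase 0, f i ψ ^ 4 ≤ L) :
    ∑ ψ ∈ (univ : Finset (AddChar G ℂ)).erase 0, ∏ i, f i ψ ≤ L * T * (q + 1) ^ r := by
  classical
  set g : AddChar G ℂ → ℝ := fun ψ => (∑ i : Fin 4, f (Fin.castAdd _ i) ψ ^ 4) / 4 with hg
  have hterm : ∀ ψ ∈ (univ : Finset (AddChar G ℂ)).erase 0, ∏ i, f i ψ ≤ g ψ * (T * (q + 1) ^ r) := by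
    intro ψ hψ
    rw [Finset.mem_erase] at hψ
    rw [Fin.prod_univ_add, Fin.prod_univ_add]
    have hg0 : 0 ≤ g ψ := by positivity
    refine mul_le_mul ?_ (mul_le_mul ?_ ?_ (Finset.prod_nonneg fun i _ => hf0 _ _) hT)
      (mul_nonneg (Finset.prod_nonneg fun i _ => hf0 _ _) (Finset.prod_nonneg fun i _ => hf0 _ _)) hg0
    · rw [hg, Fin.prod_univ_four]
      simp only [Fin.sum_univ_four]
      exact prod_four_le hF
    · rcases hbound ψ hψ.1 with hb | hb
      · refine (pow_le_pow_iff_left₀ (Finset.prod_nonneg fun i _ => hf0 _ _) hT four_ne_zero).1 ?_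
        rw [← Finset.prod_pow]
        calc _ ≤ ∏ _i : Fin m, P :=
              Finset.prod_le_prod (fun i _ => by positivity) fun i _ => hb _
          _ ≤ _ := by simpa using hPT
      · rcases Nat.eq_zero_or_pos m with rfl | hm
        · rw [Finset.prod_of_isEmpty]
          rw [pow_zero] at hPT
          exact (one_le_pow_iff_of_nonneg hT four_ne_zero).1 hPT
        · rw [Finset.prod_eq_zero (Finset.mem_univ (⟨0, hm⟩ : Fin m)) (hb _)]
          exact hT
    · calc _ ≤ ∏ _i : Fin r, ((q : ℝ) + 1) :=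
            Finset.prod_le_prod (fun i _ => hf0 _ _) fun i _ => hf1 _ _
        _ = _ := by simp
  have hsum : ∑ ψ ∈ (univ : Finset (AddChar G ℂ)).erase 0, g ψ ≤ L := by
    rw [hg, ← Finset.sum_div, Finset.sum_comm, div_le_iff₀ four_pos]
    calc _ ≤ ∑ _i : Fin 4, L := Finset.sum_le_sum fun i _ => hL _
      _ = _ := by simp; ring
  calc _ ≤ ∑ ψ ∈ (univ : Finset (AddChar G ℂ)).erase 0, g ψ * (T * (q + 1) ^ r) := Finset.sum_le_sum hterm
    _ ≤ L * T * (q + 1) ^ r := by
        rw [← Finset.sum_mul, mul_assoc]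
        exact mul_le_mul_of_nonneg_right hsum (by positivity)

omit hF in
theorem sum_erase_le {G : Type*} [AddCommGroup G] [Fintype G] {g : AddChar G ℂ → ℝ} {L : ℝ}
    (h : ∑ ψ, g ψ ^ 4 ≤ L) : ∑ ψ ∈ (univ : Finset (AddChar G ℂ)).erase 0, g ψ ^ 4 ≤ L :=
  (Finset.sum_le_sum_of_subset_of_nonneg (Finset.subset_univ _) fun ψ _ _ => by positivity).trans h

omit hF in
theorem prod_numeric (hq : 2 ≤ q) : 196830000 * q ^ 26 ≤ 256 * (q + 1) ^ 31 := by
  rcases Nat.lt_or_ge q 16 with h | h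
  · interval_cases q <;> norm_num
  · have h1 : 196830000 ≤ 256 * (q + 1) ^ 5 := by
      calc 196830000 ≤ 256 * 17 ^ 5 := by norm_num
        _ ≤ _ := Nat.mul_le_mul le_rfl (Nat.pow_le_pow_left (by omega) 5)
    calc 196830000 * q ^ 26 ≤ 256 * (q + 1) ^ 5 * (q + 1) ^ 26 :=
          Nat.mul_le_mul h1 (Nat.pow_le_pow_left (Nat.le_succ q) 26)
      _ = _ := by ring

/-- The main term against the error term. -/
theorem card_sum_prod_core {m r : ℕ} (c : Fin (4 + (m + r)) → F) (hc : ∀ i, c i ≠ 0) (s : F)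
    (p : NU F q) {T : ℝ} (hT : 0 ≤ T) (hPT : (3 * (q : ℝ) ^ 2 * (q + 1)) ^ m ≤ T ^ 4) :
    ((q : ℝ) + 1) ^ (4 + (m + r)) - ((q : ℝ) + 1) ^ 3 * (2 * q ^ 2 - q - 1) * T * (q + 1) ^ r ≤
      (q : ℝ) ^ 2 * (q + 1) * (univ.filter fun x : Fin (4 + (m + r)) → NU F q =>
        ∑ i, c i * ((x i : Fˣ) : F) = s ∧ ∏ i, x i = p).card := by
  classical
  have hq : (2 : ℕ) ≤ q := hF.one_lt
  have hqR : (2 : ℝ) ≤ q := by exact_mod_cast hq
  set G := F × Additive (NU F q)
  set φ : Fin (4 + (m + r)) → NU F q → G := fun i μ => (c i * ((μ : Fˣ) : F), Additive.ofMul μ) with hφ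
  set f : Fin (4 + (m + r)) → AddChar G ℂ → ℝ := fun i ψ => ‖∑ μ : NU F q, ψ (φ i μ)‖
  have hcard : Fintype.card G = q ^ 2 * (q + 1) := by
    rw [Fintype.card_prod, card_F hF, Fintype.card_additive, fintype_card_NU hF]
  have hL : ∀ i, ∑ ψ, f i ψ ^ 4 ≤ ((q : ℝ) ^ 2 * (q + 1)) * (2 * (q + 1) ^ 2) := fun i => by
    have h := fourth_moment_le (φ i) (fun _ => (1 : ℂ)) (fun _ => by simp) (2 * (q + 1) ^ 2) (by
      rw [Finset.card_filter, Fintype.sum_prod_type]
      simp only [← Finset.card_filter]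
      refine (Finset.sum_le_sum (g := fun _ => 2) fun a _ => ?_).trans (by
        simp [fintype_card_NU hF]; nlinarith)
      rw [← Finset.card_filter]
      refine (Finset.card_le_card (t := {a, a.swap}) fun b hb => ?_).trans Finset.card_le_two
      rw [Finset.mem_filter] at hb
      obtain ⟨h1, h2⟩ := Prod.ext_iff.1 hb.2
      change c i * ((a.1 : Fˣ) : F) + c i * ((a.2 : Fˣ) : F) =
        c i * ((b.1 : Fˣ) : F) + c i * ((b.2 : Fˣ) : F) at h1
      change a.1 * a.2 = b.1 * b.2 at h2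
      have h2' : ((a.1 : Fˣ) : F) * ((a.2 : Fˣ) : F) = ((b.1 : Fˣ) : F) * ((b.2 : Fˣ) : F) := by
        simpa using congrArg (fun x : NU F q => ((x : Fˣ) : F)) h2
      have h1' := mul_left_cancel₀ (hc i) (a := c i) (by linear_combination h1 :
        c i * (((a.1 : Fˣ) : F) + ((a.2 : Fˣ) : F)) = c i * (((b.1 : Fˣ) : F) + ((b.2 : Fˣ) : F)))
      have h : (((b.1 : Fˣ) : F) - ((a.1 : Fˣ) : F)) * (((b.1 : Fˣ) : F) - ((a.2 : Fˣ) : F)) = 0 := by
        linear_combination h2' - ((b.1 : Fˣ) : F) * h1'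
      simp only [Finset.mem_insert, Finset.mem_singleton]
      rcases mul_eq_zero.1 h with h' | h'
      · exact Or.inl (Prod.ext (Subtype.ext (Units.ext (sub_eq_zero.1 h')))
          (Subtype.ext (Units.ext (show ((b.2 : Fˣ) : F) = ((a.2 : Fˣ) : F) by
            linear_combination -h1' - h'))))
      · exact Or.inr (Prod.ext (Subtype.ext (Units.ext (sub_eq_zero.1 h')))
          (Subtype.ext (Units.ext (show ((b.2 : Fˣ) : F) = ((a.1 : Fˣ) : F) by
            linear_combination -h1' - h')))))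
    simp only [one_mul, hcard] at h
    push_cast at h
    exact h
  have hE := error_le hF (G := G) f (fun i ψ => norm_nonneg _)
    (fun i ψ => (norm_sum_le _ _).trans (le_of_eq (by simp [AddChar.norm_apply, fintype_card_NU hF])))
    (P := 3 * (q : ℝ) ^ 2 * (q + 1)) (T := T) (by positivity)
    (fun ψ hψ => by
      set e : AddChar F ℂ := ψ.compAddMonoidHom (AddMonoidHom.inl F (Additive (NU F q))) with hedef
      have hsplit : ∀ x a, ψ (x, a) = e x * ψ (0, a) := fun x a => by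
        rw [hedef, AddChar.compAddMonoidHom_apply, AddMonoidHom.inl_apply, ← AddChar.map_add_eq_mul,
          Prod.mk_add_mk, add_zero, zero_add]
      have hmul : ∀ a b : NU F q, ψ (0, Additive.ofMul (a * b)) =
          ψ (0, Additive.ofMul a) * ψ (0, Additive.ofMul b) := fun a b => by
        rw [← AddChar.map_add_eq_mul, Prod.mk_add_mk, add_zero, ofMul_mul]
      rcases eq_or_ne e 0 with he | he
      · refine Or.inr fun i => norm_eq_zero.2 ?_
        rw [Finset.sum_congr rfl fun μ _ => (show ψ (φ i μ) = ψ (0, Additive.ofMul μ) by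
          simp only [hφ]; rw [hsplit, he, AddChar.zero_apply, one_mul])]
        let χ : AddChar (Additive (NU F q)) ℂ :=
          ψ.compAddMonoidHom (AddMonoidHom.inr F (Additive (NU F q)))
        have hχ : χ ≠ 0 := fun h0 => hψ (by
          ext x
          rw [show x = (x.1, x.2) from rfl, hsplit, he, AddChar.zero_apply, one_mul,
            show ψ (0, x.2) = χ x.2 from rfl, h0]; simp)
        have := AddChar.sum_eq_ite χ
        rw [if_neg hχ] at this
        exact (Equiv.sum_comp Additive.ofMul (fun a => χ a)).trans this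
      · refine Or.inl fun i => ?_
        change ‖∑ μ : NU F q, ψ (φ i μ)‖ ^ 4 ≤ _
        rw [Finset.sum_congr rfl fun μ _ =>
          (show ψ (φ i μ) = ψ (0, Additive.ofMul μ) * e (c i * ((μ : Fˣ) : F)) by
            simp only [hφ]; rw [hsplit, mul_comm])]
        exact sum_le hF (fun μ : NU F q => ψ (0, Additive.ofMul μ)) hmul
          (fun a => AddChar.norm_apply ψ _) e he (hc i))
    hT hPT (L := ((q : ℝ) + 1) ^ 3 * (2 * q ^ 2 - q - 1)) (fun i => by
      have h0 : f i 0 = q + 1 := by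
        simp only [f, AddChar.zero_apply, Finset.sum_const, Finset.card_univ, fintype_card_NU hF,
          nsmul_eq_mul, mul_one, Complex.norm_natCast]
        push_cast; ring
      have h := hL i
      rw [← Finset.sum_erase_add _ _ (Finset.mem_univ (0 : AddChar G ℂ)), h0] at h
      nlinarith)
  have h := card_solutions_ge φ (s, Additive.ofMul p) _ hE
  rw [fintype_card_NU hF, hcard] at h
  have hset : (univ.filter fun x : Fin (4 + (m + r)) → NU F q => ∑ i, φ i (x i) = (s, Additive.ofMul p)) =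
      univ.filter fun x : Fin (4 + (m + r)) → NU F q =>
        ∑ i, c i * ((x i : Fˣ) : F) = s ∧ ∏ i, x i = p := by
    refine Finset.filter_congr fun x _ => ?_
    change ∑ i, (c i * ((x i : Fˣ) : F), Additive.ofMul (x i)) = (s, Additive.ofMul p) ↔ _
    rw [Prod.ext_iff, Prod.fst_sum, Prod.snd_sum, ← ofMul_prod, Additive.ofMul.apply_eq_iff_eq]
  rw [hset] at h
  push_cast at h
  exact h

/-- The constant of `card_sum_prod_ge`. -/
def cst (q n : ℕ) : ℕ := if 13 ≤ n ∨ q = 2 then 5 else 14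

omit hF in
theorem five_le_cst (n : ℕ) : 5 ≤ cst q n := by
  unfold cst; split_ifs <;> norm_num

omit hF in
theorem small_numeric (hq : 2 ≤ q) :
    (cst q 12 : ℝ) * (9 * q ^ 4 * (2 * q ^ 2 - q - 1)) ≤ ((cst q 12 : ℝ) - 1) * (q + 1) ^ 7 := by
  rcases Nat.lt_or_ge q 24 with h | h
  · interval_cases q <;> norm_num [cst]
  · have hc : cst q 12 = 14 := by simp [cst]; omega
    have hx : (24 : ℝ) ≤ q := by exact_mod_cast h
    rw [hc]
    have h1 : (252 : ℝ) * q ^ 6 ≤ 13 * (q + 1) * (q + 1) ^ 6 :=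
      mul_le_mul (by linarith) (pow_le_pow_left₀ (by linarith) (by linarith) 6) (by positivity) (by positivity)
    have h2 : (0 : ℝ) ≤ (q : ℝ) ^ 4 * (q + 1) := by positivity
    push_cast
    nlinarith

/-- Many solutions of a linear equation in norm-one elements with prescribed product. -/
theorem card_sum_prod_ge {n : ℕ} (hn : 12 ≤ n) (c : Fin n → F) (hc : ∀ i, c i ≠ 0) (s : F)
    (p : NU F q) :
    (q + 1) ^ n ≤ cst q n * q ^ 2 * (q + 1) * (univ.filter fun x : Fin n → NU F q =>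
      ∑ i, c i * ((x i : Fˣ) : F) = s ∧ ∏ i, x i = p).card := by
  classical
  have hq : (2 : ℕ) ≤ q := hF.one_lt
  have hqR : (2 : ℝ) ≤ q := by exact_mod_cast hq
  rcases Nat.lt_or_ge n 13 with hn' | hn'
  · obtain rfl : n = 4 + (8 + 0) := by omega
    have h := card_sum_prod_core hF c hc s p (T := 9 * (q : ℝ) ^ 4 * (q + 1) ^ 2) (by positivity)
      (le_of_eq (by ring))
    have h6 := mul_le_mul_of_nonneg_right (small_numeric hq) (show (0 : ℝ) ≤ (q + 1) ^ 5 by positivity)
    rw [← Nat.cast_le (α := ℝ)]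
    push_cast
    have h7 := mul_le_mul_of_nonneg_left h (Nat.cast_nonneg (α := ℝ) (cst q 12))
    norm_num at h h7 ⊢
    linarith
  obtain ⟨r, rfl⟩ : ∃ r, n = 4 + (9 + r) := ⟨n - 13, by omega⟩
  have h := card_sum_prod_core hF c hc s p (T := 2 / 5 * (q + 1) ^ 10 / (q : ℝ) ^ 2) (by positivity) (by
      have hnum : (196830000 : ℝ) * q ^ 26 ≤ 256 * (q + 1) ^ 31 := by exact_mod_cast prod_numeric hq
      have h0 : (0 : ℝ) < q ^ 8 := by positivity
      rw [div_pow, ← pow_mul, le_div_iff₀ h0]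
      have := mul_le_mul_of_nonneg_right hnum (show (0 : ℝ) ≤ (q + 1) ^ 9 by positivity)
      ring_nf at this ⊢
      nlinarith)
  rw [show cst q (4 + (9 + r)) = 5 from if_pos (Or.inl (by omega)), ← Nat.cast_le (α := ℝ)]
  push_cast
  have h5 : (q : ℝ) ^ 2 * (q + 1) * (2 * (q + 1) ^ 2) * (2 / 5 * (q + 1) ^ 10 / (q : ℝ) ^ 2) *
      (q + 1) ^ r = 4 / 5 * (q + 1) ^ (4 + (9 + r)) := by
    field_simp
    ring
  have h6 : ((q : ℝ) + 1) ^ 3 * (2 * q ^ 2 - q - 1) ≤ (q : ℝ) ^ 2 * (q + 1) * (2 * (q + 1) ^ 2) := by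
    nlinarith [show (0 : ℝ) ≤ (q + 1) ^ 3 * ((q : ℝ) + 1) by positivity]
  have h7 : (0 : ℝ) ≤ 2 / 5 * (q + 1) ^ 10 / (q : ℝ) ^ 2 * (q + 1) ^ r := by positivity
  nlinarith

omit hF in
theorem eleven_numeric (hq : 2 ≤ q) : 110716875 * q ^ 22 ≤ 256 * (q + 1) ^ 29 := by
  rcases Nat.lt_or_ge q 8 with h | h
  · interval_cases q <;> norm_num
  · have h1 : 110716875 ≤ 256 * (q + 1) ^ 7 := by
      calc 110716875 ≤ 256 * 9 ^ 7 := by norm_num
        _ ≤ _ := Nat.mul_le_mul le_rfl (Nat.pow_le_pow_left (by omega) 7)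
    calc 110716875 * q ^ 22 ≤ 256 * (q + 1) ^ 7 * (q + 1) ^ 22 :=
          Nat.mul_le_mul h1 (Nat.pow_le_pow_left (Nat.le_succ q) 22)
      _ = _ := by ring

/-- Many solutions of a linear equation in norm-one elements. -/
theorem card_sum_ge {n : ℕ} (hn : 11 ≤ n) (c : Fin n → F) (hc : ∀ i, c i ≠ 0) (s : F) :
    (q + 1) ^ n ≤ 5 * q ^ 2 *
      (univ.filter fun x : Fin n → NU F q => ∑ i, c i * ((x i : Fˣ) : F) = s).card := by
  classical
  obtain ⟨r, rfl⟩ : ∃ r, n = 4 + (7 + r) := ⟨n - 11, by omega⟩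
  have hq : (2 : ℕ) ≤ q := hF.one_lt
  have hqR : (2 : ℝ) ≤ q := by exact_mod_cast hq
  set f : Fin (4 + (7 + r)) → AddChar F ℂ → ℝ := fun i ψ => ‖∑ μ : NU F q, ψ (c i * ((μ : Fˣ) : F))‖
  have hL : ∀ i, ∑ ψ, f i ψ ^ 4 ≤ (q : ℝ) ^ 2 * (3 * (q + 1) ^ 2) := fun i => by
    have h := fourth_moment_le (G := F) (fun μ : NU F q => c i * ((μ : Fˣ) : F)) (fun _ => 1)
      (fun _ => by simp) _ (energy_le hF (hc i))
    simp only [one_mul, card_F hF] at h
    push_cast at h
    exact h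
  have hE := error_le hF (G := F) f (fun i ψ => norm_nonneg _)
    (fun i ψ => (norm_sum_le _ _).trans (le_of_eq (by simp [AddChar.norm_apply, fintype_card_NU hF])))
    (P := 3 * (q : ℝ) ^ 2 * (q + 1)) (T := 4 / 5 * (q + 1) ^ 9 / (3 * (q : ℝ) ^ 2)) (by positivity)
    (fun ψ hψ => Or.inl fun i => by
      simpa using sum_le hF (fun _ => (1 : ℂ)) (by simp) (by simp) ψ hψ (hc i))
    (by positivity) (by
      have hnum : (110716875 : ℝ) * q ^ 22 ≤ 256 * (q + 1) ^ 29 := by exact_mod_cast eleven_numeric hq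
      have h0 : (0 : ℝ) < (3 * q ^ 2) ^ 4 := by positivity
      rw [div_pow, le_div_iff₀ h0]
      have := mul_le_mul_of_nonneg_right hnum (show (0 : ℝ) ≤ (q + 1) ^ 7 by positivity)
      ring_nf at this ⊢
      nlinarith) fun i => sum_erase_le (hL i)
  have h := card_solutions_ge (fun i (μ : NU F q) => c i * ((μ : Fˣ) : F)) s _ hE
  rw [fintype_card_NU hF, card_F hF] at h
  push_cast at h
  have h5 : (q : ℝ) ^ 2 * (3 * (q + 1) ^ 2) * (4 / 5 * (q + 1) ^ 9 / (3 * (q : ℝ) ^ 2)) * (q + 1) ^ r =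
      4 / 5 * (q + 1) ^ (4 + (7 + r)) := by
    field_simp
    ring
  rw [← Nat.cast_le (α := ℝ)]
  push_cast
  nlinarith

end Cfsg.Agent.DecompMax.UCount
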