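import Cfsg.Agent.DecompMax.UnitFix

/-!
Small fields whose norm-one group has exponent dividing the dimension: no overgroup of the monomial
special unitary group has all its non-monomial elements free of fixed frame lines.
-/

set_option autoImplicit false
set_option linter.style.haveILetI false
set_option linter.unusedSectionVars false

namespace Cfsg.Agent.DecompMax.UF

open Matrix Cfsg.Geo Module Cfsg.Agent.Classical.U Cfsg.Agent.DecompMax.UCount Cfsg.Agent.DecompMax.UN
open scoped MatrixGroups Matrix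

universe u

variable {F : Type u} [Field F] {n q : ℕ}

theorem extend_data {m : ℕ} {e : Fin m → Fin n} (he : Function.Injective e) (y : Fin m → NU F q)
    (f : Fin n → F) :
    (∏ i, Function.extend e y 1 i = ∏ j, y j) ∧
      ∑ i, f i * ((((Function.extend e y 1 i : NU F q) : Fˣ) : F) - 1) =
        ∑ j, f (e j) * ((((y j : NU F q) : Fˣ) : F) - 1) := by
  classical
  have h0 : ∀ i, i ∉ Finset.univ.image e → Function.extend e y 1 i = 1 := fun i hi => by
    rw [Function.extend_apply']; · rfl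
    rintro ⟨j, rfl⟩; exact hi (Finset.mem_image_of_mem e (Finset.mem_univ j))
  constructor
  · rw [← Finset.prod_subset (Finset.subset_univ (Finset.univ.image e)) (fun i _ hi => h0 i hi),
      Finset.prod_image he.injOn]
    exact Finset.prod_congr rfl fun j _ => he.extend_apply y 1 j
  · rw [← Finset.sum_subset (Finset.subset_univ (Finset.univ.image e)) (fun i _ hi => by rw [h0 i hi]; simp),
      Finset.sum_image he.injOn]
    exact Finset.sum_congr rfl fun j _ => by rw [he.extend_apply]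

variable (hF : SqField F q) {M : Subgroup (UG n F q)} (H : NoFix M)
include hF H

/-- Conjugates of diagonal elements moving few coordinates. -/
theorem NoFix.conj_dia {g : UG n F q} (hg : g ∈ M) {k : Fin n} (hfull : ∀ j i, g.1 (sv F j) i ≠ 0)
    {m : ℕ} (hm : 2 * m < n) {e : Fin m → Fin n} (he : Function.Injective e) {y : Fin m → NU F q}
    (hy : ∏ j, y j = 1) (hne : ∃ j, y j ≠ 1) :
    ∃ h ∈ M, ¬ MonU h ∧ h.1 (sv F k) k = 1 + ∑ j,
      g.1 (sv F (e j)) k * g.1 (sv F (e j)) k ^ q * ((((y j : NU F q) : Fˣ) : F) - 1) := by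
  classical
  set x := Function.extend e y 1
  obtain ⟨hp, -⟩ := extend_data he y (fun _ => (0 : F))
  set h := g * dia hF x * g⁻¹
  have hd : ∀ w, (dia hF x).1 w = ∑ i, ((((x i : NU F q) : Fˣ) : F) * w i) • sv F i := fun w => by
    funext z
    rw [dia_apply, Finset.sum_apply, Finset.sum_eq_single z (fun i _ hi => by
      simp [Pi.single_eq_of_ne hi.symm]) (by simp)]
    simp
  have hh : ∀ w, h.1 w = w + ∑ i, ((((x i : NU F q) : Fˣ) : F) - 1) • (herm q w (g.1 (sv F i)) • g.1 (sv F i)) := by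
    intro w
    have h1 : g.1 ((g⁻¹ : UG n F q).1 w) = w := app_inv hF g w
    simp only [h, Subgroup.coe_mul, LinearEquiv.mul_apply]
    conv_rhs => arg 1; rw [← h1, pi_eq_sum_univ' ((g⁻¹ : UG n F q).1 w), map_sum]
    rw [hd, map_sum, ← Finset.sum_add_distrib]
    refine Finset.sum_congr rfl fun i _ => ?_
    rw [map_smul, map_smul, ← UG_app g⁻¹ w (g.1 (sv F i)), inv_app hF, herm_sv hF]
    module
  refine ⟨h, mul_mem (mul_mem hg (mem_dia_of_prod hF H (hp.trans hy))) (inv_mem hg), fun hmon => ?_, ?_⟩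
  · set W := Submodule.span F (↑(Finset.univ.image fun j => g.1 (sv F (e j))) : Set (Fin n → F))
    obtain ⟨J, hJ, hJ'⟩ := hmon.moved' hF (W := W) fun w => by
      rw [hh, add_sub_cancel_left]
      refine Submodule.sum_mem _ fun i _ => ?_
      by_cases hi : ∃ j, e j = i
      · obtain ⟨j, rfl⟩ := hi
        exact W.smul_mem _ (W.smul_mem _ (Submodule.subset_span (by simp)))
      · rw [show x i = 1 from Function.extend_apply' y (1 : Fin n → NU F q) i hi]
        simp
    have hW : finrank F W ≤ m := (finrank_span_finset_le_card _).trans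
      (Finset.card_image_le.trans (by simp))
    obtain ⟨z, -, hz⟩ := Finset.exists_mem_notMem_of_card_lt_card (s := J) (t := Finset.univ)
      (by rw [Finset.card_univ, Fintype.card_fin]; omega)
    obtain ⟨j, hj⟩ := hne
    have e0 := hJ' (g.1 (sv F (e j))) z hz
    rw [hh, Pi.add_apply, add_eq_left, Finset.sum_apply, Finset.sum_eq_single (e j) (fun i _ hi => by
      rw [UG_app, herm_sv hF, show sv F (e j) i = 0 from Pi.single_eq_of_ne hi _]; simp) (by simp),
      UG_app, herm_sv hF, show x (e j) = y j from he.extend_apply y 1 j] at e0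
    simp [hfull, sub_eq_zero] at e0
    exact hj e0
  · rw [hh, Pi.add_apply, show sv F k k = 1 from Pi.single_eq_same k 1, Finset.sum_apply]
    congr 1
    rw [← (extend_data he y fun i => g.1 (sv F i) k * g.1 (sv F i) k ^ q).2]
    refine Finset.sum_congr rfl fun i _ => ?_
    rw [herm_one_single, Pi.smul_apply, Pi.smul_apply, smul_eq_mul, smul_eq_mul]
    ring

omit H in
/-- A generator of the norm-one elements. -/
theorem exists_NU_order : ∃ μ : NU F q, orderOf μ = q + 1 := by
  haveI : Finite F := hF.1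
  obtain ⟨μ, hμ⟩ := IsCyclic.exists_generator (α := NU F q)
  exact ⟨μ, by rw [orderOf_eq_card_of_forall_mem_zpowers hμ, card_NU hF]⟩

/-- No zero entries, odd order, the norm-one group small. -/
theorem NoFix.full_of_le {g : UG n F q} (hg : g ∈ M) (hgm : ¬ MonU g) (hn : 6 ≤ n) (hq : 3 ≤ q)
    (hqn : q < n) (hodd : (2 : F) ≠ 0) (k b : Fin n) : g.1 (sv F k) b ≠ 0 := by
  classical
  haveI : Finite F := hF.1
  haveI : Fintype F := Fintype.ofFinite F
  intro hb
  have hbig : n ≤ (supp (g.1 (sv F k))).card + 1 := by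
    by_contra hc
    obtain ⟨x, y, hx, hy, hxy⟩ := Finset.one_lt_card_iff.1
      (show 1 < (supp (g.1 (sv F k)))ᶜ.card by rw [Finset.card_compl, Fintype.card_fin]; omega)
    simp only [Finset.mem_compl, mem_supp, not_not] at hx hy
    exact H.two_zeros hF hg hgm hq (by omega) hxy hx hy
  have hgm' : ¬ MonU (g⁻¹ : UG n F q) := fun h => hgm (by simpa using h.inv' hF)
  have hall : ∀ a, a ≠ k → g.1 (sv F a) b ≠ 0 := fun a ha e => by
    refine H.two_zeros hF (inv_mem hg) hgm' hq (by omega) (k := b) (Ne.symm ha) ?_ ?_ <;>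
      rw [inv_apply_coord hF]
    · rw [hb, zero_pow hF.q_ne_zero]
    · rw [e, zero_pow hF.q_ne_zero]
  obtain ⟨a, ha, c, hc, hac, he⟩ := Finset.exists_ne_map_eq_of_card_lt_of_maps_to
    (s := Finset.univ.erase k) (t := (Finset.univ.filter fun x : F => x ^ (q - 1) = 1))
    (f := fun a => g.1 (sv F a) b * g.1 (sv F a) b ^ q) (by
      rw [← Fintype.card_subtype, ← Nat.card_eq_fintype_card, hF.card_fixed_units,
        Finset.card_erase_of_mem (Finset.mem_univ _), Finset.card_univ, Fintype.card_fin]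
      omega) (fun a ha => by
      rw [Finset.mem_coe, Finset.mem_erase] at ha
      have hne := mul_ne_zero (hall a ha.1) (pow_ne_zero q (hall a ha.1))
      simp only [Finset.coe_filter, Finset.mem_univ, true_and, Set.mem_setOf_eq]
      exact (hF.fixed_iff hne).1 (norm_fixed hF _))
  rw [Finset.mem_erase] at ha hc
  set y := g.1 (sv F a) b with hy
  set z := g.1 (sv F c) b with hz
  have hy0 : y ≠ 0 := hall a ha.1
  have hz0 : z ≠ 0 := hall c hc.1
  set ζ : NU F q := NU.mk (y / z) (by
    rw [div_pow, div_mul_div_comm, show y * y ^ q = z * z ^ q from he,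
      div_self (mul_ne_zero hz0 (pow_ne_zero q hz0))])
  set π := Equiv.swap a c
  set l : Fin n → NU F q := fun i => if i = a then ζ else if i = c then ζ⁻¹ else
    if i = k then NU.mk (-1) (by rw [hF.neg_pow, one_pow]; ring) else 1
  have hσS : UF.mon hF π l ∈ SUG n F q := by
    refine mon_mem_SUG hF ?_
    rw [Equiv.Perm.sign_swap hac, ← Finset.prod_subset (Finset.subset_univ ({a, c, k} : Finset (Fin n)))
      (fun i _ hi => by
        simp only [Finset.mem_insert, Finset.mem_singleton, not_or] at hi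
        simp [l, hi.1, hi.2.1, hi.2.2]), Finset.prod_insert (by simp [hac, ha.1]),
      Finset.prod_pair hc.1]
    simp [l, Ne.symm hac, Ne.symm ha.1, Ne.symm hc.1, ζ]
    field_simp
  set h := g * UF.mon hF π l * g⁻¹
  have hhM : h ∈ M := mul_mem (mul_mem hg (H.mon _ hσS (monU_mon hF _ _))) (inv_mem hg)
  set W := Submodule.span F
    ({g.1 (sv F k), g.1 (sv F a) - ((ζ : Fˣ) : F) • g.1 (sv F c)} : Set (Fin n → F))
  have hsub : ∀ w : Fin n → F, (UF.mon hF π l).1 w - w =
      ((((ζ⁻¹ : NU F q) : Fˣ) : F) * w c - w a) • (sv F a - ((ζ : Fˣ) : F) • sv F c)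
        + (-2 * w k) • sv F k := by
    intro w
    have hz' : (((ζ⁻¹ : NU F q) : Fˣ) : F) * ((ζ : Fˣ) : F) = 1 := by
      rw [← Units.val_mul, ← Subgroup.coe_mul, inv_mul_cancel]; simp
    funext x
    obtain ⟨x, rfl⟩ := π.surjective x
    simp only [Pi.sub_apply, Pi.add_apply, Pi.smul_apply, smul_eq_mul]
    rw [mon_apply]
    rcases eq_or_ne x a with rfl | hxa
    · simp [π, l, Ne.symm hac, Ne.symm hc.1]
      have := NU.ne_zero ζ
      field_simp
      ring
    rcases eq_or_ne x c with rfl | hxc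
    · simp [π, l, hxa, hac, Ne.symm hac, Ne.symm ha.1]
    rw [show π x = x from Equiv.swap_apply_of_ne_of_ne hxa hxc]
    rcases eq_or_ne x k with rfl | hxk
    · simp [l, hxa, hxc]; ring
    · simp [l, hxa, hxc, hxk]
  have hhsub : ∀ v, h.1 v - v = ((((ζ⁻¹ : NU F q) : Fˣ) : F) * (g⁻¹ : UG n F q).1 v c -
        (g⁻¹ : UG n F q).1 v a) • (g.1 (sv F a) - ((ζ : Fˣ) : F) • g.1 (sv F c)) +
      (-2 * (g⁻¹ : UG n F q).1 v k) • g.1 (sv F k) := fun v => by
    have e := congrArg g.1 (hsub ((g⁻¹ : UG n F q).1 v))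
    rw [map_sub, app_inv hF, map_add, map_smul, map_smul, map_sub, map_smul] at e
    exact e
  have hfix : h.1 (sv F b) = sv F b := by
    rw [← sub_eq_zero, hhsub, inv_apply_coord hF g k b, hb, inv_apply_coord hF g c b,
      inv_apply_coord hF g a b, ← hy, ← hz]
    have hc0 : (((ζ⁻¹ : NU F q) : Fˣ) : F) * z ^ q - y ^ q = 0 := by
      simp only [ζ, Subgroup.coe_inv, Units.val_inv_eq_inv_val, NU.mk_val, inv_div]
      field_simp
      linear_combination -he
    rw [hc0]; simp [hF.q_ne_zero]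
  obtain ⟨J, hJ, hJ'⟩ := (H.nofix h hhM b 1 (by rw [one_smul]; exact hfix)).moved' hF (W := W)
    (fun v => by
      rw [hhsub]
      exact W.add_mem (W.smul_mem _ (Submodule.subset_span (by simp)))
        (W.smul_mem _ (Submodule.subset_span (by simp))))
  have hW2 : finrank F W ≤ 2 := finrank_pair_le hF _ _
  have : (supp (g.1 (sv F k))).card ≤ J.card := Finset.card_le_card fun x hx => by
    by_contra hxJ
    have e := hJ' (g.1 (sv F k)) x hxJ
    have e2 := congrFun (hhsub (g.1 (sv F k))) x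
    rw [inv_app hF, Pi.sub_apply, e, sub_self] at e2
    simp only [sv, Pi.single_eq_same, Pi.single_eq_of_ne ha.1, Pi.single_eq_of_ne hc.1, mul_zero,
      sub_zero, zero_smul, zero_add, Pi.smul_apply, smul_eq_mul, mul_one] at e2
    exact mul_ne_zero (neg_ne_zero.2 hodd) (mem_supp.1 hx) e2.symm
  omega

omit hF H in
theorem sum_norm_row (hF : SqField F q) (g : UG n F q) (k : Fin n) :
    ∑ i, g.1 (sv F i) k * g.1 (sv F i) k ^ q = 1 := by
  have := UG_app g⁻¹ (sv F k) (sv F k)
  rw [herm_sv hF (sv F k) k, herm_def, show sv F k k = 1 from Pi.single_eq_same k 1] at this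
  rw [← this]
  refine Finset.sum_congr rfl fun i _ => ?_
  rw [inv_apply_coord hF, hF.pow_pow]; ring

/-- The field with 25 elements in dimension six. -/
theorem NoFix.false_six_five (hn : n = 6) (hq : q = 5) {g : UG n F q} (hg : g ∈ M) (hgm : ¬ MonU g) :
    False := by
  classical
  haveI : Finite F := hF.1
  haveI : Fintype F := Fintype.ofFinite F
  subst hn hq
  have h5 : (5 : F) = 0 := by
    obtain ⟨p, e, hp, hc, he⟩ := hF.exists_char
    have hdvd : p ∣ 5 := by rw [he]; exact dvd_pow_self p (by rintro rfl; simp at he)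
    rw [(Nat.prime_dvd_prime_iff_eq hp (by norm_num)).1 hdvd] at hc
    exact_mod_cast CharP.cast_eq_zero F 5
  have h10 : (1 : F) ≠ 0 := one_ne_zero
  have h2 : (2 : F) ≠ 0 := fun e => h10 (by linear_combination h5 - 2 * e)
  have h3 : (3 : F) ≠ 0 := fun e => h10 (by linear_combination 2 * e - h5)
  have hfull := fun {g : UG 6 F 5} (hg : g ∈ M) (hgm : ¬ MonU g) =>
    H.full_of_le hF hg hgm le_rfl (by norm_num) (by norm_num) h2
  obtain ⟨μ, hμ⟩ := exists_NU_order hF
  set κ : F := ((μ : Fˣ) : F)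
  have hκ6 : κ ^ 6 = 1 := by
    have := congrArg (fun x : NU F 5 => ((x : Fˣ) : F)) (pow_orderOf_eq_one μ)
    rw [hμ] at this
    simpa using this
  have hκ : ∀ i : ℕ, 0 < i → i < 6 → κ ^ i ≠ 1 := fun i hi hi' e => by
    have := Nat.le_of_dvd hi (orderOf_dvd_of_pow_eq_one (x := μ) (n := i) (Subtype.ext (Units.ext (by simpa using e))))
    omega
  have hκ3 : κ ^ 3 = -1 := eq_neg_of_add_eq_zero_left ((mul_eq_zero.1
    (show (κ ^ 3 - 1) * (κ ^ 3 + 1) = 0 by linear_combination hκ6)).resolve_left (sub_ne_zero.2 (hκ 3 (by norm_num) (by norm_num))))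
  have hκ2 : κ ^ 2 - κ + 1 = 0 := (mul_eq_zero.1
    (show (κ + 1) * (κ ^ 2 - κ + 1) = 0 by linear_combination hκ3)).resolve_left fun e =>
      hκ 2 (by norm_num) (by norm_num) (by linear_combination (κ - 1) * e)
  -- the forbidden equations
  have rule : ∀ {g : UG 6 F 5}, g ∈ M → ¬ MonU g → ∀ k a c, a ≠ c → ∀ α : NU F 5, α ≠ 1 →
      ∃ h ∈ M, ¬ MonU h ∧ h.1 (sv F k) k = 1 + (g.1 (sv F a) k * g.1 (sv F a) k ^ 5 * (((α : Fˣ) : F) - 1) +
        g.1 (sv F c) k * g.1 (sv F c) k ^ 5 * ((((α⁻¹ : NU F 5) : Fˣ) : F) - 1)) := by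
    intro g hg hgm k a c hac α hα
    obtain ⟨h, hh, hhm, e⟩ := H.conj_dia hF hg (k := k) (fun j i => hfull hg hgm j i) (m := 2) (by norm_num)
      (e := ![a, c]) (by intro i j hij; fin_cases i <;> fin_cases j <;> simp_all)
      (y := ![α, α⁻¹]) (by simp) ⟨0, by simpa using hα⟩
    exact ⟨h, hh, hhm, by rw [e, Fin.sum_univ_two]; rfl⟩
  have hμ1 : μ ≠ 1 := fun e => by rw [e, orderOf_one] at hμ; omega
  have hinv : ∀ (α : NU F 5) (x : F), ((α : Fˣ) : F) * x = 1 → (((α⁻¹ : NU F 5) : Fˣ) : F) = x :=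
    fun α x hx => by rw [Subgroup.coe_inv, Units.val_inv_eq_inv_val]; exact inv_eq_of_mul_eq_one_right hx
  have hfour : ∀ x : F, x ≠ 0 → x ^ 5 = x → x = 1 ∨ x = 2 ∨ x = 3 ∨ x = 4 := by
    intro x hx hx5
    have h : (x - 1) * (x - 2) * ((x - 3) * (x - 4)) = 0 := by
      have h4 : x ^ 4 = 1 := mul_right_cancel₀ hx (by linear_combination hx5)
      linear_combination h4 + (-2 * x ^ 3 + 7 * x ^ 2 - 10 * x + 5) * h5
    rcases mul_eq_zero.1 h with h | h <;> rcases mul_eq_zero.1 h with h | h
    · exact Or.inl (sub_eq_zero.1 h)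
    · exact Or.inr (Or.inl (sub_eq_zero.1 h))
    · exact Or.inr (Or.inr (Or.inl (sub_eq_zero.1 h)))
    · exact Or.inr (Or.inr (Or.inr (sub_eq_zero.1 h)))
  -- three facts about the norms of a row
  have facts : ∀ {g : UG 6 F 5}, g ∈ M → ¬ MonU g → ∀ k a c, a ≠ c →
      g.1 (sv F a) k * g.1 (sv F a) k ^ 5 + g.1 (sv F c) k * g.1 (sv F c) k ^ 5 ≠ 3 ∧
        (g.1 (sv F a) k * g.1 (sv F a) k ^ 5 = g.1 (sv F c) k * g.1 (sv F c) k ^ 5 →
          g.1 (sv F a) k * g.1 (sv F a) k ^ 5 = 3) := by
    intro g hg hgm k a c hac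
    set A := g.1 (sv F a) k * g.1 (sv F a) k ^ 5
    set C := g.1 (sv F c) k * g.1 (sv F c) k ^ 5
    have hA : A ≠ 0 := mul_ne_zero (hfull hg hgm a k) (pow_ne_zero _ (hfull hg hgm a k))
    have r1 : A + C ≠ 3 := fun e => by
      obtain ⟨h, hh, hhm, eh⟩ := rule hg hgm k a c hac (μ ^ 3) (by
        intro e'; have := congrArg (fun x : NU F 5 => ((x : Fˣ) : F)) e'
        exact hκ 3 (by norm_num) (by norm_num) (by simpa using this))
      rw [hinv (μ ^ 3) (-1) (by simp only [SubmonoidClass.coe_pow, Units.val_pow_eq_pow_val]; linear_combination -hκ3)] at eh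
      refine hfull hh hhm k k (eh.trans ?_)
      simp only [SubmonoidClass.coe_pow, Units.val_pow_eq_pow_val]
      linear_combination A * hκ3 - 2 * e - h5
    refine ⟨r1, fun hAC => ?_⟩
    rcases hfour A hA (norm_fixed hF _) with e | e | e | e
    · exfalso
      obtain ⟨h, hh, hhm, eh⟩ := rule hg hgm k a c hac μ hμ1
      rw [hinv μ (1 - κ) (by linear_combination -hκ2)] at eh
      exact hfull hh hhm k k (eh.trans (show 1 + (A * (κ - 1) + C * (1 - κ - 1)) = 0 by
        rw [← hAC, e]; ring))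
    · exfalso
      obtain ⟨h, hh, hhm, eh⟩ := rule hg hgm k a c hac (μ ^ 2) (by
        intro e'; have := congrArg (fun x : NU F 5 => ((x : Fˣ) : F)) e'
        simp only [SubmonoidClass.coe_pow, Units.val_pow_eq_pow_val, OneMemClass.coe_one, Units.val_one] at this
        exact hκ 2 (by norm_num) (by norm_num) this)
      rw [hinv (μ ^ 2) (-κ) (by simp only [SubmonoidClass.coe_pow, Units.val_pow_eq_pow_val]; linear_combination -hκ3)] at eh
      refine hfull hh hhm k k (eh.trans ?_)
      simp only [SubmonoidClass.coe_pow, Units.val_pow_eq_pow_val]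
      show 1 + (A * (κ ^ 2 - 1) + C * (-κ - 1)) = 0
      rw [← hAC, e]
      linear_combination 2 * hκ2 - h5
    · exact e
    · exact absurd (show A + C = 3 by rw [← hAC, e]; linear_combination h5) r1
  have no4 : ∀ {g : UG 6 F 5}, g ∈ M → ¬ MonU g → ∀ k a, g.1 (sv F a) k * g.1 (sv F a) k ^ 5 ≠ 4 := by
    intro g hg hgm k a ha
    set N : Fin 6 → F := fun i => g.1 (sv F i) k * g.1 (sv F i) k ^ 5
    set T := (Finset.univ.erase a).filter fun i => N i ≠ 3
    have hT : ∀ i ∈ T, N i = 1 ∨ N i = 2 := fun i hi => by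
      simp only [T, Finset.mem_filter, Finset.mem_erase] at hi
      rcases hfour (N i) (mul_ne_zero (hfull hg hgm i k) (pow_ne_zero _ (hfull hg hgm i k))) (norm_fixed hF _)
        with e | e | e | e
      · exact Or.inl e
      · exact Or.inr e
      · exact absurd e hi.2
      · exact absurd ((facts hg hgm k i a hi.1.1).2 (e.trans ha.symm)) hi.2
    have hT1 : T.card ≤ 1 := Finset.card_le_one.2 fun i hi j hj => by
      by_contra hij
      have h1 := (facts hg hgm k i j hij).1
      have h2' := (facts hg hgm k i j hij).2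
      rcases hT i hi with e | e <;> rcases hT j hj with e' | e'
      · exact (Finset.mem_filter.1 hi).2 (h2' (e.trans e'.symm))
      · exact h1 (show N i + N j = 3 by rw [e, e']; norm_num)
      · exact h1 (show N i + N j = 3 by rw [e, e']; norm_num)
      · exact (Finset.mem_filter.1 hi).2 (h2' (e.trans e'.symm))
    have hsum : ∑ i, (N i - 3) = 1 - 18 := by
      rw [Finset.sum_sub_distrib, show ∑ i, N i = 1 from sum_norm_row hF g k, Finset.sum_const,
        Finset.card_univ, Fintype.card_fin, nsmul_eq_mul]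
      norm_num
    rw [← Finset.add_sum_erase _ _ (Finset.mem_univ a), show N a = 4 from ha,
      ← Finset.sum_filter_of_ne (p := fun i => N i ≠ 3) (fun i _ hi e => hi (by rw [e, sub_self]))] at hsum
    rcases Finset.eq_empty_or_nonempty T with hT0 | ⟨i, hi⟩
    · rw [show ((Finset.univ.erase a).filter fun i => N i ≠ 3) = ∅ from hT0, Finset.sum_empty] at hsum
      exact h3 (by linear_combination hsum + (-3 : F) * h5)
    · rw [show ((Finset.univ.erase a).filter fun i => N i ≠ 3) = {i} from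
        Finset.eq_singleton_iff_unique_mem.2 ⟨hi, fun j hj => Finset.card_le_one.1 hT1 j hj i hi⟩,
        Finset.sum_singleton] at hsum
      rcases hT i hi with e | e <;> rw [e] at hsum
      · exact h10 (by linear_combination hsum + (-3 : F) * h5)
      · exact h2 (by linear_combination hsum + (-3 : F) * h5)
  set k : Fin 6 := 0
  set N : Fin 6 → F := fun i => g.1 (sv F i) k * g.1 (sv F i) k ^ 5
  obtain ⟨a, c, hac, e⟩ : ∃ a c, a ≠ c ∧ N a = N c := by
    obtain ⟨a, -, c, -, hac, e⟩ := Finset.exists_ne_map_eq_of_card_lt_of_maps_to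
      (s := (Finset.univ : Finset (Fin 6))) (t := ({1, 2, 3, 4} : Finset F)) (f := N)
      ((Finset.card_insert_le _ _).trans_lt (by
        have := Finset.card_le_three (a := (2 : F)) (b := 3) (c := 4)
        rw [Finset.card_univ, Fintype.card_fin]; omega)) (fun i _ => by
        simpa using hfour (N i) (mul_ne_zero (hfull hg hgm i k) (pow_ne_zero _ (hfull hg hgm i k))) (norm_fixed hF _))
    exact ⟨a, c, hac, e⟩
  have e3 := (facts hg hgm k a c hac).2 e
  obtain ⟨h, hh, hhm, eh⟩ := rule hg hgm k a c hac μ hμ1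
  rw [hinv μ (1 - κ) (by linear_combination -hκ2), show g.1 (sv F c) k * g.1 (sv F c) k ^ 5 = 3 from e.symm.trans e3,
    e3] at eh
  refine no4 hh hhm k k ?_
  rw [eh, show (1 : F) + (3 * (κ - 1) + 3 * (1 - κ - 1)) = 3 by linear_combination -h5]
  linear_combination 145 * h5

/-- The field with 81 elements in dimension ten. -/
theorem NoFix.false_ten_nine (hn : n = 10) (hq : q = 9) {g : UG n F q} (hg : g ∈ M) (hgm : ¬ MonU g) :
    False := by
  classical
  haveI : Finite F := hF.1
  haveI : Fintype F := Fintype.ofFinite F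
  subst hn hq
  have h30 : (3 : F) = 0 := by
    obtain ⟨p, e, hp, hc, he⟩ := hF.exists_char
    have hdvd : p ∣ 3 := hp.dvd_of_dvd_pow (show p ∣ 3 ^ 2 by
      rw [show 3 ^ 2 = 9 from rfl, he]; exact dvd_pow_self p (by rintro rfl; simp at he))
    rw [(Nat.prime_dvd_prime_iff_eq hp (by norm_num)).1 hdvd] at hc
    exact_mod_cast CharP.cast_eq_zero F 3
  have h2 : (2 : F) ≠ 0 := fun e => one_ne_zero (show (1 : F) = 0 by linear_combination h30 - e)
  have hfull := fun {g : UG 10 F 9} (hg : g ∈ M) (hgm : ¬ MonU g) =>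
    H.full_of_le hF hg hgm (by norm_num) (by norm_num) (by norm_num) h2
  have hfu := fun j i => hfull hg hgm j i
  set k : Fin 10 := 0
  set N : Fin 10 → F := fun i => g.1 (sv F i) k * g.1 (sv F i) k ^ 9
  have hN : ∀ i, N i ≠ 0 := fun i => mul_ne_zero (hfu i k) (pow_ne_zero _ (hfu i k))
  have hNf : ∀ i, N i ^ 9 = N i := fun i => norm_fixed hF _
  set m1 : NU F 9 := NU.mk (-1) (by rw [hF.neg_pow, one_pow]; ring)
  have m1v : ((m1 : Fˣ) : F) = -1 := rfl
  have m1i : (((m1⁻¹ : NU F 9) : Fˣ) : F) = -1 := by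
    rw [Subgroup.coe_inv, Units.val_inv_eq_inv_val, m1v]; simp
  have hm1 : m1 ≠ 1 := fun e => h2 (by
    have := congrArg (fun x : NU F 9 => ((x : Fˣ) : F)) e
    simp only [m1v, OneMemClass.coe_one, Units.val_one] at this
    linear_combination -this)
  have pairsum : ∀ a c, a ≠ c → N a + N c ≠ -1 := fun a c hac e => by
    obtain ⟨h, hh, hhm, eh⟩ := H.conj_dia hF hg (k := k) hfu (m := 2) (by norm_num)
      (e := ![a, c]) (by intro i j hij; fin_cases i <;> fin_cases j <;> simp_all)
      (y := ![m1, m1⁻¹]) (by simp) ⟨0, by simpa using hm1⟩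
    refine hfull hh hhm k k (eh.trans ?_)
    rw [Fin.sum_univ_two]
    simp only [Matrix.cons_val_zero, Matrix.cons_val_one, m1v, m1i]
    change 1 + (N a * (-1 - 1) + N c * (-1 - 1)) = 0
    linear_combination -2 * e + h30
  -- values of the norm pairs
  set hfun : NU F 9 → F := fun μ => 2 - ((μ : Fˣ) : F) - ((μ : Fˣ) : F) ^ 9
  set T := Finset.univ.image hfun
  set F₀ := Finset.univ.filter fun x : F => x ^ 9 = x
  have hF₀ : F₀.card ≤ 9 := by
    have : F₀ ⊆ insert 0 (Finset.univ.filter fun x : F => x ^ (9 - 1) = 1) := fun x hx => by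
      simp only [F₀, Finset.mem_filter] at hx
      rcases eq_or_ne x 0 with rfl | h0
      · simp
      · simp [(hF.fixed_iff h0).1 hx.2]
    refine (Finset.card_le_card this).trans ((Finset.card_insert_le _ _).trans ?_)
    rw [← Fintype.card_subtype, ← Nat.card_eq_fintype_card, hF.card_fixed_units]
  have hTF : ∀ x ∈ T, x ^ 9 = x := fun x hx => by
    obtain ⟨μ, -, rfl⟩ := Finset.mem_image.1 hx
    simp only [hfun, hF.sub_pow, hF.pow_pow]
    rw [show (2 : F) = 1 + 1 by norm_num, hF.add_pow, one_pow]; ring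
  have hsq : ∀ μ : NU F 9, ∀ c : F, hfun μ = 2 - c - c ^ 9 → c * c ^ 9 = 1 →
      ((μ : Fˣ) : F) = c ∨ ((μ : Fˣ) : F) = c ^ 9 := fun μ c e hc => by
    have h1 : (((μ : Fˣ) : F) - c) * (((μ : Fˣ) : F) - c ^ 9) = 0 := by
      simp only [hfun] at e
      linear_combination -((μ : Fˣ) : F) * e - NU.mul_pow_eq μ + hc
    exact (mul_eq_zero.1 h1).imp sub_eq_zero.1 sub_eq_zero.1
  set O : Finset (NU F 9) := Finset.univ.filter fun μ => μ ≠ 1 ∧ μ ≠ m1
  have hT : 6 ≤ T.card := by
    have hO : 8 ≤ O.card := by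
      have : (Finset.univ : Finset (NU F 9)) ⊆ O ∪ {1, m1} := fun μ _ => by
        simp only [O, Finset.mem_union, Finset.mem_filter, Finset.mem_univ, true_and, Finset.mem_insert,
          Finset.mem_singleton]
        tauto
      have := (Finset.card_le_card this).trans (Finset.card_union_le _ _)
      rw [Finset.card_univ, fintype_card_NU hF] at this
      have := Finset.card_le_two (a := (1 : NU F 9)) (b := m1)
      omega
    have hO2 : O.card ≤ 2 * (O.image hfun).card := by
      refine Finset.card_le_mul_card_image O 2 fun x hx => ?_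
      obtain ⟨μ, -, rfl⟩ := Finset.mem_image.1 hx
      refine (Finset.card_le_card (t := {μ, μ⁻¹}) fun ν hν => ?_).trans Finset.card_le_two
      simp only [Finset.mem_insert, Finset.mem_singleton]
      refine (hsq ν _ (Finset.mem_filter.1 hν).2 (NU.mul_pow_eq μ)).imp
        (fun e => Subtype.ext (Units.ext e)) fun e => Subtype.ext (Units.ext ?_)
      rw [e, Subgroup.coe_inv, Units.val_inv_eq_inv_val]
      exact eq_inv_of_mul_eq_one_left (by rw [mul_comm]; exact NU.mul_pow_eq μ)
    have hsub : insert (hfun 1) (insert (hfun m1) (O.image hfun)) ⊆ T := by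
      simp only [T, Finset.insert_subset_iff, Finset.mem_image, Finset.mem_univ, true_and]
      exact ⟨⟨1, rfl⟩, ⟨m1, rfl⟩, Finset.image_subset_image (Finset.subset_univ _)⟩
    have h := Finset.card_le_card hsub
    have e1 : hfun m1 ∉ O.image hfun := fun hm => by
      obtain ⟨μ, hμ, e⟩ := Finset.mem_image.1 hm
      refine (Finset.mem_filter.1 hμ).2.2 (Subtype.ext (Units.ext ?_))
      rcases hsq μ _ e (NU.mul_pow_eq m1) with e' | e'
      · exact e'
      · rw [e', m1v, hF.neg_pow, one_pow]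
    have e2 : hfun 1 ∉ insert (hfun m1) (O.image hfun) := fun hm => by
      rcases Finset.mem_insert.1 hm with e | hm
      · simp only [hfun, m1v, OneMemClass.coe_one, Units.val_one, one_pow, hF.neg_pow] at e
        exact h2 (mul_left_cancel₀ h2 (by linear_combination -e))
      · obtain ⟨μ, hμ, e⟩ := Finset.mem_image.1 hm
        refine (Finset.mem_filter.1 hμ).2.1 (Subtype.ext (Units.ext ?_))
        rcases hsq μ _ e (NU.mul_pow_eq 1) with e' | e'
        · exact e'
        · rw [e']; simp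
    rw [Finset.card_insert_of_notMem e2, Finset.card_insert_of_notMem e1] at h
    omega
  -- two pairs of equal norms
  have twopairs : ∀ a c e f, a ≠ c → a ≠ e → a ≠ f → c ≠ e → c ≠ f → e ≠ f → N a = N c → N e = N f →
      False := by
    intro a c e f hac hae haf hce hcf hef h1 h2'
    set A := T.image fun x => N a * x
    set B := T.image fun x => 1 - N e * x
    have hA : A.card = T.card := Finset.card_image_of_injective _ (mul_right_injective₀ (hN a))
    have hB : B.card = T.card := Finset.card_image_of_injective _ fun x y e' =>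
      mul_right_injective₀ (hN e) (sub_right_injective e')
    have hAB : A ∪ B ⊆ F₀ := fun x hx => by
      simp only [F₀, Finset.mem_filter, Finset.mem_univ, true_and]
      simp only [A, B, Finset.mem_union, Finset.mem_image] at hx
      rcases hx with ⟨y, hy, rfl⟩ | ⟨y, hy, rfl⟩
      · rw [mul_pow, hNf, hTF y hy]
      · rw [hF.sub_pow, one_pow, mul_pow, hNf, hTF y hy]
    obtain ⟨x, hx⟩ : (A ∩ B).Nonempty := by
      rw [← Finset.card_pos]
      have := Finset.card_union_add_card_inter A B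
      have := (Finset.card_le_card hAB).trans hF₀
      omega
    simp only [A, B, T, Finset.mem_inter, Finset.mem_image, Finset.mem_univ, true_and] at hx
    obtain ⟨⟨_, ⟨α, rfl⟩, e1⟩, ⟨_, ⟨β, rfl⟩, e2⟩⟩ := hx
    have hne : α ≠ 1 ∨ β ≠ 1 := by
      by_contra hc
      push Not at hc
      rw [hc.1] at e1; rw [hc.2] at e2
      simp only [hfun, OneMemClass.coe_one, Units.val_one, one_pow] at e1 e2
      exact one_ne_zero (show (1 : F) = 0 by linear_combination e2 - e1)
    have hinv : ∀ μ : NU F 9, (((μ⁻¹ : NU F 9) : Fˣ) : F) = ((μ : Fˣ) : F) ^ 9 := fun μ => by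
      rw [Subgroup.coe_inv, Units.val_inv_eq_inv_val]
      exact inv_eq_of_mul_eq_one_right (NU.mul_pow_eq μ)
    obtain ⟨h, hh, hhm, eh⟩ := H.conj_dia hF hg (k := k) hfu (m := 4) (by norm_num)
      (e := ![a, c, e, f]) (by intro i j hij; fin_cases i <;> fin_cases j <;> simp_all)
      (y := ![α, α⁻¹, β, β⁻¹]) (by simp [Fin.prod_univ_four])
      (hne.elim (fun h => ⟨0, by simpa using h⟩) (fun h => ⟨2, by simpa using h⟩))
    refine hfull hh hhm k k (eh.trans ?_)
    rw [Fin.sum_univ_four]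
    simp only [Matrix.cons_val_zero, Matrix.cons_val_one, Matrix.cons_val, hinv]
    change 1 + (N a * (((α : Fˣ) : F) - 1) + N c * (((α : Fˣ) : F) ^ 9 - 1) + N e * (((β : Fˣ) : F) - 1) +
      N f * (((β : Fˣ) : F) ^ 9 - 1)) = 0
    rw [← h1, ← h2']
    simp only [hfun] at e1 e2
    linear_combination e2 - e1
  set V := Finset.univ.image N
  set E := Finset.univ.filter fun x : F => x ^ (9 - 1) = 1
  have hE : E.card = 8 := by
    rw [← Fintype.card_subtype, ← Nat.card_eq_fintype_card, hF.card_fixed_units]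
  have hVE : ∀ i, N i ∈ E := fun i =>
    Finset.mem_filter.2 ⟨Finset.mem_univ _, (hF.fixed_iff (hN i)).1 (hNf i)⟩
  by_cases hV : V.card ≤ 7
  · obtain ⟨a, -, c, -, hac, h1⟩ := Finset.exists_ne_map_eq_of_card_lt_of_maps_to
      (s := (Finset.univ : Finset (Fin 10))) (t := V) (f := N)
      (by rw [Finset.card_univ, Fintype.card_fin]; omega)
      (fun i _ => Finset.mem_image_of_mem N (Finset.mem_univ i))
    obtain ⟨e, he, f, hf, hef, h2'⟩ := Finset.exists_ne_map_eq_of_card_lt_of_maps_to
      (s := (Finset.univ.erase a).erase c) (t := V) (f := N)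
      (by rw [Finset.card_erase_of_mem (Finset.mem_erase.2 ⟨Ne.symm hac, Finset.mem_univ _⟩),
            Finset.card_erase_of_mem (Finset.mem_univ _), Finset.card_univ, Fintype.card_fin]
          omega)
      (fun i _ => Finset.mem_image_of_mem N (Finset.mem_univ i))
    simp only [Finset.mem_erase] at he hf
    exact twopairs a c e f hac (Ne.symm he.2.1) (Ne.symm hf.2.1) (Ne.symm he.1) (Ne.symm hf.1) hef h1 h2'
  · have hVeq : V = E := Finset.eq_of_subset_of_card_le
      (fun x hx => by obtain ⟨i, -, rfl⟩ := Finset.mem_image.1 hx; exact hVE i) (by omega)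
    obtain ⟨u, hu, hu'⟩ := Finset.exists_mem_notMem_of_card_lt_card (s := ({1, -1} : Finset F)) (t := E)
      (Finset.card_le_two.trans_lt (by omega))
    simp only [Finset.mem_insert, Finset.mem_singleton, not_or] at hu'
    have hu0 : u ≠ 0 := fun e => by simp [E, e] at hu
    have hu9 : u ^ 9 = u := (hF.fixed_iff hu0).2 (Finset.mem_filter.1 hu).2
    have hw0 : -1 - u ≠ 0 := fun e => hu'.2 (by linear_combination -e)
    have hw : -1 - u ∈ E := Finset.mem_filter.2 ⟨Finset.mem_univ _, (hF.fixed_iff hw0).1 (by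
      rw [hF.sub_pow, hF.neg_pow, one_pow, hu9])⟩
    rw [← hVeq] at hu hw
    obtain ⟨a, -, ha⟩ := Finset.mem_image.1 hu
    obtain ⟨c, -, hc⟩ := Finset.mem_image.1 hw
    refine pairsum a c (fun e => hu'.1 ?_) (by rw [ha, hc]; ring)
    rw [← e, ha] at hc
    linear_combination -hc + u * h30

set_option maxHeartbeats 600000 in
/-- The field with 16 elements in dimension ten. -/
theorem NoFix.false_ten_four (hn : n = 10) (hq : q = 4) {g : UG n F q} (hg : g ∈ M) (hgm : ¬ MonU g) :
    False := by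
  classical
  haveI : Finite F := hF.1
  haveI : Fintype F := Fintype.ofFinite F
  subst hn hq
  have h2 : (2 : F) = 0 := by
    obtain ⟨p, e, hp, hc, he⟩ := hF.exists_char
    have hdvd : p ∣ 2 := hp.dvd_of_dvd_pow (show p ∣ 2 ^ 2 by
      rw [show 2 ^ 2 = 4 from rfl, he]; exact dvd_pow_self p (by rintro rfl; simp at he))
    rw [(Nat.prime_dvd_prime_iff_eq hp (by norm_num)).1 hdvd] at hc
    exact_mod_cast CharP.cast_eq_zero F 2
  obtain ⟨w, hw3, hc, hwM⟩ := H.exists_centre hF hg hgm (by norm_num) h2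
  have hfix : ∀ {w : Fin 10 → F} (hc : TrvCond 4 w 1), 3 ≤ (supp w).card → trv hF hc ∈ M → ∀ r, w r ≠ 0 :=
    fun {w} hc h3 hM r e => not_monU_trv hF one_ne_zero hc h3
      (H.nofix _ hM r 1 (by rw [trv_apply, herm_one_single, e, zero_pow hF.q_ne_zero]; simp))
  have hw0 := hfix hc hw3 hwM
  set N : Fin 10 → F := fun i => w i * w i ^ 4
  have hNsum : ∑ i, N i = 0 := hc.1
  have hN3 : ∀ i, N i = 1 ∨ N i * N i + N i + 1 = 0 := fun i => by
    have h0 : N i ≠ 0 := mul_ne_zero (hw0 i) (pow_ne_zero _ (hw0 i))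
    have h3 : N i ^ 3 = 1 := (hF.fixed_iff h0).1 (norm_fixed hF _)
    exact (mul_eq_zero.1 (show (N i - 1) * (N i * N i + N i + 1) = 0 by linear_combination h3)).imp_left
      sub_eq_zero.1
  obtain ⟨μ, hμ⟩ := exists_NU_order hF
  -- an equation without solutions
  have key : ∀ {m : ℕ} (e : Fin m → Fin 10) (y : Fin m → NU F 4), Function.Injective e → ∏ j, y j = 1 →
      (∃ j₁ j₂ j₃, j₁ ≠ j₂ ∧ j₁ ≠ j₃ ∧ j₂ ≠ j₃ ∧ y j₁ ≠ 1 ∧ y j₂ ≠ 1 ∧ y j₃ ≠ 1) →
      (∃ r, ∀ j, e j ≠ r) → ∑ j, N (e j) * ((((y j : NU F 4) : Fˣ) : F) - 1) = 1 → False := by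
    rintro m e y he hy ⟨j₁, j₂, j₃, h12, h13, h23, y1, y2, y3⟩ ⟨r, hr⟩ hsum
    set x := Function.extend e y 1
    obtain ⟨hp, hs⟩ := extend_data he y N
    have hdM : dia hF x ∈ M := mem_dia_of_prod hF H (hp.trans hy)
    set z := (trv hF hc).1 ((dia hF x).1 w)
    have hzc : TrvCond 4 z 1 := ⟨by rw [UG_app, UG_app]; exact hc.1, hc.2⟩
    have hzM : trv hF hzc ∈ M := by
      convert mul_mem (mul_mem (mul_mem hwM hdM) hwM) (inv_mem (mul_mem hwM hdM)) using 1
      refine Subtype.ext (LinearEquiv.ext fun v => ?_)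
      set p := trv hF hc * dia hF x
      have hz' : z = p.1 w := rfl
      rw [Subgroup.coe_mul, Subgroup.coe_mul, LinearEquiv.mul_apply, LinearEquiv.mul_apply,
        trv_apply, trv_apply, map_add, map_smul, app_inv hF, hz',
        ← UG_app p ((p⁻¹ : UG 10 F 4).1 v) w, app_inv hF]
    have hS : herm 4 ((dia hF x).1 w) w = 1 := by
      rw [herm_def, ← hsum, ← hs, ← sub_eq_zero]
      rw [← Finset.sum_sub_distrib, ← hNsum]
      refine Finset.sum_congr rfl fun i _ => ?_
      rw [dia_apply]; ring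
    have hzi : ∀ i, z i = ((((x i : NU F 4) : Fˣ) : F) + 1) * w i := fun i => by
      simp only [z]
      rw [trv_apply, hS, Pi.add_apply, dia_apply, Pi.smul_apply, smul_eq_mul]; ring
    have hne : ∀ j, y j ≠ 1 → e j ∈ supp z := fun j hj => by
      rw [mem_supp, hzi, show x (e j) = y j from he.extend_apply y 1 j]
      refine mul_ne_zero (fun e0 => hj (Subtype.ext (Units.ext ?_))) (hw0 _)
      simp only [OneMemClass.coe_one, Units.val_one]
      linear_combination e0 - h2
    refine hfix hzc ?_ hzM r ?_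
    · have := Finset.card_le_card (show ({e j₁, e j₂, e j₃} : Finset (Fin 10)) ⊆ supp z by
        intro i hi
        simp only [Finset.mem_insert, Finset.mem_singleton] at hi
        rcases hi with rfl | rfl | rfl <;> apply hne <;> assumption)
      rwa [Finset.card_insert_of_notMem (by simp [he.ne h12, he.ne h13]),
        Finset.card_pair (he.ne h23)] at this
    · rw [hzi, show x r = 1 from Function.extend_apply' y (1 : Fin 10 → NU F 4) r (fun ⟨j, hj⟩ => hr j hj)]
      refine mul_eq_zero_of_left ?_ _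
      simp only [OneMemClass.coe_one, Units.val_one]
      linear_combination h2
  have hord : ∀ κ : NU F 4, orderOf κ = 5 → ((κ : Fˣ) : F) ^ 4 + ((κ : Fˣ) : F) ^ 3 + ((κ : Fˣ) : F) ^ 2 +
      ((κ : Fˣ) : F) + 1 = 0 ∧ κ ^ 5 = 1 ∧ ∀ i, 0 < i → i < 5 → κ ^ i ≠ 1 := fun κ hκ => by
    have h5 : κ ^ 5 = 1 := hκ ▸ pow_orderOf_eq_one κ
    have hne : ∀ i, 0 < i → i < 5 → κ ^ i ≠ 1 := fun i hi hi' e => by
      have := Nat.le_of_dvd hi (orderOf_dvd_of_pow_eq_one e); omega
    have h5' : ((κ : Fˣ) : F) ^ 5 = 1 := by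
      simpa using congrArg (fun x : NU F 4 => ((x : Fˣ) : F)) h5
    refine ⟨(mul_eq_zero.1 (show (((κ : Fˣ) : F) - 1) * (((κ : Fˣ) : F) ^ 4 + ((κ : Fˣ) : F) ^ 3 +
      ((κ : Fˣ) : F) ^ 2 + ((κ : Fˣ) : F) + 1) = 0 by linear_combination h5')).resolve_left
        (sub_ne_zero.2 fun e => hne 1 one_pos (by norm_num) (by rw [pow_one]; exact Subtype.ext (Units.ext e))),
      h5, hne⟩
  by_cases hall : ∀ i, N i = 1
  · obtain ⟨hcyc, h5, hne⟩ := hord μ hμ
    refine key (fun j : Fin 4 => (⟨j.1, by omega⟩ : Fin 10)) (fun j => μ ^ (j.1 + 1))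
      (fun i j e => Fin.ext (Fin.mk.inj_iff.1 e :)) ?_ ?_ ⟨9, fun j => Fin.ne_of_val_ne (by simp; omega)⟩ ?_
    · rw [Fin.prod_univ_four]
      simp only [Fin.val_zero, Fin.val_one, Fin.val_two, show ((3 : Fin 4) : ℕ) = 3 from rfl]
      rw [← pow_add, ← pow_add, ← pow_add, show (0 + 1 + (1 + 1) + (2 + 1) + (3 + 1) : ℕ) = 5 * 2 from rfl,
        pow_mul, h5, one_pow]
    · exact ⟨0, 1, 2, by decide, by decide, by decide, hne 1 one_pos (by norm_num),
        hne 2 (by norm_num) (by norm_num), hne 3 (by norm_num) (by norm_num)⟩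
    · rw [Fin.sum_univ_four]
      simp only [hall, one_mul, Fin.val_zero, Fin.val_one, Fin.val_two, show ((3 : Fin 4) : ℕ) = 3 from rfl,
        SubmonoidClass.coe_pow, Units.val_pow_eq_pow_val]
      linear_combination hcyc - 3 * h2
  push Not at hall
  obtain ⟨a, ha⟩ := hall
  have haq := (hN3 a).resolve_left ha
  obtain ⟨a', haa, ha'⟩ : ∃ a', a' ≠ a ∧ N a' = N a := by
    by_contra hcon
    push Not at hcon
    have hval : ∀ i, i ≠ a → N i = 1 ∨ N i = N a + 1 := fun i hi => (hN3 i).imp_right fun h => by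
      have : (N i - N a) * (N i - (N a + 1)) = 0 := by
        linear_combination h - haq + (N a * N a - N i * N a + N a - N i) * h2
      exact sub_eq_zero.1 ((mul_eq_zero.1 this).resolve_left (sub_ne_zero.2 (hcon i hi)))
    set S := (Finset.univ.erase a).filter fun i => N i ≠ 1
    have hs : ∑ i ∈ Finset.univ.erase a, (N i - 1) = (S.card : F) * N a := by
      rw [← Finset.sum_filter_of_ne (p := fun i => N i ≠ 1) (fun i _ hi e => hi (by rw [e, sub_self])),
        Finset.sum_congr rfl (fun i hi => by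
          simp only [S, Finset.mem_filter, Finset.mem_erase] at hi
          rw [(hval i hi.1.1).resolve_left hi.2, add_sub_cancel_right] :
          ∀ i ∈ S, N i - 1 = N a), Finset.sum_const, nsmul_eq_mul]
    rw [Finset.sum_sub_distrib, Finset.sum_const, Finset.card_erase_of_mem (Finset.mem_univ _),
      Finset.card_univ, Fintype.card_fin, nsmul_one] at hs
    norm_num at hs
    have e1 : ((S.card : F) + 1) * N a = 1 := by linear_combination hNsum - hs - 5 * h2
    rcases Nat.even_or_odd S.card with ⟨j, hj⟩ | ⟨j, hj⟩ <;> rw [hj] at e1 <;> push_cast at e1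
    · exact ha (by linear_combination e1 - (j : F) * N a * h2)
    · exact one_ne_zero (show (1 : F) = 0 by linear_combination -e1 + ((j : F) + 1) * N a * h2)
  -- a generator matching the norm
  obtain ⟨κ, hκ, hκN⟩ : ∃ κ : NU F 4, orderOf κ = 5 ∧ N a = ((κ : Fˣ) : F) + ((κ : Fˣ) : F) ^ 4 := by
    obtain ⟨hcyc, h5, hne⟩ := hord μ hμ
    have h5' : ((μ : Fˣ) : F) ^ 5 = 1 := by
      simpa using congrArg (fun x : NU F 4 => ((x : Fˣ) : F)) h5
    set k : F := ((μ : Fˣ) : F)
    have : (N a - (k + k ^ 4)) * (N a - (k ^ 2 + k ^ 3)) = 0 := by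
      linear_combination haq - (N a - 1) * hcyc + (k + k ^ 2) * h5' - h2
    rcases mul_eq_zero.1 this with h | h
    · exact ⟨μ, hμ, sub_eq_zero.1 h⟩
    · refine ⟨μ ^ 2, ?_, ?_⟩
      · rw [orderOf_pow, hμ]; norm_num
      · simp only [SubmonoidClass.coe_pow, Units.val_pow_eq_pow_val]
        linear_combination h - k ^ 3 * h5'
  obtain ⟨hcyc, h5, hne⟩ := hord κ hκ
  have h5' : ((κ : Fˣ) : F) ^ 5 = 1 := by
    simpa using congrArg (fun x : NU F 4 => ((x : Fˣ) : F)) h5
  -- two pairs of equal norms among the others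
  set R := (Finset.univ.erase a).erase a'
  set V : Finset F := {1, N a, N a + 1}
  have hmaps : ∀ i, N i ∈ V := fun i => by
    simp only [V, Finset.mem_insert, Finset.mem_singleton]
    refine (hN3 i).imp_right fun h => ?_
    have : (N i - N a) * (N i - (N a + 1)) = 0 := by
      linear_combination h - haq + (N a * N a - N i * N a + N a - N i) * h2
    exact (mul_eq_zero.1 this).imp sub_eq_zero.1 sub_eq_zero.1
  have hR : R.card = 8 := by
    rw [Finset.card_erase_of_mem (Finset.mem_erase.2 ⟨haa, Finset.mem_univ _⟩),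
      Finset.card_erase_of_mem (Finset.mem_univ _), Finset.card_univ, Fintype.card_fin]
  have hV : V.card ≤ 3 := Finset.card_le_three
  obtain ⟨e₁, he₁, e₂, he₂, he12, hN12⟩ := Finset.exists_ne_map_eq_of_card_lt_of_maps_to
    (s := R) (t := V) (f := N) (by omega) (fun i _ => hmaps i)
  obtain ⟨f₁, hf₁, f₂, hf₂, hf12, hM12⟩ := Finset.exists_ne_map_eq_of_card_lt_of_maps_to
    (s := (R.erase e₁).erase e₂) (t := V) (f := N) (by
      rw [Finset.card_erase_of_mem (Finset.mem_erase.2 ⟨Ne.symm he12, he₂⟩), Finset.card_erase_of_mem he₁]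
      omega) (fun i _ => hmaps i)
  simp only [R, Finset.mem_erase] at he₁ he₂ hf₁ hf₂
  set E : Fin 6 → Fin 10 := ![a, a', e₁, e₂, f₁, f₂]
  have hE : Function.Injective E := by
    obtain ⟨h1a', h1a, -⟩ := he₁
    obtain ⟨h2a', h2a, -⟩ := he₂
    obtain ⟨h3e, h3e', h3a', h3a, -⟩ := hf₁
    obtain ⟨h4e, h4e', h4a', h4a, -⟩ := hf₂
    intro i j hij
    fin_cases i <;> fin_cases j <;> first | rfl | (exfalso; simp only [E] at hij; dsimp at hij)
    all_goals first | exact haa hij | exact haa hij.symm | exact h1a hij | exact h1a hij.symm |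
      exact h1a' hij | exact h1a' hij.symm | exact h2a hij | exact h2a hij.symm | exact h2a' hij |
      exact h2a' hij.symm | exact he12 hij | exact he12 hij.symm | exact h3a hij | exact h3a hij.symm |
      exact h3a' hij | exact h3a' hij.symm | exact h3e hij | exact h3e hij.symm | exact h3e' hij |
      exact h3e' hij.symm | exact h4a hij | exact h4a hij.symm | exact h4a' hij | exact h4a' hij.symm |
      exact h4e hij | exact h4e hij.symm | exact h4e' hij | exact h4e' hij.symm | exact hf12 hij |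
      exact hf12 hij.symm
  obtain ⟨r, -, hr⟩ := Finset.exists_mem_notMem_of_card_lt_card (s := Finset.univ.image E) (t := Finset.univ)
    (Finset.card_image_le.trans_lt (by simp))
  refine key E ![κ ^ 2, κ ^ 3, κ, κ, κ ^ 4, κ ^ 4] hE ?_ ?_
    ⟨r, fun j e => hr (e ▸ Finset.mem_image_of_mem E (Finset.mem_univ j))⟩ ?_
  · rw [Fin.prod_univ_six]
    show κ ^ 2 * κ ^ 3 * κ * κ * κ ^ 4 * κ ^ 4 = 1
    rw [show κ ^ 2 * κ ^ 3 * κ * κ * κ ^ 4 * κ ^ 4 = (κ ^ 5) ^ 3 by group, h5, one_pow]
  · exact ⟨0, 1, 2, by decide, by decide, by decide, hne 2 (by norm_num) (by norm_num),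
      hne 3 (by norm_num) (by norm_num), by simpa using hne 1 one_pos (by norm_num)⟩
  · simp [Fin.sum_univ_six, E]
    rw [← hN12, ← hM12, ha', hκN]
    linear_combination hcyc + (((κ : Fˣ) : F) + ((κ : Fˣ) : F) ^ 2) * h5' +
      (-(((κ : Fˣ) : F) + ((κ : Fˣ) : F) ^ 4) + N e₁ * (((κ : Fˣ) : F) - 1) +
        N f₁ * (((κ : Fˣ) : F) ^ 4 - 1) - 1) * h2

end Cfsg.Agent.DecompMax.UF
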