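import Cfsg.Agent.DecompMax.UnitDvd

/-!
The fields with 9 and 49 elements in dimension eight: no overgroup of the monomial special unitary
group has all its non-monomial elements free of fixed frame lines.
-/

set_option autoImplicit false
set_option linter.style.haveILetI false
set_option linter.unusedSectionVars false

namespace Cfsg.Agent.DecompMax.UF

open Matrix Cfsg.Geo Module Cfsg.Agent.Classical.U Cfsg.Agent.DecompMax.UCount Cfsg.Agent.DecompMax.UN
open scoped MatrixGroups Matrix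

universe u

variable {F : Type u} [Field F] {q : ℕ}
variable (hF : SqField F q) {M : Subgroup (UG 8 F q)} (H : NoFix M)
include hF H

/-- The diagonal norm of a conjugate of a diagonal element moving two coordinates. -/
theorem NoFix.norm_rule {g : UG 8 F q} (hg : g ∈ M) (hgm : ¬ MonU g) (hq : 3 ≤ q) (hqn : q < 8)
    (h2 : (2 : F) ≠ 0) {k a c : Fin 8} (hac : a ≠ c) (α : NU F q) (hα : α ≠ 1) :
    ∃ h ∈ M, ¬ MonU h ∧ ∀ A C t : F, g.1 (sv F a) k * g.1 (sv F a) k ^ q = A →
      g.1 (sv F c) k * g.1 (sv F c) k ^ q = C → ((α : Fˣ) : F) + ((α : Fˣ) : F) ^ q = t →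
      h.1 (sv F k) k * h.1 (sv F k) k ^ q =
        (1 - A - C) ^ 2 + A ^ 2 + C ^ 2 + (1 - A - C) * (A + C) * t + A * C * (t ^ 2 - 2) := by
  classical
  obtain ⟨h, hh, hhm, eh⟩ := H.conj_dia hF hg (k := k)
    (fun j i => H.full_of_le hF hg hgm (by norm_num) hq hqn h2 j i) (m := 2) (by norm_num)
    (e := ![a, c]) (by intro i j hij; fin_cases i <;> fin_cases j <;> simp_all)
    (y := ![α, α⁻¹]) (by simp) ⟨0, by simpa using hα⟩
  refine ⟨h, hh, hhm, fun A C t hA hC ht => ?_⟩
  have hi : (((α⁻¹ : NU F q) : Fˣ) : F) = ((α : Fˣ) : F) ^ q := by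
    rw [Subgroup.coe_inv, Units.val_inv_eq_inv_val]
    exact inv_eq_of_mul_eq_one_right (NU.mul_pow_eq α)
  rw [eh, Fin.sum_univ_two]
  simp only [Matrix.cons_val_zero, Matrix.cons_val_one, hi, hA, hC]
  have hAq : A ^ q = A := hA ▸ norm_fixed hF _
  have hCq : C ^ q = C := hC ▸ norm_fixed hF _
  simp only [hF.add_pow, hF.sub_pow, mul_pow, hF.pow_pow, one_pow, hAq, hCq, ← ht]
  linear_combination ((A - C) ^ 2) * NU.mul_pow_eq α

omit H in
theorem NU_ne_one_of_trace {α : NU F q} {t : F}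
    (ht : ((α : Fˣ) : F) + ((α : Fˣ) : F) ^ q = t) (hne : t ≠ 2) : α ≠ 1 := by
  rintro rfl
  apply hne
  rw [← ht]
  simp only [OneMemClass.coe_one, Units.val_one, one_pow]
  norm_num

omit H in
theorem exists_trace_neg_two : ∃ α : NU F q, ((α : Fˣ) : F) + ((α : Fˣ) : F) ^ q = -2 :=
  ⟨NU.mk (-1) (by rw [hF.neg_pow, one_pow]; ring), by
    rw [NU.mk_val, hF.neg_pow, one_pow]; ring⟩

/-- The field with 9 elements in dimension eight. -/
theorem NoFix.false_eight_three (hq : q = 3) {g : UG 8 F q} (hg : g ∈ M) (hgm : ¬ MonU g) :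
    False := by
  classical
  haveI : Finite F := hF.1
  haveI : Fintype F := Fintype.ofFinite F
  subst hq
  have h3 : (3 : F) = 0 := by
    obtain ⟨p, e, hp, hc, he⟩ := hF.exists_char
    have hdvd : p ∣ 3 := by rw [he]; exact dvd_pow_self p (by rintro rfl; simp at he)
    rw [(Nat.prime_dvd_prime_iff_eq hp (by norm_num)).1 hdvd] at hc
    exact_mod_cast CharP.cast_eq_zero F 3
  have h2 : (2 : F) ≠ 0 := fun e => one_ne_zero (show (1 : F) = 0 by linear_combination h3 - e)
  set N : Fin 8 → F := fun i => g.1 (sv F i) 0 * g.1 (sv F i) 0 ^ 3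
  have hN : ∀ i, N i = 1 ∨ N i = -1 := fun i => by
    have h0 : N i ≠ 0 := mul_ne_zero (H.full_of_le hF hg hgm (by norm_num) le_rfl (by norm_num) h2 i 0)
      (pow_ne_zero _ (H.full_of_le hF hg hgm (by norm_num) le_rfl (by norm_num) h2 i 0))
    have h : (N i - 1) * (N i + 1) = 0 := by
      linear_combination (hF.fixed_iff h0).1 (norm_fixed hF _)
    exact (mul_eq_zero.1 h).imp sub_eq_zero.1 eq_neg_of_add_eq_zero_left
  obtain ⟨a, -, c, -, hac, e⟩ := Finset.exists_ne_map_eq_of_card_lt_of_maps_to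
    (s := (Finset.univ : Finset (Fin 8))) (t := ({1, -1} : Finset F)) (f := N)
    (Finset.card_le_two.trans_lt (by rw [Finset.card_univ, Fintype.card_fin]; norm_num))
    (fun i _ => by simpa using hN i)
  have zero : ∀ α : NU F 3, ∀ t, ((α : Fˣ) : F) + ((α : Fˣ) : F) ^ 3 = t → t ≠ 2 →
      (1 - N a - N c) ^ 2 + N a ^ 2 + N c ^ 2 + (1 - N a - N c) * (N a + N c) * t +
        N a * N c * (t ^ 2 - 2) = 0 → False := fun α t ht hne h0 => by
    obtain ⟨h, hh, hhm, eh⟩ := H.norm_rule hF hg hgm le_rfl (by norm_num) h2 hac α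
      (NU_ne_one_of_trace hF ht hne)
    have := H.full_of_le hF hh hhm (by norm_num) le_rfl (by norm_num) h2 0 0
    exact mul_ne_zero this (pow_ne_zero _ this) ((eh _ _ _ rfl rfl ht).trans h0)
  rcases hN a with ea | ea
  · obtain ⟨α, hα⟩ := exists_trace_neg_two hF
    refine zero α _ hα (fun e' => h2 ?_) ?_
    · linear_combination (-2 : F) * e' - 2 * h3
    · rw [← e, ea]
      linear_combination 3 * h3
  · obtain ⟨μ, hμ⟩ := exists_NU_order hF
    set κ := ((μ : Fˣ) : F)
    have hκ4 : κ ^ 4 = 1 := by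
      have := congrArg (fun x : NU F 3 => ((x : Fˣ) : F)) (pow_orderOf_eq_one μ)
      rw [hμ] at this
      simpa using this
    have hκ2 : κ ^ 2 = -1 := eq_neg_of_add_eq_zero_left ((mul_eq_zero.1
      (show (κ ^ 2 - 1) * (κ ^ 2 + 1) = 0 by linear_combination hκ4)).resolve_left fun e' => by
        have : μ ^ 2 = 1 := Subtype.ext (Units.ext (by
          simp only [SubmonoidClass.coe_pow, Units.val_pow_eq_pow_val, OneMemClass.coe_one, Units.val_one]
          exact sub_eq_zero.1 e'))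
        have := Nat.le_of_dvd (by norm_num) (orderOf_dvd_of_pow_eq_one this)
        omega)
    refine zero μ 0 (by linear_combination κ * hκ2) h2.symm ?_
    rw [← e, ea]
    linear_combination 3 * h3

/-- The field with 49 elements in dimension eight. -/
theorem NoFix.false_eight_seven (hq : q = 7) {g : UG 8 F q} (hg : g ∈ M) (hgm : ¬ MonU g) :
    False := by
  classical
  haveI : Finite F := hF.1
  haveI : Fintype F := Fintype.ofFinite F
  subst hq
  haveI hc7 : CharP F 7 := by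
    obtain ⟨p, e, hp, hc, he⟩ := hF.exists_char
    have hdvd : p ∣ 7 := by rw [he]; exact dvd_pow_self p (by rintro rfl; simp at he)
    rwa [(Nat.prime_dvd_prime_iff_eq hp (by norm_num)).1 hdvd] at hc
  have h7 : (7 : F) = 0 := by exact_mod_cast CharP.cast_eq_zero F 7
  have h2 : (2 : F) ≠ 0 := fun e => one_ne_zero (show (1 : F) = 0 by linear_combination h7 - 3 * e)
  have hcast : ∀ i j : ℕ, i < 7 → j < 7 → (i : F) = (j : F) → i = j := fun i j hi hj e => by
    have := (CharP.natCast_eq_natCast F 7).1 e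
    rwa [Nat.ModEq, Nat.mod_eq_of_lt hi, Nat.mod_eq_of_lt hj] at this
  -- the four traces
  have htr : ∀ t : F, t = -2 ∨ t = 0 ∨ t = 3 ∨ t = -3 →
      ∃ α : NU F 7, α ≠ 1 ∧ ((α : Fˣ) : F) + ((α : Fˣ) : F) ^ 7 = t := by
    intro t ht
    have hne : t ≠ 2 := fun e => by
      rcases ht with rfl | rfl | rfl | rfl
      · exact h2 (mul_left_cancel₀ h2 (by linear_combination -e))
      · exact h2 e.symm
      · exact one_ne_zero (show (1 : F) = 0 by linear_combination e)
      · exact h2 (by linear_combination e + h7)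
    suffices ∃ α : NU F 7, ((α : Fˣ) : F) + ((α : Fˣ) : F) ^ 7 = t by
      obtain ⟨α, hα⟩ := this
      exact ⟨α, NU_ne_one_of_trace hF hα hne, hα⟩
    obtain ⟨μ, hμ⟩ := exists_NU_order hF
    set κ := ((μ : Fˣ) : F)
    have hκ8 : κ ^ 8 = 1 := by
      have := congrArg (fun x : NU F 7 => ((x : Fˣ) : F)) (pow_orderOf_eq_one μ)
      rw [hμ] at this
      simpa using this
    have hκ4 : κ ^ 4 = -1 := eq_neg_of_add_eq_zero_left ((mul_eq_zero.1
      (show (κ ^ 4 - 1) * (κ ^ 4 + 1) = 0 by linear_combination hκ8)).resolve_left fun e' => by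
        have : μ ^ 4 = 1 := Subtype.ext (Units.ext (by
          simp only [SubmonoidClass.coe_pow, Units.val_pow_eq_pow_val, OneMemClass.coe_one, Units.val_one]
          exact sub_eq_zero.1 e'))
        have := Nat.le_of_dvd (by norm_num) (orderOf_dvd_of_pow_eq_one this)
        omega)
    have hs : κ + κ ^ 7 = 3 ∨ κ + κ ^ 7 = -3 := by
      have h : (κ + κ ^ 7 - 3) * (κ + κ ^ 7 + 3) = 0 := by
        linear_combination κ ^ 2 * hκ4 + (2 + κ ^ 6) * hκ8 - h7
      exact (mul_eq_zero.1 h).imp sub_eq_zero.1 eq_neg_of_add_eq_zero_left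
    have h5 : (((μ ^ 5 : NU F 7) : Fˣ) : F) + (((μ ^ 5 : NU F 7) : Fˣ) : F) ^ 7 = -(κ + κ ^ 7) := by
      simp only [SubmonoidClass.coe_pow, Units.val_pow_eq_pow_val]
      linear_combination κ * hκ4 + κ ^ 7 * ((κ ^ 16 + κ ^ 8 + 1) * κ ^ 4 * hκ8 + hκ4)
    rcases ht with rfl | rfl | rfl | rfl
    · exact exists_trace_neg_two hF
    · refine ⟨μ ^ 2, ?_⟩
      simp only [SubmonoidClass.coe_pow, Units.val_pow_eq_pow_val]
      linear_combination κ ^ 6 * hκ8 + κ ^ 2 * hκ4
    · rcases hs with e | e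
      · exact ⟨μ, e⟩
      · exact ⟨μ ^ 5, by rw [h5, e, neg_neg]⟩
    · rcases hs with e | e
      · exact ⟨μ ^ 5, by rw [h5, e]⟩
      · exact ⟨μ, e⟩
  -- norms of entries as numbers
  have hval : ∀ {g : UG 8 F 7}, g ∈ M → ¬ MonU g → ∀ k i, ∃ v : ℕ, 1 ≤ v ∧ v ≤ 6 ∧
      g.1 (sv F i) k * g.1 (sv F i) k ^ 7 = (v : F) := by
    intro g hg hgm k i
    have h0 := H.full_of_le hF hg hgm (by norm_num) (by norm_num) (by norm_num) h2 i k
    set x := g.1 (sv F i) k * g.1 (sv F i) k ^ 7
    have hx : x ^ 6 = 1 := (hF.fixed_iff (mul_ne_zero h0 (pow_ne_zero _ h0))).1 (norm_fixed hF _)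
    have h : (x - 1) * ((x - 2) * ((x - 3) * ((x - 4) * ((x - 5) * (x - 6))))) = 0 := by
      linear_combination hx + (-3 * x ^ 5 + 25 * x ^ 4 - 105 * x ^ 3 + 232 * x ^ 2 - 252 * x + 103) * h7
    simp only [mul_eq_zero, sub_eq_zero] at h
    rcases h with e | e | e | e | e | e
    exacts [⟨1, le_rfl, by norm_num, by simp [e]⟩, ⟨2, by norm_num, by norm_num, by simp [e]⟩,
      ⟨3, by norm_num, by norm_num, by simp [e]⟩, ⟨4, by norm_num, by norm_num, by simp [e]⟩,
      ⟨5, by norm_num, by norm_num, by simp [e]⟩, ⟨6, by norm_num, le_rfl, by simp [e]⟩]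
  -- a pair of norms gives another norm
  have derive : ∀ {g : UG 8 F 7}, g ∈ M → ¬ MonU g → ∀ (k a c : Fin 8) (A C : F), a ≠ c →
      g.1 (sv F a) k * g.1 (sv F a) k ^ 7 = A → g.1 (sv F c) k * g.1 (sv F c) k ^ 7 = C →
      ∀ t, t = -2 ∨ t = 0 ∨ t = 3 ∨ t = -3 → ∃ h ∈ M, ¬ MonU h ∧ h.1 (sv F k) k * h.1 (sv F k) k ^ 7 =
        (1 - A - C) ^ 2 + A ^ 2 + C ^ 2 + (1 - A - C) * (A + C) * t + A * C * (t ^ 2 - 2) := by
    intro g hg hgm k a c A C hac hA hC t ht
    obtain ⟨α, hα, hαt⟩ := htr t ht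
    obtain ⟨h, hh, hhm, eh⟩ := H.norm_rule hF hg hgm (by norm_num) (by norm_num) h2 hac α hα
    exact ⟨h, hh, hhm, eh A C t hA hC hαt⟩
  have bad : ∀ {g : UG 8 F 7}, g ∈ M → ¬ MonU g → ∀ (k a c : Fin 8) (A C : F), a ≠ c →
      g.1 (sv F a) k * g.1 (sv F a) k ^ 7 = A → g.1 (sv F c) k * g.1 (sv F c) k ^ 7 = C →
      ∀ t, t = -2 ∨ t = 0 ∨ t = 3 ∨ t = -3 →
        (1 - A - C) ^ 2 + A ^ 2 + C ^ 2 + (1 - A - C) * (A + C) * t + A * C * (t ^ 2 - 2) = 0 → False := by
    intro g hg hgm k a c A C hac hA hC t ht h0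
    obtain ⟨h, hh, hhm, eh⟩ := derive hg hgm k a c A C hac hA hC t ht
    have := H.full_of_le hF hh hhm (by norm_num) (by norm_num) (by norm_num) h2 k k
    exact mul_ne_zero this (pow_ne_zero _ this) (eh.trans h0)
  -- the numbers of a row
  have row : ∀ {g : UG 8 F 7}, g ∈ M → ¬ MonU g → ∀ k, ∃ v : Fin 8 → ℕ,
      (∀ i, 1 ≤ v i ∧ v i ≤ 6 ∧ g.1 (sv F i) k * g.1 (sv F i) k ^ 7 = (v i : F)) ∧
      (∑ i, v i) % 7 = 1 ∧ ∀ j, (Finset.univ.filter fun i => v i = j).card ≤ 8 := by
    intro g hg hgm k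
    choose v hv using hval hg hgm k
    refine ⟨v, hv, ?_, fun j => (Finset.card_le_univ _).trans (by simp)⟩
    have h : ((∑ i, v i : ℕ) : F) = ((1 : ℕ) : F) := by
      rw [Nat.cast_sum, Nat.cast_one, ← sum_norm_row hF g k]
      exact Finset.sum_congr rfl fun i _ => (hv i).2.2.symm
    exact (CharP.natCast_eq_natCast F 7).1 h
  have count : ∀ v : Fin 8 → ℕ, (∀ i, 1 ≤ v i ∧ v i ≤ 6) →
      (∑ i, v i = (Finset.univ.filter fun i => v i = 1).card + 2 * (Finset.univ.filter fun i => v i = 2).card +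
        3 * (Finset.univ.filter fun i => v i = 3).card + 4 * (Finset.univ.filter fun i => v i = 4).card +
        5 * (Finset.univ.filter fun i => v i = 5).card + 6 * (Finset.univ.filter fun i => v i = 6).card) ∧
      ((Finset.univ.filter fun i => v i = 1).card + (Finset.univ.filter fun i => v i = 2).card +
        (Finset.univ.filter fun i => v i = 3).card + (Finset.univ.filter fun i => v i = 4).card +
        (Finset.univ.filter fun i => v i = 5).card + (Finset.univ.filter fun i => v i = 6).card = 8) := by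
    intro v hv
    simp only [Finset.card_filter, Finset.mul_sum, ← Finset.sum_add_distrib]
    constructor
    · refine Finset.sum_congr rfl fun i _ => ?_
      obtain ⟨h1, h6⟩ := hv i
      interval_cases (v i) <;> simp
    · refine (Finset.sum_congr rfl fun i _ => ?_).trans (by simp : ∑ _i : Fin 8, 1 = 8)
      obtain ⟨h1, h6⟩ := hv i
      interval_cases (v i) <;> simp
  -- no norm is three or six
  have R1 : ∀ {g : UG 8 F 7}, g ∈ M → ¬ MonU g → ∀ k i, ∀ v : ℕ, v = 3 ∨ v = 6 →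
      g.1 (sv F i) k * g.1 (sv F i) k ^ 7 ≠ (v : F) := by
    intro g hg hgm k i₀ w hw he
    obtain ⟨v, hv, hsum, -⟩ := row hg hgm k
    obtain ⟨e1, e2⟩ := count v fun i => ⟨(hv i).1, (hv i).2.1⟩
    have hi₀ : v i₀ = w := hcast _ _ (by have := (hv i₀).2.1; omega) (by omega)
      ((hv i₀).2.2.symm.trans he)
    set c := fun j => (Finset.univ.filter fun i => v i = j).card with hc
    have kill : ∀ (a b : ℕ) (t : F), (t = -2 ∨ t = 0 ∨ t = 3 ∨ t = -3) →
        (1 - (a : F) - b) ^ 2 + (a : F) ^ 2 + (b : F) ^ 2 + (1 - (a : F) - b) * (a + b) * t +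
          (a : F) * b * (t ^ 2 - 2) = 0 → ∀ i j, i ≠ j → v i = a → v j = b → False :=
      fun a b t ht h0 i j hij hi hj => bad hg hgm k i j a b hij
        ((hv i).2.2.trans (by rw [hi])) ((hv j).2.2.trans (by rw [hj])) t ht h0
    have one : ∀ a, (∀ i j, i ≠ j → v i = a → v j = a → False) → c a ≤ 1 := fun a h =>
      Finset.card_le_one.2 fun i hi j hj => by
        by_contra hij
        exact h i j hij (Finset.mem_filter.1 hi).2 (Finset.mem_filter.1 hj).2
    have two : ∀ a b, a ≠ b → (∀ i j, i ≠ j → v i = a → v j = b → False) → c a = 0 ∨ c b = 0 := by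
      intro a b hab h
      by_contra hcon
      push Not at hcon
      obtain ⟨i, hi⟩ := Finset.card_pos.1 (Nat.pos_of_ne_zero hcon.1)
      obtain ⟨j, hj⟩ := Finset.card_pos.1 (Nat.pos_of_ne_zero hcon.2)
      exact h i j (fun e => hab (by rw [← (Finset.mem_filter.1 hi).2, e, (Finset.mem_filter.1 hj).2]))
        (Finset.mem_filter.1 hi).2 (Finset.mem_filter.1 hj).2
    have c22 := one 2 (kill 2 2 (-2) (by simp) (by push_cast; linear_combination 7 * h7))
    have c33 := one 3 (kill 3 3 (-3) (by simp) (by push_cast; linear_combination 28 * h7))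
    have c44 := one 4 (kill 4 4 0 (by simp) (by push_cast; linear_combination 7 * h7))
    have c66 := one 6 (kill 6 6 3 (by simp) (by push_cast; linear_combination 7 * h7))
    have c13 := two 1 3 (by norm_num) (kill 1 3 (-2) (by simp) (by push_cast; linear_combination 7 * h7))
    have c56 := two 5 6 (by norm_num) (kill 5 6 (-2) (by simp) (by push_cast; linear_combination 63 * h7))
    have hpos : 0 < c w := Finset.card_pos.2 ⟨i₀, by simp [hi₀]⟩
    simp only [c] at c22 c33 c44 c66 c13 c56 hpos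
    rw [e1] at hsum
    rcases hw with rfl | rfl <;> rcases c13 with c13 | c13 <;> rcases c56 with c56 | c56 <;>
      first
      | omega
      | (rcases Nat.le_one_iff_eq_zero_or_eq_one.1 c22 with d2 | d2 <;>
          rcases Nat.le_one_iff_eq_zero_or_eq_one.1 c44 with d4 | d4 <;>
          rcases Nat.le_one_iff_eq_zero_or_eq_one.1 c33 with d3 | d3 <;>
          rcases Nat.le_one_iff_eq_zero_or_eq_one.1 c66 with d6 | d6 <;> omega)
  -- no norm is five
  have R2 : ∀ {g : UG 8 F 7}, g ∈ M → ¬ MonU g → ∀ k i,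
      g.1 (sv F i) k * g.1 (sv F i) k ^ 7 ≠ ((5 : ℕ) : F) := by
    intro g hg hgm k i₀ he
    obtain ⟨v, hv, hsum, -⟩ := row hg hgm k
    obtain ⟨e1, e2⟩ := count v fun i => ⟨(hv i).1, (hv i).2.1⟩
    have hall : ∀ i, v i = 5 := fun i => by
      have h3 := R1 hg hgm k i
      obtain ⟨h1, h6, hiv⟩ := hv i
      rcases eq_or_ne i i₀ with rfl | hne
      · exact hcast _ _ (by omega) (by norm_num) (hiv.symm.trans he)
      by_contra h5
      have key : ∀ (t : F) (w : ℕ), (t = -2 ∨ t = 0 ∨ t = 3 ∨ t = -3) → (w = 3 ∨ w = 6) →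
          (1 - ((v i : ℕ) : F) - 5) ^ 2 + ((v i : ℕ) : F) ^ 2 + (5 : F) ^ 2 +
            (1 - ((v i : ℕ) : F) - 5) * (((v i : ℕ) : F) + 5) * t +
            ((v i : ℕ) : F) * 5 * (t ^ 2 - 2) = (w : F) → False := fun t w ht hw h0 => by
        obtain ⟨h, hh, hhm, eh⟩ := derive hg hgm k i i₀ _ 5 hne hiv (he.trans (by norm_num)) t ht
        exact R1 hh hhm k k w hw (eh.trans h0)
      obtain ⟨m, hm⟩ : ∃ m, v i = m := ⟨_, rfl⟩
      interval_cases hm' : v i
      · exact key 3 3 (by simp) (Or.inl rfl) (by push_cast; linear_combination (-1 : F) * h7)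
      · exact key 0 3 (by simp) (Or.inl rfl) (by push_cast; linear_combination 6 * h7)
      · exact h3 3 (Or.inl rfl) hiv
      · exact key (-3) 6 (by simp) (Or.inr rfl) (by push_cast; linear_combination 65 * h7)
      · exact h5 rfl
      · exact h3 6 (Or.inr rfl) hiv
    simp [hall] at hsum
  -- all norms are one
  have R3 : ∀ {g : UG 8 F 7}, g ∈ M → ¬ MonU g → ∀ k i,
      g.1 (sv F i) k * g.1 (sv F i) k ^ 7 = (1 : F) := by
    intro g hg hgm k i₀
    obtain ⟨v, hv, hsum, -⟩ := row hg hgm k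
    obtain ⟨e1, e2⟩ := count v fun i => ⟨(hv i).1, (hv i).2.1⟩
    set c := fun j => (Finset.univ.filter fun i => v i = j).card with hc
    have zero : ∀ j, (j = 3 ∨ j = 5 ∨ j = 6) → c j = 0 := fun j hj =>
      Finset.card_eq_zero.2 (Finset.filter_eq_empty_iff.2 fun i _ e => by
        rcases hj with rfl | rfl | rfl
        · exact R1 hg hgm k i 3 (Or.inl rfl) ((hv i).2.2.trans (by rw [e]))
        · exact R2 hg hgm k i ((hv i).2.2.trans (by rw [e]))
        · exact R1 hg hgm k i 6 (Or.inr rfl) ((hv i).2.2.trans (by rw [e])))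
    have one : ∀ (a : ℕ) (t : F), (t = -2 ∨ t = 0 ∨ t = 3 ∨ t = -3) →
        (1 - (a : F) - a) ^ 2 + (a : F) ^ 2 + (a : F) ^ 2 + (1 - (a : F) - a) * (a + a) * t +
          (a : F) * a * (t ^ 2 - 2) = 0 → c a ≤ 1 := fun a t ht h0 =>
      Finset.card_le_one.2 fun i hi j hj => by
        by_contra hij
        exact bad hg hgm k i j a a hij ((hv i).2.2.trans (by rw [(Finset.mem_filter.1 hi).2]))
          ((hv j).2.2.trans (by rw [(Finset.mem_filter.1 hj).2])) t ht h0
    have c22 := one 2 (-2) (by simp) (by push_cast; linear_combination 7 * h7)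
    have c44 := one 4 0 (by simp) (by push_cast; linear_combination 7 * h7)
    have z3 := zero 3 (by norm_num)
    have z5 := zero 5 (by norm_num)
    have z6 := zero 6 (by norm_num)
    simp only [c] at c22 c44 z3 z5 z6
    rw [e1] at hsum
    have hfull : (Finset.univ.filter fun i => v i = 1).card = (Finset.univ : Finset (Fin 8)).card := by
      rw [Finset.card_univ, Fintype.card_fin]
      rcases Nat.le_one_iff_eq_zero_or_eq_one.1 c22 with d2 | d2 <;>
        rcases Nat.le_one_iff_eq_zero_or_eq_one.1 c44 with d4 | d4 <;> omega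
    have := Finset.eq_univ_of_card _ (hfull.trans Finset.card_univ)
    have hi : v i₀ = 1 := by
      have h := Finset.mem_univ i₀
      rw [← this, Finset.mem_filter] at h
      exact h.2
    rw [(hv i₀).2.2, hi, Nat.cast_one]
  obtain ⟨h, hh, hhm, eh⟩ := derive hg hgm 0 0 1 1 1 (by decide) (R3 hg hgm 0 0) (R3 hg hgm 0 1) (-2)
    (by simp)
  rw [R3 hh hhm 0 0] at eh
  exact one_ne_zero (show (1 : F) = 0 by linear_combination -eh - h7)

end Cfsg.Agent.DecompMax.UF
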