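import Cfsg.Agent.DecompMax.UnitPairs

/-!
An overgroup of the monomial special unitary group, larger than it, has a non-monomial element fixing
a frame line.
-/

set_option autoImplicit false
set_option linter.style.haveILetI false
set_option linter.unusedSectionVars false

namespace Cfsg.Agent.DecompMax.UF

open Matrix Cfsg.Geo Module Cfsg.Agent.Classical.U Cfsg.Agent.DecompMax.UCount Cfsg.Agent.DecompMax.UN
open scoped MatrixGroups Matrix

universe u

variable {F : Type u} [Field F] {n q : ℕ}

theorem card_lt_aux_thirteen {q n : ℕ} (hq : 2 ≤ q) (hn : 13 ≤ n) (B : ℕ) (hB : B ≤ n ^ 2 * (q + 1) ^ 3) :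
    5 * q ^ 2 * (q + 1) * B < (q + 1) ^ n := by
  obtain ⟨r, rfl⟩ : ∃ r, n = 13 + r := ⟨n - 13, by omega⟩
  have h1 : ∀ s : ℕ, 5 * (13 + s) ^ 2 < 3 ^ (7 + s) := by
    intro s
    induction s with
    | zero => norm_num
    | succ s ih =>
      have h2 : (3 : ℕ) ^ (7 + (s + 1)) = 3 * 3 ^ (7 + s) := by
        rw [← Nat.add_assoc, pow_succ, mul_comm]
      rw [h2]
      have : 5 * (13 + (s + 1)) ^ 2 ≤ 3 * (5 * (13 + s) ^ 2) := by
        ring_nf; omega
      omega
  have h3 : 5 * (13 + r) ^ 2 * q ^ 2 < (q + 1) ^ (9 + r) := by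
    calc 5 * (13 + r) ^ 2 * q ^ 2 < 3 ^ (7 + r) * q ^ 2 :=
          Nat.mul_lt_mul_of_pos_right (h1 r) (by positivity)
      _ ≤ (q + 1) ^ (7 + r) * (q + 1) ^ 2 :=
          Nat.mul_le_mul (Nat.pow_le_pow_left (by omega) _) (Nat.pow_le_pow_left (by omega) 2)
      _ = _ := by ring
  calc 5 * q ^ 2 * (q + 1) * B ≤ 5 * q ^ 2 * (q + 1) * ((13 + r) ^ 2 * (q + 1) ^ 3) :=
        Nat.mul_le_mul_left _ hB
    _ = 5 * (13 + r) ^ 2 * q ^ 2 * (q + 1) ^ 4 := by ring
    _ < (q + 1) ^ (9 + r) * (q + 1) ^ 4 := Nat.mul_lt_mul_of_pos_right h3 (by positivity)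
    _ = _ := by ring

theorem card_lt_aux {q n : ℕ} (hq : 2 ≤ q) (hn : 12 ≤ n) (B : ℕ) (hB : B ≤ n ^ 2 * (q + 1) ^ 3) :
    UCount.cst q n * q ^ 2 * (q + 1) * B < (q + 1) ^ n := by
  rcases Nat.lt_or_ge n 13 with hn' | hn'
  · obtain rfl : n = 12 := by omega
    have h1 : 144 * UCount.cst q 12 * q ^ 2 < (q + 1) ^ 8 := by
      rcases Nat.lt_or_ge q 3 with h | h
      · interval_cases q
        norm_num [UCount.cst]
      · have hc : UCount.cst q 12 = 14 := by simp [UCount.cst]; omega
        rw [hc]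
        calc 144 * 14 * q ^ 2 ≤ 144 * 14 * (q + 1) ^ 2 :=
              Nat.mul_le_mul_left _ (Nat.pow_le_pow_left (Nat.le_succ q) 2)
          _ < (q + 1) ^ 6 * (q + 1) ^ 2 := Nat.mul_lt_mul_of_pos_right
              (lt_of_lt_of_le (by norm_num) (Nat.pow_le_pow_left (show 4 ≤ q + 1 by omega) 6)) (by positivity)
          _ = _ := by ring
    calc _ ≤ UCount.cst q 12 * q ^ 2 * (q + 1) * (12 ^ 2 * (q + 1) ^ 3) := Nat.mul_le_mul_left _ hB
      _ = 144 * UCount.cst q 12 * q ^ 2 * (q + 1) ^ 4 := by ring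
      _ < (q + 1) ^ 8 * (q + 1) ^ 4 := Nat.mul_lt_mul_of_pos_right h1 (by positivity)
      _ = _ := by ring
  · rw [show UCount.cst q n = 5 from if_pos (Or.inl hn')]
    exact card_lt_aux_thirteen hq hn' B hB

theorem mem_dia_of_prod {M : Subgroup (UG n F q)} (hF : SqField F q) (H : NoFix M) {l : Fin n → NU F q}
    (h : ∏ i, l i = 1) : dia hF l ∈ M := H.mon _ (dia_mem_SUG hF h) (monU_mon hF _ _)

variable (hF : SqField F q)
include hF

theorem inv_app (g : UG n F q) (v : Fin n → F) : (g⁻¹ : UG n F q).1 (g.1 v) = v := by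
  rw [← LinearEquiv.mul_apply, ← Subgroup.coe_mul, inv_mul_cancel]; rfl

theorem app_inv (g : UG n F q) (v : Fin n → F) : g.1 ((g⁻¹ : UG n F q).1 v) = v := by
  rw [← LinearEquiv.mul_apply, ← Subgroup.coe_mul, mul_inv_cancel]; rfl

variable {M : Subgroup (UG n F q)} (H : NoFix M)
include H

theorem NoFix.col_two {g : UG n F q} (hg : g ∈ M) (hgm : ¬ MonU g) (k : Fin n) (x : Fin n) :
    ∃ y, y ≠ x ∧ g.1 (sv F k) y ≠ 0 := by
  by_contra hcon
  push Not at hcon
  refine hgm (H.single hF hg (k := k) (j := x) (c := g.1 (sv F k) x) (funext fun y => ?_))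
  rcases eq_or_ne y x with rfl | hy
  · simp
  · simp [hcon y hy, Pi.single_eq_of_ne hy]

theorem NoFix.supp_big {g : UG n F q} (hg : g ∈ M) (hgm : ¬ MonU g) (hq : 3 ≤ q) (k : Fin n) :
    n ≤ (supp (g.1 (sv F k))).card + 2 := by
  classical
  by_contra hc
  push Not at hc
  have h := Finset.card_compl (supp (g.1 (sv F k)))
  rw [Fintype.card_fin] at h
  obtain ⟨b₁, b₂, b₃, hb₁, hb₂, hb₃, h12, h13, h23⟩ :=
    Finset.two_lt_card_iff.1 (show 2 < (supp (g.1 (sv F k)))ᶜ.card by omega)
  simp only [Finset.mem_compl, mem_supp, not_not] at hb₁ hb₂ hb₃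
  exact H.three_zeros hF hg hgm hq h12 h13 h23 hb₁ hb₂ hb₃

/-- A column has no two zeros in a common row. -/
theorem NoFix.zero_row {g : UG n F q} (hg : g ∈ M) {k a b : Fin n} (hka : k ≠ a)
    (hk : g.1 (sv F k) b = 0) (ha : g.1 (sv F a) b = 0) : (supp (g.1 (sv F k))).card ≤ 6 := by
  classical
  obtain ⟨μ, hμ⟩ := exists_norm_one_ne hF
  set h := g * dia hF (pairFun k a μ) * g⁻¹ with hh
  have hhM : h ∈ M := mul_mem (mul_mem hg (H.dia_pair_mem hF hka μ)) (inv_mem hg)
  set W := Submodule.span F ({g.1 (sv F k), g.1 (sv F a)} : Set (Fin n → F))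
  have hsub : ∀ v, h.1 v - v = ((((μ : Fˣ) : F) - 1) * (g⁻¹ : UG n F q).1 v k) • g.1 (sv F k) +
      (((((μ⁻¹ : NU F q) : Fˣ) : F) - 1) * (g⁻¹ : UG n F q).1 v a) • g.1 (sv F a) := fun v => by
    have e := congrArg g.1 (dia_pair_sub hF k a hka μ ((g⁻¹ : UG n F q).1 v))
    rw [map_sub, map_add, map_smul, map_smul, app_inv hF] at e
    exact e
  have hfix : h.1 (sv F b) = sv F b := by
    rw [← sub_eq_zero, hsub, inv_apply_coord hF, inv_apply_coord hF, hk, ha, zero_pow hF.q_ne_zero]
    simp
  obtain ⟨J, hJ, hJ'⟩ := (H.nofix h hhM b 1 (by rw [one_smul]; exact hfix)).moved hF (W := W)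
    (fun v => by
      rw [hsub]
      exact W.add_mem (W.smul_mem _ (Submodule.subset_span (by simp)))
        (W.smul_mem _ (Submodule.subset_span (by simp)))) (finrank_pair_le hF _ _)
  refine le_trans (Finset.card_le_card fun x hx => ?_) hJ
  by_contra hxJ
  have e := hJ' (g.1 (sv F k)) x hxJ
  have e2 := hsub (g.1 (sv F k))
  rw [inv_app hF] at e2
  simp only [sv, Pi.single_eq_same, Pi.single_eq_of_ne (Ne.symm hka), mul_one, mul_zero, zero_smul,
    add_zero] at e2
  have e3 := congrFun e2 x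
  rw [Pi.sub_apply, e, sub_self, Pi.smul_apply, smul_eq_mul] at e3
  exact mul_ne_zero (sub_ne_zero.2 hμ) (mem_supp.1 hx) e3.symm

/-- No column has a zero entry, for fields of odd order. -/
theorem NoFix.no_zero {g : UG n F q} (hg : g ∈ M) (hgm : ¬ MonU g) (hq : 3 ≤ q) (hn : 12 ≤ n)
    (hodd : (2 : F) ≠ 0) (k b : Fin n) : g.1 (sv F k) b ≠ 0 := by
  classical
  haveI : Finite F := hF.1
  intro hb
  have hbig := H.supp_big hF hg hgm hq k
  have hall : ∀ a, a ≠ k → g.1 (sv F a) b ≠ 0 := fun a ha e => by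
    have := H.zero_row hF hg (Ne.symm ha) hb e
    omega
  by_cases hdvd : (q + 1) ∣ n
  · -- two columns with entries of equal norm
    have hqn : q + 1 ≤ n := Nat.le_of_dvd (by omega) hdvd
    haveI : Fintype F := Fintype.ofFinite F
    obtain ⟨a, ha, c, hc, hac, he⟩ := Finset.exists_ne_map_eq_of_card_lt_of_maps_to
      (s := Finset.univ.erase k) (t := (Finset.univ.filter fun x : F => x ^ (q - 1) = 1))
      (f := fun a => g.1 (sv F a) b * g.1 (sv F a) b ^ q) (by
        rw [← Fintype.card_subtype, ← Nat.card_eq_fintype_card, hF.card_fixed_units,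
          Finset.card_erase_of_mem (Finset.mem_univ _), Finset.card_univ, Fintype.card_fin]
        omega) (fun a ha => by
        rw [Finset.mem_coe, Finset.mem_erase] at ha
        have hne := mul_ne_zero (hall a ha.1) (pow_ne_zero q (hall a ha.1))
        simp only [Finset.coe_filter, Finset.mem_univ, true_and, Set.mem_setOf_eq]
        refine (hF.fixed_iff hne).1 ?_
        rw [mul_pow, hF.pow_pow, mul_comm])
    rw [Finset.mem_erase] at ha hc
    set y := g.1 (sv F a) b with hy
    set z := g.1 (sv F c) b with hz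
    have hy0 : y ≠ 0 := hall a ha.1
    have hz0 : z ≠ 0 := hall c hc.1
    set ζ : NU F q := NU.mk (y / z) (by
      rw [div_pow]
      have := pow_ne_zero q hy0
      have := pow_ne_zero q hz0
      field_simp
      exact he)
    set π := Equiv.swap a c
    set l : Fin n → NU F q := fun i => if i = a then ζ else if i = c then ζ⁻¹ else
      if i = k then NU.mk (-1) (by rw [hF.neg_pow, one_pow]; ring) else 1
    have hσS : UF.mon hF π l ∈ SUG n F q := by
      refine mon_mem_SUG hF ?_
      rw [Equiv.Perm.sign_swap hac, ← Finset.prod_subset (Finset.subset_univ ({a, c, k} : Finset (Fin n)))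
        (fun i _ hi => by
          simp only [Finset.mem_insert, Finset.mem_singleton, not_or] at hi
          simp [l, hi.1, hi.2.1, hi.2.2]), Finset.prod_insert (by simp [hac, ha.1]),
        Finset.prod_pair hc.1]
      simp [l, Ne.symm hac, Ne.symm ha.1, Ne.symm hc.1, ζ]
      field_simp
    set h := g * UF.mon hF π l * g⁻¹ with hh
    have hhM : h ∈ M := mul_mem (mul_mem hg (H.mon _ hσS (monU_mon hF _ _))) (inv_mem hg)
    have hsub : ∀ w : Fin n → F, (UF.mon hF π l).1 w - w =
        ((((ζ⁻¹ : NU F q) : Fˣ) : F) * w c) • sv F a + (((ζ : Fˣ) : F) * w a) • sv F c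
          - w a • sv F a - w c • sv F c + (-2 * w k) • sv F k := by
      intro w
      funext x
      obtain ⟨x, rfl⟩ := π.surjective x
      simp only [Pi.sub_apply, Pi.add_apply, Pi.smul_apply, smul_eq_mul]
      rw [mon_apply]
      rcases eq_or_ne x a with rfl | hxa
      · simp [π, l, hac, Ne.symm hac, Ne.symm hc.1]
      rcases eq_or_ne x c with rfl | hxc
      · simp [π, l, hxa, hac, Ne.symm hac, Ne.symm ha.1]
      rw [show π x = x from Equiv.swap_apply_of_ne_of_ne hxa hxc]
      rcases eq_or_ne x k with rfl | hxk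
      · simp [l, hxa, hxc]; ring
      · simp [l, hxa, hxc, hxk]
    set W := Submodule.span F
      ({g.1 (sv F k), g.1 (sv F a) - ((ζ : Fˣ) : F) • g.1 (sv F c)} : Set (Fin n → F))
    have hk' : (g⁻¹ : UG n F q).1 (sv F b) k = 0 := by
      rw [inv_apply_coord hF, hb, zero_pow hF.q_ne_zero]
    have hζ : ((ζ : Fˣ) : F) = y / z := rfl
    have hζinv : (((ζ⁻¹ : NU F q) : Fˣ) : F) = z / y := by simp [ζ, inv_div]
    have hhsub : ∀ v, h.1 v - v = ((((ζ⁻¹ : NU F q) : Fˣ) : F) * (g⁻¹ : UG n F q).1 v c -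
          (g⁻¹ : UG n F q).1 v a) • (g.1 (sv F a) - ((ζ : Fˣ) : F) • g.1 (sv F c)) +
        (-2 * (g⁻¹ : UG n F q).1 v k) • g.1 (sv F k) := by
      intro v
      have e := congrArg g.1 (hsub ((g⁻¹ : UG n F q).1 v))
      rw [map_sub, app_inv hF] at e
      refine e.trans ?_
      simp only [map_add, map_sub, map_smul]
      have hz' : (((ζ⁻¹ : NU F q) : Fˣ) : F) * ((ζ : Fˣ) : F) = 1 := by
        rw [← Units.val_mul, ← Subgroup.coe_mul, inv_mul_cancel]; simp
      have := NU.ne_zero ζ
      match_scalars <;> first | ring1 | (field_simp; ring1) | field_simp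
    have hfix : h.1 (sv F b) = sv F b := by
      rw [← sub_eq_zero, hhsub, hk', inv_apply_coord hF g c b, inv_apply_coord hF g a b, ← hy, ← hz,
        hζinv]
      have hc0 : z / y * z ^ q - y ^ q = 0 := by
        field_simp
        linear_combination -he
      rw [hc0]
      simp
    obtain ⟨J, hJ, hJ'⟩ := (H.nofix h hhM b 1 (by rw [one_smul]; exact hfix)).moved hF (W := W)
      (fun v => by
        rw [hhsub]
        exact W.add_mem (W.smul_mem _ (Submodule.subset_span (by simp)))
          (W.smul_mem _ (Submodule.subset_span (by simp)))) (finrank_pair_le hF _ _)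
    have : (supp (g.1 (sv F k))).card ≤ 6 := by
      refine le_trans (Finset.card_le_card fun x hx => ?_) hJ
      by_contra hxJ
      have e := hJ' (g.1 (sv F k)) x hxJ
      have e2 := congrFun (hhsub (g.1 (sv F k))) x
      rw [inv_app hF, Pi.sub_apply, e, sub_self] at e2
      simp only [sv, Pi.single_eq_same, Pi.single_eq_of_ne ha.1, Pi.single_eq_of_ne hc.1, mul_zero,
        sub_zero, zero_smul, zero_add, Pi.smul_apply, smul_eq_mul, mul_one] at e2
      exact mul_ne_zero (neg_ne_zero.2 hodd) (mem_supp.1 hx) e2.symm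
    omega
  · -- a pseudo-reflection times a scalar
    obtain ⟨μ, hμ⟩ := IsCyclic.exists_generator (α := NU F q)
    have ho : orderOf μ = q + 1 := by
      rw [orderOf_eq_card_of_forall_mem_zpowers hμ, card_NU hF]
    set κ : F := ((μ : Fˣ) : F) with hκ
    have hκn : κ ^ n ≠ 1 := fun e => hdvd (ho ▸ orderOf_dvd_of_pow_eq_one
      (Subtype.ext (Units.ext (by simpa [hκ] using e))))
    set l : Fin n → NU F q := fun i => if i = b then (μ ^ (n - 1))⁻¹ else μ
    have hl : ∏ i, l i = 1 := by
      rw [← Finset.mul_prod_erase _ _ (Finset.mem_univ b), Finset.prod_congr rfl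
        (g := fun _ => μ) (fun i hi => if_neg (Finset.ne_of_mem_erase hi)), Finset.prod_const,
        Finset.card_erase_of_mem (Finset.mem_univ _), Finset.card_univ, Fintype.card_fin]
      simp [l]
    set d := dia hF l with hd
    have hdv : ∀ v x, x ≠ b → d.1 v x = κ * v x := fun v x hx => by
      rw [hd, dia_apply]; simp [l, hx, hκ]
    set m := g⁻¹ * d * g with hm
    have hmk : m.1 (sv F k) = κ • sv F k := by
      have : d.1 (g.1 (sv F k)) = κ • g.1 (sv F k) := funext fun x => by
        rcases eq_or_ne x b with rfl | hx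
        · rw [hd, dia_apply, Pi.smul_apply, hb]; simp
        · exact hdv _ x hx
      show (g⁻¹ : UG n F q).1 (d.1 (g.1 (sv F k))) = _
      rw [this, map_smul, inv_app hF]
    obtain ⟨π, l', hml⟩ :=
      (H.nofix m (mul_mem (mul_mem (inv_mem hg) (mem_dia_of_prod hF H hl)) hg) k κ hmk).exists_eq hF
    have hcol : ∀ a, d.1 (g.1 (sv F a)) = ((l' a : Fˣ) : F) • g.1 (sv F (π a)) := fun a => by
      have e := congrArg g.1 (congrArg (fun p : UG n F q => p.1 (sv F a)) hml)
      rw [mon_sv, map_smul] at e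
      rw [← e]
      exact (app_inv hF g _).symm
    obtain ⟨a, -, hak⟩ := Finset.exists_mem_notMem_of_card_lt_card (s := ({k} : Finset (Fin n)))
      (t := Finset.univ) (by rw [Finset.card_singleton, Finset.card_univ, Fintype.card_fin]; omega)
    rw [Finset.mem_singleton] at hak
    set y := g.1 (sv F a) with hy
    by_cases hπ : π a = a
    · have e := hcol a
      rw [hπ, ← hy] at e
      have eb := congrFun e b
      rw [hd, dia_apply, Pi.smul_apply, smul_eq_mul] at eb
      have h1 : ((l b : Fˣ) : F) = ((l' a : Fˣ) : F) := mul_right_cancel₀ (hall a hak) eb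
      obtain ⟨x, hxb, hx⟩ := H.col_two hF hg hgm a b
      have ex := congrFun e x
      rw [hdv _ _ hxb, Pi.smul_apply, smul_eq_mul] at ex
      have h2 : κ = ((l' a : Fˣ) : F) := mul_right_cancel₀ hx ex
      apply hκn
      have h3 : ((l b : Fˣ) : F) * κ ^ (n - 1) = 1 := by simp [l, hκ, NU.ne_zero]
      rw [h1, ← h2, ← pow_succ', Nat.sub_add_cancel (by omega)] at h3
      exact h3
    · set y' := g.1 (sv F (π a)) with hy'
      have hπk : π a ≠ k := by
        intro e
        refine hak (π.injective ?_)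
        have := congrArg (fun p : UG n F q => p.1 (sv F k)) hml
        simp only [hmk, mon_sv] at this
        rw [e]
        by_contra hne
        have e2 := congrFun this k
        simp [Pi.single_eq_of_ne hne, hκ, NU.ne_zero] at e2
      obtain ⟨c, -, hc⟩ := Finset.exists_mem_notMem_of_card_lt_card
        (s := ({k, a, π a} : Finset (Fin n))) (t := Finset.univ)
        (Finset.card_le_three.trans_lt (by rw [Finset.card_univ, Fintype.card_fin]; omega))
      simp only [Finset.mem_insert, Finset.mem_singleton, not_or] at hc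
      set s : F := ((l b : Fˣ) : F) - κ with hs
      have hcomb : ((l' a : Fˣ) : F) • y' - κ • y = (s * y b) • sv F b := by
        rw [← hcol a]
        funext x
        rcases eq_or_ne x b with rfl | hx
        · rw [Pi.sub_apply, hd, dia_apply]; simp [hs]; ring
        · rw [Pi.sub_apply, hdv _ _ hx]; simp [Pi.single_eq_of_ne hx, hy]
      have e := congrArg (fun w => herm q w (g.1 (sv F c))) hcomb
      simp only [herm_sub_left, herm_smul_left, hy, hy', UG_app, herm_sv hF, sv,
        Pi.single_eq_of_ne hc.2.1, Pi.single_eq_of_ne hc.2.2, mul_zero, sub_self, herm_one_single] at e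
      rcases mul_eq_zero.1 e.symm with h0 | h0
      · rcases mul_eq_zero.1 h0 with h0' | h0'
        · apply hκn
          have h3 : ((l b : Fˣ) : F) * κ ^ (n - 1) = 1 := by simp [l, hκ, NU.ne_zero]
          rw [sub_eq_zero.1 h0', ← pow_succ', Nat.sub_add_cancel (by omega)] at h3
          exact h3
        · exact hall a hak h0'
      · exact hall c hc.1 ((pow_eq_zero_iff hF.q_ne_zero).1 h0)

/-- Fields of odd order. -/
theorem NoFix.false_odd {g : UG n F q} (hg : g ∈ M) (hgm : ¬ MonU g) (hn : 12 ≤ n)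
    (hodd : (2 : F) ≠ 0) : False := by
  classical
  haveI : Finite F := hF.1
  haveI : Fintype F := Fintype.ofFinite F
  have hq : 3 ≤ q := by
    have := hF.one_lt
    by_contra h
    have hq2 : q = 2 := by omega
    obtain ⟨p, e, hp, hc, he⟩ := hF.exists_char
    have hdvd : p ∣ 2 := by
      rw [← hq2, he]
      exact dvd_pow_self p (by rintro rfl; rw [pow_zero] at he; omega)
    rw [(Nat.prime_dvd_prime_iff_eq hp Nat.prime_two).1 hdvd] at hc
    exact hodd CharTwo.two_eq_zero
  have hne := fun {g : UG n F q} (hg : g ∈ M) (hgm : ¬ MonU g) =>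
    H.no_zero hF hg hgm hq hn hodd
  set k : Fin n := ⟨0, by omega⟩
  set r : Fin n := ⟨1, by omega⟩
  have hkr : k ≠ r := by simp [k, r, Fin.ext_iff]
  set c : Fin n → F := fun a => g.1 (sv F a) r * g.1 (sv F a) k ^ q
  have hc : ∀ a, c a ≠ 0 := fun a => mul_ne_zero (hne hg hgm a r) (pow_ne_zero _ (hne hg hgm a k))
  have hcount := card_sum_prod_ge hF hn c hc 0 1
  set S := Finset.univ.filter fun x : Fin n → NU F q =>
    ∑ i, c i * ((x i : Fˣ) : F) = 0 ∧ ∏ i, x i = 1 with hS
  have hinj : ∀ (μ₁ : Fin n → NU F q), μ₁ ∈ S → ∃ j : Fin n, ∃ ν : NU F q,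
      ∀ a, ((μ₁ a : Fˣ) : F) * g.1 (sv F a) k ^ q = ((ν : Fˣ) : F) * g.1 (sv F a) j ^ q := by
    intro μ₁ hμ₁
    rw [hS, Finset.mem_filter] at hμ₁
    set h := g * dia hF μ₁ * g⁻¹ with hh
    have hhM : h ∈ M := mul_mem (mul_mem hg (mem_dia_of_prod hF H hμ₁.2.2)) (inv_mem hg)
    have hhr : h.1 (sv F k) r = 0 := by
      show g.1 ((dia hF μ₁).1 ((g⁻¹ : UG n F q).1 (sv F k))) r = 0
      rw [pi_eq_sum_univ' ((dia hF μ₁).1 ((g⁻¹ : UG n F q).1 (sv F k))), map_sum, Finset.sum_apply,
        ← hμ₁.2.1]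
      refine Finset.sum_congr rfl fun i _ => ?_
      rw [map_smul, Pi.smul_apply, smul_eq_mul, dia_apply, inv_apply_coord hF]
      show _ = g.1 (sv F i) r * g.1 (sv F i) k ^ q * _
      ring
    by_cases hm : MonU h
    · obtain ⟨π, l, hl⟩ := hm.exists_eq hF
      refine ⟨π k, l k, fun a => ?_⟩
      have e : (dia hF μ₁).1 ((g⁻¹ : UG n F q).1 (sv F k)) =
          ((l k : Fˣ) : F) • (g⁻¹ : UG n F q).1 (sv F (π k)) := by
        rw [← map_smul, ← mon_sv hF, ← hl]
        exact (inv_app hF g _).symm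
      have := congrFun e a
      rwa [dia_apply, Pi.smul_apply, smul_eq_mul, inv_apply_coord hF, inv_apply_coord hF] at this
    · exact absurd hhr (hne hhM hm k r)
  haveI : Nonempty (Fin n) := ⟨k⟩
  choose! j ν hjν using hinj
  have hcard : S.card ≤ n * (q + 1) := by
    calc S.card ≤ (Finset.univ : Finset (Fin n × NU F q)).card := by
          refine Finset.card_le_card_of_injOn (fun x => (j x, ν x)) (fun x _ => Finset.mem_univ _)
            fun x hx y hy e => ?_
          rw [Prod.ext_iff] at e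
          refine funext fun a => Subtype.ext (Units.ext (mul_right_cancel₀ (pow_ne_zero q (hne hg hgm a k)) ?_))
          rw [hjν x hx a, hjν y hy a, show j x = j y from e.1, show ν x = ν y from e.2]
      _ = _ := by rw [Finset.card_univ, Fintype.card_prod, Fintype.card_fin, fintype_card_NU hF]
  have := card_lt_aux (q := q) (n := n) (by omega) hn S.card (hcard.trans (Nat.mul_le_mul
    (Nat.le_self_pow (by omega) n) (Nat.le_self_pow (by omega) (q + 1))))
  omega

/-- Fields of even order. -/
theorem NoFix.exists_centre {g : UG n F q} (hg : g ∈ M) (hgm : ¬ MonU g) (hn : 4 ≤ n)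
    (h2 : (2 : F) = 0) :
    ∃ w : Fin n → F, 3 ≤ (supp w).card ∧ ∃ hc : TrvCond q w 1, trv hF hc ∈ M := by
  classical
  haveI : Finite F := hF.1
  have hneg : ∀ x : F, -x = x := fun x => by linear_combination -x * h2
  by_contra hcon
  push Not at hcon
  have hsmall : ∀ a c, a ≠ c → ∀ ζ : NU F q,
      (supp (g.1 (sv F a) + ((ζ : Fˣ) : F) • g.1 (sv F c))).card ≤ 2 := by
    intro a c hac ζ
    by_contra hbig
    push Not at hbig
    set v := sv F a + ((ζ : Fˣ) : F) • sv F c with hv
    have hvc : TrvCond q v 1 := by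
      refine ⟨?_, by rw [one_pow, hneg]⟩
      rw [hv, herm_add_left, hF.herm_add_right, hF.herm_add_right, herm_smul_left, herm_smul_left,
        herm_smul_right, herm_smul_right, herm_sv hF, herm_sv hF, herm_sv hF, herm_sv hF]
      simp only [sv, Pi.single_eq_same, Pi.single_eq_of_ne hac, Pi.single_eq_of_ne (Ne.symm hac),
        mul_zero, mul_one, add_zero, zero_add, NU.mul_pow_eq]
      linear_combination h2
    have hcol : ∀ x y, (trv hF hvc).1 (sv F x) y = sv F x y + v x ^ q * v y := fun x y => by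
      rw [trv_apply, herm_one_single]; simp
    have hva : v a = 1 := by simp [hv, Pi.single_eq_of_ne hac]
    have hvc' : v c = ((ζ : Fˣ) : F) := by simp [hv, Pi.single_eq_of_ne (Ne.symm hac)]
    have hv0 : ∀ y, y ≠ a → y ≠ c → v y = 0 := fun y h1 h2 => by
      simp [hv, Pi.single_eq_of_ne h1, Pi.single_eq_of_ne h2]
    have hmono : MonU (trv hF hvc) := by
      intro x
      rcases eq_or_ne x a with hxa | hxa
      · refine ⟨c, fun y hy => ?_⟩
        rw [hcol, hxa, hva, one_pow, one_mul]
        rcases eq_or_ne y a with hya | hya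
        · rw [hya, hva]; simp; linear_combination h2
        · rw [hv0 y hya hy]; simp [Pi.single_eq_of_ne hya]
      rcases eq_or_ne x c with hxc | hxc
      · refine ⟨a, fun y hy => ?_⟩
        rw [hcol, hxc, hvc']
        rcases eq_or_ne y c with hyc | hyc
        · rw [hyc, hvc']; simp; linear_combination NU.mul_pow_eq ζ + h2
        · rw [hv0 y hy hyc]; simp [Pi.single_eq_of_ne hyc]
      · refine ⟨x, fun y hy => ?_⟩
        rw [hcol, hv0 x hxa hxc, zero_pow hF.q_ne_zero, zero_mul, add_zero]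
        exact Pi.single_eq_of_ne hy _
    have hM : g * trv hF hvc * g⁻¹ ∈ M :=
      mul_mem (mul_mem hg (H.mon _ (det_uni hF _) hmono)) (inv_mem hg)
    have hwc : TrvCond q (g.1 v) 1 := ⟨by rw [UG_app]; exact hvc.1, hvc.2⟩
    refine hcon (g.1 v) (by rw [hv, map_add, map_smul]; omega) hwc ?_
    convert hM using 1
    refine Subtype.ext (LinearEquiv.ext fun w => ?_)
    rw [Subgroup.coe_mul, Subgroup.coe_mul, LinearEquiv.mul_apply, LinearEquiv.mul_apply, trv_apply,
      trv_apply, map_add g.1 ((g⁻¹ : UG n F q).1 w), map_smul g.1, app_inv hF,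
      ← UG_app g ((g⁻¹ : UG n F q).1 w) v, app_inv hF]
  have hiso2 : ∀ a c, a ≠ c → ∀ ζ : NU F q,
      (supp (g.1 (sv F a) + ((ζ : Fˣ) : F) • g.1 (sv F c))).card = 2 := by
    intro a c hac ζ
    refine le_antisymm (hsmall a c hac ζ) ?_
    by_contra hc
    push Not at hc
    set w := g.1 (sv F a) + ((ζ : Fˣ) : F) • g.1 (sv F c) with hw
    have hwv : w = g.1 (sv F a + ((ζ : Fˣ) : F) • sv F c) := by rw [map_add, map_smul]
    have hw0 : herm q w w = 0 := by
      rw [hwv, UG_app, herm_add_left, hF.herm_add_right, hF.herm_add_right, herm_smul_left,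
        herm_smul_left, herm_smul_right, herm_smul_right, herm_sv hF, herm_sv hF, herm_sv hF, herm_sv hF]
      simp only [sv, Pi.single_eq_same, Pi.single_eq_of_ne hac, Pi.single_eq_of_ne (Ne.symm hac),
        mul_zero, mul_one, add_zero, zero_add, NU.mul_pow_eq]
      linear_combination h2
    have hwne : w ≠ 0 := fun e => by
      rw [hwv, LinearEquiv.map_eq_zero_iff] at e
      simpa [Pi.single_eq_of_ne hac] using congrFun e a
    obtain ⟨x, hx⟩ := Function.ne_iff.1 hwne
    have hall : ∀ y, y ≠ x → w y = 0 := fun y hy => by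
      by_contra h0
      have : 1 < (supp w).card := Finset.one_lt_card.2 ⟨y, mem_supp.2 h0, x, mem_supp.2 hx, hy⟩
      omega
    rw [herm_def, Finset.sum_eq_single x (fun y _ hy => by rw [hall y hy, zero_mul]) (by simp)] at hw0
    exact hx ((mul_eq_zero.1 hw0).elim id (fun h => (pow_eq_zero_iff hF.q_ne_zero).1 h))
  -- three centres in the plane of two columns
  have hunion : ∀ a c, a ≠ c →
      ∃ T : Finset (Fin n), T.card ≤ 3 ∧ supp (g.1 (sv F a)) ⊆ T ∧ supp (g.1 (sv F c)) ⊆ T := by
    intro a c hac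
    haveI : Fintype F := Fintype.ofFinite F
    obtain ⟨ζ₁, ζ₂, ζ₃, -, -, -, h12, h13, h23⟩ := Finset.two_lt_card_iff.1
      (show 2 < (Finset.univ : Finset (NU F q)).card by
        rw [Finset.card_univ, fintype_card_NU hF]; have := hF.one_lt; omega)
    set y := g.1 (sv F a)
    set z := g.1 (sv F c)
    set s₁ : F := ((ζ₁ : Fˣ) : F)
    set s₂ : F := ((ζ₂ : Fˣ) : F)
    set s₃ : F := ((ζ₃ : Fˣ) : F)
    have h12' : s₁ - s₂ ≠ 0 := sub_ne_zero.2 fun e => h12 (Subtype.ext (Units.ext e))
    have h13' : s₁ - s₃ ≠ 0 := sub_ne_zero.2 fun e => h13 (Subtype.ext (Units.ext e))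
    have h23' : s₂ - s₃ ≠ 0 := sub_ne_zero.2 fun e => h23 (Subtype.ext (Units.ext e))
    set P₁ := supp (y + s₁ • z)
    set P₂ := supp (y + s₂ • z)
    have hz : supp z ⊆ P₁ ∪ P₂ := fun x hx => by
      by_contra h
      simp only [Finset.mem_union, P₁, P₂, mem_supp, not_or, not_not, Pi.add_apply, Pi.smul_apply,
        smul_eq_mul] at h
      exact mul_ne_zero h12' (mem_supp.1 hx) (by linear_combination h.1 - h.2)
    have hy : supp y ⊆ P₁ ∪ P₂ := fun x hx => by
      by_contra h
      simp only [Finset.mem_union, P₁, P₂, mem_supp, not_or, not_not, Pi.add_apply, Pi.smul_apply,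
        smul_eq_mul] at h
      refine mem_supp.1 hx ((mul_eq_zero.1 (show (s₁ - s₂) * y x = 0 by
        linear_combination s₁ * h.2 - s₂ * h.1)).resolve_left h12')
    refine ⟨P₁ ∪ P₂, ?_, hy, hz⟩
    by_contra hbig
    push Not at hbig
    have h1 : P₁.card = 2 := hiso2 a c hac ζ₁
    have h2' : P₂.card = 2 := hiso2 a c hac ζ₂
    have h3 : (supp (y + s₃ • z)).card = 2 := hiso2 a c hac ζ₃
    have hdisj : P₁ ∩ P₂ = ∅ := by
      by_contra h
      have := Finset.card_union_add_card_inter P₁ P₂
      have := Finset.card_pos.2 (Finset.nonempty_iff_ne_empty.2 h)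
      omega
    have hsub : P₁ ∪ P₂ ⊆ supp (y + s₃ • z) := fun x hx => by
      rw [mem_supp]
      intro e
      simp only [Pi.add_apply, Pi.smul_apply, smul_eq_mul] at e
      rcases Finset.mem_union.1 hx with hx1 | hx2
      · have hx2 : x ∉ P₂ := fun h => by
          have := Finset.mem_inter.2 ⟨hx1, h⟩
          simp [hdisj] at this
        simp only [P₁, P₂, mem_supp, not_not, Pi.add_apply, Pi.smul_apply, smul_eq_mul] at hx1 hx2
        have hzx := (mul_eq_zero.1 (show (s₂ - s₃) * z x = 0 by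
          linear_combination hx2 - e)).resolve_left h23'
        rw [hzx, mul_zero, add_zero] at e
        exact hx1 (by rw [hzx, e]; ring)
      · have hx1 : x ∉ P₁ := fun h => by
          have := Finset.mem_inter.2 ⟨h, hx2⟩
          simp [hdisj] at this
        simp only [P₁, P₂, mem_supp, not_not, Pi.add_apply, Pi.smul_apply, smul_eq_mul] at hx1 hx2
        have hzx := (mul_eq_zero.1 (show (s₁ - s₃) * z x = 0 by
          linear_combination hx1 - e)).resolve_left h13'
        rw [hzx, mul_zero, add_zero] at e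
        exact hx2 (by rw [hzx, e]; ring)
    have := Finset.card_le_card hsub
    omega
  -- orthogonal columns do not meet in a single coordinate
  set a₀ : Fin n := ⟨0, by omega⟩
  have htwo : ∀ a, 2 ≤ (supp (g.1 (sv F a))).card := fun a => by
    obtain ⟨x, -, hx⟩ := H.col_two hF hg hgm a a
    obtain ⟨y, hyx, hy⟩ := H.col_two hF hg hgm a x
    exact Finset.one_lt_card.2 ⟨y, mem_supp.2 hy, x, mem_supp.2 hx, hyx⟩
  have hmeet : ∀ a c, a ≠ c → ∀ x, supp (g.1 (sv F a)) ∩ supp (g.1 (sv F c)) ≠ {x} := by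
    intro a c hac x e
    have h0 := UG_app g (sv F a) (sv F c)
    rw [herm_sv hF, show sv F a c = 0 from Pi.single_eq_of_ne (Ne.symm hac) _, herm_def,
      Finset.sum_eq_single x (fun y _ hy => ?_) (by simp)] at h0
    · have hx : x ∈ supp (g.1 (sv F a)) ∩ supp (g.1 (sv F c)) := by rw [e]; simp
      rw [Finset.mem_inter, mem_supp, mem_supp] at hx
      exact mul_ne_zero hx.1 (pow_ne_zero _ hx.2) h0
    · by_contra hne
      have : y ∈ supp (g.1 (sv F a)) ∩ supp (g.1 (sv F c)) := by
        rw [Finset.mem_inter, mem_supp, mem_supp]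
        exact ⟨fun h => hne (by rw [h, zero_mul]), fun h => hne (by rw [h, zero_pow hF.q_ne_zero, mul_zero])⟩
      rw [e, Finset.mem_singleton] at this
      exact hy this
  have hmeet2 : ∀ a c, a ≠ c → 2 ≤ (supp (g.1 (sv F a)) ∩ supp (g.1 (sv F c))).card := by
    intro a c hac
    obtain ⟨T, hT, ha, hc⟩ := hunion a c hac
    have := Finset.card_le_card (Finset.union_subset ha hc)
    have := Finset.card_union_add_card_inter (supp (g.1 (sv F a))) (supp (g.1 (sv F c)))
    have := htwo a
    have := htwo c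
    by_contra h
    obtain ⟨x, hx⟩ := Finset.card_eq_one.1
      (show (supp (g.1 (sv F a)) ∩ supp (g.1 (sv F c))).card = 1 by omega)
    exact hmeet a c hac x hx
  have hexT : ∃ T : Finset (Fin n), T.card ≤ 3 ∧ ∀ a, supp (g.1 (sv F a)) ⊆ T := by
    by_cases h3 : ∃ a, 3 ≤ (supp (g.1 (sv F a))).card
    · obtain ⟨a, ha⟩ := h3
      obtain ⟨c, hc⟩ := Fintype.exists_ne_of_one_lt_card (by rw [Fintype.card_fin]; omega) a
      obtain ⟨T, hT, h1, h2'⟩ := hunion a c hc.symm
      refine ⟨supp (g.1 (sv F a)), (Finset.card_le_card h1).trans hT, fun b => ?_⟩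
      rcases eq_or_ne a b with rfl | hab
      · exact subset_rfl
      obtain ⟨T, hT, h1, h2'⟩ := hunion a b hab
      have : supp (g.1 (sv F a)) = T := Finset.eq_of_subset_of_card_le h1 (by omega)
      rwa [this]
    · push Not at h3
      refine ⟨supp (g.1 (sv F a₀)), by have := h3 a₀; omega, fun b => ?_⟩
      rcases eq_or_ne a₀ b with h | hab
      · rw [h]
      have := hmeet2 a₀ b hab
      have := h3 a₀
      have := h3 b
      have he : supp (g.1 (sv F a₀)) ∩ supp (g.1 (sv F b)) = supp (g.1 (sv F b)) :=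
        Finset.eq_of_subset_of_card_le Finset.inter_subset_right (by omega)
      exact fun x hx => Finset.mem_of_mem_inter_left (he.symm ▸ hx)
  obtain ⟨T, hT, hTa⟩ := hexT
  obtain ⟨b, -, hb⟩ := Finset.exists_mem_notMem_of_card_lt_card (s := T) (t := Finset.univ)
    (by rw [Finset.card_univ, Fintype.card_fin]; omega)
  have : sv F b b = (0 : F) := by
    have e := congrFun (app_inv hF g (sv F b)) b
    rw [← e, pi_eq_sum_univ' ((g⁻¹ : UG n F q).1 (sv F b)), map_sum, Finset.sum_apply]
    refine Finset.sum_eq_zero fun a _ => ?_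
    rw [map_smul, Pi.smul_apply]
    by_cases hx : g.1 (sv F a) b = 0
    · exact mul_eq_zero_of_right _ hx
    · exact absurd (hTa a (mem_supp.2 hx)) hb
  simp at this

theorem NoFix.false_even {g : UG n F q} (hg : g ∈ M) (hgm : ¬ MonU g) (hn : 12 ≤ n)
    (h2 : (2 : F) = 0) : False := by
  classical
  haveI : Finite F := hF.1
  haveI : Fintype F := Fintype.ofFinite F
  have hneg : ∀ x : F, -x = x := fun x => by linear_combination -x * h2
  obtain ⟨w, hw3, hc, hwM⟩ := H.exists_centre hF hg hgm (by omega) h2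
  have hfix : ∀ {w : Fin n → F} (hc : TrvCond q w 1), 3 ≤ (supp w).card → trv hF hc ∈ M → ∀ r, w r ≠ 0 :=
    fun {w} hc h3 hM r e => not_monU_trv hF one_ne_zero hc h3
      (H.nofix _ hM r 1 (by rw [trv_apply, herm_one_single, e, zero_pow hF.q_ne_zero]; simp))
  have hw0 := hfix hc hw3 hwM
  set N : Fin n → F := fun i => w i * w i ^ q
  have hN : ∀ i, N i ≠ 0 := fun i => mul_ne_zero (hw0 i) (pow_ne_zero _ (hw0 i))
  obtain ⟨r, hr⟩ : ∃ r, ∀ i, i ≠ r → 1 + N r ≠ 0 ∨ N i = 1 := by
    by_cases h : ∃ r, 1 + N r ≠ 0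
    · obtain ⟨r, hr⟩ := h
      exact ⟨r, fun i _ => Or.inl hr⟩
    · push Not at h
      exact ⟨⟨0, by omega⟩, fun i _ => Or.inr (by linear_combination h i - h2)⟩
  -- the equation
  set S := Finset.univ.filter fun x : Fin n → NU F q =>
    (∑ i, (N i * ((x i : Fˣ) : F))) + ((x r : Fˣ) : F) = 0 ∧ ∏ i, x i = 1 with hS
  have hbig : (q + 1) ^ n ≤ UCount.cst q n * q ^ 2 * (q + 1) * S.card := by
    by_cases hr1 : 1 + N r ≠ 0
    · refine le_trans (card_sum_prod_ge hF hn (Function.update N r (1 + N r)) (fun i => ?_) 0 1)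
        (Nat.mul_le_mul_left _ (le_of_eq ?_))
      · rcases eq_or_ne i r with rfl | hi
        · simpa using hr1
        · simpa [Function.update_of_ne hi] using hN i
      · congr 1
        refine Finset.filter_congr fun x _ => ?_
        rw [← Finset.add_sum_erase _ _ (Finset.mem_univ r),
          ← Finset.add_sum_erase _ (fun i => N i * ((x i : Fˣ) : F)) (Finset.mem_univ r),
          Finset.sum_congr rfl (fun i hi => by rw [Function.update_of_ne (Finset.ne_of_mem_erase hi)] :
            ∀ i ∈ Finset.univ.erase r, Function.update N r (1 + N r) i * ((x i : Fˣ) : F) =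
              N i * ((x i : Fˣ) : F)), Function.update_self]
        constructor <;> rintro ⟨h, h'⟩ <;> refine ⟨?_, h'⟩ <;> linear_combination h
    · push Not at hr1
      obtain ⟨m, rfl⟩ := Nat.exists_eq_add_of_le' (show 1 ≤ n by omega)
      have h12 : 11 ≤ m := by omega
      have hN1 : ∀ i, i ≠ r → N i = 1 := fun i hi => (hr i hi).resolve_left (not_not.2 hr1)
      have h := card_sum_ge hF h12 (fun _ => (1 : F)) (fun _ => one_ne_zero) 0
      have hle : (Finset.univ.filter fun x : Fin m → NU F q =>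
          ∑ i, (1 : F) * ((x i : Fˣ) : F) = 0).card ≤ S.card := by
        refine Finset.card_le_card_of_injOn (fun x => Fin.insertNth r (∏ i, x i)⁻¹ x) (fun x hx => ?_)
          (fun x _ y _ e => (Fin.insertNth_injective2 e).2)
        simp only [Finset.coe_filter, Finset.mem_univ, true_and, Set.mem_setOf_eq] at hx ⊢
        simp only [hS, Finset.coe_filter, Finset.mem_univ, true_and, Set.mem_setOf_eq]
        rw [Fin.sum_univ_succAbove _ r, Fin.prod_univ_succAbove _ r]
        simp only [Fin.insertNth_apply_same, Fin.insertNth_apply_succAbove]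
        refine ⟨?_, inv_mul_cancel _⟩
        have : ∀ i : Fin m, N (r.succAbove i) = 1 := fun i => hN1 _ (Fin.succAbove_ne r i)
        simp only [this] 
        linear_combination hx + ((((∏ i, x i)⁻¹ : NU F q) : Fˣ) : F) * hr1
      refine le_trans ?_ (Nat.mul_le_mul_right _ (Nat.mul_le_mul_right _
        (Nat.mul_le_mul_right (q ^ 2) (UCount.five_le_cst (q := q) (m + 1)))))
      calc (q + 1) ^ (m + 1) = (q + 1) ^ m * (q + 1) := pow_succ _ _
        _ ≤ 5 * q ^ 2 * S.card * (q + 1) :=
            Nat.mul_le_mul_right _ (h.trans (Nat.mul_le_mul_left _ hle))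
        _ = _ := by ring
  have hex : ∀ x ∈ S, ∃ p p' : Fin n, ∀ i, i ≠ p → i ≠ p' → ∀ j, j ≠ p → j ≠ p' → x i = x j := by
    intro x hx
    rw [hS, Finset.mem_filter] at hx
    set d := dia hF x
    have hdM : d ∈ M := mem_dia_of_prod hF H hx.2.2
    set z := (trv hF hc).1 (d.1 w) with hz
    have hzc : TrvCond q z 1 := ⟨by rw [hz, UG_app, UG_app]; exact hc.1, hc.2⟩
    have hzM : trv hF hzc ∈ M := by
      convert mul_mem (mul_mem (mul_mem hwM hdM) hwM) (inv_mem (mul_mem hwM hdM)) using 1
      refine Subtype.ext (LinearEquiv.ext fun v => ?_)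
      set p := trv hF hc * d
      have hz' : z = p.1 w := rfl
      rw [Subgroup.coe_mul, Subgroup.coe_mul, LinearEquiv.mul_apply, LinearEquiv.mul_apply,
        trv_apply, trv_apply, map_add, map_smul, app_inv hF, hz',
        ← UG_app p ((p⁻¹ : UG n F q).1 v) w, app_inv hF]
    set S' : F := herm q (d.1 w) w with hS'
    have hzi : ∀ i, z i = (((x i : Fˣ) : F) + S') * w i := fun i => by
      rw [hz, trv_apply, Pi.add_apply, dia_apply, Pi.smul_apply, smul_eq_mul, one_mul, ← hS']; ring
    have hzr : z r = 0 := by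
      rw [hzi, hS', herm_def]
      refine mul_eq_zero_of_left ?_ _
      rw [← hx.2.1, add_comm]
      congr 1
      exact Finset.sum_congr rfl fun i _ => by rw [dia_apply]; ring
    have hzs : (supp z).card ≤ 2 := by
      by_contra h
      exact hfix hzc (by omega) hzM r hzr
    obtain ⟨T, hT, hTc⟩ := Finset.exists_superset_card_eq (s := supp z) hzs
      (by rw [Fintype.card_fin]; omega : 2 ≤ Fintype.card (Fin n))
    obtain ⟨p, p', -, rfl⟩ := Finset.card_eq_two.1 hTc
    refine ⟨p, p', fun i hi hi' j hj hj' => Subtype.ext (Units.ext ?_)⟩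
    have key : ∀ i, i ≠ p → i ≠ p' → ((x i : Fˣ) : F) + S' = 0 := fun i h1 h2' => by
      by_contra hne
      have := hT (mem_supp.2 (show z i ≠ 0 by rw [hzi]; exact mul_ne_zero hne (hw0 i)))
      simp [h1, h2'] at this
    linear_combination key i hi hi' - key j hj hj'
  haveI : Nonempty (Fin n) := ⟨r⟩
  choose! p p' hpp using hex
  have hcard : S.card ≤ n ^ 2 * (q + 1) ^ 3 := by
    have hex2 : ∀ x, ∃ o : Fin n, o ≠ p x ∧ o ≠ p' x := fun x => by
      obtain ⟨o, -, ho⟩ := Finset.exists_mem_notMem_of_card_lt_card (s := ({p x, p' x} : Finset (Fin n)))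
        (t := Finset.univ) (Finset.card_le_two.trans_lt (by rw [Finset.card_univ, Fintype.card_fin]; omega))
      exact ⟨o, by simpa [not_or] using ho⟩
    choose o ho ho' using hex2
    calc S.card ≤ (Finset.univ : Finset ((Fin n × Fin n) × NU F q × NU F q × NU F q)).card := by
          refine Finset.card_le_card_of_injOn (fun x => ((p x, p' x), x (p x), x (p' x), x (o x)))
            (fun x _ => Finset.mem_univ _) fun x hx y hy e => ?_
          simp only [Prod.ext_iff] at e
          obtain ⟨⟨e1, e2⟩, e3, e4, e5⟩ := e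
          funext i
          rcases eq_or_ne i (p x) with rfl | hi
          · rw [e3, e1]
          rcases eq_or_ne i (p' x) with rfl | hi'
          · rw [e4, e2]
          rw [hpp x hx i hi hi' (o x) (ho x) (ho' x), e5,
            hpp y hy i (e1 ▸ hi) (e2 ▸ hi') (o y) (ho y) (ho' y)]
      _ = _ := by
          simp only [Finset.card_univ, Fintype.card_prod, Fintype.card_fin, fintype_card_NU hF]; ring
  have := card_lt_aux (q := q) (n := n) hF.one_lt hn S.card hcard
  omega

/-- Some non-monomial element fixes a frame line. -/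
theorem NoFix.eq_mon (hn : 12 ≤ n) : ∀ g ∈ M, MonU g := by
  intro g hg
  by_contra hgm
  by_cases h2 : (2 : F) = 0
  · exact H.false_even hF hg hgm hn h2
  · exact H.false_odd hF hg hgm hn h2

end Cfsg.Agent.DecompMax.UF
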