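import Cfsg.Agent.DecompMax.UnitSpread
import Cfsg.Agent.DecompMax.UnitNoFix

/-!
Overgroups of the monomial special unitary group in which only monomial elements fix a frame line, in
small dimensions: monomial elements close to the identity, zero entries, reflections.
-/

set_option autoImplicit false
set_option linter.style.haveILetI false
set_option linter.unusedSectionVars false

namespace Cfsg.Agent.DecompMax.UF

open Matrix Cfsg.Geo Module Cfsg.Agent.Classical.U Cfsg.Agent.DecompMax.UCount Cfsg.Agent.DecompMax.UN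
open scoped MatrixGroups Matrix

universe u

variable {F : Type u} [Field F] {n q : ℕ}

/-- Scaling of one coordinate. -/
noncomputable def rf (hF : SqField F q) (b : Fin n) (ω : NU F q) : UG n F q :=
  dia hF (Function.update 1 b ω)

/-- The scalar isometries. -/
noncomputable def sc (hF : SqField F q) (lam : NU F q) : UG n F q := dia hF fun _ => lam

variable (hF : SqField F q)
include hF

theorem rf_apply (b : Fin n) (ω : NU F q) (v : Fin n → F) :
    (rf hF b ω).1 v = v + ((((ω : Fˣ) : F) - 1) * v b) • sv F b := by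
  funext x
  rw [rf, dia_apply, Pi.add_apply, Pi.smul_apply, smul_eq_mul]
  rcases eq_or_ne x b with rfl | hx
  · simp; ring
  · simp [Function.update_of_ne hx, Pi.single_eq_of_ne hx]

theorem rf_sv (b : Fin n) (ω : NU F q) : (rf hF b ω).1 (sv F b) = ((ω : Fˣ) : F) • sv F b := by
  rw [rf_apply]; simp; module

/-- Conjugates of scalings of one coordinate. -/
theorem conj_rf_apply (g : UG n F q) (b : Fin n) (ω : NU F q) (v : Fin n → F) :
    (g * rf hF b ω * g⁻¹).1 v =
      v + ((((ω : Fˣ) : F) - 1) * herm q v (g.1 (sv F b))) • g.1 (sv F b) := by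
  rw [Subgroup.coe_mul, Subgroup.coe_mul, LinearEquiv.mul_apply, LinearEquiv.mul_apply, rf_apply, map_add,
    map_smul, app_inv hF, ← herm_sv hF ((g⁻¹ : UG n F q).1 v) b,
    ← UG_app g ((g⁻¹ : UG n F q).1 v) (sv F b), app_inv hF]

theorem rf_pow (b : Fin n) (ω : NU F q) (i : ℕ) : rf hF b ω ^ i = rf hF b (ω ^ i) := by
  induction i with
  | zero =>
    rw [pow_zero, pow_zero]
    refine eq_of_apply_single fun j => ?_
    rw [rf_apply]; simp
  | succ i ih =>
    rw [pow_succ, pow_succ, ih]
    refine eq_of_apply_single fun j => ?_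
    rw [Subgroup.coe_mul, LinearEquiv.mul_apply, rf_apply, rf_apply, rf_apply, Subgroup.coe_mul, Units.val_mul]
    rcases eq_or_ne j b with rfl | hj
    · simp; module
    · simp [Pi.single_eq_of_ne (Ne.symm hj)]

theorem rf_one (b : Fin n) : rf hF b 1 = 1 := by
  have := rf_pow hF b 1 0
  simpa using this.symm

theorem sc_apply (lam : NU F q) (v : Fin n → F) : (sc hF lam).1 v = ((lam : Fˣ) : F) • v := by
  funext x; rw [sc, dia_apply]; rfl

theorem sc_comm (lam : NU F q) (g : UG n F q) : sc hF lam * g = g * sc hF lam := by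
  refine eq_of_apply_single fun j => ?_
  rw [Subgroup.coe_mul, Subgroup.coe_mul, LinearEquiv.mul_apply, LinearEquiv.mul_apply, sc_apply, sc_apply,
    map_smul]

theorem MonU.inv' {g : UG n F q} (h : MonU g) : MonU (g⁻¹ : UG n F q) := by
  obtain ⟨π, l, rfl⟩ := h.exists_eq hF
  intro j
  refine ⟨π.symm j, fun x hx => ?_⟩
  rw [inv_apply_coord hF, mon_sv, Pi.smul_apply,
    show sv F (π x) j = 0 from Pi.single_eq_of_ne (fun e => hx (by rw [e, Equiv.symm_apply_apply])) _,
    smul_zero, zero_pow hF.q_ne_zero]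

/-- A monomial element close to the identity moves at most twice as many coordinates. -/
theorem MonU.moved' {g : UG n F q} (h : MonU g) {W : Submodule F (Fin n → F)}
    (hW : ∀ v, g.1 v - v ∈ W) :
    ∃ J : Finset (Fin n), J.card ≤ 2 * finrank F W ∧ ∀ v l, l ∉ J → g.1 v l = v l := by
  classical
  obtain ⟨π, l, rfl⟩ := h.exists_eq hF
  set J : Finset (Fin n) := Finset.univ.filter fun i => π i ≠ i ∨ ((l i : Fˣ) : F) ≠ 1
  refine ⟨J, ?_, fun v x hx => ?_⟩
  swap
  · simp only [J, Finset.mem_filter, Finset.mem_univ, true_and, not_or, not_not] at hx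
    have := mon_apply hF π l v x
    rwa [hx.1, hx.2, one_mul] at this
  -- leave out the least point of every cycle
  set C : Finset (Fin n) := J.filter fun x => π x ≠ x ∧ ∀ k : ℕ, x ≤ (π ^ k) x
  set I := J \ C
  have hCI : C.card ≤ I.card := by
    refine Finset.card_le_card_of_injOn π (fun x hx => ?_) (fun x _ y _ e => π.injective e)
    simp only [C, Finset.coe_filter, Set.mem_setOf_eq] at hx
    simp only [I, C, J, Finset.coe_sdiff, Set.mem_diff, Finset.mem_coe, Finset.mem_filter,
      Finset.mem_univ, true_and]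
    refine ⟨Or.inl fun e => hx.2.1 (π.injective e), fun hπx => hx.2.1 ?_⟩
    have h1 : x ≤ π x := by simpa using hx.2.2 1
    obtain ⟨k, hk⟩ : ∃ k : ℕ, (π ^ k) (π x) = x := by
      refine ⟨orderOf π - 1, ?_⟩
      rw [← Equiv.Perm.mul_apply, ← pow_succ, Nat.sub_add_cancel (orderOf_pos π), pow_orderOf_eq_one]
      rfl
    have h2 := hπx.2.2 k
    rw [hk] at h2
    exact le_antisymm h2 h1
  have hJI : J.card ≤ 2 * I.card := by
    have := Finset.card_sdiff_add_card_eq_card (Finset.filter_subset
      (fun x => π x ≠ x ∧ ∀ k : ℕ, x ≤ (π ^ k) x) J)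
    simp only [I, C] at hCI ⊢
    omega
  have hmem : ∀ x, ((l x : Fˣ) : F) • sv F (π x) - sv F x ∈ W := fun x => by
    simpa [mon_sv] using hW (sv F x)
  have hli : LinearIndependent F fun x : I => (⟨_, hmem x⟩ : W) := by
    rw [Fintype.linearIndependent_iff]
    intro c hc
    let c' : Fin n → F := fun x => if hx : x ∈ I then c ⟨x, hx⟩ else 0
    have key : ∀ z, c' z * ((l z : Fˣ) : F) = c' (π z) := fun z => by
      have e := congrFun (congrArg (fun w : W => (w : Fin n → F)) hc) (π z)
      simp only [Submodule.coe_sum, Submodule.coe_smul, Submodule.coe_zero, Finset.sum_apply,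
        Pi.smul_apply, Pi.sub_apply, smul_eq_mul, Pi.zero_apply, mul_sub, Finset.sum_sub_distrib] at e
      rw [sub_eq_zero] at e
      have e1 : ∑ x : I, c x * (((l x.1 : Fˣ) : F) * sv F (π x.1) (π z)) = c' z * ((l z : Fˣ) : F) := by
        by_cases hz : z ∈ I
        · rw [Finset.sum_eq_single ⟨z, hz⟩ (fun x _ hx => by
            rw [show sv F (π x.1) (π z) = 0 from Pi.single_eq_of_ne (fun e => hx (Subtype.ext (π.injective e).symm)) _]
            ring) (by simp)]
          simp [c', hz]
        · rw [Finset.sum_eq_zero fun x _ => by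
            rw [show sv F (π x.1) (π z) = 0 from Pi.single_eq_of_ne (fun e => hz (by rw [π.injective e]; exact x.2)) _]
            ring]
          simp [c', hz]
      have e2 : ∑ x : I, c x * sv F x.1 (π z) = c' (π z) := by
        by_cases hz : π z ∈ I
        · rw [Finset.sum_eq_single ⟨π z, hz⟩ (fun x _ hx => by
            rw [show sv F x.1 (π z) = 0 from Pi.single_eq_of_ne (fun e => hx (Subtype.ext e.symm)) _]
            ring) (by simp)]
          simp [c', hz]
        · rw [Finset.sum_eq_zero fun x _ => by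
            rw [show sv F x.1 (π z) = 0 from Pi.single_eq_of_ne (fun e => hz (by rw [e]; exact x.2)) _]
            ring]
          simp [c', hz]
      rw [← e1, ← e2]; exact e
    intro x
    obtain ⟨x, hx⟩ := x
    have hxJ : x ∈ J := (Finset.mem_sdiff.1 hx).1
    suffices c' x = 0 by simpa [c', hx] using this
    by_cases hπ : π x = x
    · have h1 : ((l x : Fˣ) : F) ≠ 1 := by
        simpa [J, hπ] using hxJ
      have := key x
      rw [hπ] at this
      exact (mul_eq_zero.1 (show c' x * (((l x : Fˣ) : F) - 1) = 0 by linear_combination this)).resolve_right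
        (sub_ne_zero.2 h1)
    · -- the least point of the cycle
      obtain ⟨m, hm, hmin⟩ := (Finset.univ.filter fun y => ∃ k : ℕ, (π ^ k) x = y).exists_min_image id
        ⟨x, by simpa using ⟨0, rfl⟩⟩
      obtain ⟨k₀, hk₀⟩ := (Finset.mem_filter.1 hm).2
      have hmπ : π m ≠ m := fun e => hπ (by
        have : (π ^ k₀) (π x) = (π ^ k₀) x := by
          rw [← Equiv.Perm.mul_apply, ← pow_succ, pow_succ', Equiv.Perm.mul_apply, hk₀, e]
        exact (π ^ k₀).injective this)
      have hmC : m ∈ C := by
        simp only [C, J, Finset.mem_filter, Finset.mem_univ, true_and]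
        refine ⟨Or.inl hmπ, hmπ, fun k => ?_⟩
        exact hmin _ (Finset.mem_filter.2 ⟨Finset.mem_univ _, k + k₀, by
          rw [pow_add, Equiv.Perm.mul_apply, hk₀]⟩)
      have h0 : ∀ k : ℕ, c' ((π ^ k) m) = 0 := by
        intro k
        induction k with
        | zero => simp [c', I, hmC]
        | succ k ih => rw [pow_succ', Equiv.Perm.mul_apply, ← key, ih, zero_mul]
      obtain ⟨k, hk⟩ : ∃ k : ℕ, (π ^ k) m = x := by
        refine ⟨(orderOf π - 1) * k₀, ?_⟩
        rw [← hk₀, ← Equiv.Perm.mul_apply, ← pow_add,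
          show (orderOf π - 1) * k₀ + k₀ = orderOf π * k₀ by
            have := orderOf_pos π
            rw [← Nat.succ_mul, Nat.succ_eq_add_one, Nat.sub_add_cancel this],
          pow_mul, pow_orderOf_eq_one, one_pow]
        rfl
      rw [← hk]; exact h0 k
  have := hli.fintype_card_le_finrank
  rw [Fintype.card_coe] at this
  omega

/-- A monomial element differing from the identity by multiples of `w` has two entries in `w`. -/
theorem MonU.supp_le_two {g : UG n F q} (h : MonU g) {w : Fin n → F} {φ : (Fin n → F) → F}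
    (hg : ∀ v, g.1 v = v + φ v • w) {v : Fin n → F} (hv : φ v ≠ 0) : (supp w).card ≤ 2 := by
  classical
  obtain ⟨J, hJ, hJ'⟩ := h.moved' hF (W := F ∙ w) fun v => by
    rw [hg, add_sub_cancel_left]; exact Submodule.smul_mem _ _ (Submodule.mem_span_singleton_self w)
  refine le_trans (Finset.card_le_card fun x hx => ?_) (hJ.trans ?_)
  · by_contra hxJ
    have e := hJ' v x hxJ
    rw [hg, Pi.add_apply, add_eq_left, Pi.smul_apply, smul_eq_mul] at e
    exact mul_ne_zero hv (mem_supp.1 hx) e
  · have : finrank F (F ∙ w) ≤ 1 := by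
      rcases eq_or_ne w 0 with rfl | hw
      · rw [Submodule.span_zero_singleton, finrank_bot]; omega
      · rw [finrank_span_singleton hw]
    omega

variable {M : Subgroup (UG n F q)} (H : NoFix M)
include H

/-- A column has at most one zero entry. -/
theorem NoFix.two_zeros {g : UG n F q} (hg : g ∈ M) (hgm : ¬ MonU g) (hq : 3 ≤ q) (hn : 5 ≤ n)
    {k b b' : Fin n} (hbb : b ≠ b') (hb : g.1 (sv F k) b = 0) (hb' : g.1 (sv F k) b' = 0) : False := by
  classical
  obtain ⟨i, j, -, h1, -⟩ := H.pair_rows hF hg hgm hq hbb hb hb'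
  have hgm' : ¬ MonU (g⁻¹ : UG n F q) := fun h => hgm (by simpa using h.inv' hF)
  obtain ⟨x, y, z, hx, hy, hz, hxy, hxz, hyz⟩ := Finset.two_lt_card_iff.1
    (show 2 < ({i, j} : Finset (Fin n))ᶜ.card by
      rw [Finset.card_compl, Fintype.card_fin]
      have := Finset.card_le_two (a := i) (b := j)
      omega)
  simp only [Finset.mem_compl, Finset.mem_insert, Finset.mem_singleton, not_or] at hx hy hz
  exact H.three_zeros hF (inv_mem hg) hgm' hq hxy hxz hyz (h1 x hx.1 hx.2) (h1 y hy.1 hy.2) (h1 z hz.1 hz.2)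

/-- No column has a zero entry when a reflection lies in the group. -/
theorem NoFix.full_of_rf (hn : 5 ≤ n) {ω : NU F q} (hω : ω ≠ 1) (hr : ∀ b, rf hF b ω ∈ M)
    {g : UG n F q} (hg : g ∈ M) (hgm : ¬ MonU g) (k b : Fin n) : g.1 (sv F k) b ≠ 0 := by
  classical
  intro hb
  have hgm' : ¬ MonU (g⁻¹ : UG n F q) := fun h => hgm (by simpa using h.inv' hF)
  set m := (g⁻¹ : UG n F q) * rf hF b ω * g
  have hmM : m ∈ M := mul_mem (mul_mem (inv_mem hg) (hr b)) hg
  set r := (g⁻¹ : UG n F q).1 (sv F b)
  have hmv : ∀ v, m.1 v = v + ((((ω : Fˣ) : F) - 1) * herm q v r) • r := fun v => by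
    have := conj_rf_apply hF (g⁻¹) b ω v
    rwa [inv_inv] at this
  have hkr : herm q (sv F k) r = 0 := by
    rw [herm_one_single, show r k = _ from inv_apply_coord hF g k b, hb]
    simp [hF.q_ne_zero]
  have hm : MonU m := H.nofix m hmM k 1 (by rw [one_smul, hmv, hkr]; simp)
  have hrr : herm q r r = 1 := by rw [UG_app, herm_sv hF]; simp
  have h2 : (supp r).card ≤ 2 := hm.supp_le_two hF hmv (v := r) (by
    rw [hrr, mul_one]
    exact sub_ne_zero.2 fun e => hω (Subtype.ext (Units.ext e)))
  rcases Nat.lt_or_ge q 3 with hq | hq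
  · -- no two entries have norms summing to one
    have hq2 : q = 2 := by have := hF.one_lt; omega
    obtain ⟨x, hx⟩ : ∃ x, ∀ y ∈ supp r, y = x := by
      rcases Nat.lt_or_ge (supp r).card 2 with h | h
      · rcases (supp r).eq_empty_or_nonempty with e | ⟨i, hi⟩
        · exact ⟨k, fun l hl => by rw [e] at hl; simp at hl⟩
        · exact ⟨i, fun l hl => Finset.card_le_one.1 (by omega) l hl i hi⟩
      · exfalso
        obtain ⟨i, j, hij, he⟩ := Finset.card_eq_two.1 (le_antisymm h2 h)
        have hone : ∀ z ∈ supp r, r z * r z ^ q = 1 := fun z hz => by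
          have h1 : (r z * r z ^ q) ^ q = r z * r z ^ q := norm_fixed hF _
          have h0 := mul_ne_zero (mem_supp.1 hz) (pow_ne_zero q (mem_supp.1 hz))
          rw [hq2, sq] at h1
          rw [hq2]
          exact (mul_eq_right₀ (hq2 ▸ h0)).1 h1
        rw [herm_of_supp hF he.le, Finset.sum_pair hij, hone i (by rw [he]; simp),
          hone j (by rw [he]; simp)] at hrr
        have : (1 : F) = 0 := by linear_combination hrr
        exact one_ne_zero this
    refine hgm' (H.single hF (inv_mem hg) (k := b) (j := x) (c := r x) (funext fun y => ?_))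
    show r y = _
    rcases eq_or_ne y x with rfl | hy
    · simp
    · have : r y = 0 := by by_contra hry; exact hy (hx y (mem_supp.2 hry))
      simp [this, Pi.single_eq_of_ne hy]
  · obtain ⟨x, y, z, hx, hy, hz, hxy, hxz, hyz⟩ := Finset.two_lt_card_iff.1
      (show 2 < (supp r)ᶜ.card by rw [Finset.card_compl, Fintype.card_fin]; omega)
    simp only [Finset.mem_compl, mem_supp, not_not] at hx hy hz
    exact H.three_zeros hF (inv_mem hg) hgm' hq hxy hxz hyz hx hy hz

omit H

/-- The group generated by `M` and the scalars. -/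
noncomputable def plus (M : Subgroup (UG n F q)) : Subgroup (UG n F q) where
  carrier := {g | ∃ lam : NU F q, sc hF lam * g ∈ M}
  one_mem' := ⟨1, by
    rw [show sc hF (1 : NU F q) * (1 : UG n F q) = (1 : UG n F q) from
      eq_of_apply_single fun j => by rw [mul_one, sc_apply]; simp]
    exact one_mem M⟩
  mul_mem' := by
    rintro a c ⟨s, hs⟩ ⟨t, ht⟩
    refine ⟨s * t, ?_⟩
    have e : sc hF (s * t) * (a * c) = (sc hF s * a) * (sc hF t * c) := by
      refine eq_of_apply_single fun j => ?_
      simp only [Subgroup.coe_mul, LinearEquiv.mul_apply, sc_apply, map_smul, smul_smul, Units.val_mul]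
      rw [mul_comm]
    rw [e]; exact mul_mem hs ht
  inv_mem' := by
    rintro a ⟨s, hs⟩
    refine ⟨s⁻¹, ?_⟩
    have h1 : sc (n := n) hF s⁻¹ = (sc hF s)⁻¹ := by
      refine eq_inv_of_mul_eq_one_left (eq_of_apply_single fun j => ?_)
      rw [Subgroup.coe_mul, LinearEquiv.mul_apply, sc_apply, sc_apply, smul_smul, ← Units.val_mul,
        ← Subgroup.coe_mul, inv_mul_cancel]
      simp
    rw [h1, ← _root_.mul_inv_rev, ← sc_comm]
    exact inv_mem hs

include H

theorem NoFix.plus : NoFix (plus hF M) where
  mon g hg hgm := ⟨1, by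
    rw [show sc hF (1 : NU F q) * g = g from eq_of_apply_single fun j => by
      rw [Subgroup.coe_mul, LinearEquiv.mul_apply, sc_apply]; simp]
    exact H.mon g hg hgm⟩
  nofix g := by
    rintro ⟨s, hs⟩ k c hc j
    obtain ⟨i, hi⟩ := H.nofix _ hs k (((s : Fˣ) : F) * c) (by
      rw [Subgroup.coe_mul, LinearEquiv.mul_apply, sc_apply, hc, smul_smul]) j
    refine ⟨i, fun l hl => ?_⟩
    have := hi l hl
    rw [Subgroup.coe_mul, LinearEquiv.mul_apply, sc_apply, Pi.smul_apply, smul_eq_mul] at this
    exact (mul_eq_zero.1 this).resolve_left (NU.ne_zero s)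

/-- Reflections in the enlarged group. -/
theorem NoFix.rf_mem_plus (μ : NU F q) (b : Fin n) : rf hF b (μ ^ n)⁻¹ ∈ UF.plus hF M := by
  refine ⟨μ, ?_⟩
  have e : sc hF μ * rf hF b (μ ^ n)⁻¹ = dia hF (fun i => μ * Function.update (1 : Fin n → NU F q) b (μ ^ n)⁻¹ i) := by
    refine eq_of_apply_single fun j => funext fun x => ?_
    rw [Subgroup.coe_mul, LinearEquiv.mul_apply, sc_apply, dia_apply, Pi.smul_apply, smul_eq_mul, rf,
      dia_apply, Subgroup.coe_mul, Units.val_mul, mul_assoc]
  rw [e]
  refine H.mon _ (dia_mem_SUG hF ?_) (monU_mon hF _ _)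
  classical
  rw [Finset.prod_mul_distrib, Finset.prod_const, Finset.card_univ, Fintype.card_fin,
    Finset.prod_eq_single b (fun c _ hc => Function.update_of_ne hc _ _) (by simp), Function.update_self,
    mul_inv_cancel]

end Cfsg.Agent.DecompMax.UF
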