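import Cfsg.Agent.DecompMax.UnitFix

/-!
A group of isometries in which only monomial elements fix a frame line contains no sign change of one
coordinate: dihedral groups.
-/

set_option autoImplicit false
set_option linter.style.haveILetI false
set_option linter.unusedSectionVars false

namespace Cfsg.Agent.DecompMax.UF

open Matrix Cfsg.Geo Module Cfsg.Agent.Classical.U Cfsg.Agent.DecompMax.UCount Cfsg.Agent.DecompMax.UN
open scoped MatrixGroups Matrix

universe u

variable {F : Type u} [Field F] {n q : ℕ} (hF : SqField F q)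
include hF

/-- The norm-one element minus one. -/
def NU.negOne : NU F q := NU.mk (-1) (by rw [hF.neg_pow, one_pow]; ring)

theorem pair_neg_apply (_h2 : (2 : F) ≠ 0) {b c : Fin n} (hbc : b ≠ c) (v : Fin n → F) :
    (dia hF (pairFun b c (NU.negOne hF))).1 v = v + ((-2 : F) * v b) • sv F b + ((-2 : F) * v c) • sv F c := by
  have e := dia_pair_sub hF b c hbc (NU.negOne hF) v
  have h1 : (((NU.negOne hF : NU F q) : Fˣ) : F) = -1 := rfl
  have h1' : ((((NU.negOne hF)⁻¹ : NU F q) : Fˣ) : F) = -1 := by
    rw [Subgroup.coe_inv, Units.val_inv_eq_inv_val, h1]; simp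
  rw [h1, h1'] at e
  rw [eq_add_of_sub_eq e]
  module

variable {M : Subgroup (UG n F q)} (H : NoFix M) (hn : 5 ≤ n) (h2 : (2 : F) ≠ 0)
  (hr : ∀ b, rf hF b (NU.negOne hF) ∈ M)
include H hn h2 hr

/-- All entries of a column have norms equal. -/
theorem NoFix.norm_eq_of_neg {g : UG n F q} (hg : g ∈ M) (hgm : ¬ MonU g) (k : Fin n) {b c : Fin n}
    (hbc : b ≠ c) :
    g.1 (sv F k) b * g.1 (sv F k) b ^ q = g.1 (sv F k) c * g.1 (sv F k) c ^ q := by
  classical
  haveI : Finite F := hF.1
  haveI : Finite (UG n F q) := Finite.of_injective (fun g => (g.1 : (Fin n → F) → (Fin n → F)))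
    fun g g' e => Subtype.ext (LinearEquiv.ext fun w => congrFun e w)
  have hne : NU.negOne hF ≠ 1 := fun e => h2 (by
    have := congrArg (fun x : NU F q => ((x : Fˣ) : F)) e
    have h : (-1 : F) = 1 := by simpa [NU.negOne] using this
    linear_combination -h)
  have hfull := fun {g : UG n F q} (hg : g ∈ M) (hgm : ¬ MonU g) => H.full_of_rf hF hn hne hr hg hgm
  have h2' : (-2 : F) ≠ 0 := neg_ne_zero.2 h2
  set v := g.1 (sv F k)
  have hv0 : ∀ i, v i ≠ 0 := hfull hg hgm k
  have hvv : herm q v v = 1 := by rw [UG_app, herm_sv hF]; simp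
  set t := dia hF (pairFun b c (NU.negOne hF))
  set r := g * rf hF k (NU.negOne hF) * g⁻¹
  have htM : t ∈ M := H.dia_pair_mem hF hbc _
  have hrM : r ∈ M := mul_mem (mul_mem hg (hr k)) (inv_mem hg)
  have ht : ∀ w, t.1 w = w + ((-2 : F) * w b) • sv F b + ((-2 : F) * w c) • sv F c :=
    pair_neg_apply hF h2 hbc
  have hrv : ∀ w, r.1 w = w + ((-2 : F) * herm q w v) • v := fun w => by
    rw [conj_rf_apply]
    show w + (((-1 : F) - 1) * herm q w v) • v = _
    norm_num
  have htt : t * t = 1 := eq_of_apply_single fun j => by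
    rw [Subgroup.coe_mul, LinearEquiv.mul_apply, ht, ht (sv F j)]
    show _ = sv F j
    simp only [Pi.add_apply, Pi.smul_apply, smul_eq_mul, sv, Pi.single_eq_same,
      Pi.single_eq_of_ne hbc, Pi.single_eq_of_ne (Ne.symm hbc)]
    module
  have hrr : r * r = 1 := eq_of_apply_single fun j => by
    rw [Subgroup.coe_mul, LinearEquiv.mul_apply, hrv, hrv (sv F j), herm_add_left, herm_smul_left, hvv]
    show _ = sv F j
    module
  -- the product has even order, by determinants
  set y := t * r
  have heven : Even (orderOf y) := by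
    have e1 : ((LinearEquiv.det t.1 : Fˣ) : F) = 1 := by
      rw [show t = UF.mon hF 1 (pairFun b c (NU.negOne hF)) from rfl, det_mon, ← NU.coe_prod,
        prod_pairFun hbc]
      simp
    have e2 : ((LinearEquiv.det r.1 : Fˣ) : F) = -1 := by
      have : ((LinearEquiv.det (rf hF k (NU.negOne hF)).1 : Fˣ) : F) = -1 := by
        rw [rf, dia, det_mon, Finset.prod_eq_single k (fun j _ hj => by
          rw [Function.update_of_ne hj]; simp) (by simp), Function.update_self]
        simp [NU.negOne]
      simp only [r, Subgroup.coe_mul, map_mul, Subgroup.coe_inv, map_inv, Units.val_mul]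
      rw [this, Units.val_inv_eq_inv_val]
      have := Units.ne_zero (LinearEquiv.det g.1)
      field_simp
    have e3 := congrArg (fun p : UG n F q => ((LinearEquiv.det p.1 : Fˣ) : F)) (pow_orderOf_eq_one y)
    simp only [y, Subgroup.coe_pow, Subgroup.coe_mul, map_pow, map_mul, Units.val_pow_eq_pow_val,
      Units.val_mul, e1, e2, one_mul, Subgroup.coe_one, map_one, Units.val_one] at e3
    rcases Nat.even_or_odd (orderOf y) with h | h
    · exact h
    · rw [h.neg_one_pow] at e3
      exact absurd (show (2 : F) = 0 by linear_combination -e3) h2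
  obtain ⟨m, hm⟩ := heven
  have hy1 : y ≠ 1 := fun e => by rw [e, orderOf_one] at hm; omega
  have hm0 : 0 < m := by have := orderOf_pos y; omega
  set z := y ^ m
  have hzM : z ∈ M := pow_mem (mul_mem htM hrM) m
  have hzz : z * z = 1 := by rw [← pow_add, ← hm, pow_orderOf_eq_one]
  have hz1 : z ≠ 1 := fun e => by
    have := Nat.le_of_dvd hm0 (orderOf_dvd_of_pow_eq_one e)
    omega
  have hinv : z⁻¹ = z := inv_eq_of_mul_eq_one_left hzz
  have hyt : t * y * t⁻¹ = y⁻¹ := by
    rw [inv_eq_of_mul_eq_one_left htt]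
    refine eq_inv_of_mul_eq_one_left ?_
    simp only [y]
    rw [show t * (t * r) * t * (t * r) = t * t * r * (t * t) * r by group, htt]
    simpa using hrr
  have htz : t * z = z * t := by
    have := (conj_pow (i := m) (a := t) (b := y)).symm
    rw [hyt, inv_pow, hinv] at this
    calc t * z = t * y ^ m * t⁻¹ * t := by rw [inv_mul_cancel_right]
      _ = z * t := by rw [this]
  have hrz : r * z = z * r := by
    have hyr : r * y * r⁻¹ = y⁻¹ := by
      rw [inv_eq_of_mul_eq_one_left hrr]
      refine eq_inv_of_mul_eq_one_left ?_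
      simp only [y]
      rw [show r * (t * r) * r * (t * r) = r * (t * (r * r) * t) * r by group, hrr, mul_one, htt, mul_one]
      exact hrr
    have := (conj_pow (i := m) (a := r) (b := y)).symm
    rw [hyr, inv_pow, hinv] at this
    calc r * z = r * y ^ m * r⁻¹ * r := by rw [inv_mul_cancel_right]
      _ = z * r := by rw [this]
  -- the involution lives on the three vectors
  set W := Submodule.span F ({sv F b, sv F c, v} : Set (Fin n → F))
  have hW : ∀ p ∈ Subgroup.closure ({t, r} : Set (UG n F q)), ∀ w, p.1 w - w ∈ W := by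
    intro p hp
    have hsb : sv F b ∈ W := Submodule.subset_span (by simp)
    have hsc : sv F c ∈ W := Submodule.subset_span (by simp)
    have hsv : v ∈ W := Submodule.subset_span (by simp)
    induction hp using Subgroup.closure_induction with
    | mem a ha =>
      intro w
      simp only [Set.mem_insert_iff, Set.mem_singleton_iff] at ha
      rcases ha with rfl | rfl
      · rw [ht, add_assoc, add_sub_cancel_left]; exact W.add_mem (W.smul_mem _ hsb) (W.smul_mem _ hsc)
      · rw [hrv, add_sub_cancel_left]; exact W.smul_mem _ hsv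
    | one => intro w; simp
    | mul a d _ _ ha hd =>
      intro w
      rw [Subgroup.coe_mul, LinearEquiv.mul_apply]
      simpa using W.add_mem (ha (d.1 w)) (hd w)
    | inv a _ ha =>
      intro w
      have := W.neg_mem (ha ((a⁻¹ : UG n F q).1 w))
      rw [app_inv hF, neg_sub] at this
      exact this
  have hzW := hW z (pow_mem (mul_mem (Subgroup.subset_closure (by simp)) (Subgroup.subset_closure (by simp))) m)
  have hout : ∀ j, j ≠ b → j ≠ c → z.1 (sv F b) j = 0 := fun j hjb hjc => by
    have e := congrArg (fun p : UG n F q => p.1 (sv F b) j) htz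
    simp only [Subgroup.coe_mul, LinearEquiv.mul_apply] at e
    rw [ht, ht] at e
    simp [Pi.single_eq_of_ne hjb, Pi.single_eq_of_ne hjc, Pi.single_eq_of_ne (Ne.symm hbc), map_add] at e
    exact e.resolve_left h2
  have hzm : MonU z := by
    by_contra hzm
    obtain ⟨j, -, hj⟩ := Finset.exists_mem_notMem_of_card_lt_card (s := ({b, c} : Finset (Fin n)))
      (t := Finset.univ) (Finset.card_le_two.trans_lt (by rw [Finset.card_univ, Fintype.card_fin]; omega))
    simp only [Finset.mem_insert, Finset.mem_singleton, not_or] at hj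
    exact hfull hzM hzm b j (hout j hj.1 hj.2)
  obtain ⟨π, l, hzl⟩ := hzm.exists_eq hF
  have hfix : ∀ i, i ≠ b → i ≠ c → π i = i ∧ l i = 1 := by
    intro i hib hic
    have hmem := hzW (sv F i)
    rw [hzl, mon_sv] at hmem
    obtain ⟨α, w', hw', e⟩ := Submodule.mem_span_insert.1 hmem
    obtain ⟨β, w'', hw'', e'⟩ := Submodule.mem_span_insert.1 hw'
    obtain ⟨γ, rfl⟩ := Submodule.mem_span_singleton.1 hw''
    obtain ⟨j, -, hj⟩ := Finset.exists_mem_notMem_of_card_lt_card (s := ({b, c, i, π i} : Finset (Fin n)))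
      (t := Finset.univ) (Finset.card_le_four.trans_lt (by rw [Finset.card_univ, Fintype.card_fin]; omega))
    simp only [Finset.mem_insert, Finset.mem_singleton, not_or] at hj
    subst e'
    have hγ : γ = 0 := by
      have := congrFun e j
      simp [Pi.single_eq_of_ne hj.1, Pi.single_eq_of_ne hj.2.1, Pi.single_eq_of_ne hj.2.2.1,
        Pi.single_eq_of_ne hj.2.2.2, hv0 j] at this
      exact this
    have hi := congrFun e i
    simp [hγ, Pi.single_eq_of_ne hib, Pi.single_eq_of_ne hic] at hi
    by_cases hπ : π i = i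
    · refine ⟨hπ, Subtype.ext (Units.ext ?_)⟩
      rw [hπ] at hi
      simpa [sub_eq_zero] using hi
    · simp [Pi.single_eq_of_ne (Ne.symm hπ)] at hi
  -- and fixes the column
  have hzv : z.1 v = v := by
    have h := congrArg (fun p : UG n F q => p.1 v) hrz
    simp only [Subgroup.coe_mul, LinearEquiv.mul_apply, hrv, map_add, map_smul] at h
    rw [add_right_inj, hvv, mul_one] at h
    obtain ⟨j, -, hj⟩ := Finset.exists_mem_notMem_of_card_lt_card (s := ({b, c} : Finset (Fin n)))
      (t := Finset.univ) (Finset.card_le_two.trans_lt (by rw [Finset.card_univ, Fintype.card_fin]; omega))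
    simp only [Finset.mem_insert, Finset.mem_singleton, not_or] at hj
    have hj' : z.1 v j = v j := by
      have h0 := mon_apply hF π l v j
      rw [(hfix j hj.1 hj.2).1, (hfix j hj.1 hj.2).2, ← hzl] at h0
      simpa using h0
    have h2j := congrFun h j
    simp only [Pi.smul_apply, smul_eq_mul, hj'] at h2j
    have hone : herm q (z.1 v) v = 1 := by
      have := mul_right_cancel₀ (hv0 j) h2j
      exact mul_left_cancel₀ h2' (by rw [mul_one]; exact this)
    rw [hone, mul_one] at h
    exact (smul_right_injective (Fin n → F) h2' h).symm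
  have hcoord : ∀ i, ((l i : Fˣ) : F) * v i = v (π i) := fun i => by
    rw [← mon_apply hF π l v i, ← hzl, hzv]
  have hπb : π b = b ∨ π b = c := by
    by_contra hcon
    push Not at hcon
    exact hcon.1 (π.injective ((hfix _ hcon.1 hcon.2).1))
  rcases hπb with hb | hb
  · exfalso
    refine hz1 ?_
    rw [hzl]
    have hc : π c = c := by
      by_contra hc
      have hcb : π c ≠ b := fun e => hbc (π.injective (hb.trans e.symm))
      exact hc (π.injective (hfix _ hcb hc).1)
    refine eq_of_apply_single fun i => ?_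
    have hπi : π i = i := by
      rcases eq_or_ne i b with rfl | hib
      · exact hb
      rcases eq_or_ne i c with rfl | hic
      · exact hc
      exact (hfix i hib hic).1
    have hli : ((l i : Fˣ) : F) = 1 := by
      have := hcoord i
      rw [hπi] at this
      exact (mul_eq_right₀ (hv0 i)).1 this
    rw [mon_sv, hπi, hli, one_smul]; rfl
  · have := hcoord b
    rw [hb] at this
    show v b * v b ^ q = v c * v c ^ q
    rw [← this, mul_pow]
    linear_combination -(v b * v b ^ q) * NU.mul_pow_eq (l b)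

/-- No sign change of one coordinate. -/
theorem NoFix.false_of_neg {g : UG n F q} (hg : g ∈ M) (hgm : ¬ MonU g) : False := by
  classical
  have hne : NU.negOne hF ≠ 1 := fun e => h2 (by
    have := congrArg (fun x : NU F q => ((x : Fˣ) : F)) e
    have h : (-1 : F) = 1 := by simpa [NU.negOne] using this
    linear_combination -h)
  have hfull := fun {g : UG n F q} (hg : g ∈ M) (hgm : ¬ MonU g) => H.full_of_rf hF hn hne hr hg hgm
  have heq := fun {g : UG n F q} (hg : g ∈ M) (hgm : ¬ MonU g) (k b c : Fin n) =>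
    (em (b = c)).elim (fun e => by rw [e]) (H.norm_eq_of_neg hF hn h2 hr hg hgm k (b := b) (c := c))
  set i₀ : Fin n := ⟨0, by omega⟩
  set i₁ : Fin n := ⟨1, by omega⟩
  set i₂ : Fin n := ⟨2, by omega⟩
  have h10 : i₁ ≠ i₀ := by simp [i₀, i₁, Fin.ext_iff]
  have h12 : i₁ ≠ i₂ := by simp [i₁, i₂, Fin.ext_iff]
  set v := g.1 (sv F i₀)
  have hv0 : ∀ i, v i ≠ 0 := hfull hg hgm i₀
  have hvv : herm q v v = 1 := by rw [UG_app, herm_sv hF]; simp
  set N := v i₀ * v i₀ ^ q
  have hN : N ≠ 0 := mul_ne_zero (hv0 _) (pow_ne_zero _ (hv0 _))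
  -- the column of the conjugate reflection
  set r := g * rf hF i₀ (NU.negOne hF) * g⁻¹
  have hrv : ∀ w, r.1 w = w + ((-2 : F) * herm q w v) • v := fun w => by
    rw [conj_rf_apply]
    show w + (((-1 : F) - 1) * herm q w v) • v = _
    norm_num
  have hrm : ¬ MonU r := fun hm => by
    have h3 := hm.supp_le_two hF hrv (v := v) (by rw [hvv, mul_one]; exact neg_ne_zero.2 h2)
    rw [show supp v = Finset.univ from Finset.eq_univ_of_forall fun x => mem_supp.2 (hv0 x),
      Finset.card_univ, Fintype.card_fin] at h3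
    omega
  have hNfix : N ^ q = N := norm_fixed hF _
  have h4N : 4 * N = 1 := by
    have := heq (mul_mem (mul_mem hg (hr i₀)) (inv_mem hg)) hrm i₀ i₀ i₁
    rw [hrv, herm_one_single] at this
    simp only [Pi.add_apply, Pi.smul_apply, smul_eq_mul, sv, Pi.single_eq_same,
      Pi.single_eq_of_ne h10, zero_add] at this
    rw [hF.add_pow, one_pow, show (-2 : F) * v i₀ ^ q * v i₀ = -2 * N by simp only [N]; ring,
      mul_pow (-2 : F) N, hNfix, hF.neg_pow, show (2 : F) = 1 + 1 by norm_num, hF.add_pow, one_pow, mul_pow,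
      mul_pow, hF.neg_pow, hF.add_pow, one_pow, hF.pow_pow] at this
    have h1 := heq hg hgm i₀ i₀ i₁
    linear_combination -this + 4 * N * h1
  -- the conjugate of a pair of signs has a zero entry
  set t := dia hF (pairFun i₁ i₂ (NU.negOne hF))
  have ht : ∀ w, t.1 w = w + ((-2 : F) * w i₁) • sv F i₁ + ((-2 : F) * w i₂) • sv F i₂ :=
    pair_neg_apply hF h2 h12
  set h := g * t * g⁻¹
  have hhv : ∀ w, h.1 w = w + ((-2 : F) * herm q w (g.1 (sv F i₁))) • g.1 (sv F i₁) +
      ((-2 : F) * herm q w (g.1 (sv F i₂))) • g.1 (sv F i₂) := fun w => by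
    simp only [h, Subgroup.coe_mul, LinearEquiv.mul_apply]
    rw [ht, map_add, map_add, map_smul, map_smul, app_inv hF,
      ← herm_sv hF ((g⁻¹ : UG n F q).1 w) i₁, ← herm_sv hF ((g⁻¹ : UG n F q).1 w) i₂,
      ← UG_app g ((g⁻¹ : UG n F q).1 w) (sv F i₁), ← UG_app g ((g⁻¹ : UG n F q).1 w) (sv F i₂), app_inv hF]
  have hhm : ¬ MonU h := by
    intro hm
    obtain ⟨J, hJ, hJ'⟩ := hm.moved' hF
      (W := Submodule.span F ({g.1 (sv F i₁), g.1 (sv F i₂)} : Set (Fin n → F))) fun w => by
      rw [hhv, add_assoc, add_sub_cancel_left]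
      exact Submodule.add_mem _ (Submodule.smul_mem _ _ (Submodule.subset_span (by simp)))
        (Submodule.smul_mem _ _ (Submodule.subset_span (by simp)))
    have h4 := finrank_pair_le hF (g.1 (sv F i₁)) (g.1 (sv F i₂))
    obtain ⟨x, -, hx⟩ := Finset.exists_mem_notMem_of_card_lt_card (s := J) (t := Finset.univ)
      (by rw [Finset.card_univ, Fintype.card_fin]; omega)
    have e := hJ' (g.1 (sv F i₁)) x hx
    rw [hhv, UG_app, UG_app, herm_sv hF, herm_sv hF] at e
    simp [Pi.single_eq_of_ne (Ne.symm h12)] at e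
    exact e.elim (fun e => h2 e) (fun e => hfull hg hgm i₁ x e)
  refine hfull (mul_mem (mul_mem hg (H.dia_pair_mem hF h12 _)) (inv_mem hg)) hhm i₀ i₀ ?_
  rw [hhv, herm_one_single, herm_one_single]
  have e1 := heq hg hgm i₁ i₀ i₁
  have e2 := heq hg hgm i₂ i₀ i₁
  have hcol : ∀ k, g.1 (sv F k) i₀ * g.1 (sv F k) i₀ ^ q = N := by
    intro k
    have hs : ∀ k, herm q (g.1 (sv F k)) (g.1 (sv F k)) = (n : F) * (g.1 (sv F k) i₀ * g.1 (sv F k) i₀ ^ q) :=
      fun k => by
        rw [herm_def, Finset.sum_congr rfl (fun x _ => heq hg hgm k x i₀), Finset.sum_const, Finset.card_univ,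
          Fintype.card_fin, nsmul_eq_mul]
    have hk : (1 : F) = (n : F) * (g.1 (sv F k) i₀ * g.1 (sv F k) i₀ ^ q) := by
      rw [← hs, UG_app, herm_sv hF]; simp
    have h0 : (1 : F) = (n : F) * N := by rw [← hvv]; exact hs i₀
    exact mul_left_cancel₀ (fun e => by rw [e, zero_mul] at h0; exact one_ne_zero h0) (hk.symm.trans h0)
  simp only [Pi.add_apply, Pi.smul_apply, smul_eq_mul, sv, Pi.single_eq_same]
  linear_combination -2 * hcol i₁ - 2 * hcol i₂ - h4N

end Cfsg.Agent.DecompMax.UF
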