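import Cfsg.Agent.DecompMax.UnitFix

/-!
A group of isometries in which only monomial elements fix a frame line contains no scaling of one
coordinate of odd prime order: in the plane of two such reflections Burnside's transfer theorem leaves
only the scalings of that coordinate.
-/

set_option autoImplicit false
set_option linter.style.haveILetI false
set_option linter.unusedSectionVars false

namespace Cfsg.Agent.DecompMax.UF

open Matrix Cfsg.Geo Module Cfsg.Agent.Classical.U Cfsg.Agent.DecompMax.UCount Cfsg.Agent.DecompMax.UN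
open scoped MatrixGroups Matrix

universe u

variable {F : Type u} [Field F] {n q : ℕ}

/-- The plane of a coordinate vector and a second vector with the elements of `M` living there. -/
structure Plane (hF : SqField F q) (M : Subgroup (UG n F q)) (b : Fin n) (v : Fin n → F) : Prop where
  nofix : NoFix M
  four : 4 ≤ n
  full : ∀ i, v i ≠ 0
  norm : herm q v v = 1
  nb : v b * v b ^ q ≠ 1

/-- The elements of `M` fixing the vectors orthogonal to the plane. -/
def planeFix (M : Subgroup (UG n F q)) (b : Fin n) (v : Fin n → F) : Subgroup (UG n F q) where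
  carrier := {x | x ∈ M ∧ ∀ z : Fin n → F, z b = 0 → herm q z v = 0 → x.1 z = z}
  one_mem' := ⟨one_mem M, fun _ _ _ => rfl⟩
  mul_mem' := fun {a c} ha hc => ⟨mul_mem ha.1 hc.1, fun z h1 h2 => by
    rw [Subgroup.coe_mul, LinearEquiv.mul_apply, hc.2 z h1 h2, ha.2 z h1 h2]⟩
  inv_mem' := fun {a} ha => ⟨inv_mem ha.1, fun z h1 h2 => by
    conv_lhs => rw [← ha.2 z h1 h2]
    rw [← LinearEquiv.mul_apply, ← Subgroup.coe_mul, inv_mul_cancel]; rfl⟩

/-- The scalings of the coordinate in the plane group. -/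
noncomputable def planeRef (hF : SqField F q) (M : Subgroup (UG n F q)) (b : Fin n) (v : Fin n → F) :
    Subgroup (planeFix M b v) where
  carrier := {x | ∃ κ : NU F q, x.1 = rf hF b κ}
  one_mem' := ⟨1, (rf_one hF b).symm⟩
  mul_mem' := fun {a c} ⟨κ, ha⟩ ⟨κ', hc⟩ => ⟨κ * κ', by
    rw [Subgroup.coe_mul, ha, hc]
    refine eq_of_apply_single fun j => funext fun x => ?_
    simp only [Subgroup.coe_mul, LinearEquiv.mul_apply, rf, dia_apply]
    rcases eq_or_ne x b with rfl | hx
    · simp [mul_assoc]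
    · simp [Function.update_of_ne hx]⟩
  inv_mem' := fun {a} ⟨κ, ha⟩ => ⟨κ⁻¹, by
    rw [Subgroup.coe_inv, ha]
    refine inv_eq_of_mul_eq_one_right (eq_of_apply_single fun j => funext fun x => ?_)
    simp only [Subgroup.coe_mul, LinearEquiv.mul_apply, rf, dia_apply]
    rcases eq_or_ne x b with rfl | hx
    · rw [← mul_assoc]
      simp
    · simp [Function.update_of_ne hx]⟩

variable {hF : SqField F q} {M : Subgroup (UG n F q)} {b : Fin n} {v : Fin n → F} (P : Plane hF M b v)

/-- The part of `v` orthogonal to the coordinate vector. -/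
def per (b : Fin n) (v : Fin n → F) : Fin n → F := v - v b • sv F b

theorem per_apply_self : per b v b = 0 := by simp [per]

theorem per_apply {i : Fin n} (h : i ≠ b) : per b v i = v i := by simp [per, Pi.single_eq_of_ne h]

include P

theorem Plane.per_sv : herm q (sv F b) (per b v) = 0 := by
  rw [herm_one_single, per_apply_self, zero_pow hF.q_ne_zero]

theorem Plane.per_norm : herm q (per b v) (per b v) = 1 - v b * v b ^ q := by
  have e : per b v = v - v b • sv F b := rfl
  rw [e, herm_sub_left, herm_smul_left, ← e, P.per_sv, mul_zero, sub_zero, e, hF.herm_sub_right, P.norm,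
    herm_smul_right, herm_sv hF]
  ring

theorem Plane.mem_span_of_perp {y : Fin n → F}
    (hy : ∀ z : Fin n → F, z b = 0 → herm q z v = 0 → herm q z y = 0) :
    ∃ α β : F, y = α • sv F b + β • per b v := by
  obtain ⟨j, -, hj⟩ := Finset.exists_mem_notMem_of_card_lt_card (s := ({b} : Finset (Fin n)))
    (t := Finset.univ) (by rw [Finset.card_singleton, Finset.card_univ, Fintype.card_fin]; have := P.four; omega)
  rw [Finset.mem_singleton] at hj
  have hvj := P.full j
  refine ⟨y b, y j / v j, funext fun i => ?_⟩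
  rcases eq_or_ne i b with rfl | hib
  · simp [per_apply_self]
  rw [Pi.add_apply, Pi.smul_apply, Pi.smul_apply, smul_eq_mul, smul_eq_mul, per_apply hib,
    show sv F b i = 0 from Pi.single_eq_of_ne hib _, mul_zero, zero_add]
  set c : F := v i ^ q / v j ^ q
  have h0 := hy (sv F i - c • sv F j) (by simp [Pi.single_eq_of_ne (Ne.symm hib), Pi.single_eq_of_ne (Ne.symm hj)])
    (by rw [herm_sub_left, herm_smul_left, herm_one_single, herm_one_single]
        simp only [c]; rw [div_mul_cancel₀ _ (pow_ne_zero _ hvj), sub_self])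
  rw [herm_sub_left, herm_smul_left, herm_one_single, herm_one_single, sub_eq_zero] at h0
  have h1 := congrArg (· ^ q) h0
  simp only [c, div_pow, mul_pow, hF.pow_pow] at h1
  rw [h1]; ring

theorem Plane.disp {x : UG n F q} (hx : x ∈ planeFix M b v) (z : Fin n → F) :
    ∃ α β : F, x.1 z - z = α • sv F b + β • per b v :=
  P.mem_span_of_perp fun w h1 h2 => by
    rw [hF.herm_sub_right]
    nth_rw 1 [← hx.2 w h1 h2]
    rw [UG_app, sub_self]

/-- Elements fixing the coordinate line are scalings of the coordinate. -/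
theorem Plane.mem_ref {x : planeFix M b v} {s : F} (hs : x.1.1 (sv F b) = s • sv F b) :
    x ∈ planeRef hF M b v := by
  classical
  obtain ⟨π, l, hxl⟩ := (P.nofix.nofix x.1 x.2.1 b s hs).exists_eq hF
  have hb : π b = b := by
    by_contra hne
    have e := congrFun hs (π b)
    rw [hxl, mon_sv] at e
    simp [Pi.single_eq_of_ne hne] at e
  refine ⟨l b, eq_of_apply_single fun i => ?_⟩
  rcases eq_or_ne i b with rfl | hib
  · rw [rf_sv, hxl, mon_sv, hb]
  rw [show (rf hF b (l b)).1 (sv F i) = sv F i by rw [rf_apply]; simp [Pi.single_eq_of_ne (Ne.symm hib)]]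
  obtain ⟨α, β, e⟩ := P.disp x.2 (sv F i)
  have hπi : π i ≠ b := fun e => hib (π.injective (e.trans hb.symm))
  have hα : α = 0 := by
    have := congrFun e b
    rw [hxl, mon_sv] at this
    simpa [Pi.single_eq_of_ne (Ne.symm hib), Pi.single_eq_of_ne (Ne.symm hπi), per_apply_self] using this.symm
  obtain ⟨z, -, hz⟩ := Finset.exists_mem_notMem_of_card_lt_card (s := ({b, i, π i} : Finset (Fin n)))
    (t := Finset.univ) (Finset.card_le_three.trans_lt (by rw [Finset.card_univ, Fintype.card_fin]; have := P.four; omega))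
  simp only [Finset.mem_insert, Finset.mem_singleton, not_or] at hz
  have hβ : β = 0 := by
    have := congrFun e z
    rw [hxl, mon_sv] at this
    simp [hα, Pi.single_eq_of_ne hz.2.1, Pi.single_eq_of_ne hz.2.2, per_apply hz.1, P.full z] at this
    exact this
  rw [hα, hβ, zero_smul, zero_smul, add_zero, sub_eq_zero] at e
  exact e

theorem Plane.mem_ref_of_per {x : planeFix M b v} {s : F} (hs : x.1.1 (per b v) = s • per b v) :
    x ∈ planeRef hF M b v := by
  obtain ⟨α, β, e⟩ := P.disp x.2 (sv F b)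
  have hnb : (1 : F) - v b * v b ^ q ≠ 0 := sub_ne_zero.2 (Ne.symm P.nb)
  have hs0 : s ≠ 0 := fun h0 => by
    have := UG_app x.1 (per b v) (per b v)
    rw [hs, h0, zero_smul, herm_zero_left, P.per_norm] at this
    exact hnb this.symm
  have h0 := UG_app x.1 (sv F b) (per b v)
  rw [hs, herm_smul_right, eq_add_of_sub_eq e, P.per_sv, herm_add_left, herm_add_left, herm_smul_left,
    herm_smul_left, P.per_sv, P.per_norm] at h0
  simp only [mul_zero, zero_add, add_zero, mul_eq_zero, pow_eq_zero_iff hF.q_ne_zero, hs0, false_or,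
    hnb, or_false] at h0
  refine P.mem_ref (s := α + 1) ?_
  rw [eq_add_of_sub_eq e, h0]; module

theorem Plane.ref_comm {x y : planeFix M b v} (hx : x ∈ planeRef hF M b v) (hy : y ∈ planeRef hF M b v) :
    x * y = y * x := by
  obtain ⟨κ, hx⟩ := hx
  obtain ⟨κ', hy⟩ := hy
  refine Subtype.ext ?_
  rw [Subgroup.coe_mul, Subgroup.coe_mul, hx, hy]
  refine eq_of_apply_single fun j => funext fun z => ?_
  simp only [Subgroup.coe_mul, LinearEquiv.mul_apply, rf, dia_apply]
  ring

/-- What maps a coordinate scaling to a coordinate scaling is one. -/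
theorem Plane.mem_ref_of_conj {x r r' : planeFix M b v} (hr : r ∈ planeRef hF M b v) (hr1 : r ≠ 1)
    (hr' : r' ∈ planeRef hF M b v) (h : x * r = r' * x) : x ∈ planeRef hF M b v := by
  obtain ⟨κ, hκ⟩ := hr
  obtain ⟨κ', hκ'⟩ := hr'
  have h1 : ((κ : Fˣ) : F) ≠ 1 := fun e => hr1 (Subtype.ext (by
    rw [hκ, show κ = 1 from Subtype.ext (Units.ext e), rf_one]; rfl))
  refine P.mem_ref (s := x.1.1 (sv F b) b) (funext fun j => ?_)
  rcases eq_or_ne j b with rfl | hj
  · simp
  have e := congrArg (fun p : planeFix M b v => p.1.1 (sv F b) j) h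
  simp only [Subgroup.coe_mul, LinearEquiv.mul_apply, hκ, hκ', rf_sv, map_smul, Pi.smul_apply,
    smul_eq_mul] at e
  rw [rf_apply, Pi.add_apply, Pi.smul_apply, smul_eq_mul, show sv F b j = 0 from Pi.single_eq_of_ne hj _,
    mul_zero, add_zero] at e
  rw [Pi.smul_apply, show sv F b j = 0 from Pi.single_eq_of_ne hj _, smul_zero]
  exact (mul_eq_zero.1 (show (((κ : Fˣ) : F) - 1) * x.1.1 (sv F b) j = 0 by
    linear_combination e)).resolve_left (sub_ne_zero.2 h1)

omit P

/-- Representatives of the points of the plane. -/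
def pvec (b : Fin n) (v : Fin n → F) : Option F → (Fin n → F)
  | none => sv F b
  | some t => per b v + t • sv F b

include P

theorem Plane.pvec_coord (o : Option F) : ∃ j, pvec b v o j ≠ 0 := by
  obtain ⟨j, -, hj⟩ := Finset.exists_mem_notMem_of_card_lt_card (s := ({b} : Finset (Fin n)))
    (t := Finset.univ) (by rw [Finset.card_singleton, Finset.card_univ, Fintype.card_fin]; have := P.four; omega)
  rw [Finset.mem_singleton] at hj
  cases o with
  | none => exact ⟨b, by simp [pvec]⟩
  | some t => exact ⟨j, by simp [pvec, per_apply hj, Pi.single_eq_of_ne hj, P.full j]⟩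

theorem Plane.pvec_inj {o o' : Option F} {s : F} (h : pvec b v o = s • pvec b v o') : o = o' := by
  obtain ⟨j, -, hj⟩ := Finset.exists_mem_notMem_of_card_lt_card (s := ({b} : Finset (Fin n)))
    (t := Finset.univ) (by rw [Finset.card_singleton, Finset.card_univ, Fintype.card_fin]; have := P.four; omega)
  rw [Finset.mem_singleton] at hj
  have e1 := congrFun h j
  have e2 := congrFun h b
  cases o <;> cases o' <;>
    simp [pvec, per_apply hj, per_apply_self, Pi.single_eq_of_ne hj, P.full j] at e1 e2 ⊢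
  · rw [e1] at e2; simp at e2
  · rw [e2, e1, one_mul]

theorem Plane.exists_image (x : planeFix M b v) (o : Option F) :
    ∃ (o' : Option F) (s : F), s ≠ 0 ∧ x.1.1 (pvec b v o) = s • pvec b v o' := by
  have hne : x.1.1 (pvec b v o) ≠ 0 := fun e => by
    obtain ⟨j, hj⟩ := P.pvec_coord o
    rw [LinearEquiv.map_eq_zero_iff] at e
    exact hj (by rw [e]; rfl)
  obtain ⟨α, β, e⟩ := P.disp x.2 (pvec b v o)
  obtain ⟨a, c, hac⟩ : ∃ a c : F, x.1.1 (pvec b v o) = a • sv F b + c • per b v := by
    cases o with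
    | none => exact ⟨α + 1, β, by rw [eq_add_of_sub_eq e]; simp only [pvec]; module⟩
    | some t => exact ⟨α + t, β + 1, by rw [eq_add_of_sub_eq e]; simp only [pvec]; module⟩
  by_cases hc : c = 0
  · refine ⟨none, a, fun ha => hne (by rw [hac, ha, hc]; simp), ?_⟩
    rw [hac, hc]; simp [pvec]
  · refine ⟨some (a / c), c, hc, ?_⟩
    rw [hac]; simp only [pvec]
    rw [smul_add, smul_smul, mul_div_cancel₀ _ hc, add_comm]

/-- The permutation of the points of the plane. -/
noncomputable def Plane.act (x : planeFix M b v) (o : Option F) : Option F := (P.exists_image x o).choose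

theorem Plane.act_spec (x : planeFix M b v) (o : Option F) :
    ∃ s : F, s ≠ 0 ∧ x.1.1 (pvec b v o) = s • pvec b v (P.act x o) := (P.exists_image x o).choose_spec

theorem Plane.act_eq {x : planeFix M b v} {o o' : Option F} {s : F}
    (h : x.1.1 (pvec b v o) = s • pvec b v o') : P.act x o = o' := by
  obtain ⟨t, ht, e⟩ := P.act_spec x o
  refine P.pvec_inj (s := t⁻¹ * s) ?_
  rw [← smul_smul, ← h, e, inv_smul_smul₀ ht]

/-- The action on the points. -/
@[implicit_reducible]
noncomputable def Plane.action : MulAction (planeFix M b v) (Option F) where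
  smul := P.act
  one_smul o := P.act_eq (s := 1) (by rw [one_smul]; rfl)
  mul_smul x y o := by
    obtain ⟨s, -, e⟩ := P.act_spec y o
    obtain ⟨t, -, e'⟩ := P.act_spec x (P.act y o)
    refine P.act_eq (s := s * t) ?_
    rw [Subgroup.coe_mul, Subgroup.coe_mul, LinearEquiv.mul_apply, e, map_smul, e', smul_smul]
    rfl

/-- A subgroup of prime-power order fixes a point of the plane. -/
theorem Plane.fixed_point {s : ℕ} [Fact s.Prime] (S : Subgroup (planeFix M b v)) (hS : IsPGroup s S) :
    ∃ o, ∀ x ∈ S, P.act x o = o := by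
  classical
  haveI : Finite F := hF.1
  haveI : Fintype F := Fintype.ofFinite F
  letI := P.action
  have hcard : Nat.card (Option F) = q ^ 2 + 1 := by
    rw [Nat.card_eq_fintype_card, Fintype.card_option, card_F hF]
  by_cases hs : s ∣ q ^ 2 + 1
  swap
  · obtain ⟨o, ho⟩ := hS.nonempty_fixed_point_of_prime_not_dvd_card (Option F) (by rwa [hcard])
    exact ⟨o, fun x hx => ho ⟨x, hx⟩⟩
  by_cases hs' : s ∣ q + 1
  swap
  · -- isotropic points
    set T : Set (Option F) := {o | herm q (pvec b v o) (pvec b v o) = 0}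
    have hT : ∀ (x : planeFix M b v) o, o ∈ T → P.act x o ∈ T := fun x o ho => by
      obtain ⟨t, ht, e⟩ := P.act_spec x o
      have h := UG_app x.1 (pvec b v o) (pvec b v o)
      rw [e, ho, herm_smul_left, herm_smul_right] at h
      exact ((mul_eq_zero.1 h).resolve_left ht |> mul_eq_zero.1).resolve_left (pow_ne_zero _ ht)
    letI : MulAction S T :=
      { smul := fun x o => ⟨P.act x.1 o.1, hT _ _ o.2⟩
        one_smul := fun o => Subtype.ext (one_smul (planeFix M b v) o.1)
        mul_smul := fun x y o => Subtype.ext (mul_smul x.1 y.1 o.1) }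
    have hnb : (1 : F) - v b * v b ^ q ≠ 0 := sub_ne_zero.2 (Ne.symm P.nb)
    have hval : ∀ t : F, herm q (pvec b v (some t)) (pvec b v (some t)) =
        1 - v b * v b ^ q + t * t ^ q := fun t => by
      have h1 : herm q (per b v) (sv F b) = 0 := Forms.herm_comm_zero hF P.per_sv
      simp only [pvec]
      rw [herm_add_left, hF.herm_add_right, hF.herm_add_right, herm_smul_left, herm_smul_left,
        herm_smul_right, herm_smul_right, P.per_norm, P.per_sv, h1, herm_one_single]
      simp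
    obtain ⟨t₀, ht₀⟩ := hF.exists_norm (c := -(1 - v b * v b ^ q))
      (by rw [hF.neg_pow, hF.sub_pow, one_pow, norm_fixed hF])
    rw [pow_succ'] at ht₀
    have ht0 : t₀ ≠ 0 := fun e => hnb (by rw [e, zero_mul] at ht₀; linear_combination ht₀)
    have hbij : Function.Bijective fun μ : NU F q => (⟨some (((μ : Fˣ) : F) * t₀), by
        show herm q _ _ = 0
        rw [hval, mul_pow]
        linear_combination (t₀ * t₀ ^ q) * NU.mul_pow_eq μ + ht₀⟩ : T) := by
      refine ⟨fun μ μ' e => Subtype.ext (Units.ext (mul_right_cancel₀ ht0 (by simpa using e))), ?_⟩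
      rintro ⟨_ | t, ho⟩
      · exact absurd (show herm q (sv F b) (sv F b) = 0 from ho) (by rw [herm_sv hF]; simp)
      · have h : 1 - v b * v b ^ q + t * t ^ q = 0 := (hval t).symm.trans ho
        refine ⟨NU.mk (t / t₀) (by
          rw [div_pow, div_mul_div_comm, div_eq_one_iff_eq (mul_ne_zero ht0 (pow_ne_zero _ ht0)), ht₀]
          linear_combination h), ?_⟩
        refine Subtype.ext (congrArg some ?_)
        simp [ht0]
    obtain ⟨o, ho⟩ := hS.nonempty_fixed_point_of_prime_not_dvd_card T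
      (by rwa [← Nat.card_eq_of_bijective _ hbij, card_NU hF])
    exact ⟨o.1, fun x hx => congrArg Subtype.val (ho ⟨x, hx⟩)⟩
  -- now the prime is two
  have hs2 : s = 2 := by
    have h2 : q ^ 2 + 1 + 2 * q = (q + 1) * (q + 1) := by ring
    have h3 : s ∣ 2 * q := (Nat.dvd_add_right hs).1 (h2 ▸ hs'.mul_left (q + 1))
    rcases (Nat.Prime.dvd_mul (Fact.out : s.Prime)).1 h3 with h | h
    · exact (Nat.prime_dvd_prime_iff_eq Fact.out Nat.prime_two).1 h
    · exact absurd ((Nat.dvd_add_right h).1 hs') (Fact.out : s.Prime).not_dvd_one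
  rcases eq_or_ne S ⊥ with rfl | hne
  · exact ⟨none, fun x hx => by rw [Subgroup.mem_bot.1 hx]; exact one_smul (planeFix M b v) _⟩
  haveI : Finite (UG n F q) := Finite.of_injective (fun g => (g.1 : (Fin n → F) → (Fin n → F)))
    fun g g' e => Subtype.ext (LinearEquiv.ext fun w => congrFun e w)
  haveI : Nontrivial S := (Subgroup.nontrivial_iff_ne_bot S).2 hne
  haveI := hS.center_nontrivial
  obtain ⟨z, hz⟩ := exists_prime_orderOf_dvd_card' 2 (G := Subgroup.center S) (by
    obtain ⟨m, hm⟩ := (hS.to_subgroup (Subgroup.center S)).exists_card_eq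
    rcases m with _ | m
    · exact absurd hm (Finite.one_lt_card (α := Subgroup.center S)).ne'
    · rw [hm, hs2]; exact dvd_pow_self 2 (Nat.succ_ne_zero m))
  set z₀ : planeFix M b v := z.1.1
  have hzz : z₀ * z₀ = 1 := by
    have := pow_orderOf_eq_one z
    rw [hz, sq] at this
    exact congrArg (fun p : Subgroup.center S => p.1.1) this
  have hz1 : z₀ ≠ 1 := fun e => by
    rw [show z = 1 from Subtype.ext (Subtype.ext e), orderOf_one] at hz; norm_num at hz
  have hcomm : ∀ x ∈ S, x * z₀ = z₀ * x := fun x hx =>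
    congrArg Subtype.val (Subgroup.mem_center_iff.1 z.2 ⟨x, hx⟩)
  obtain ⟨α, β, e⟩ := P.disp z₀.2 (sv F b)
  by_cases hβ : β = 0
  · -- the involution fixes the coordinate line, so does the group
    have hz0 : z₀ ∈ planeRef hF M b v := P.mem_ref (s := α + 1) (by rw [eq_add_of_sub_eq e, hβ]; module)
    refine ⟨none, fun x hx => ?_⟩
    obtain ⟨κ, hκ⟩ := P.mem_ref_of_conj hz0 hz1 hz0 (hcomm x hx)
    refine P.act_eq (s := ((κ : Fˣ) : F)) ?_
    rw [hκ]; exact rf_sv hF b κ
  -- the other eigenline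
  set w := sv F b - z₀.1.1 (sv F b)
  have hz2 : ∀ y, z₀.1.1 (z₀.1.1 y) = y := fun y => by
    have := congrArg (fun p : planeFix M b v => p.1.1 y) hzz
    simpa using this
  have hw : w = (-α) • sv F b + (-β) • per b v := by
    simp only [w]; rw [eq_add_of_sub_eq e]; module
  refine ⟨some (α / β), fun x hx => ?_⟩
  obtain ⟨o, t, ht, hxo⟩ := P.exists_image x (some (α / β))
  rw [P.act_eq hxo]
  have hwp : w = (-β) • pvec b v (some (α / β)) := by
    rw [hw]; simp only [pvec]; match_scalars <;> field_simp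
  -- the image is in the same eigenspace
  have hzw : z₀.1.1 w = -w := by simp only [w]; rw [map_sub, hz2]; abel
  have hzxw : z₀.1.1 (x.1.1 w) = -(x.1.1 w) := by
    have := congrArg (fun p : planeFix M b v => p.1.1 w) (hcomm x hx)
    simp only [Subgroup.coe_mul, LinearEquiv.mul_apply] at this
    rw [← this, hzw, map_neg]
  obtain ⟨a', c', hy⟩ : ∃ a' c' : F, x.1.1 w = a' • sv F b + c' • z₀.1.1 (sv F b) := by
    obtain ⟨γ, δ, e'⟩ := P.disp x.2 w
    refine ⟨γ - α - (δ - β) / β * (α + 1), (δ - β) / β, ?_⟩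
    rw [eq_add_of_sub_eq e', eq_add_of_sub_eq e, hw]
    match_scalars <;> field_simp <;> ring
  have hsum : (a' + c') • (sv F b + z₀.1.1 (sv F b)) = 0 := by
    have h := hzxw
    rw [hy, map_add, map_smul, map_smul, hz2] at h
    rw [← sub_eq_zero] at h
    rw [← h]; module
  have hac : a' + c' = 0 := by
    by_contra h0
    have h1 := (smul_eq_zero.1 hsum).resolve_left h0
    obtain ⟨j, -, hj⟩ := Finset.exists_mem_notMem_of_card_lt_card (s := ({b} : Finset (Fin n)))
      (t := Finset.univ) (by rw [Finset.card_singleton, Finset.card_univ, Fintype.card_fin]; have := P.four; omega)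
    rw [Finset.mem_singleton] at hj
    have h2 := congrFun h1 j
    rw [eq_add_of_sub_eq e] at h2
    simp [per_apply hj, Pi.single_eq_of_ne hj, P.full j, hβ] at h2
  refine P.pvec_inj (s := t⁻¹ * a') ?_
  have hxw : x.1.1 w = a' • w := by
    rw [hy, show c' = -a' by linear_combination hac]; simp only [w]; module
  rw [hwp, map_smul, hxo, smul_smul, smul_smul] at hxw
  have h2 := congrArg (fun y => (-β * t)⁻¹ • y) hxw
  simp only [smul_smul] at h2
  rw [inv_mul_cancel₀ (mul_ne_zero (neg_ne_zero.2 hβ) ht), one_smul] at h2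
  rw [h2]
  congr 1
  field_simp

/-- A subgroup of prime-power order normalised by a scaling of odd prime order consists of scalings. -/
theorem Plane.le_ref {s : ℕ} [Fact s.Prime] (S : Subgroup (planeFix M b v)) (hS : IsPGroup s S)
    {l : ℕ} (_hl : l.Prime) (hl3 : 3 ≤ l) {r : planeFix M b v} {κ : NU F q} (hr : r.1 = rf hF b κ)
    (hκ : orderOf κ = l) (hnorm : ∀ x ∈ S, r⁻¹ * x * r ∈ S) : S ≤ planeRef hF M b v := by
  obtain ⟨o, ho⟩ := P.fixed_point S hS
  intro x hx
  have hfix : ∀ y ∈ S, ∃ a : F, y.1.1 (pvec b v o) = a • pvec b v o := fun y hy => by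
    obtain ⟨a, -, e⟩ := P.act_spec y o
    rw [ho y hy] at e
    exact ⟨a, e⟩
  cases o with
  | none =>
    obtain ⟨a, e⟩ := hfix x hx
    exact P.mem_ref (s := a) e
  | some t =>
    rcases eq_or_ne t 0 with rfl | ht
    · obtain ⟨a, e⟩ := hfix x hx
      refine P.mem_ref_of_per (s := a) ?_
      simpa [pvec] using e
    set k : F := ((κ : Fˣ) : F) with hk
    have hrw : ∀ t', r.1.1 (pvec b v (some t')) = pvec b v (some (k * t')) := fun t' => by
      rw [hr]; simp only [pvec]
      rw [map_add, map_smul, rf_sv, rf_apply, per_apply_self, smul_smul]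
      simp [hk, mul_comm]
    have step : ∀ t', (∀ y ∈ S, ∃ a : F, y.1.1 (pvec b v (some t')) = a • pvec b v (some t')) →
        ∀ y ∈ S, ∃ a : F, y.1.1 (pvec b v (some (k * t'))) = a • pvec b v (some (k * t')) := by
      intro t' h y hy
      obtain ⟨a, e⟩ := h _ (hnorm y hy)
      refine ⟨a, ?_⟩
      have e2 := congrArg r.1.1 e
      rw [map_smul, hrw] at e2
      rw [← e2, ← hrw, ← LinearEquiv.mul_apply, ← LinearEquiv.mul_apply, ← Subgroup.coe_mul,
        ← Subgroup.coe_mul, ← Subgroup.coe_mul, ← Subgroup.coe_mul,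
        show r * (r⁻¹ * y * r) = y * r by group]
    have hk2 : k ^ 2 ≠ 1 := fun e => by
      have h1 : κ ^ 2 = 1 := Subtype.ext (Units.ext (by simpa [hk] using e))
      have := Nat.le_of_dvd two_pos (orderOf_dvd_of_pow_eq_one h1)
      omega
    have hk1 : k ≠ 1 := fun e => hk2 (by rw [e, one_pow])
    obtain ⟨a₁, e₁⟩ := hfix x hx
    obtain ⟨a₂, e₂⟩ := step t hfix x hx
    obtain ⟨a₃, e₃⟩ := step _ (step t hfix) x hx
    obtain ⟨α, β, e⟩ := P.disp x.2 (sv F b)
    obtain ⟨γ, δ, e'⟩ := P.disp x.2 (per b v)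
    obtain ⟨j, -, hj⟩ := Finset.exists_mem_notMem_of_card_lt_card (s := ({b} : Finset (Fin n)))
      (t := Finset.univ)
      (by rw [Finset.card_singleton, Finset.card_univ, Fintype.card_fin]; have := P.four; omega)
    rw [Finset.mem_singleton] at hj
    have key : ∀ t' a : F, x.1.1 (pvec b v (some t')) = a • pvec b v (some t') →
        γ + t' * (α + 1) = (δ + 1 + t' * β) * t' := by
      intro t' a h
      simp only [pvec, map_add, map_smul] at h
      rw [eq_add_of_sub_eq e, eq_add_of_sub_eq e'] at h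
      have hb := congrFun h b
      have hjj := congrFun h j
      simp [per_apply_self, per_apply hj, Pi.single_eq_of_ne hj] at hb hjj
      have ha : a = δ + 1 + t' * β := mul_right_cancel₀ (P.full j) (by linear_combination -hjj)
      linear_combination hb + t' * ha
    have k₁ := key _ _ e₁
    have k₂ := key _ _ e₂
    have k₃ := key _ _ e₃
    have hA : t ^ 3 * ((k - 1) * ((k ^ 2 - 1) * (k * (k - 1)))) * β = 0 := by
      linear_combination (-(k - 1) * (k ^ 2 - 1) * 0) * k₁ + t * ((k * k - k) * (-k₁) +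
        (-(k * k - 1)) * (-k₂) + (k - 1) * (-k₃))
    have hβ : β = 0 := by
      refine (mul_eq_zero.1 hA).resolve_left ?_
      exact mul_ne_zero (pow_ne_zero _ ht) (mul_ne_zero (sub_ne_zero.2 hk1) (mul_ne_zero (sub_ne_zero.2 hk2)
        (mul_ne_zero (NU.ne_zero κ) (sub_ne_zero.2 hk1))))
    exact P.mem_ref (s := α + 1) (by rw [eq_add_of_sub_eq e, hβ]; module)

set_option maxHeartbeats 1000000 in
/-- The plane group has only the scalings. -/
theorem Plane.eq_ref {l : ℕ} (hl : l.Prime) (hl3 : 3 ≤ l) {ω : NU F q} (ho : orderOf ω = l)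
    (hr : rf hF b ω ∈ M) : planeRef hF M b v = ⊤ := by
  classical
  haveI : Finite F := hF.1
  haveI : Finite (UG n F q) := Finite.of_injective (fun g => (g.1 : (Fin n → F) → (Fin n → F)))
    fun g g' e => Subtype.ext (LinearEquiv.ext fun w => congrFun e w)
  haveI := Fact.mk hl
  set G := planeFix M b v
  set R := planeRef hF M b v
  have hrfne : ∀ κ : NU F q, κ ≠ 1 → rf hF b κ ≠ 1 := fun κ hκ e => hκ (Subtype.ext (Units.ext (by
    have h1 := congrArg (fun p : UG n F q => p.1 (sv F b) b) e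
    simpa [rf_sv] using h1)))
  have horder : ∀ κ : NU F q, κ ^ l = 1 → κ ≠ 1 → orderOf κ = l := fun κ h1 h2 =>
    orderOf_eq_prime h1 h2
  let c : G := ⟨rf hF b ω, hr, fun z hz _ => by rw [rf_apply, hz]; simp⟩
  have hω1 : ω ≠ 1 := fun e => by rw [e, orderOf_one] at ho; omega
  have hcl : orderOf c = l := orderOf_eq_prime (Subtype.ext (by
    rw [Subgroup.coe_pow, rf_pow, ← ho, pow_orderOf_eq_one, rf_one]; rfl))
    fun e => hrfne ω hω1 (congrArg Subtype.val e)
  have hcR : c ∈ R := ⟨ω, rfl⟩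
  have hc1 : c ≠ 1 := fun e => by rw [e, orderOf_one] at hcl; omega
  obtain ⟨L, hL⟩ := (IsPGroup.of_card (p := l) (n := 1)
    (by rw [Nat.card_zpowers, hcl, pow_one] : Nat.card (Subgroup.zpowers c) = l ^ 1)).exists_le_sylow
  have hcL : c ∈ L := hL (Subgroup.mem_zpowers c)
  haveI : Nontrivial (L : Subgroup G) := ⟨⟨⟨c, hcL⟩, 1, fun e => hc1 (congrArg Subtype.val e)⟩⟩
  haveI := L.2.center_nontrivial
  obtain ⟨z, hz⟩ := exists_ne (1 : Subgroup.center (L : Subgroup G))
  have hzc : ∀ y ∈ (L : Subgroup G), y * z.1.1 = z.1.1 * y := fun y hy =>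
    congrArg Subtype.val (Subgroup.mem_center_iff.1 z.2 ⟨y, hy⟩)
  have hz1 : z.1.1 ≠ 1 := fun e => hz (Subtype.ext (Subtype.ext e))
  have hzR : z.1.1 ∈ R := P.mem_ref_of_conj hcR hc1 hcR (hzc c hcL).symm
  have hLR : (L : Subgroup G) ≤ R := fun y hy => P.mem_ref_of_conj hzR hz1 hzR (hzc y hy)
  have hNC : Subgroup.normalizer ((L : Subgroup G) : Set G) ≤
      Subgroup.centralizer ((L : Subgroup G) : Set G) := fun x hx => by
    have hxc : x * c * x⁻¹ ∈ (L : Subgroup G) := (Subgroup.mem_normalizer_iff.1 hx c).1 hcL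
    have hxR : x ∈ R := P.mem_ref_of_conj hcR hc1 (hLR hxc) (by group)
    exact Subgroup.mem_centralizer_iff.2 fun y hy => P.ref_comm (hLR hy) hxR
  set t := MonoidHom.transferSylow L hNC
  have hcomp := MonoidHom.ker_transferSylow_isComplement' L hNC
  have hck : c ∉ t.ker := fun h =>
    hc1 (Subgroup.disjoint_def.1 hcomp.disjoint h hcL)
  have key : ∀ {s : ℕ} [Fact s.Prime] (S : Sylow s G), Nat.card (S : Subgroup G) ∣ Nat.card R := by
    intro s _ S
    rcases eq_or_ne s l with rfl | hsl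
    · obtain ⟨γ, rfl⟩ := MulAction.exists_smul_eq G L S
      rw [Sylow.coe_subgroup_smul, ← Nat.card_congr (Subgroup.equivSMul (MulAut.conj γ) (L : Subgroup G)).toEquiv]
      exact Subgroup.card_dvd_of_le hLR
    have himg : ∀ (x : G), (∃ m, x ^ s ^ m = 1) → t x = 1 := fun x ⟨m, hm⟩ => by
      obtain ⟨m', hm'⟩ := L.2 (t x)
      have h1 : orderOf (t x) ∣ s ^ m := orderOf_dvd_of_pow_eq_one (by rw [← map_pow, hm, map_one])
      have h2 : orderOf (t x) ∣ l ^ m' := orderOf_dvd_of_pow_eq_one hm'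
      refine orderOf_eq_one_iff.1 (Nat.eq_one_of_dvd_coprimes ?_ h1 h2)
      exact Nat.Coprime.pow _ _ ((Nat.coprime_primes Fact.out hl).2 hsl)
    have hSK : (S : Subgroup G) ≤ t.ker := fun x hx => by
      obtain ⟨m, hm⟩ := S.2 ⟨x, hx⟩
      exact himg x ⟨m, congrArg Subtype.val hm⟩
    have hN := Sylow.normalizer_sup_eq_top' S hSK
    set N := Subgroup.normalizer ((S : Subgroup G) : Set G)
    have hlN : l ∣ Nat.card N := by
      by_contra hnd
      refine hck ?_
      have hle : N ≤ t.ker := fun x hx => by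
        obtain ⟨m, hm⟩ := L.2 (t x)
        have h1 : orderOf (t x) ∣ Nat.card N := by
          have := orderOf_map_dvd (t.comp N.subtype) ⟨x, hx⟩
          exact this.trans (orderOf_dvd_natCard _)
        refine orderOf_eq_one_iff.1 (Nat.eq_one_of_dvd_coprimes ?_ h1 (orderOf_dvd_of_pow_eq_one hm))
        exact (Nat.Coprime.pow_right m (Nat.Coprime.symm ((Nat.Prime.coprime_iff_not_dvd hl).2 hnd)))
      have := hN.symm.le.trans (sup_le hle le_rfl) (Subgroup.mem_top c)
      exact this
    obtain ⟨c₁, hc₁⟩ := exists_prime_orderOf_dvd_card' l hlN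
    obtain ⟨L', hL'⟩ := (IsPGroup.of_card (p := l) (n := 1)
      (by rw [Nat.card_zpowers, Subgroup.orderOf_coe, hc₁, pow_one] :
        Nat.card (Subgroup.zpowers (c₁ : G)) = l ^ 1)).exists_le_sylow
    obtain ⟨γ, rfl⟩ := MulAction.exists_smul_eq G L L'
    have hmem := hL' (Subgroup.mem_zpowers (c₁ : G))
    rw [Sylow.coe_subgroup_smul, Subgroup.mem_pointwise_smul_iff_inv_smul_mem, ← map_inv,
      MulAut.smul_def, MulAut.conj_apply, inv_inv] at hmem
    set r := γ⁻¹ * (c₁ : G) * γ with hrdef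
    obtain ⟨κ, hκ⟩ := hLR hmem
    have hrl : orderOf r = l := by
      rw [hrdef, ← hc₁, ← Subgroup.orderOf_coe c₁]
      have := orderOf_injective (MulAut.conj γ⁻¹).toMonoidHom (MulAut.conj γ⁻¹).injective (c₁ : G)
      simpa using this
    have hκl : orderOf κ = l := by
      refine horder κ ?_ fun e => ?_
      · by_contra h
        refine hrfne _ h ?_
        rw [← rf_pow, ← hκ, ← Subgroup.coe_pow, ← hrl, pow_orderOf_eq_one]; rfl
      · have : r = 1 := Subtype.ext (by rw [hκ, e, rf_one]; rfl)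
        rw [this, orderOf_one] at hrl; omega
    set S' : Subgroup G := (S : Subgroup G).map (MulAut.conj γ⁻¹).toMonoidHom
    have hle := P.le_ref S' (S.2.map _) hl hl3 hκ hκl fun x hx => by
      obtain ⟨y, hy, rfl⟩ := hx
      refine ⟨(c₁ : G)⁻¹ * y * c₁, ?_, by simp [hrdef]; group⟩
      have := (Subgroup.mem_normalizer_iff.1 (inv_mem c₁.2) y).1 hy
      simp only [inv_inv] at this
      exact this
    rw [Nat.card_congr ((S : Subgroup G).equivMapOfInjective (MulAut.conj γ⁻¹).toMonoidHom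
      (MulAut.conj γ⁻¹).injective).toEquiv]
    exact Subgroup.card_dvd_of_le hle
  refine Subgroup.eq_top_of_card_eq R (Nat.dvd_antisymm (Subgroup.card_subgroup_dvd_card R) ?_)
  refine (Nat.dvd_iff_prime_pow_dvd_dvd _ _).2 fun s m hs hm => ?_
  haveI := Fact.mk hs
  obtain ⟨H', hH'⟩ := Sylow.exists_subgroup_card_pow_prime s hm
  obtain ⟨S, hS⟩ := (IsPGroup.of_card hH').exists_le_sylow
  rw [← hH']
  exact (Subgroup.card_dvd_of_le hS).trans (key S)

omit P

/-- No scaling of one coordinate of odd prime order, given an entry of norm other than one. -/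
theorem NoFix.false_of_odd_rf_of_ne (H : NoFix M) (hn : 4 ≤ n)
    (hfull : ∀ {g : UG n F q}, g ∈ M → ¬ MonU g → ∀ k b : Fin n, g.1 (sv F k) b ≠ 0) {l : ℕ} (hl : l.Prime)
    (hl3 : 3 ≤ l) {ω : NU F q} (ho : orderOf ω = l) (hr : ∀ b, rf hF b ω ∈ M) {g : UG n F q} (hg : g ∈ M)
    (hgm : ¬ MonU g) {k b : Fin n} (hne : g.1 (sv F k) b * g.1 (sv F k) b ^ q ≠ 1) : False := by
  classical
  have hω : ω ≠ 1 := fun e => by rw [e, orderOf_one] at ho; omega
  have hw1 : ((ω : Fˣ) : F) - 1 ≠ 0 := sub_ne_zero.2 fun e => hω (Subtype.ext (Units.ext e))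
  set v := g.1 (sv F k)
  have P : Plane hF M b v :=
    ⟨H, hn, fun i => hfull hg hgm k i, by rw [UG_app, herm_sv hF]; simp, hne⟩
  have hx : g * rf hF k ω * g⁻¹ ∈ planeFix M b v :=
    ⟨mul_mem (mul_mem hg (hr k)) (inv_mem hg), fun z _ hz => by rw [conj_rf_apply, hz]; simp⟩
  obtain ⟨κ, hκ⟩ : (⟨_, hx⟩ : planeFix M b v) ∈ planeRef hF M b v := by
    rw [P.eq_ref hl hl3 ho (hr b)]; trivial
  obtain ⟨j, -, hj⟩ := Finset.exists_mem_notMem_of_card_lt_card (s := ({b} : Finset (Fin n)))
    (t := Finset.univ) (by rw [Finset.card_singleton, Finset.card_univ, Fintype.card_fin]; omega)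
  rw [Finset.mem_singleton] at hj
  have e := congrArg (fun p : UG n F q => p.1 (sv F b) j) hκ
  simp only [conj_rf_apply, rf_sv, herm_one_single] at e
  simp [Pi.single_eq_of_ne hj, hw1, hfull hg hgm k j, hfull hg hgm k b, hF.q_ne_zero] at e

/-- No scaling of one coordinate of odd prime order, given that no column has a zero entry. -/
theorem NoFix.false_of_odd_rf_of_full (H : NoFix M) (hn : 4 ≤ n)
    (hfull : ∀ {g : UG n F q}, g ∈ M → ¬ MonU g → ∀ k b : Fin n, g.1 (sv F k) b ≠ 0) (hp : (2 : F) ≠ 0 ∨ 2 ∣ n) {l : ℕ} (hl : l.Prime)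
    (hl3 : 3 ≤ l) {ω : NU F q} (ho : orderOf ω = l) (hr : ∀ b, rf hF b ω ∈ M) {g : UG n F q} (hg : g ∈ M)
    (hgm : ¬ MonU g) : False := by
  classical
  have hω : ω ≠ 1 := fun e => by rw [e, orderOf_one] at ho; omega
  have hw1 : ((ω : Fˣ) : F) - 1 ≠ 0 := sub_ne_zero.2 fun e => hω (Subtype.ext (Units.ext e))
  have hconj : ∀ {g : UG n F q}, g ∈ M → ¬ MonU g → ∀ k, ¬ MonU (g * rf hF k ω * g⁻¹) := by
    intro g hg hgm k hm
    have hww : herm q (g.1 (sv F k)) (g.1 (sv F k)) = 1 := by rw [UG_app, herm_sv hF]; simp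
    have h2 := hm.supp_le_two hF (conj_rf_apply hF g k ω) (v := g.1 (sv F k))
      (by rw [hww, mul_one]; exact hw1)
    have h3 : supp (g.1 (sv F k)) = Finset.univ :=
      Finset.eq_univ_of_forall fun x => mem_supp.2 (hfull hg hgm k x)
    rw [h3, Finset.card_univ, Fintype.card_fin] at h2
    omega
  obtain ⟨g, k, b, hg, hgm, hne⟩ : ∃ g k b, g ∈ M ∧ ¬ MonU g ∧
      g.1 (sv F k) b * g.1 (sv F k) b ^ q ≠ 1 := by
    by_contra hcon
    push Not at hcon
    set i₀ : Fin n := ⟨0, by omega⟩
    set i₁ : Fin n := ⟨1, by omega⟩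
    have hi : i₁ ≠ i₀ := by simp [i₀, i₁, Fin.ext_iff]
    have hn1 : (n : F) = 1 := by
      have h0 := UG_app g (sv F i₀) (sv F i₀)
      rw [herm_sv hF (sv F i₀) i₀, herm_def, Finset.sum_congr rfl (fun x _ => hcon g i₀ x hg hgm),
        Finset.sum_const, Finset.card_univ, Fintype.card_fin, nsmul_one] at h0
      simpa using h0
    by_cases h2 : (2 : F) = 0
    · obtain ⟨m, rfl⟩ := hp.resolve_left (not_not.2 h2)
      rw [Nat.cast_mul, Nat.cast_ofNat, h2, zero_mul] at hn1
      exact zero_ne_one hn1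
    have h := hcon _ i₀ i₁ (mul_mem (mul_mem hg (hr i₀)) (inv_mem hg)) (hconj hg hgm i₀)
    rw [conj_rf_apply, Pi.add_apply, show sv F i₀ i₁ = 0 from Pi.single_eq_of_ne hi _, zero_add,
      Pi.smul_apply, smul_eq_mul, herm_one_single, mul_pow, mul_pow, hF.pow_pow, hF.sub_pow, one_pow] at h
    have hR : (((ω : Fˣ) : F) - 1) * (((ω : Fˣ) : F) ^ q - 1) = 1 := by
      linear_combination h - (((ω : Fˣ) : F) - 1) * (((ω : Fˣ) : F) ^ q - 1) *
        ((g.1 (sv F i₀) i₁ * g.1 (sv F i₀) i₁ ^ q) * hcon g i₀ i₀ hg hgm + hcon g i₀ i₁ hg hgm)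
    have h6 : ((ω : Fˣ) : F) ^ 6 = 1 := by
      have h3 : ((ω : Fˣ) : F) ^ 2 - ((ω : Fˣ) : F) + 1 = 0 := by
        linear_combination -((ω : Fˣ) : F) * hR + (((ω : Fˣ) : F) - 1) * NU.mul_pow_eq ω
      linear_combination (((ω : Fˣ) : F) ^ 4 + ((ω : Fˣ) : F) ^ 3 - ((ω : Fˣ) : F) - 1) * h3
    have hd : l ∣ 6 := ho ▸ orderOf_dvd_of_pow_eq_one (Subtype.ext (Units.ext (by simpa using h6)))
    have hl' : l = 3 := by
      have := Nat.le_of_dvd (by norm_num) hd
      interval_cases l <;> revert hl hd <;> decide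
    have h3' : ((ω : Fˣ) : F) ^ 3 = 1 := by
      have := pow_orderOf_eq_one ω
      rw [ho, hl'] at this
      simpa using congrArg (fun x : NU F q => ((x : Fˣ) : F)) this
    have h3 : ((ω : Fˣ) : F) ^ 2 - ((ω : Fˣ) : F) + 1 = 0 := by
      linear_combination -((ω : Fˣ) : F) * hR + (((ω : Fˣ) : F) - 1) * NU.mul_pow_eq ω
    have h4 : ((ω : Fˣ) : F) ^ 3 = -1 := by
      linear_combination (((ω : Fˣ) : F) + 1) * h3
    exact h2 (by linear_combination h4 - h3')
  exact H.false_of_odd_rf_of_ne hn hfull hl hl3 ho hr hg hgm hne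

/-- No scaling of one coordinate of odd prime order. -/
theorem NoFix.false_of_odd_rf (H : NoFix M) (hn : 6 ≤ n) (hp : (2 : F) ≠ 0 ∨ 2 ∣ n) {l : ℕ} (hl : l.Prime)
    (hl3 : 3 ≤ l) {ω : NU F q} (ho : orderOf ω = l) (hr : ∀ b, rf hF b ω ∈ M) {g : UG n F q} (hg : g ∈ M)
    (hgm : ¬ MonU g) : False := by
  have hω : ω ≠ 1 := fun e => by rw [e, orderOf_one] at ho; omega
  exact H.false_of_odd_rf_of_full (by omega) (fun hg' hgm' => H.full_of_rf hF (by omega) hω hr hg' hgm')
    hp hl hl3 ho hr hg hgm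

end Cfsg.Agent.DecompMax.UF
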