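import Cfsg.Agent.DecompMax.UnitMain

/-!
Stabilisers of decompositions into non-degenerate members of dimension at least two are maximal in the
special unitary group.
-/

set_option autoImplicit false
set_option linter.style.haveILetI false
set_option linter.unusedSectionVars false

namespace Cfsg.Agent.DecompMax.UN

open Matrix Cfsg.Geo Module Cfsg.Agent.Classical.U Cfsg.Agent.GeoClasses Cfsg.Agent.ClassicalMax
open scoped MatrixGroups Matrix

universe u

variable {F : Type u} [Field F] {n q : ℕ} (hF : SqField F q)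
variable {t k : ℕ} {D : Fin t → Submodule F (Fin n → F)}

include hF

/-- An element of an overgroup not permuting the members gives a centre outside them. -/
theorem exists_ctr_two (H : IsUDec q k D) (C : Components D) {M : Subgroup (UG n F q)}
    (hM : ∀ g ∈ SUG n F q, (∀ i, ∃ j, ∀ v ∈ D i, g.1 v ∈ D j) → g ∈ M)
    {g : UG n F q} (hgM : g ∈ M) (hg : ugToGL n F q g ∉ decompositionStabilizer D) :
    ∃ w ∈ ctr hF M, ∃ j l, j ≠ l ∧ C.proj j w ≠ 0 ∧ C.proj l w ≠ 0 := by
  by_contra hcon
  push Not at hcon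
  have hmem : ∀ i, ∀ e ∈ D i, herm q e e = 0 → ∃ j, g.1 e ∈ D j := by
    intro i e he hee
    by_cases h : ∃ j, C.proj j (g.1 e) ≠ 0
    · obtain ⟨j, hj⟩ := h
      exact ⟨j, C.mem_of_forall fun l hl =>
        hcon _ (ctr_map hF (ctr_of_mem hF hM H he hee) hgM) j l hl.symm hj⟩
    · push Not at h
      exact ⟨i, C.mem_of_forall fun l _ => h l⟩
  refine hg (mem_stabilizer_of_forall_mem H.dec fun i x hx => ?_)
  obtain ⟨e, he, he0, hee⟩ := exists_isotropic_mem hF (S := D i) (by rw [H.dec.finrank_eq]; exact H.two)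
  obtain ⟨y, hy, hey⟩ := H.nd i e he he0
  obtain ⟨f, hf, hp⟩ := exists_pair_mem hF he hee ⟨y, hy, fun h => hey (Forms.herm_comm_zero hF h)⟩
  obtain ⟨j, hj⟩ := hmem i e he hee
  refine ⟨j, ?_⟩
  have := le_span_isotropic hF he hf hp hx
  rw [ugToGL_mulVec]
  clear hx
  induction this using Submodule.span_induction with
  | mem z hz =>
    obtain ⟨l, hl⟩ := hmem i z hz.1 hz.2.1
    rcases eq_or_ne l j with rfl | hlj
    · exact hl
    · exact absurd (H.orth l j hlj _ hl _ hj) (by rw [UG_app]; exact hz.2.2)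
  | zero => simp
  | add a c _ _ ha hc => rw [map_add]; exact (D j).add_mem ha hc
  | smul c a _ ha => rw [map_smul]; exact (D j).smul_mem c ha

/-- Stabilisers of non-degenerate decompositions are maximal, members not lines. -/
theorem decomposition_maximal (hn : 6 ≤ n) (hk : 2 ≤ k) (hex : ¬ (k = 2 ∧ q = 2))
    (hD : IsNondegenerateMDecomposition (Cfsg.hermForm n F q) k D) :
    IsMaximalIn (suGL n F q) (decompositionStabilizer D ⊓ suGL n F q) := by
  have H : IsUDec q k D :=
    ⟨by omega, hD.decomp, fun i j hij u hu v hv => hD.orthogonal i j hij u hu v hv,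
      fun i x hx hx0 => (hD.nondegenerate i x hx hx0).2, hk, fun h => by
        have : k ≠ 2 := fun h2 => hex ⟨h2, h⟩
        omega⟩
  refine ⟨lt_of_le_not_ge inf_le_right fun hle =>
    suGL_not_le_decompositionStabilizer hF hD.decomp hk (hle.trans inf_le_left), fun M hM hMK => ?_⟩
  by_cases hMD : M ≤ decompositionStabilizer D
  · exact Or.inl (le_antisymm (le_inf hMD hMK) hM)
  refine Or.inr (le_antisymm hMK ?_)
  set M' := M.comap (ugToGL n F q) with hM'
  suffices hS : SUG n F q ≤ M' by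
    intro g hg
    obtain ⟨k, hk, rfl⟩ := exists_ugToGL_eq hg
    exact hS hk
  have hmemP : ∀ p ∈ SUG n F q, (∀ i, ∃ j, ∀ v ∈ D i, p.1 v ∈ D j) → p ∈ M' :=
    fun p hp hperm => hM ⟨mem_stabilizer_of_forall_mem hD.decomp fun i x hx => by
      obtain ⟨j, hj⟩ := hperm i
      exact ⟨j, by rw [ugToGL_mulVec]; exact hj x hx⟩, ugToGL_mem_suGL hp⟩
  obtain ⟨g0, hg0M, hg0D⟩ := SetLike.not_le_iff_exists.1 hMD
  obtain ⟨g, -, rfl⟩ := exists_ugToGL_eq (hMK hg0M)
  obtain ⟨C⟩ := exists_components hD.decomp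
  obtain ⟨w, hw, j, l, hjl, hj, hl⟩ := exists_ctr_two hF H C hmemP (show g ∈ M' from hg0M) hg0D
  exact SUG_le_of_ctr hF hmemP H hn C hw hjl hj hl

end Cfsg.Agent.DecompMax.UN
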