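import Cfsg.Agent.DecompMax.UnitGen
import Cfsg.Agent.DecompMax.UnitTop
import Cfsg.Agent.DecompMax.UnitPlane
import Cfsg.Agent.DecompMax.UnitInvol
import Cfsg.Agent.DecompMax.UnitEight

/-!
Stabilisers of orthonormal frames are maximal in the special unitary group.
-/

set_option autoImplicit false
set_option linter.style.haveILetI false
set_option linter.unusedSectionVars false

namespace Cfsg.Agent.DecompMax.UF

open Matrix Cfsg.Geo Module Cfsg.Agent.Classical.U Cfsg.Agent.GeoClasses Cfsg.Agent.ClassicalMax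
open Cfsg.Agent.DecompMax.UCount Cfsg.Agent.DecompMax.UN
open scoped MatrixGroups Matrix

universe u

variable {F : Type u} [Field F] {n q : ℕ} (hF : SqField F q)
variable {t : ℕ} {D : Fin t → Submodule F (Fin n → F)}

include hF

/-- An isometry taking the standard vectors to the members. -/
theorem exists_frame_iso (hD : IsNondegenerateMDecomposition (Cfsg.hermForm n F q) 1 D) :
    ∃ (e : Fin n ≃ Fin t) (P : UG n F q), ∀ i, D (e i) = F ∙ P.1 (sv F i) := by
  classical
  haveI : Finite F := hF.1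
  obtain ⟨C⟩ := exists_components hD.decomp
  have hnt : t = n := by
    obtain ⟨b, -⟩ := ClassicalMax.exists_adapted_basis hD.decomp
    have := Module.finrank_eq_card_basis b
    rw [Module.finrank_fin_fun, Fintype.card_prod, Fintype.card_fin, Fintype.card_fin, one_mul] at this
    exact this.symm
  subst hnt
  have hv : ∀ i, ∃ v ∈ D i, herm q v v = 1 := fun i => by
    obtain ⟨v, hv, hv0⟩ := exists_ne_zero_mem hD.decomp i
    obtain ⟨y, hy, hvy⟩ := (hD.nondegenerate i v hv hv0).2
    obtain ⟨c, hc⟩ := exists_smul_eq_of_finrank_eq_one (hD.decomp.finrank_eq i) (x := ⟨v, hv⟩)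
      (fun h => hv0 (congrArg Subtype.val h)) ⟨y, hy⟩
    have hc' : y = c • v := (congrArg Subtype.val hc).symm
    have hvv : herm q v v ≠ 0 := fun h => hvy (by
      show herm q v y = 0
      rw [hc', herm_smul_right, h, mul_zero])
    obtain ⟨s, hs⟩ := hF.exists_norm (c := (herm q v v)⁻¹) (by rw [inv_pow, hF.herm_symm])
    refine ⟨s • v, (D i).smul_mem _ hv, ?_⟩
    rw [herm_smul_left, herm_smul_right, ← mul_assoc, ← pow_succ', hs, inv_mul_cancel₀ hvv]
  choose v hv hvv using hv
  let L : (Fin t → F) →ₗ[F] (Fin t → F) := ∑ i, LinearMap.smulRight (LinearMap.proj i) (v i)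
  have hL : ∀ x, L x = ∑ i, x i • v i := fun x => by simp [L]
  have hproj : ∀ x r, C.proj r (L x) = x r • v r := fun x r => by
    rw [hL, map_sum, Finset.sum_eq_single r (fun i _ hi => by
      rw [map_smul, C.of_mem_ne hi (hv i), smul_zero]) (by simp), map_smul, C.of_mem (hv r)]
  have hiso : ∀ x y, herm q (L x) (L y) = herm q x y := fun x y => by
    rw [C.form_eq_sum (fun a b c => herm_add_left a b c) (fun a b c => hF.herm_add_right a b c)
      (fun i j hij a ha b hb => hD.orthogonal i j hij a ha b hb), herm_def x]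
    refine Finset.sum_congr rfl fun r _ => ?_
    rw [hproj, hproj, herm_smul_left, herm_smul_right, hvv, mul_one]
  have hinj : Function.Injective L := fun x y e => sub_eq_zero.1 (hF.eq_zero_of_herm _ fun z => by
    rw [herm_sub_left, ← hiso, ← hiso y z, e, sub_self])
  refine ⟨Equiv.refl _, ⟨LinearEquiv.ofInjectiveEndo L hinj, hiso⟩, fun i => ?_⟩
  have hP : (LinearEquiv.ofInjectiveEndo L hinj) (sv F i) = v i := by
    rw [show (LinearEquiv.ofInjectiveEndo L hinj) (sv F i) = L (sv F i) from rfl, hL,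
      Finset.sum_eq_single i (fun j _ hj => by simp [Pi.single_eq_of_ne hj]) (by simp)]
    simp
  show D i = F ∙ (LinearEquiv.ofInjectiveEndo L hinj) (sv F i)
  rw [hP]
  refine (Submodule.eq_of_le_of_finrank_eq (Submodule.span_le.2 (by simpa using hv i)) ?_).symm
  rw [hD.decomp.finrank_eq, finrank_span_singleton]
  intro h
  have := hvv i
  rw [h, herm_zero_left] at this
  exact zero_ne_one this

omit hF in
/-- The cases in which the frame stabiliser is shown to be maximal. -/
def FrameCase (n q : ℕ) : Prop :=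
  12 ≤ n ∨ 6 ≤ n ∧ (¬ (q + 1) ∣ n ∧ (Odd q ∨ 2 ∣ n) ∨ n = 6 ∧ q = 5 ∨ n = 10 ∧ q = 9 ∨ n = 10 ∧ q = 4 ∨
    n = 8 ∧ q = 3 ∨ n = 8 ∧ q = 7)

/-- Some non-monomial element fixes a frame line. -/
theorem NoFix.eq_mon_of_case {M : Subgroup (UG n F q)} (H : NoFix M) (hc : FrameCase n q) :
    ∀ g ∈ M, MonU g := by
  classical
  haveI : Finite F := hF.1
  rcases hc with hc | ⟨hn, ⟨hdvd, hp⟩ | ⟨h6, h5⟩ | ⟨h10, h9⟩ | ⟨h10, h4⟩ | ⟨h8, h3⟩ | ⟨h8, h7⟩⟩
  · exact H.eq_mon hF hc
  · intro g hg
    by_contra hgm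
    obtain ⟨μ, hμ⟩ := exists_NU_order hF
    set ω : NU F q := (μ ^ n)⁻¹
    have hω : ω ≠ 1 := fun e => hdvd (hμ ▸ orderOf_dvd_of_pow_eq_one (inv_eq_one.1 e))
    set M' := UF.plus hF M
    have H' : NoFix M' := H.plus hF
    have hr : ∀ i b, rf hF b (ω ^ i) ∈ M' := fun i b => by
      rw [← rf_pow]; exact pow_mem (H.rf_mem_plus hF μ b) i
    have hg' : g ∈ M' := ⟨1, by
      rw [show sc hF (1 : NU F q) * g = g from eq_of_apply_single fun j => by
        rw [Subgroup.coe_mul, LinearEquiv.mul_apply, sc_apply]; simp]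
      exact hg⟩
    set k := orderOf ω
    have hk0 : 0 < k := orderOf_pos ω
    have hk1 : k ≠ 1 := fun e => hω (orderOf_eq_one_iff.1 e)
    rcases Nat.eq_two_pow_or_exists_odd_prime_and_dvd k with ⟨e, he⟩ | ⟨l, hl, hld, hlodd⟩
    · obtain ⟨e, rfl⟩ : ∃ e', e = e' + 1 := ⟨e - 1, by rcases e with _ | e <;> simp at he ⊢; omega⟩
      set ν := ω ^ (2 ^ e)
      have hν2 : ν ^ 2 = 1 := by rw [← pow_mul, ← pow_succ, ← he, pow_orderOf_eq_one]
      have hν1 : ν ≠ 1 := fun h => by
        have := Nat.le_of_dvd (by positivity) (orderOf_dvd_of_pow_eq_one h)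
        rw [show orderOf ω = k from rfl, he, pow_succ] at this
        have := Nat.one_le_two_pow (n := e)
        omega
      have hνv : ((ν : Fˣ) : F) = -1 := by
        have h : (((ν : Fˣ) : F) - 1) * (((ν : Fˣ) : F) + 1) = 0 := by
          have := congrArg (fun x : NU F q => ((x : Fˣ) : F)) hν2
          simp only [SubmonoidClass.coe_pow, Units.val_pow_eq_pow_val, OneMemClass.coe_one, Units.val_one] at this
          linear_combination this
        exact eq_neg_of_add_eq_zero_left ((mul_eq_zero.1 h).resolve_left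
          (sub_ne_zero.2 fun e => hν1 (Subtype.ext (Units.ext e))))
      have h2 : (2 : F) ≠ 0 := fun h2 => hν1 (Subtype.ext (Units.ext (by
        rw [hνv]; simp only [OneMemClass.coe_one, Units.val_one]; linear_combination -h2)))
      refine H'.false_of_neg hF (by omega) h2 (fun b => ?_) hg' hgm
      rw [show NU.negOne hF = ν from Subtype.ext (Units.ext hνv.symm)]
      exact hr _ b
    · have hl3 : 3 ≤ l := by
        have := hl.two_le
        rcases hlodd with ⟨j, rfl⟩
        omega
      have ho : orderOf (ω ^ (k / l)) = l := orderOf_pow_orderOf_div hk0.ne' hld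
      refine H'.false_of_odd_rf hn ?_ hl hl3 ho (hr _) hg' hgm
      refine hp.imp (fun hq h2 => ?_) id
      obtain ⟨p, e, hpp, hch, he⟩ := hF.exists_char
      have hp2 : p = 2 := by
        haveI := hch
        exact (Nat.prime_dvd_prime_iff_eq hpp Nat.prime_two).1 ((CharP.cast_eq_zero_iff F p 2).1 (by exact_mod_cast h2))
      have hlt := hF.one_lt
      rw [hp2] at he
      rcases e with _ | e
      · simp at he; omega
      · exact (Nat.not_even_iff_odd.2 hq) ⟨2 ^ e, by rw [he, pow_succ]; ring⟩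
  · exact fun g hg => by_contra fun hgm => H.false_six_five hF h6 h5 hg hgm
  · exact fun g hg => by_contra fun hgm => H.false_ten_nine hF h10 h9 hg hgm
  · exact fun g hg => by_contra fun hgm => H.false_ten_four hF h10 h4 hg hgm
  · subst h8
    exact fun g hg => by_contra fun hgm => H.false_eight_three hF h3 hg hgm
  · subst h8
    exact fun g hg => by_contra fun hgm => H.false_eight_seven hF h7 hg hgm

/-- Stabilisers of orthonormal frames are maximal once non-monomial overgroups are everything. -/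
theorem frame_maximal_of_gen (hn : 5 ≤ n)
    (hgen : ∀ M : Subgroup (UG n F q), (∀ g ∈ SUG n F q, MonU g → g ∈ M) → ∀ g ∈ M, ¬ MonU g → SUG n F q ≤ M) (hD : IsNondegenerateMDecomposition (Cfsg.hermForm n F q) 1 D) :
    IsMaximalIn (suGL n F q) (decompositionStabilizer D ⊓ suGL n F q) := by
  classical
  obtain ⟨e, P, he⟩ := exists_frame_iso hF hD
  have ht : t = n := by simpa using (Fintype.card_congr e).symm
  refine ⟨lt_of_le_not_ge inf_le_right fun hle => suGL_not_le_frameStabilizer hF (by omega) (by omega) hD ht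
    (hle.trans inf_le_left), fun M hM hMK => ?_⟩
  by_cases hMD : M ≤ decompositionStabilizer D
  · exact Or.inl (le_antisymm (le_inf hMD hMK) hM)
  refine Or.inr (le_antisymm hMK ?_)
  set M' := M.comap (ugToGL n F q) with hM'
  suffices hS : SUG n F q ≤ M' by
    intro g hg
    obtain ⟨k, hk, rfl⟩ := exists_ugToGL_eq hg
    exact hS hk
  set c : UG n F q →* UG n F q := (MulAut.conj P).toMonoidHom
  set M'' := M'.comap c
  have hmono : ∀ g ∈ SUG n F q, MonU g → g ∈ M'' := fun g hg hgm => by
    refine hM ⟨mem_stabilizer_of_forall_mem hD.decomp fun i x hx => ?_,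
      ugToGL_mem_suGL ((SUG_normal).conj_mem g hg P)⟩
    obtain ⟨a, rfl⟩ := e.surjective i
    rw [he] at hx
    obtain ⟨s, rfl⟩ := Submodule.mem_span_singleton.1 hx
    obtain ⟨j, hj⟩ := hgm a
    refine ⟨e j, ?_⟩
    have hga : g.1 (sv F a) = g.1 (sv F a) j • sv F j := funext fun l => by
      rcases eq_or_ne l j with rfl | hl
      · simp
      · simp [hj l hl, Pi.single_eq_of_ne hl]
    rw [ugToGL_mulVec, map_smul]
    refine Submodule.smul_mem _ _ ?_
    show P.1 (g.1 ((P⁻¹ : UG n F q).1 (P.1 (sv F a)))) ∈ D (e j)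
    rw [inv_app hF, hga, map_smul, he]
    exact Submodule.smul_mem _ _ (Submodule.mem_span_singleton_self _)
  obtain ⟨g1, hg1M, hg1D⟩ := SetLike.not_le_iff_exists.1 hMD
  obtain ⟨g, -, rfl⟩ := exists_ugToGL_eq (hMK hg1M)
  set g0 := P⁻¹ * g * P
  have hg0 : g0 ∈ M'' := by
    show P * (P⁻¹ * g * P) * P⁻¹ ∈ M'
    rw [show P * (P⁻¹ * g * P) * P⁻¹ = g by group]
    exact hg1M
  have hg0m : ¬ MonU g0 := fun hm => hg1D (mem_stabilizer_of_forall_mem hD.decomp fun i x hx => by
    obtain ⟨a, rfl⟩ := e.surjective i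
    rw [he] at hx
    obtain ⟨s, rfl⟩ := Submodule.mem_span_singleton.1 hx
    obtain ⟨j, hj⟩ := hm a
    refine ⟨e j, ?_⟩
    have hga : g0.1 (sv F a) = g0.1 (sv F a) j • sv F j := funext fun l => by
      rcases eq_or_ne l j with rfl | hl
      · simp
      · simp [hj l hl, Pi.single_eq_of_ne hl]
    rw [ugToGL_mulVec, map_smul]
    refine Submodule.smul_mem _ _ ?_
    have : g.1 (P.1 (sv F a)) = P.1 (g0.1 (sv F a)) := (app_inv hF P _).symm
    rw [this, hga, map_smul, he]
    exact Submodule.smul_mem _ _ (Submodule.mem_span_singleton_self _))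
  have hS'' : SUG n F q ≤ M'' := hgen _ hmono g0 hg0 hg0m
  intro g hg
  have hconj : P⁻¹ * g * P ∈ SUG n F q := by
    have := (SUG_normal).conj_mem g hg P⁻¹
    rwa [inv_inv] at this
  have h := hS'' hconj
  change P * (P⁻¹ * g * P) * P⁻¹ ∈ M' at h
  rwa [show P * (P⁻¹ * g * P) * P⁻¹ = g by group] at h

/-- Stabilisers of orthonormal frames are maximal once no non-monomial overgroup avoids fixing a line. -/
theorem frame_maximal_of_noFix (hn : 6 ≤ n)
    (hcase : ∀ M : Subgroup (UG n F q), NoFix M → ∀ g ∈ M, MonU g) (hD : IsNondegenerateMDecomposition (Cfsg.hermForm n F q) 1 D) :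
    IsMaximalIn (suGL n F q) (decompositionStabilizer D ⊓ suGL n F q) := by
  refine frame_maximal_of_gen hF (by omega) (fun M hmono g0 hg0 hg0m => ?_) hD
  by_cases hN : ∀ g ∈ M, ∀ k, ∀ s : F, g.1 (sv F k) = s • sv F k → MonU g
  · exact absurd (hcase _ (NoFix.mk hmono hN) g0 hg0) hg0m
  push Not at hN
  obtain ⟨g₂, hg₂, k, s, hs, hm⟩ := hN
  obtain ⟨w, hw, hwb, h2, h4⟩ := exists_ctr_of_fix hF (Or.inl hn) hmono hg₂ hm hs
  exact SUG_le_of_centre hF hmono (by omega) hw hwb h2 h4

/-- Stabilisers of orthonormal frames are maximal. -/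
theorem frame_maximal_of_case (hc : FrameCase n q) (hD : IsNondegenerateMDecomposition (Cfsg.hermForm n F q) 1 D) :
    IsMaximalIn (suGL n F q) (decompositionStabilizer D ⊓ suGL n F q) :=
  frame_maximal_of_noFix hF (hc.elim (fun h => by omega) And.left) (fun _ H => H.eq_mon_of_case hF hc) hD

theorem frame_maximal (hn : 12 ≤ n) (hD : IsNondegenerateMDecomposition (Cfsg.hermForm n F q) 1 D) :
    IsMaximalIn (suGL n F q) (decompositionStabilizer D ⊓ suGL n F q) :=
  frame_maximal_of_case hF (Or.inl hn) hD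

/-- Dimension six, fields of at least nine elements. -/
theorem frame_maximal_six (hn : n = 6) (hq : 3 ≤ q)
    (hD : IsNondegenerateMDecomposition (Cfsg.hermForm n F q) 1 D) :
    IsMaximalIn (suGL n F q) (decompositionStabilizer D ⊓ suGL n F q) := by
  refine frame_maximal_of_case hF (Or.inr ⟨by omega, ?_⟩) hD
  by_cases h5 : q = 5
  · exact Or.inr (Or.inl ⟨hn, h5⟩)
  refine Or.inl ⟨fun hd => ?_, Or.inr (by omega)⟩
  subst hn
  have hq5 : q ≤ 5 := by have := Nat.le_of_dvd (by norm_num) hd; omega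
  interval_cases q <;> simp_all

/-- Dimension ten. -/
theorem frame_maximal_ten (hn : n = 10)
    (hD : IsNondegenerateMDecomposition (Cfsg.hermForm n F q) 1 D) :
    IsMaximalIn (suGL n F q) (decompositionStabilizer D ⊓ suGL n F q) := by
  refine frame_maximal_of_case hF (Or.inr ⟨by omega, ?_⟩) hD
  by_cases h9 : q = 9
  · exact Or.inr (Or.inr (Or.inl ⟨hn, h9⟩))
  by_cases h4 : q = 4
  · exact Or.inr (Or.inr (Or.inr (Or.inl ⟨hn, h4⟩)))
  refine Or.inl ⟨fun hd => ?_, Or.inr (by omega)⟩
  subst hn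
  have hq2 := hF.one_lt
  have hq10 : q ≤ 9 := by have := Nat.le_of_dvd (by norm_num) hd; omega
  interval_cases q <;> simp_all

/-- Stabilisers of orthonormal frames are maximal in dimension eight. -/
theorem frame_maximal_eight (hn : n = 8)
    (hD : IsNondegenerateMDecomposition (Cfsg.hermForm n F q) 1 D) :
    IsMaximalIn (suGL n F q) (decompositionStabilizer D ⊓ suGL n F q) := by
  refine frame_maximal_of_case hF (Or.inr ⟨by omega, ?_⟩) hD
  by_cases h3 : q = 3
  · exact Or.inr (Or.inr (Or.inr (Or.inr (Or.inl ⟨hn, h3⟩))))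
  by_cases h7 : q = 7
  · exact Or.inr (Or.inr (Or.inr (Or.inr (Or.inr ⟨hn, h7⟩))))
  refine Or.inl ⟨fun hd => ?_, Or.inr (by omega)⟩
  subst hn
  have hq2 := hF.one_lt
  have hq8 : q ≤ 7 := by have := Nat.le_of_dvd (by norm_num) hd; omega
  interval_cases q <;> simp_all

end Cfsg.Agent.DecompMax.UF
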