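import Cfsg.Agent.DecompMax.UnitRel

/-!
An overgroup of the stabiliser of a decomposition into non-degenerate members with a transvection
centre outside the members contains the special unitary group.
-/

set_option autoImplicit false
set_option linter.style.haveILetI false
set_option linter.unusedSectionVars false

namespace Cfsg.Agent.DecompMax.UN

open Matrix Cfsg.Geo Module Cfsg.Agent.Classical.U Cfsg.Agent.GeoClasses
open scoped MatrixGroups Matrix

universe u

variable {F : Type u} [Field F] {n q : ℕ} (hF : SqField F q)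
variable {t k : ℕ} {D : Fin t → Submodule F (Fin n → F)}
variable {M : Subgroup (UG n F q)}
  (hM : ∀ g ∈ SUG n F q, (∀ i, ∃ j, ∀ v ∈ D i, g.1 v ∈ D j) → g ∈ M)
  (H : IsUDec q k D)

include hF hM H

/-- A centre with two components and room for corrections. -/
theorem exists_start (C : Components D) (hn : n = k * t) (h6 : 6 ≤ n) {w : Fin n → F} (hw : w ∈ ctr hF M)
    {j₀ l₀ : Fin t} (h0 : j₀ ≠ l₀) (hj₀ : C.proj j₀ w ≠ 0) (hl₀ : C.proj l₀ w ≠ 0) :
    ∃ v ∈ ctr hF M, ∃ j l, j ≠ l ∧ C.proj j v ≠ 0 ∧ C.proj l v ≠ 0 ∧ Good q D v j ∧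
      ∀ y ∈ D j, Good q D (v + y) l := by
  by_cases hk : 3 ≤ k
  · exact ⟨w, hw, j₀, l₀, h0, hj₀, hl₀, H.good_of hF C h0.symm (Or.inr (Or.inr hk)),
      fun y _ => H.good_of hF C h0 (Or.inr (Or.inr hk))⟩
  have h3 : 3 ≤ t := by
    have := H.two
    obtain rfl : k = 2 := by omega
    omega
  have hq : 3 ≤ q := by
    have := hF.one_lt
    by_contra h
    exact hk (H.three (by omega))
  obtain ⟨r, -, hr⟩ := Finset.exists_mem_notMem_of_card_lt_card
    (s := ({j₀, l₀} : Finset (Fin t))) (t := Finset.univ) (by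
      refine lt_of_le_of_lt Finset.card_le_two ?_
      rw [Finset.card_univ, Fintype.card_fin]; omega)
  simp only [Finset.mem_insert, Finset.mem_singleton, not_or] at hr
  have key : ∀ {v : Fin n → F} {j l m : Fin t}, m ≠ j → m ≠ l →
      (C.proj m v = 0 ∨ herm q (C.proj m v) (C.proj m v) ≠ 0) →
      Good q D v j ∧ ∀ y ∈ D j, Good q D (v + y) l := fun {v j l m} hmj hml h =>
    ⟨H.good_of hF C hmj (h.imp id Or.inl), fun y hy => H.good_of hF C hml (by
      rw [map_add, C.of_mem_ne hmj.symm hy, add_zero]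
      exact h.imp id Or.inl)⟩
  rcases eq_or_ne (C.proj r w) 0 with hr0 | hr0
  · exact ⟨w, hw, j₀, l₀, h0, hj₀, hl₀, key hr.1 hr.2 (Or.inl hr0)⟩
  rcases ne_or_eq (herm q (C.proj j₀ w) (C.proj j₀ w)) 0 with ha | ha
  · exact ⟨w, hw, l₀, r, Ne.symm hr.2, hl₀, hr0, key h0 (Ne.symm hr.1) (Or.inr ha)⟩
  rcases ne_or_eq (herm q (C.proj l₀ w) (C.proj l₀ w)) 0 with hb | hb
  · exact ⟨w, hw, j₀, r, Ne.symm hr.1, hj₀, hr0, key h0.symm (Ne.symm hr.2) (Or.inr hb)⟩
  have hpair : ∀ i, C.proj i w ≠ 0 → herm q (C.proj i w) (C.proj i w) = 0 →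
      ∃ f ∈ D i, f ≠ 0 ∧ herm q f f = 0 ∧ herm q w f = 1 := by
    intro i hi hii
    obtain ⟨y, hy, hyi⟩ := H.nd i _ (C.mem i w) hi
    obtain ⟨f, hf, -, hff, hwf⟩ := exists_pair_mem hF (C.mem i w) hii
      ⟨y, hy, fun e => hyi (Forms.herm_comm_zero hF e)⟩
    exact ⟨f, hf, fun e => by rw [e, hF.herm_zero_right] at hwf; exact zero_ne_one hwf, hff,
      by rw [H.herm_proj' hF C hf, hwf]⟩
  obtain ⟨f, hf, hf0, hff, hwf⟩ := hpair j₀ hj₀ ha
  obtain ⟨f', hf', hf'0, hff', hwf'⟩ := hpair l₀ hl₀ hb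
  obtain ⟨δ, hδ0, hδ⟩ := hF.exists_skew
  obtain ⟨e, he, he0, he1⟩ := exists_fixed_ne hF hq
  have hμ : (-(e * δ)) ^ q = -(-(e * δ)) := by rw [hF.neg_pow, mul_pow, he, hδ]; ring
  have h1 : TrvCond q f δ := ⟨hff, hδ⟩
  have h2 : TrvCond q f' (-(e * δ)) := ⟨hff', hμ⟩
  have hM1 : trv hF h1 ∈ M := (ctr_of_mem hF hM H hf hff).2 _ _
  have hM2 : trv hF h2 ∈ M := (ctr_of_mem hF hM H hf' hff').2 _ _
  have hw2 := ctr_map hF hw (mul_mem hM2 hM1)
  have e2 : (trv hF h2 * trv hF h1).1 w = w + (δ • f + (-(e * δ)) • f') := by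
    rw [Subgroup.coe_mul, LinearEquiv.mul_apply, trv_apply, trv_apply, hwf, herm_add_left,
      herm_smul_left, H.orth j₀ l₀ h0 f hf f' hf', hwf', mul_zero, add_zero, mul_one, mul_one,
      add_assoc]
  rw [e2] at hw2
  have hne : δ - e * δ ≠ 0 := by
    rw [← one_sub_mul]
    exact mul_ne_zero (sub_ne_zero.2 (Ne.symm he1)) hδ0
  have hval : herm q (w + (δ • f + (-(e * δ)) • f')) w = δ - e * δ := by
    rw [herm_add_left, herm_add_left, herm_smul_left, herm_smul_left, hw.1, ← hF.herm_symm w f,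
      ← hF.herm_symm w f', hwf, hwf', one_pow]
    ring
  have hv := ctr_line_sub hF hw2 hw (by rw [hval]; exact hne)
    (by rw [hval, hF.sub_pow, mul_pow, he, hδ]; ring)
  rw [add_sub_cancel_left] at hv
  refine ⟨_, hv, j₀, l₀, h0, ?_, ?_, key hr.1 hr.2 (Or.inl ?_)⟩
  · rw [map_add, map_smul, map_smul, C.of_mem hf, C.of_mem_ne h0.symm hf', smul_zero, add_zero]
    exact smul_ne_zero hδ0 hf0
  · rw [map_add, map_smul, map_smul, C.of_mem hf', C.of_mem_ne h0 hf, smul_zero, zero_add]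
    exact smul_ne_zero (neg_ne_zero.2 (mul_ne_zero he0 hδ0)) hf'0
  · rw [map_add, map_smul, map_smul, C.of_mem_ne (Ne.symm hr.1) hf, C.of_mem_ne (Ne.symm hr.2) hf',
      smul_zero, smul_zero, add_zero]

/-- The pair centres can be carried to any two members. -/
theorem ctr_transport (C : Components D) (hn : n = k * t) (h6 : 6 ≤ n) {j l : Fin t} (hjl : j ≠ l) {p z : Fin n → F}
    (hp : p ∈ D j) (hz : z ∈ D l) (hp0 : p ≠ 0) (hz0 : z ≠ 0) (hv : p + z ∈ ctr hF M)
    {j' l' : Fin t} (hjl' : j' ≠ l') {p' z' : Fin n → F} (hp' : p' ∈ D j') (hz' : z' ∈ D l')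
    (hp'0 : p' ≠ 0) (hz'0 : z' ≠ 0) (hpp : herm q p' p' = herm q p p)
    (hzz : herm q z' z' = herm q z z) : p' + z' ∈ ctr hF M := by
  classical
  set σ : Equiv.Perm (Fin t) := Equiv.swap (Equiv.swap j j' l) l' * Equiv.swap j j' with hσ
  have hne : Equiv.swap j j' l ≠ j' := fun e => hjl (by
    have := congrArg (Equiv.swap j j') e
    rw [Equiv.swap_apply_self, Equiv.swap_apply_right] at this
    exact this.symm)
  have hσj : σ j = j' := by
    rw [hσ, Equiv.Perm.mul_apply, Equiv.swap_apply_left,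
      Equiv.swap_apply_of_ne_of_ne hne.symm hjl']
  have hσl : σ l = l' := by rw [hσ, Equiv.Perm.mul_apply, Equiv.swap_apply_left]
  have hnd : ∀ i, ∀ x ∈ D i, (∀ y ∈ D i, herm q x y = 0) → x = 0 := fun i x hx h =>
    by_contra fun h0 => by
      obtain ⟨y, hy, hxy⟩ := H.nd i x hx h0
      exact hxy (h y hy)
  choose e he using fun i => Forms.exists_model hF (D i) (hnd i) (H.dec.finrank_eq i)
  obtain ⟨h, -, hx, hf⟩ := exists_gl_of_blockMaps H.dec σ fun i => (e i).symm.trans (e (σ i))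
  have hpres := hf (herm q) (fun a b c => herm_add_left a b c) (fun a b c => hF.herm_add_right a b c)
    (fun i j hij a ha b hb => H.orth i j hij a ha b hb) (fun i x y => by
      simp only [LinearEquiv.trans_apply]
      rw [he, ← he i, LinearEquiv.apply_symm_apply, LinearEquiv.apply_symm_apply])
  obtain ⟨g, hg⟩ : ∃ g : UG n F q, ∀ v, g.1 v = (h : Matrix (Fin n) (Fin n) F) *ᵥ v :=
    ⟨⟨glEquiv n F h, hpres⟩, fun v => rfl⟩
  have hgD : ∀ i, ∀ v ∈ D i, g.1 v ∈ D (σ i) := fun i v hv => by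
    rw [hg, hx i ⟨v, hv⟩]
    exact (((e i).symm.trans (e (σ i))) ⟨v, hv⟩).2
  set d := ((LinearEquiv.det g.1 : Fˣ) : F) with hd
  have hdd : d * d ^ q = 1 := by rw [← pow_succ']; exact det_norm_one hF g
  obtain ⟨m, hmj, u, hu, huu, hvu⟩ := H.good_two hF C hn h6 hp hz (i := j) (Or.inl rfl)
  have huq : herm q u u ^ q = herm q u u := hF.herm_symm u u
  have h' : (d ^ q - 1) / herm q u u + ((d ^ q - 1) / herm q u u) ^ q +
      (d ^ q - 1) / herm q u u * ((d ^ q - 1) / herm q u u) ^ q * herm q u u = 0 := by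
    rw [div_pow, hF.sub_pow, one_pow, hF.pow_pow, huq]
    field_simp
    linear_combination hdd
  set g' := g * href hF h' with hg'
  have hg'S : g' ∈ SUG n F q := by
    rw [mem_SUG, hg', Subgroup.coe_mul, map_mul]
    refine Units.ext ?_
    rw [Units.val_mul, det_href hF h', div_mul_cancel₀ _ huu, ← hd, Units.val_one]
    linear_combination hdd
  have hg'M : g' ∈ M := hM g' hg'S fun i => ⟨σ i, fun v hv => by
    rw [hg', Subgroup.coe_mul, LinearEquiv.mul_apply, href_apply]
    refine hgD i _ ?_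
    rcases eq_or_ne i m with rfl | him
    · exact (D i).add_mem hv ((D i).smul_mem _ hu)
    · rw [H.orth i m him v hv u hu, mul_zero, zero_smul, add_zero]
      exact hv⟩
  have hw := ctr_map hF hv hg'M
  rw [hg', Subgroup.coe_mul, LinearEquiv.mul_apply, href_apply, hvu, mul_zero, zero_smul, add_zero,
    map_add] at hw
  have hP : g.1 p ∈ D j' := hσj ▸ hgD j p hp
  have hZ : g.1 z ∈ D l' := hσl ▸ hgD l z hz
  have e1 : C.proj j' (g.1 p + g.1 z) = g.1 p := by
    rw [map_add, C.of_mem hP, C.of_mem_ne hjl'.symm hZ, add_zero]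
  have h1 := ctr_move hF hM H C hw hp' hp'0 (i := j')
    (by rw [e1]; exact fun e0 => hp0 (g.1.injective (by rw [e0, map_zero])))
    (by rw [e1, UG_app, hpp]) (H.good_two hF C hn h6 hP hZ (Or.inl rfl))
  rw [e1, add_sub_cancel_left, add_comm] at h1
  have e2 : C.proj l' (p' + g.1 z) = g.1 z := by
    rw [map_add, C.of_mem hZ, C.of_mem_ne hjl' hp', zero_add]
  have h2 := ctr_move hF hM H C h1 hz' hz'0 (i := l')
    (by rw [e2]; exact fun e0 => hz0 (g.1.injective (by rw [e0, map_zero])))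
    (by rw [e2, UG_app, hzz]) (H.good_two hF C hn h6 hp' hZ (Or.inr rfl))
  rwa [e2, add_sub_cancel_right] at h2

/-- One centre outside the members gives all. -/
theorem SUG_le_of_ctr (h6 : 6 ≤ n) (C : Components D) {w : Fin n → F} (hw : w ∈ ctr hF M)
    {j₀ l₀ : Fin t} (h0 : j₀ ≠ l₀) (hj₀ : C.proj j₀ w ≠ 0) (hl₀ : C.proj l₀ w ≠ 0) :
    SUG n F q ≤ M := by
  classical
  have hn := H.n_eq hF
  obtain ⟨w, hw, j, l, hjl, hwj, hwl, hg1, hg2⟩ := exists_start hF hM H C hn h6 hw h0 hj₀ hl₀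
  have hpairs : ∀ {a b : Fin t}, a ≠ b → ∀ p ∈ D a, ∀ z ∈ D b, p ≠ 0 → z ≠ 0 →
      herm q (p + z) (p + z) = 0 → p + z ∈ ctr hF M := by
    intro a b hab p hp z hz hp0 hz0 hiso
    rw [herm_add_left, hF.herm_add_right, hF.herm_add_right, H.orth a b hab p hp z hz,
      H.orth b a hab.symm z hz p hp, add_zero, zero_add] at hiso
    obtain ⟨p₁, hp₁, z₁, hz₁, hp₁0, hz₁0, hpp, hzz, hv⟩ := ctr_pair_all hF hM H C hn hw hjl hwj hwl
      hg1 hg2 (c := herm q p p) (hF.herm_symm p p)
    exact ctr_transport hF hM H C hn h6 hjl hp₁ hz₁ hp₁0 hz₁0 hv hab hp hz hp0 hz0 hpp.symm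
      (by rw [hzz]; linear_combination hiso)
  have main : ∀ (S : Finset (Fin t)) (v : Fin n → F), herm q v v = 0 →
      (∀ r, r ∉ S → C.proj r v = 0) → v ∈ ctr hF M := by
    intro S
    induction S using Finset.strongInduction with
    | H S ih =>
    intro v hvv hS
    by_cases hz : ∃ a ∈ S, C.proj a v = 0
    · obtain ⟨a, ha, ha0⟩ := hz
      refine ih _ (Finset.erase_ssubset ha) v hvv fun r hr => ?_
      rcases eq_or_ne r a with rfl | hra
      · exact ha0
      · exact hS r fun h => hr (Finset.mem_erase.2 ⟨hra, h⟩)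
    push Not at hz
    rcases Nat.lt_or_ge S.card 2 with hc | hc
    · obtain ⟨i, hi⟩ : ∃ i, ∀ r ∈ S, r = i := by
        rcases S.eq_empty_or_nonempty with rfl | ⟨i, hi⟩
        · exact ⟨j, fun r hr => absurd hr (Finset.notMem_empty r)⟩
        · exact ⟨i, fun r hr => Finset.card_le_one.1 (by omega) r hr i hi⟩
      exact ctr_of_mem hF hM H (C.mem_of_forall fun r hr => hS r fun h => hr (hi r h)) hvv
    rcases hc.eq_or_lt with hc | hc
    · obtain ⟨a, b, hab, rfl⟩ := Finset.card_eq_two.1 hc.symm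
      have he : v = C.proj a v + C.proj b v := by
        conv_lhs => rw [← C.sum_eq v]
        rw [← Finset.sum_pair (f := fun i => C.proj i v) hab]
        exact (Finset.sum_subset (Finset.subset_univ _) fun r _ hr => hS r hr).symm
      rw [he] at hvv ⊢
      exact hpairs hab _ (C.mem a v) _ (C.mem b v) (hz a (by simp)) (hz b (by simp)) hvv
    obtain ⟨a, ha, hab'⟩ : ∃ a ∈ S, herm q (C.proj a v) (C.proj a v) = 0 ∨
        ∀ r ∈ S, herm q (C.proj r v) (C.proj r v) ≠ 0 := by
      by_cases h : ∃ a ∈ S, herm q (C.proj a v) (C.proj a v) = 0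
      · obtain ⟨a, ha, h⟩ := h
        exact ⟨a, ha, Or.inl h⟩
      · push Not at h
        obtain ⟨a, ha⟩ := Finset.card_pos.1 (show 0 < S.card by omega)
        exact ⟨a, ha, Or.inr h⟩
    obtain ⟨b, hb, hba⟩ := Finset.exists_mem_ne (show 1 < S.card by omega) a
    set p := C.proj a v with hp
    set r := C.proj b v with hr
    obtain ⟨τ, hτ0, hτ⟩ := hF.exists_skew
    have hAq : herm q p p ^ q = herm q p p := hF.herm_symm p p
    obtain ⟨z, hzb, hrz, hzz⟩ := H.exists_affine hF b (C.mem b v) (hz b hb) (-herm q p p + τ)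
      (β := -herm q p p) (by rw [hF.neg_pow, hAq]) (fun e => by
        rcases hab' with h | h
        · rw [h, neg_zero, zero_add]; exact hτ0
        · exact absurd e (h b hb))
    rw [← hr] at hrz
    have hpz : herm q p z = 0 := H.orth a b hba.symm p (C.mem a v) z hzb
    have hpr : herm q p r = 0 := H.orth a b hba.symm p (C.mem a v) r (C.mem b v)
    have hzr : herm q z r = (-herm q p p + τ) ^ q := by rw [← hF.herm_symm r z, hrz]
    have h2iso : herm q (p + z) (p + z) = 0 := by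
      rw [herm_add_left, hF.herm_add_right, hF.herm_add_right, hzz, hpz,
        Forms.herm_comm_zero hF hpz]
      ring
    have hz0 : z ≠ 0 := fun e => by
      rw [e, herm_zero_left] at hzz
      rw [e, hF.herm_zero_right] at hrz
      exact hτ0 (by linear_combination -hrz + hzz)
    have h2 : p + z ∈ ctr hF M := hpairs hba.symm p (C.mem a v) z hzb (hz a ha) hz0 h2iso
    have hvp : herm q v (p + z) = -(-τ) := by
      rw [hF.herm_add_right, H.herm_proj' hF C (C.mem a v), H.herm_proj' hF C hzb, ← hp, ← hr, hrz]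
      ring
    have h1iso : herm q (v - (p + z)) (v - (p + z)) = 0 := by
      rw [herm_sub_left, hF.herm_sub_right, hF.herm_sub_right, hvv, h2iso, ← hF.herm_symm v (p + z), hvp,
        neg_neg, hτ]
      ring
    have h1 : v - (p + z) ∈ ctr hF M := by
      refine ih _ (Finset.erase_ssubset ha) _ h1iso fun s hs => ?_
      rw [map_sub, map_add, hp, C.proj_proj]
      rcases eq_or_ne s a with rfl | hsa
      · rw [if_pos rfl, C.of_mem_ne hba hzb, add_zero, sub_self]
      · rw [if_neg (Ne.symm hsa), zero_add, hS s fun h => hs (Finset.mem_erase.2 ⟨hsa, h⟩),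
          C.of_mem_ne (show b ≠ s from fun e => hs (Finset.mem_erase.2 ⟨hsa, e ▸ hb⟩)) hzb, sub_zero]
    have hval : herm q (v - (p + z)) (p + z) = τ := by rw [herm_sub_left, hvp, h2iso]; ring
    have := ctr_line_add hF h1 h2 (by rw [hval]; exact hτ0) (by rw [hval, hτ]; ring)
    rwa [sub_add_cancel] at this
  have := H.card
  rw [SUG_eq_TG hF (by omega) (by omega), TG, Subgroup.closure_le]
  rintro g ⟨e, a, hea, hg⟩
  rw [mem_TG_generator hF hea hg]
  exact (main Finset.univ e hea.1 fun r hr => absurd (Finset.mem_univ r) hr).2 _ _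

end Cfsg.Agent.DecompMax.UN
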