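import Cfsg.Agent.DecompMax.UnitBase
import Cfsg.Agent.DecompMax.UnitCount
import Cfsg.Agent.DecompMax.LinearBasic

/-!
Monomial elements of the unitary group in the standard orthonormal frame.
-/

set_option autoImplicit false
set_option linter.style.haveILetI false
set_option linter.unusedSectionVars false

namespace Cfsg.Agent.DecompMax.UF

open Matrix Cfsg.Geo Module Cfsg.Agent.Classical.U Cfsg.Agent.DecompMax.UCount
open scoped MatrixGroups Matrix

universe u

variable {F : Type u} [Field F] {n q : ℕ}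

/-- The standard vectors. -/
abbrev sv (F : Type u) [Field F] {n : ℕ} (i : Fin n) : Fin n → F := Pi.single i 1

theorem NU.mul_pow_eq (x : NU F q) : ((x : Fˣ) : F) * ((x : Fˣ) : F) ^ q = 1 := by
  rw [← pow_succ']; exact NU.norm_eq x

theorem NU.ne_zero (x : NU F q) : ((x : Fˣ) : F) ≠ 0 := Units.ne_zero _

/-- A norm-one element from a scalar. -/
def NU.mk (c : F) (h : c * c ^ q = 1) : NU F q :=
  ⟨Units.mk0 c (fun e => by rw [e, zero_mul] at h; exact zero_ne_one h), by
    rw [NU, MonoidHom.mem_ker, powMonoidHom_apply]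
    exact Units.ext (by simpa [pow_succ'] using h)⟩

@[simp] theorem NU.mk_val (c : F) (h : c * c ^ q = 1) : ((NU.mk c h : Fˣ) : F) = c := rfl

theorem NU.coe_prod {ι : Type*} (s : Finset ι) (l : ι → NU F q) :
    (((∏ i ∈ s, l i : NU F q) : Fˣ) : F) = ∏ i ∈ s, ((l i : Fˣ) : F) := by
  induction s using Finset.cons_induction with
  | empty => simp
  | cons a s ha ih => rw [Finset.prod_cons, Finset.prod_cons, Subgroup.coe_mul, Units.val_mul, ih]

/-- Every column has at most one non-zero entry. -/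
def MonU (g : UG n F q) : Prop := ∀ j, ∃ i, ∀ l, l ≠ i → g.1 (sv F j) l = 0

theorem eq_of_apply_single {g g' : UG n F q} (h : ∀ j, g.1 (sv F j) = g'.1 (sv F j)) : g = g' := by
  refine Subtype.ext (LinearEquiv.ext fun v => ?_)
  rw [pi_eq_sum_univ' v]
  simp only [map_sum, map_smul]
  exact Finset.sum_congr rfl fun j _ => by rw [h]

variable (hF : SqField F q)
include hF

theorem herm_sv (v : Fin n → F) (i : Fin n) : herm q v (sv F i) = v i := herm_single_one i hF.q_ne_zero v

theorem inv_apply_coord (g : UG n F q) (a b : Fin n) :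
    (g⁻¹ : UG n F q).1 (sv F b) a = (g.1 (sv F a) b) ^ q := by
  rw [← herm_sv hF ((g⁻¹ : UG n F q).1 (sv F b)) a, ← UG_app g, ← LinearEquiv.mul_apply,
    ← Subgroup.coe_mul, mul_inv_cancel]
  exact herm_one_single _ _

theorem mon_isometry (π : Equiv.Perm (Fin n)) (l : Fin n → NU F q) (u v : Fin n → F) :
    herm q ((Lin.monGL π fun i => ((l i : Fˣ) : Fˣ) : GL (Fin n) F).1 *ᵥ u)
      ((Lin.monGL π fun i => ((l i : Fˣ) : Fˣ) : GL (Fin n) F).1 *ᵥ v) = herm q u v := by
  rw [herm_def, herm_def, ← Equiv.sum_comp π]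
  refine Finset.sum_congr rfl fun i _ => ?_
  rw [Lin.monGL_mulVec, Lin.monGL_mulVec, mul_pow, mul_mul_mul_comm, NU.mul_pow_eq, one_mul]

/-- Monomial isometries. -/
noncomputable def mon (π : Equiv.Perm (Fin n)) (l : Fin n → NU F q) : UG n F q :=
  ⟨glEquiv n F (Lin.monGL π fun i => ((l i : Fˣ) : Fˣ)), mon_isometry hF π l⟩

theorem mon_apply (π : Equiv.Perm (Fin n)) (l : Fin n → NU F q) (v : Fin n → F) (i : Fin n) :
    (mon hF π l).1 v (π i) = ((l i : Fˣ) : F) * v i := Lin.monGL_mulVec π _ v i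

theorem mon_sv (π : Equiv.Perm (Fin n)) (l : Fin n → NU F q) (i : Fin n) :
    (mon hF π l).1 (sv F i) = ((l i : Fˣ) : F) • sv F (π i) := by
  have := Lin.monGL_mulVec_ev π (fun i => ((l i : Fˣ) : Fˣ)) i
  exact this

theorem det_mon (π : Equiv.Perm (Fin n)) (l : Fin n → NU F q) :
    ((LinearEquiv.det (mon hF π l).1 : Fˣ) : F) =
      ((Equiv.Perm.sign π : ℤˣ) : F) * ∏ i, ((l i : Fˣ) : F) := by
  rw [mon, det_glEquiv, Matrix.GeneralLinearGroup.val_det_apply, Lin.det_monGL]

theorem mon_mem_SUG {π : Equiv.Perm (Fin n)} {l : Fin n → NU F q}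
    (h : ((Equiv.Perm.sign π : ℤˣ) : F) * ∏ i, ((l i : Fˣ) : F) = 1) : mon hF π l ∈ SUG n F q := by
  rw [mem_SUG]
  exact Units.ext ((det_mon hF π l).trans h)

theorem monU_mon (π : Equiv.Perm (Fin n)) (l : Fin n → NU F q) : MonU (mon hF π l) := fun j =>
  ⟨π j, fun x hx => by simp [mon_sv, Pi.single_eq_of_ne hx]⟩

/-- Diagonal isometries. -/
noncomputable def dia (l : Fin n → NU F q) : UG n F q := mon hF 1 l

theorem dia_apply (l : Fin n → NU F q) (v : Fin n → F) (i : Fin n) :
    (dia hF l).1 v i = ((l i : Fˣ) : F) * v i := mon_apply hF 1 l v i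

theorem dia_sv (l : Fin n → NU F q) (i : Fin n) :
    (dia hF l).1 (sv F i) = ((l i : Fˣ) : F) • sv F i := mon_sv hF 1 l i

theorem dia_mem_SUG {l : Fin n → NU F q} (h : ∏ i, l i = 1) : dia hF l ∈ SUG n F q := by
  refine mon_mem_SUG hF ?_
  rw [Equiv.Perm.sign_one, Units.val_one, Int.cast_one, one_mul, ← NU.coe_prod, h]
  simp

theorem MonU.exists_eq {g : UG n F q} (h : MonU g) : ∃ π l, g = mon hF π l := by
  classical
  choose σ hσ using h
  have hcol : ∀ j, g.1 (sv F j) = g.1 (sv F j) (σ j) • sv F (σ j) := fun j => by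
    ext x
    rcases eq_or_ne x (σ j) with rfl | hx
    · simp
    · simp [hσ j x hx, Pi.single_eq_of_ne hx]
  have hnorm : ∀ j, g.1 (sv F j) (σ j) * g.1 (sv F j) (σ j) ^ q = 1 := fun j => by
    have := UG_app g (sv F j) (sv F j)
    simp only [herm_sv hF _ j, sv, Pi.single_eq_same] at this
    rw [show (Pi.single j 1 : Fin n → F) = sv F j from rfl, hcol j, herm_smul_left, herm_smul_right,
      herm_sv hF] at this
    simp only [sv, Pi.single_eq_same, mul_one] at this
    exact this
  have hinj : Function.Injective σ := by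
    intro i j hij
    by_contra hne
    have := UG_app g (sv F i) (sv F j)
    rw [herm_sv hF (sv F i) j, hcol i, hcol j, hij, herm_smul_left, herm_smul_right, herm_sv hF] at this
    simp only [sv, Pi.single_eq_same, mul_one, Pi.single_eq_of_ne (Ne.symm hne)] at this
    rcases mul_eq_zero.1 this with h | h
    · have h2 := hnorm i
      rw [hij] at h2
      rw [h, zero_mul] at h2
      exact zero_ne_one h2
    · have h2 := hnorm j
      rw [h, mul_zero] at h2
      exact zero_ne_one h2
  refine ⟨Equiv.ofBijective σ (Finite.injective_iff_bijective.mp hinj),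
    fun j => NU.mk _ (hnorm j), eq_of_apply_single fun j => ?_⟩
  rw [mon_sv]
  exact hcol j

/-- A monomial element close to the identity moves few coordinates. -/
theorem MonU.moved {g : UG n F q} (h : MonU g) {W : Submodule F (Fin n → F)}
    (hW : ∀ v, g.1 v - v ∈ W) (hW2 : finrank F W ≤ 2) :
    ∃ J : Finset (Fin n), J.card ≤ 6 ∧ ∀ v l, l ∉ J → g.1 v l = v l := by
  classical
  obtain ⟨π, l, rfl⟩ := h.exists_eq hF
  set J : Finset (Fin n) := Finset.univ.filter fun i => π i ≠ i ∨ ((l i : Fˣ) : F) ≠ 1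
  have hJ : ∀ v x, x ∉ J → (mon hF π l).1 v x = v x := fun v x hx => by
    simp only [J, Finset.mem_filter, Finset.mem_univ, true_and, not_or, not_not] at hx
    have := mon_apply hF π l v x
    rwa [hx.1, hx.2, one_mul] at this
  refine ⟨J, ?_, hJ⟩
  by_contra hc
  push Not at hc
  obtain ⟨i, hi⟩ := Finset.card_pos.1 (show 0 < J.card by omega)
  obtain ⟨j, hj, hj'⟩ := Finset.exists_mem_notMem_of_card_lt_card
    (s := ({i, π i, π.symm i} : Finset (Fin n))) (t := J) (Finset.card_le_three.trans_lt (by omega))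
  obtain ⟨r, hr, hr'⟩ := Finset.exists_mem_notMem_of_card_lt_card
    (s := ({i, π i, π.symm i} ∪ {j, π j, π.symm j} : Finset (Fin n))) (t := J)
    (((Finset.card_union_le _ _).trans (add_le_add Finset.card_le_three Finset.card_le_three)).trans_lt hc)
  simp only [Finset.mem_union, Finset.mem_insert, Finset.mem_singleton, not_or] at hj' hr'
  obtain ⟨⟨hri, hrpi, hrsi⟩, hrj, hrpj, hrsj⟩ := hr'
  obtain ⟨hji, hjpi, hjsi⟩ := hj'
  have hf : ∀ x ∈ J, (((l x : Fˣ) : F) • sv F (π x) - sv F x) x ≠ 0 := fun x hx => by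
    simp only [J, Finset.mem_filter, Finset.mem_univ, true_and] at hx
    by_cases hπ : π x = x
    · simpa [hπ, sub_eq_zero] using hx.resolve_left (not_not.2 hπ)
    · simp [Pi.single_eq_of_ne (Ne.symm hπ)]
  have hoff : ∀ x y, y ≠ x → y ≠ π x → (((l x : Fˣ) : F) • sv F (π x) - sv F x) y = 0 :=
    fun x y h1 h2 => by simp [Pi.single_eq_of_ne h1, Pi.single_eq_of_ne h2]
  have hmemW : ∀ x, ((l x : Fˣ) : F) • sv F (π x) - sv F x ∈ W := fun x => by
    simpa [mon_sv] using hW (sv F x)
  let f : Fin 3 → W := ![⟨_, hmemW i⟩, ⟨_, hmemW j⟩, ⟨_, hmemW r⟩]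
  have hli : LinearIndependent F f := by
    rw [Fintype.linearIndependent_iff]
    intro c hc
    have e := congrArg (fun w : W => (w : Fin n → F)) hc
    simp only [Fin.sum_univ_three, f, Submodule.coe_add, Submodule.coe_smul, Matrix.cons_val_zero,
      Matrix.cons_val_one, Matrix.cons_val, Submodule.coe_zero] at e
    have hs : ∀ {x y : Fin n}, y ≠ π.symm x → x ≠ π y := fun {x y} h e =>
      h (by rw [e, Equiv.symm_apply_apply])
    have hp : ∀ {x y : Fin n}, x ≠ π y → π y ≠ x := fun h => Ne.symm h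
    have e1 := congrFun e i
    have e2 := congrFun e j
    have e3 := congrFun e r
    simp only [Pi.add_apply, Pi.smul_apply, smul_eq_mul, Pi.zero_apply] at e1 e2 e3
    rw [hoff j i (Ne.symm hji) (hs hjsi), hoff r i (Ne.symm hri) (hs hrsi)] at e1
    rw [hoff i j hji hjpi, hoff r j (Ne.symm hrj) (hs hrsj)] at e2
    rw [hoff i r hri hrpi, hoff j r hrj hrpj] at e3
    simp only [mul_zero, add_zero, zero_add, mul_eq_zero] at e1 e2 e3
    intro x
    fin_cases x
    · exact e1.resolve_right (hf i hi)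
    · exact e2.resolve_right (hf j hj)
    · exact e3.resolve_right (hf r hr)
  have := hli.fintype_card_le_finrank
  simp at this
  omega

omit hF in
/-- The support of a vector. -/
noncomputable def supp (v : Fin n → F) : Finset (Fin n) := by
  classical exact Finset.univ.filter fun i => v i ≠ 0

omit hF in
theorem mem_supp {v : Fin n → F} {i : Fin n} : i ∈ supp v ↔ v i ≠ 0 := by simp [supp]

/-- An element differing from the identity by multiples of a vector with three non-zero entries is not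
monomial. -/
theorem not_monU_of_rank_one {g : UG n F q} {w : Fin n → F} {φ : (Fin n → F) → F}
    (hg : ∀ v, g.1 v = v + φ v • w) (hw : 3 ≤ (supp w).card) {i : Fin n} (hi : φ (sv F i) ≠ 0) :
    ¬ MonU g := by
  intro h
  obtain ⟨x, hx⟩ := h i
  obtain ⟨y, hy, hy'⟩ := Finset.exists_mem_notMem_of_card_lt_card (s := ({i, x} : Finset (Fin n)))
    (t := supp w) (Finset.card_le_two.trans_lt (by omega))
  simp only [Finset.mem_insert, Finset.mem_singleton, not_or] at hy'
  have := hx y hy'.2
  rw [hg, Pi.add_apply, show sv F i y = 0 from Pi.single_eq_of_ne hy'.1 _, zero_add, Pi.smul_apply,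
    smul_eq_mul] at this
  exact mul_ne_zero hi (mem_supp.1 hy) this

theorem not_monU_trv {w : Fin n → F} {a : F} (ha : a ≠ 0) (hc : TrvCond q w a) (hw : 3 ≤ (supp w).card) :
    ¬ MonU (trv hF hc) := by
  obtain ⟨i, hi⟩ := Finset.card_pos.1 (show 0 < (supp w).card by omega)
  refine not_monU_of_rank_one hF (fun v => trv_apply hF hc v) hw (i := i) ?_
  rw [herm_one_single]
  exact mul_ne_zero ha (pow_ne_zero _ (mem_supp.1 hi))

end Cfsg.Agent.DecompMax.UF
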