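import Cfsg.Agent.DecompMax.UnitNoFix

/-!
Orthonormal frames in dimension nine over fields of even order: a transvection centre with all entries
nonzero and a suitable tuple of norm-one scalars give a non-monomial element fixing a frame line, and
character sums give such tuples for fields with at least four elements other than eight.
-/

set_option autoImplicit false
set_option linter.style.haveILetI false
set_option linter.unusedSectionVars false

namespace Cfsg.Agent.DecompMax.UF

open Matrix Cfsg.Geo Module Cfsg.Agent.Classical.U Cfsg.Agent.DecompMax.UCount Cfsg.Agent.DecompMax.UN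
open Finset
open scoped MatrixGroups Matrix

universe u

variable {F : Type u} [Field F] {n q : ℕ}
variable (hF : SqField F q)
include hF

/-- A tuple of product one moving the centre onto one with a zero entry gives a contradiction. -/
theorem NoFix.false_of_tuple {M : Subgroup (UG n F q)} (H : NoFix M) (h2 : (2 : F) = 0) {w : Fin n → F}
    (hc : TrvCond q w 1) (hwM : trv hF hc ∈ M) (hw0 : ∀ i, w i ≠ 0) (x : Fin n → NU F q)
    (hx1 : ∏ i, x i = 1) (r : Fin n)
    (hr : (∑ i, w i * w i ^ q * ((x i : Fˣ) : F)) + ((x r : Fˣ) : F) = 0) {a b c : Fin n} (hab : a ≠ b)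
    (hac : a ≠ c) (hbc : b ≠ c) (ha : x a ≠ x r) (hb : x b ≠ x r) (hc' : x c ≠ x r) : False := by
  classical
  haveI : Finite F := hF.1
  set d := dia hF x
  have hdM : d ∈ M := mem_dia_of_prod hF H hx1
  set z := (trv hF hc).1 (d.1 w) with hz
  have hzc : TrvCond q z 1 := ⟨by rw [hz, UG_app, UG_app]; exact hc.1, hc.2⟩
  have hzM : trv hF hzc ∈ M := by
    convert mul_mem (mul_mem (mul_mem hwM hdM) hwM) (inv_mem (mul_mem hwM hdM)) using 1
    refine Subtype.ext (LinearEquiv.ext fun v => ?_)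
    set p := trv hF hc * d
    have hz' : z = p.1 w := rfl
    rw [Subgroup.coe_mul, Subgroup.coe_mul, LinearEquiv.mul_apply, LinearEquiv.mul_apply,
      trv_apply, trv_apply, map_add, map_smul, app_inv hF, hz',
      ← UG_app p ((p⁻¹ : UG n F q).1 v) w, app_inv hF]
  set S' : F := herm q (d.1 w) w with hS'
  have hS : S' = ((x r : Fˣ) : F) := by
    have e : S' = ∑ i, w i * w i ^ q * ((x i : Fˣ) : F) := by
      rw [hS', herm_def]; exact Finset.sum_congr rfl fun i _ => by rw [dia_apply]; ring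
    linear_combination e + hr - ((x r : Fˣ) : F) * h2
  have hzi : ∀ i, z i = (((x i : Fˣ) : F) + S') * w i := fun i => by
    rw [hz, trv_apply, Pi.add_apply, dia_apply, Pi.smul_apply, smul_eq_mul, one_mul, ← hS']; ring
  have hne : ∀ i, x i ≠ x r → z i ≠ 0 := fun i hi => by
    rw [hzi, hS]
    refine mul_ne_zero (fun e => hi (Subtype.ext (Units.ext ?_))) (hw0 i)
    linear_combination e - ((x r : Fˣ) : F) * h2
  have hz3 : 3 ≤ (supp z).card :=
    Finset.two_lt_card_iff.2 ⟨a, b, c, mem_supp.2 (hne a ha), mem_supp.2 (hne b hb), mem_supp.2 (hne c hc'),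
      hab, hac, hbc⟩
  refine not_monU_trv hF one_ne_zero hzc hz3 (H.nofix _ hzM r 1 ?_)
  have hzr : z r = 0 := by
    rw [hzi, hS]; linear_combination ((x r : Fˣ) : F) * w r * h2
  rw [trv_apply, herm_one_single, hzr, zero_pow hF.q_ne_zero]
  simp

/-- The `k`-th powers of the norm-one elements have index at most `gcd (q + 1) k`. -/
theorem card_powers_quot (k : ℕ) :
    Nat.card (NU F q ⧸ (powMonoidHom k : NU F q →* NU F q).range) = Nat.gcd (q + 1) k := by
  haveI : Finite F := hF.1
  have h1 := Subgroup.card_eq_card_quotient_mul_card_subgroup (powMonoidHom k : NU F q →* NU F q).range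
  have h2 := Subgroup.card_eq_card_quotient_mul_card_subgroup (powMonoidHom k : NU F q →* NU F q).ker
  rw [Nat.card_congr (QuotientGroup.quotientKerEquivRange (powMonoidHom k : NU F q →* NU F q)).toEquiv,
    IsCyclic.card_powMonoidHom_ker, card_NU hF] at h2
  rw [card_NU hF] at h1
  have hpos : 0 < Nat.card (powMonoidHom k : NU F q →* NU F q).range := Nat.card_pos
  exact Nat.eq_of_mul_eq_mul_right hpos (h1.symm.trans (h2.trans (mul_comm _ _)))

open _root_.Classical in
/-- Solutions of a linear equation in norm-one elements with product a ninth power. -/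
theorem card_sum_prod_nine [Fintype F] {g : ℕ} (hg : Nat.gcd (q + 1) 9 = g) (c : Fin 9 → F) (hc : ∀ i, c i ≠ 0)
    {T : ℝ} (hT : 0 ≤ T) (hPT : (3 * (q : ℝ) ^ 2 * (q + 1)) ^ 5 ≤ T ^ 4) :
    ((q : ℝ) + 1) ^ 9 - (q : ℝ) ^ 2 * g * (3 * (q + 1) ^ 2) * T ≤
      (q : ℝ) ^ 2 * g * (univ.filter fun x : Fin 9 → NU F q =>
        ∑ i, c i * ((x i : Fˣ) : F) = 0 ∧
          ∏ i, x i ∈ (powMonoidHom 9 : NU F q →* NU F q).range).card := by
  classical
  haveI : Finite F := hF.1
  set N := (powMonoidHom 9 : NU F q →* NU F q).range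
  haveI : Fintype (NU F q ⧸ N) := Fintype.ofFinite _
  set G := F × Additive (NU F q ⧸ N)
  letI : Fintype (AddChar G ℂ) := AddChar.instFintype (F × Additive (NU F q ⧸ N)) ℂ
  set φ : Fin (4 + (5 + 0)) → NU F q → G :=
    fun i μ => (c i * ((μ : Fˣ) : F), Additive.ofMul (μ : NU F q ⧸ N)) with hφ
  set f : Fin (4 + (5 + 0)) → AddChar G ℂ → ℝ := fun i ψ => ‖∑ μ : NU F q, ψ (φ i μ)‖
  have hcard : Fintype.card G = q ^ 2 * g := by
    rw [Fintype.card_prod, card_F hF, Fintype.card_additive, ← Nat.card_eq_fintype_card,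
      card_powers_quot hF, hg]
  have hL : ∀ i, ∑ ψ, f i ψ ^ 4 ≤ ((q : ℝ) ^ 2 * g) * (3 * (q + 1) ^ 2) := fun i => by
    have h := fourth_moment_le (φ i) (fun _ => (1 : ℂ)) (fun _ => by simp) (3 * (q + 1) ^ 2) (by
      refine (Finset.card_le_card fun p hp => ?_).trans (energy_le hF (hc i))
      rw [Finset.mem_filter] at hp ⊢
      exact ⟨hp.1, congrArg Prod.fst hp.2⟩)
    simp only [one_mul, hcard] at h
    push_cast at h
    exact h
  have hE := error_le hF (G := G) f (fun i ψ => norm_nonneg _)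
    (fun i ψ => (norm_sum_le _ _).trans (le_of_eq (by simp [AddChar.norm_apply, fintype_card_NU hF])))
    (P := 3 * (q : ℝ) ^ 2 * (q + 1)) (T := T) (by positivity)
    (fun ψ hψ => by
      set e : AddChar F ℂ := ψ.compAddMonoidHom (AddMonoidHom.inl F (Additive (NU F q ⧸ N))) with hedef
      have hsplit : ∀ x a, ψ (x, a) = e x * ψ (0, a) := fun x a => by
        rw [hedef, AddChar.compAddMonoidHom_apply, AddMonoidHom.inl_apply, ← AddChar.map_add_eq_mul,
          Prod.mk_add_mk, add_zero, zero_add]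
      let θ : Additive (NU F q) →+ Additive (NU F q ⧸ N) := MonoidHom.toAdditive (QuotientGroup.mk' N)
      let χ : AddChar (Additive (NU F q)) ℂ :=
        ψ.compAddMonoidHom ((AddMonoidHom.inr F (Additive (NU F q ⧸ N))).comp θ)
      have hχv : ∀ μ : NU F q, ψ (0, Additive.ofMul (μ : NU F q ⧸ N)) = χ (Additive.ofMul μ) := fun μ => rfl
      have hmul : ∀ a b : NU F q, χ (Additive.ofMul (a * b)) =
          χ (Additive.ofMul a) * χ (Additive.ofMul b) := fun a b => by
        rw [← AddChar.map_add_eq_mul, ofMul_mul]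
      rcases eq_or_ne e 0 with he | he
      · refine Or.inr fun i => norm_eq_zero.2 ?_
        rw [Finset.sum_congr rfl fun μ _ => (show ψ (φ i μ) = χ (Additive.ofMul μ) by
          simp only [hφ]; rw [hsplit, he, AddChar.zero_apply, one_mul, hχv])]
        have hχ : χ ≠ 0 := fun h0 => hψ (by
          ext x
          obtain ⟨a, ha⟩ := Additive.ofMul.surjective x.2
          obtain ⟨μ, rfl⟩ := QuotientGroup.mk_surjective a
          rw [show x = (x.1, x.2) from rfl, hsplit, he, AddChar.zero_apply, one_mul, ← ha, hχv, h0]; simp)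
        have := AddChar.sum_eq_ite χ
        rw [if_neg hχ] at this
        exact (Equiv.sum_comp Additive.ofMul (fun a => χ a)).trans this
      · refine Or.inl fun i => ?_
        change ‖∑ μ : NU F q, ψ (φ i μ)‖ ^ 4 ≤ _
        rw [Finset.sum_congr rfl fun μ _ =>
          (show ψ (φ i μ) = χ (Additive.ofMul μ) * e (c i * ((μ : Fˣ) : F)) by
            simp only [hφ]; rw [hsplit, hχv, mul_comm])]
        exact sum_le hF (fun μ : NU F q => χ (Additive.ofMul μ)) hmul
          (fun a => AddChar.norm_apply χ _) e he (hc i))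
    hT hPT (L := (q : ℝ) ^ 2 * g * (3 * (q + 1) ^ 2)) (fun i => sum_erase_le (hL i))
  have h := card_solutions_ge φ (0, 0) _ hE
  rw [fintype_card_NU hF, hcard] at h
  have hset : (univ.filter fun x : Fin (4 + (5 + 0)) → NU F q => ∑ i, φ i (x i) = (0, 0)) =
      univ.filter fun x : Fin (4 + (5 + 0)) → NU F q =>
        ∑ i, c i * ((x i : Fˣ) : F) = 0 ∧ ∏ i, x i ∈ N := by
    refine Finset.filter_congr fun x _ => ?_
    change ∑ i, (c i * ((x i : Fˣ) : F), Additive.ofMul ((x i : NU F q ⧸ N))) = (0, 0) ↔ _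
    rw [Prod.ext_iff, Prod.fst_sum, Prod.snd_sum, ← ofMul_prod, ofMul_eq_zero,
      ← QuotientGroup.mk_prod, QuotientGroup.eq_one_iff]
  rw [hset] at h
  push_cast at h
  simp only [pow_zero, mul_one] at h
  exact h

omit hF in
/-- The estimate in powers of two other than two and eight. -/
theorem nine_numeric {q f g : ℕ} (hq : q = 2 ^ f) (h4 : 4 ≤ q) (h8 : q ≠ 8) (hg : Nat.gcd (q + 1) 9 = g) :
    ∃ T : ℕ, (3 * q ^ 2 * (q + 1)) ^ 5 ≤ T ^ 4 ∧
      q ^ 2 * g * (3 * (q + 1) ^ 2) * T + q ^ 2 * g * (81 * (q + 1) ^ 3) < (q + 1) ^ 9 := by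
  have hf2 : 2 ≤ f := by
    by_contra h; interval_cases f <;> simp at hq <;> omega
  rcases Nat.lt_or_ge f 7 with hf | hf
  · interval_cases f
    · subst hq; norm_num at hg; subst hg; exact ⟨945, by norm_num⟩
    · simp at hq; omega
    · subst hq; norm_num at hg; subst hg; exact ⟨4 * 16 ^ 2 * 17 ^ 2, by norm_num⟩
    · subst hq; norm_num at hg; subst hg; exact ⟨4 * 32 ^ 2 * 33 ^ 2, by norm_num⟩
    · subst hq; norm_num at hg; subst hg; exact ⟨4 * 64 ^ 2 * 65 ^ 2, by norm_num⟩
  · have hq7 : 128 ≤ q := by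
      rw [hq]; exact le_trans (by norm_num) (Nat.pow_le_pow_right two_pos hf)
    have hg9 : g ≤ 9 := hg ▸ Nat.gcd_le_right _ (by norm_num)
    refine ⟨4 * q ^ 2 * (q + 1) ^ 2, ?_, ?_⟩
    · calc (3 * q ^ 2 * (q + 1)) ^ 5 = 243 * q ^ 8 * (q + 1) ^ 5 * q ^ 2 := by ring
        _ ≤ 256 * q ^ 8 * (q + 1) ^ 5 * (q + 1) ^ 3 := by
          refine Nat.mul_le_mul ?_ ?_
          · gcongr; norm_num
          · calc q ^ 2 ≤ (q + 1) ^ 2 := Nat.pow_le_pow_left (Nat.le_succ q) 2
              _ ≤ (q + 1) ^ 3 := Nat.pow_le_pow_right (by omega) (by norm_num)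
        _ = _ := by ring
    · calc q ^ 2 * g * (3 * (q + 1) ^ 2) * (4 * q ^ 2 * (q + 1) ^ 2) + q ^ 2 * g * (81 * (q + 1) ^ 3)
          ≤ q ^ 2 * 9 * (3 * (q + 1) ^ 2) * (4 * q ^ 2 * (q + 1) ^ 2) + q ^ 2 * 9 * (81 * (q + 1) ^ 3) := by
            gcongr
        _ = 108 * q ^ 4 * (q + 1) ^ 4 + 729 * q ^ 2 * (q + 1) ^ 3 := by ring
        _ ≤ 108 * (q + 1) ^ 4 * (q + 1) ^ 4 + 729 * (q + 1) ^ 2 * (q + 1) ^ 3 := by gcongr <;> omega
        _ = (108 * (q + 1) ^ 3 + 729) * (q + 1) ^ 5 := by ring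
        _ < (q + 1) ^ 4 * (q + 1) ^ 5 := by
            refine Nat.mul_lt_mul_of_lt_of_le ?_ le_rfl (by positivity)
            have : 729 < (q + 1) ^ 3 := lt_of_lt_of_le (by norm_num) (Nat.pow_le_pow_left (show 129 ≤ q + 1 by omega) 3)
            calc 108 * (q + 1) ^ 3 + 729 < 109 * (q + 1) ^ 3 := by omega
              _ ≤ (q + 1) * (q + 1) ^ 3 := Nat.mul_le_mul_right _ (by omega)
              _ = _ := by ring
        _ = _ := by ring

/-- Fields of at least four elements other than eight. -/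
theorem NoFix.false_tuple_large {M : Subgroup (UG 9 F q)} (H : NoFix M) (h2 : (2 : F) = 0) {f : ℕ}
    (hq : q = 2 ^ f) (h4 : 4 ≤ q) (h8 : q ≠ 8) {w : Fin 9 → F} (hc : TrvCond q w 1)
    (hwM : trv hF hc ∈ M) (hw0 : ∀ i, w i ≠ 0) : False := by
  classical
  haveI : Finite F := hF.1
  haveI : Fintype F := Fintype.ofFinite F
  set N : Fin 9 → F := fun i => w i * w i ^ q with hN
  have hsum : ∑ i, N i = 0 := by rw [← hc.1, herm_def]
  obtain ⟨r, hr⟩ : ∃ r, 1 + N r ≠ 0 := by
    by_contra h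
    push Not at h
    refine one_ne_zero (α := F) ?_
    rw [Finset.sum_congr rfl fun i _ => (show N i = 1 by linear_combination h i - h2), Finset.sum_const,
      Finset.card_univ, Fintype.card_fin] at hsum
    simp only [nsmul_eq_mul, mul_one] at hsum
    push_cast at hsum
    linear_combination hsum - 4 * h2
  set c : Fin 9 → F := Function.update N r (1 + N r)
  have hc0 : ∀ i, c i ≠ 0 := fun i => by
    rcases eq_or_ne i r with rfl | hi
    · simpa [c] using hr
    · simpa [c, Function.update_of_ne hi, N] using ⟨hw0 i, fun e => absurd e (hw0 i)⟩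
  obtain ⟨T, hT, hlt⟩ := nine_numeric hq h4 h8 rfl
  have h := card_sum_prod_nine hF rfl c hc0 (T := T) (Nat.cast_nonneg _) (by exact_mod_cast hT)
  set S := univ.filter fun x : Fin 9 → NU F q =>
    ∑ i, c i * ((x i : Fˣ) : F) = 0 ∧ ∏ i, x i ∈ (powMonoidHom 9 : NU F q →* NU F q).range with hS
  have hbig : 81 * (q + 1) ^ 3 < S.card := by
    by_contra hle
    push Not at hle
    have h' : ((q : ℝ) + 1) ^ 9 ≤ (q : ℝ) ^ 2 * (Nat.gcd (q + 1) 9 : ℕ) * (3 * (q + 1) ^ 2) * T +
        (q : ℝ) ^ 2 * (Nat.gcd (q + 1) 9 : ℕ) * (81 * (q + 1) ^ 3 : ℕ) := by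
      have := mul_le_mul_of_nonneg_left (Nat.cast_le (α := ℝ).2 hle)
        (show (0 : ℝ) ≤ (q : ℝ) ^ 2 * (Nat.gcd (q + 1) 9 : ℕ) by positivity)
      linarith
    have h'' : (q + 1) ^ 9 ≤ q ^ 2 * Nat.gcd (q + 1) 9 * (3 * (q + 1) ^ 2) * T +
        q ^ 2 * Nat.gcd (q + 1) 9 * (81 * (q + 1) ^ 3) := by exact_mod_cast h'
    omega
  have hex : ∀ x ∈ S, ∃ p p' : Fin 9, ∀ i, i ≠ p → i ≠ p' → x i = x r := by
    intro x hx
    rw [hS, Finset.mem_filter] at hx
    obtain ⟨p₀, hp₀⟩ := hx.2.2
    rw [powMonoidHom_apply] at hp₀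
    by_contra hno
    push Not at hno
    obtain ⟨a, -, -, ha⟩ := hno r r
    obtain ⟨b, hba, -, hb⟩ := hno a a
    obtain ⟨d, hda, hdb, hd⟩ := hno a b
    refine H.false_of_tuple hF h2 hc hwM hw0 (fun i => x i * p₀⁻¹) ?_ r ?_ (Ne.symm hba) (Ne.symm hda)
      (Ne.symm hdb) (fun e => ha (mul_right_cancel e)) (fun e => hb (mul_right_cancel e))
      (fun e => hd (mul_right_cancel e))
    · rw [Finset.prod_mul_distrib, Finset.prod_const, Finset.card_univ, Fintype.card_fin, inv_pow, hp₀,
        mul_inv_cancel]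
    · have e : ∑ i, c i * ((x i : Fˣ) : F) = (∑ i, N i * ((x i : Fˣ) : F)) + ((x r : Fˣ) : F) := by
        rw [← Finset.add_sum_erase _ _ (Finset.mem_univ r),
          ← Finset.add_sum_erase _ (fun i => N i * ((x i : Fˣ) : F)) (Finset.mem_univ r),
          Finset.sum_congr rfl (fun i hi => by
            simp only [c]; rw [Function.update_of_ne (Finset.ne_of_mem_erase hi)] :
            ∀ i ∈ Finset.univ.erase r, c i * ((x i : Fˣ) : F) = N i * ((x i : Fˣ) : F))]
        simp only [c, Function.update_self]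
        ring
      rw [hx.2.1] at e
      have e' := congrArg (· * (((p₀⁻¹ : NU F q) : Fˣ) : F)) e
      simp only [zero_mul, add_mul, Finset.sum_mul] at e'
      simp only [Subgroup.coe_mul, Units.val_mul]
      rw [e']
      congr 1
      exact Finset.sum_congr rfl fun i _ => by ring
  choose! p p' hpp using hex
  have hcard : S.card ≤ 81 * (q + 1) ^ 3 := by
    calc S.card ≤ (Finset.univ : Finset ((Fin 9 × Fin 9) × NU F q × NU F q × NU F q)).card := by
          refine Finset.card_le_card_of_injOn (fun x => ((p x, p' x), x (p x), x (p' x), x r))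
            (fun x _ => Finset.mem_univ _) fun x hx y hy e => ?_
          simp only [Prod.ext_iff] at e
          obtain ⟨⟨e1, e2⟩, e3, e4, e5⟩ := e
          funext i
          rcases eq_or_ne i (p x) with rfl | hi
          · rw [e3, e1]
          rcases eq_or_ne i (p' x) with rfl | hi'
          · rw [e4, e2]
          rw [hpp x hx i hi hi', e5, hpp y hy i (e1 ▸ hi) (e2 ▸ hi')]
      _ = _ := by
          simp only [Finset.card_univ, Fintype.card_prod, Fintype.card_fin, fintype_card_NU hF]; ring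
  omega

end Cfsg.Agent.DecompMax.UF
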