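import Cfsg.Agent.DecompMax.UnitNine
import Cfsg.Agent.DecompMax.UnitDvd

/-!
Orthonormal frames in dimension nine over the field with sixty-four elements: explicit tuples of
norm-one scalars.
-/

set_option autoImplicit false
set_option linter.style.haveILetI false
set_option linter.unusedSectionVars false

namespace Cfsg.Agent.DecompMax.UF

open Matrix Cfsg.Geo Module Cfsg.Agent.Classical.U Cfsg.Agent.DecompMax.UCount Cfsg.Agent.DecompMax.UN
open Finset
open scoped MatrixGroups Matrix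

universe u

variable {F : Type u} [Field F]

/-- A cubic root of the first kind determines the others. -/
theorem cubic_roots {t u : F} (h2 : (2 : F) = 0) (ht : t ^ 3 + t + 1 = 0) (hu : u ^ 3 + u + 1 = 0) :
    u = t ∨ u = t ^ 2 ∨ u = t ^ 4 := by
  have h : (u - t) * (u - t ^ 2) * (u - t ^ 4) = 0 := by
    have e1 : t + t ^ 2 + t ^ 4 = 0 := by linear_combination t * ht
    have e2 : t ^ 3 + t ^ 5 + t ^ 6 = 1 := by
      linear_combination ((-1) + (-1 * t) + (1 * t ^ 2) + (1 * t ^ 3)) * ht + (1 * t) * h2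
    have e3 : t ^ 7 = 1 := by
      linear_combination ((1) + (-1 * t) + (-1 * t ^ 2) + (1 * t ^ 4)) * ht + ((-1) + (1 * t ^ 2)) * h2
    linear_combination hu - u ^ 2 * e1 + u * e2 - e3 - h2
  rcases mul_eq_zero.1 h with h | h
  · rcases mul_eq_zero.1 h with h | h
    · exact Or.inl (sub_eq_zero.1 h)
    · exact Or.inr (Or.inl (sub_eq_zero.1 h))
  · exact Or.inr (Or.inr (sub_eq_zero.1 h))

variable {ω t D : F}

section Eight

variable (hF : SqField F 8)
include hF

theorem pow_eight_add (h2 : (2 : F) = 0) (hω : ω ^ 2 + ω + 1 = 0) {A B : F} (hA : A ^ 8 = A)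
    (hB : B ^ 8 = B) (hAB : A ^ 2 + A * B + B ^ 2 = 1) : (A + B * ω) * (A + B * ω) ^ 8 = 1 := by
  rw [hF.add_pow, mul_pow, hA, hB]
  have h3 : ω ^ 3 = 1 := by linear_combination (ω - 1) * hω
  have h8 : ω ^ 8 = ω ^ 2 := by
    calc ω ^ 8 = (ω ^ 3) ^ 2 * ω ^ 2 := by ring
      _ = _ := by rw [h3]; ring
  rw [h8]
  linear_combination hAB + A * B * hω - A * B * h2 + B ^ 2 * h3

theorem ne_one_of_omega (hω : ω ^ 2 + ω + 1 = 0) (h2 : (2 : F) = 0) {A B : F} (hA : A ^ 8 = A)
    (hB : B ^ 8 = B) (hB0 : B ≠ 0) : A + B * ω ≠ 1 := fun e => by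
  have h3 : ω ^ 3 = 1 := by linear_combination (ω - 1) * hω
  have h8 : ω ^ 8 = ω ^ 2 := by
    calc ω ^ 8 = (ω ^ 3) ^ 2 * ω ^ 2 := by ring
      _ = _ := by rw [h3]; ring
  have e' := congrArg (· ^ 8) e
  simp only [hF.add_pow, mul_pow, one_pow, hA, hB, h8] at e'
  have hz : B * (ω ^ 2 - ω) = 0 := by linear_combination e' - e
  have : (1 : F) = 0 := by linear_combination hω - (mul_eq_zero.1 hz).resolve_left hB0 - ω * h2
  exact one_ne_zero this

variable {M : Subgroup (UG 9 F 8)} (H : NoFix M) (h2 : (2 : F) = 0) {w : Fin 9 → F}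
  (hc : TrvCond 8 w 1) (hwM : trv hF hc ∈ M) (hw0 : ∀ i, w i ≠ 0)
include H h2 hc hwM hw0

/-- Scalars one outside a small set. -/
theorem NoFix.false_of_combo (B : Finset (Fin 9)) (y : Fin 9 → NU F 8) (hy1 : ∀ i, i ∉ B → y i = 1)
    (hne : ∀ i ∈ B, y i ≠ 1) (hB : 3 ≤ B.card) (hB' : B.card < 9) (hprod : ∏ i ∈ B, y i = 1)
    (hsum : ∑ i ∈ B, w i * w i ^ 8 * (((y i : Fˣ) : F) + 1) = 1) : False := by
  classical
  obtain ⟨r, -, hr⟩ := Finset.exists_mem_notMem_of_card_lt_card (s := B) (t := Finset.univ)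
    (by rw [Finset.card_univ, Fintype.card_fin]; exact hB')
  obtain ⟨a, b, c, ha, hb, hcB, hab, hac, hbc⟩ := Finset.two_lt_card_iff.1 (show 2 < B.card by omega)
  have hyr : y r = 1 := hy1 r hr
  have h0 : ∑ i, w i * w i ^ 8 = 0 := by rw [← hc.1, herm_def]
  have hs : ∑ i, w i * w i ^ 8 * (((y i : Fˣ) : F) + 1) = 1 := by
    refine Eq.trans ?_ hsum
    refine (Finset.sum_subset (Finset.subset_univ B) fun i _ hi => ?_).symm
    rw [hy1 i hi]
    simp only [OneMemClass.coe_one, Units.val_one]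
    linear_combination w i * w i ^ 8 * h2
  refine H.false_of_tuple hF h2 hc hwM hw0 y ?_ r ?_ hab hac hbc (hyr ▸ hne a ha) (hyr ▸ hne b hb)
    (hyr ▸ hne c hcB)
  · rw [← hprod]
    exact (Finset.prod_subset (Finset.subset_univ B) fun i _ hi => hy1 i hi).symm
  · simp only [mul_add, mul_one, Finset.sum_add_distrib] at hs
    rw [hyr]
    simp only [OneMemClass.coe_one, Units.val_one]
    linear_combination hs - h0 + h2

variable (hω : ω ^ 2 + ω + 1 = 0) (ht : t ^ 3 + t + 1 = 0)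
include hω ht

omit H hc hwM hw0 hF hω in
theorem t_facts : t ^ 8 = t ∧ (t ^ 2) ^ 8 = t ^ 2 ∧ (t ^ 4) ^ 8 = t ^ 4 ∧ t ≠ 0 := by
  have e3 : t ^ 7 = 1 := by
    linear_combination ((1) + (-1 * t) + (-1 * t ^ 2) + (1 * t ^ 4)) * ht + ((-1) + (1 * t ^ 2)) * h2
  have e : t ^ 8 = t := by rw [pow_succ, e3, one_mul]
  refine ⟨e, by rw [← pow_mul, mul_comm, pow_mul, e], by rw [← pow_mul, mul_comm, pow_mul, e],
    fun h0 => ?_⟩
  rw [h0, zero_pow (by norm_num)] at e3
  exact zero_ne_one e3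

/-- Two entries adding to one. -/
theorem NoFix.false_pair {a b : Fin 9} (hab : a ≠ b) (ha : w a * w a ^ 8 = t)
    (hb : w b * w b ^ 8 = t + 1) : False := by
  classical
  obtain ⟨e1, e2, e4, et⟩ := t_facts h2 ht
  set μ : NU F 8 := NU.mk (t ^ 2 + t ^ 4 * ω) (pow_eight_add hF h2 hω e2 e4 (by
    linear_combination ((1) + (1 * t) + (-1 * t ^ 2) + (1 * t ^ 5)) * ht + ((-1) + (-1 * t)) * h2)) with hμ
  set ν : NU F 8 := NU.mk (t + t ^ 4 * ω) (pow_eight_add hF h2 hω e1 e4 (by
    linear_combination ((1) + (1 * t) + (-1 * t ^ 3) + (1 * t ^ 5)) * ht + ((-1) + (-1 * t)) * h2)) with hν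
  have hμ1 : μ ≠ 1 := fun e => ne_one_of_omega hF hω h2 e2 e4 (pow_ne_zero _ et) (by
    simpa [hμ] using congrArg (fun x : NU F 8 => ((x : Fˣ) : F)) e)
  set x : Fin 9 → NU F 8 := fun i => if i = a then μ else if i = b then ν else 1 with hx
  have hxa : x a = μ := by simp [hx]
  have hxb : x b = ν := by simp [hx, Ne.symm hab]
  have hx1 : ∀ i, i ∉ ({a, b} : Finset (Fin 9)) → x i = 1 := fun i hi => by
    simp only [Finset.mem_insert, Finset.mem_singleton, not_or] at hi
    simp [hx, hi.1, hi.2]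
  have h0 : ∑ i, w i * w i ^ 8 = 0 := by rw [← hc.1, herm_def]
  have hs : ∑ i, w i * w i ^ 8 * (((x i : Fˣ) : F) + 1) =
      t * (t ^ 2 + t ^ 4 * ω + 1) + (t + 1) * (t + t ^ 4 * ω + 1) := by
    rw [← Finset.sum_subset (Finset.subset_univ ({a, b} : Finset (Fin 9))) fun i _ hi => by
      rw [hx1 i hi]; simp only [OneMemClass.coe_one, Units.val_one]
      linear_combination w i * w i ^ 8 * h2]
    rw [Finset.sum_pair hab, hxa, hxb, ha, hb, hμ, hν, NU.mk_val, NU.mk_val]
  have hT : ({a, b}ᶜ : Finset (Fin 9)).card = 7 := by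
    rw [Finset.card_compl, Finset.card_pair hab, Fintype.card_fin]
  obtain ⟨i, j, k, hi, hj, hk, hij, hik, hjk⟩ :=
    Finset.two_lt_card_iff.1 (show 2 < ({a, b}ᶜ : Finset (Fin 9)).card by omega)
  rw [Finset.mem_compl] at hi hj hk
  refine H.false_of_tuple hF h2 hc hwM hw0 x ?_ a ?_ hij hik hjk ?_ ?_ ?_
  · rw [← Finset.prod_subset (Finset.subset_univ ({a, b} : Finset (Fin 9))) fun i _ hi => hx1 i hi,
      Finset.prod_pair hab, hxa, hxb]
    refine Subtype.ext (Units.ext ?_)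
    rw [Subgroup.coe_mul, Units.val_mul, hμ, hν, NU.mk_val, NU.mk_val]
    simp only [OneMemClass.coe_one, Units.val_one]
    linear_combination ((1) + (-2 * ω) + (2 * ω ^ 2) + (-1 * t * ω) + (1 * t * ω ^ 2) + (1 * t ^ 2 * ω) + (-1 * t ^ 2 * ω ^ 2) + (1 * t ^ 3 * ω) + (-1 * t ^ 3 * ω ^ 2) + (1 * t ^ 5 * ω ^ 2)) * ht + ((-2) + (-3 * t)) * hω + ((2 * ω) + (1 * t) + (3 * t * ω)) * h2
  · simp only [mul_add, mul_one, Finset.sum_add_distrib] at hs
    rw [hxa, hμ, NU.mk_val]
    linear_combination hs - h0 + ((1) + (-2 * ω) + (2 * t * ω) + (2 * t ^ 2 * ω)) * ht + ((1 * ω) + (1 * t) + (1 * t ^ 2) + (-2 * t ^ 2 * ω)) * h2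
  · rw [hxa, hx1 i hi]; exact Ne.symm hμ1
  · rw [hxa, hx1 j hj]; exact Ne.symm hμ1
  · rw [hxa, hx1 k hk]; exact Ne.symm hμ1

/-- Three entries on a line through a root of the first kind. -/
theorem NoFix.false_line {a b c : Fin 9} (hab : a ≠ b) (hac : a ≠ c) (hbc : b ≠ c)
    (ha : w a * w a ^ 8 = t) (hb : w b * w b ^ 8 = t ^ 2 + 1) (hc' : w c * w c ^ 8 = t ^ 4 + 1) :
    False := by
  classical
  obtain ⟨e1, e2, e4, et⟩ := t_facts h2 ht
  set γ : NU F 8 := NU.mk (t ^ 4 + t * ω) (pow_eight_add hF h2 hω e4 e1 (by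
    linear_combination ((1) + (1 * t) + (-1 * t ^ 3) + (1 * t ^ 5)) * ht + ((-1) + (-1 * t)) * h2)) with hγ
  set γ' : NU F 8 := NU.mk (t + t ^ 4 * ω) (pow_eight_add hF h2 hω e1 e4 (by
    linear_combination ((1) + (1 * t) + (-1 * t ^ 3) + (1 * t ^ 5)) * ht + ((-1) + (-1 * t)) * h2)) with hγ'
  set δ : NU F 8 := NU.mk (1 + 1 * ω) (pow_eight_add hF h2 hω (one_pow 8) (one_pow 8) (by
    linear_combination h2)) with hδ
  set y : Fin 9 → NU F 8 := fun i => if i = a then γ else if i = b then γ' else if i = c then δ else 1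
    with hy
  have hya : y a = γ := by simp [hy]
  have hyb : y b = γ' := by simp [hy, Ne.symm hab]
  have hyc : y c = δ := by simp [hy, Ne.symm hac, Ne.symm hbc]
  have hne : ∀ z : NU F 8, ∀ A B : F, ((z : Fˣ) : F) = A + B * ω → A ^ 8 = A → B ^ 8 = B → B ≠ 0 → z ≠ 1 :=
    fun z A B e hA hB hB0 h1 => ne_one_of_omega hF hω h2 hA hB hB0 (by rw [← e, h1]; rfl)
  have ha' : a ∉ ({b, c} : Finset (Fin 9)) := by simp [hab, hac]
  refine H.false_of_combo hF h2 hc hwM hw0 {a, b, c} y (fun i hi => ?_) (fun i hi => ?_) ?_ ?_ ?_ ?_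
  · simp only [Finset.mem_insert, Finset.mem_singleton, not_or] at hi
    simp [hy, hi.1, hi.2.1, hi.2.2]
  · simp only [Finset.mem_insert, Finset.mem_singleton] at hi
    rcases hi with rfl | rfl | rfl
    · exact hya ▸ hne γ _ _ rfl e4 e1 et
    · exact hyb ▸ hne γ' _ _ rfl e1 e4 (pow_ne_zero _ et)
    · exact hyc ▸ hne δ _ _ rfl (one_pow 8) (one_pow 8) one_ne_zero
  · rw [Finset.card_insert_of_notMem ha', Finset.card_pair hbc]
  · rw [Finset.card_insert_of_notMem ha', Finset.card_pair hbc]; omega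
  · rw [Finset.prod_insert ha', Finset.prod_pair hbc, hya, hyb, hyc]
    refine Subtype.ext (Units.ext ?_)
    rw [Subgroup.coe_mul, Subgroup.coe_mul, Units.val_mul, Units.val_mul, hγ, hγ', hδ, NU.mk_val,
      NU.mk_val, NU.mk_val]
    simp only [OneMemClass.coe_one, Units.val_one]
    linear_combination ((-1) + (1 * ω) + (1 * ω ^ 2) + (-1 * ω ^ 3) + (1 * t * ω) + (1 * t * ω ^ 2) + (1 * t ^ 2) + (1 * t ^ 2 * ω ^ 3) + (-1 * t ^ 3 * ω) + (-1 * t ^ 3 * ω ^ 2) + (1 * t ^ 5 * ω) + (1 * t ^ 5 * ω ^ 2)) * ht + ((-2) + (1 * ω) + (-3 * t) + (1 * t * ω) + (1 * t ^ 2) + (-1 * t ^ 2 * ω)) * hω + ((1) + (2 * t) + (-1 * t ^ 2)) * h2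
  · rw [Finset.sum_insert ha', Finset.sum_pair hbc, hya, hyb, hyc, ha, hb, hc', hγ, hγ', hδ, NU.mk_val,
      NU.mk_val, NU.mk_val]
    linear_combination ((-1 * ω) + (2 * t) + (1 * t * ω) + (1 * t ^ 2) + (1 * t ^ 3 * ω)) * ht + ((1) + (1 * ω) + (-1 * t ^ 2)) * h2

/-- A root of the first kind, its square and a repeated entry. -/
theorem NoFix.false_quad {i j k l : Fin 9} (hij : i ≠ j) (hik : i ≠ k) (hil : i ≠ l) (hjk : j ≠ k)
    (hjl : j ≠ l) (hkl : k ≠ l) (hijN : w i * w i ^ 8 = w j * w j ^ 8) (hk : w k * w k ^ 8 = t)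
    (hl : w l * w l ^ 8 = t ^ 2) : False := by
  classical
  obtain ⟨e1, e2, e4, et⟩ := t_facts h2 ht
  set γ : NU F 8 := NU.mk (t ^ 4 + t * ω) (pow_eight_add hF h2 hω e4 e1 (by
    linear_combination ((1) + (1 * t) + (-1 * t ^ 3) + (1 * t ^ 5)) * ht + ((-1) + (-1 * t)) * h2)) with hγ
  set δ : NU F 8 := NU.mk (0 + 1 * ω) (pow_eight_add hF h2 hω (zero_pow (by norm_num)) (one_pow 8) (by
    ring)) with hδ
  set y : Fin 9 → NU F 8 := fun x => if x = l then δ else if x = i ∨ x = j ∨ x = k then γ else 1 with hy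
  have hyi : y i = γ := by simp [hy, hil]
  have hyj : y j = γ := by simp [hy, hjl]
  have hyk : y k = γ := by simp [hy, hkl]
  have hyl : y l = δ := by simp [hy]
  have hne : ∀ z : NU F 8, ∀ A B : F, ((z : Fˣ) : F) = A + B * ω → A ^ 8 = A → B ^ 8 = B → B ≠ 0 → z ≠ 1 :=
    fun z A B e hA hB hB0 h1 => ne_one_of_omega hF hω h2 hA hB hB0 (by rw [← e, h1]; rfl)
  have hi' : i ∉ ({j, k, l} : Finset (Fin 9)) := by simp [hij, hik, hil]
  have hj' : j ∉ ({k, l} : Finset (Fin 9)) := by simp [hjk, hjl]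
  refine H.false_of_combo hF h2 hc hwM hw0 {i, j, k, l} y (fun x hx => ?_) (fun x hx => ?_) ?_ ?_ ?_ ?_
  · simp only [Finset.mem_insert, Finset.mem_singleton, not_or] at hx
    simp [hy, hx.1, hx.2.1, hx.2.2.1, hx.2.2.2]
  · simp only [Finset.mem_insert, Finset.mem_singleton] at hx
    have hγ1 : γ ≠ 1 := hne γ _ _ rfl e4 e1 et
    rcases hx with rfl | rfl | rfl | rfl
    · exact hyi ▸ hγ1
    · exact hyj ▸ hγ1
    · exact hyk ▸ hγ1
    · exact hyl ▸ hne δ _ _ rfl (zero_pow (by norm_num)) (one_pow 8) one_ne_zero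
  · rw [Finset.card_insert_of_notMem hi', Finset.card_insert_of_notMem hj', Finset.card_pair hkl]; omega
  · rw [Finset.card_insert_of_notMem hi', Finset.card_insert_of_notMem hj', Finset.card_pair hkl]; omega
  · rw [Finset.prod_insert hi', Finset.prod_insert hj', Finset.prod_pair hkl, hyi, hyj, hyk, hyl]
    refine Subtype.ext (Units.ext ?_)
    simp only [Subgroup.coe_mul, Units.val_mul]
    rw [hγ, hδ, NU.mk_val, NU.mk_val]
    simp only [OneMemClass.coe_one, Units.val_one]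
    linear_combination ((3 * ω) + (-3 * ω ^ 3) + (1 * ω ^ 4) + (-2 * t * ω) + (6 * t * ω ^ 2) + (-3 * t * ω ^ 3) + (-3 * t ^ 2 * ω) + (3 * t ^ 2 * ω ^ 2) + (-3 * t ^ 3 * ω ^ 2) + (3 * t ^ 3 * ω ^ 3) + (2 * t ^ 4 * ω) + (-3 * t ^ 4 * ω ^ 2) + (1 * t ^ 5 * ω) + (-1 * t ^ 6 * ω) + (3 * t ^ 6 * ω ^ 2) + (-1 * t ^ 7 * ω) + (1 * t ^ 9 * ω)) * ht + ((-3) + (4 * ω) + (-1 * ω ^ 2) + (-12 * t) + (7 * t * ω) + (-1 * t * ω ^ 2) + (-12 * t ^ 2) + (3 * t ^ 2 * ω)) * hω + ((1) + (-2 * ω) + (6 * t) + (2 * t * ω) + (6 * t ^ 2) + (7 * t ^ 2 * ω)) * h2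
  · rw [Finset.sum_insert hi', Finset.sum_insert hj', Finset.sum_pair hkl, hyi, hyj, hyk, hyl, hijN, hk, hl,
      hγ, hδ, NU.mk_val, NU.mk_val]
    linear_combination ((-1) + (2 * t * (w j * w j ^ 8)) + (1 * t ^ 2)) * ht + ((1 * (w j * w j ^ 8)) + (1 * t) + (-1 * t * (w j * w j ^ 8)) + (1 * t * ω * (w j * w j ^ 8)) + (-1 * t ^ 2 * (w j * w j ^ 8)) + (1 * t ^ 2 * ω)) * h2

omit hω ht in
/-- The field with sixty-four elements. -/
theorem NoFix.false_tuple_eight : False := by
  classical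
  haveI : Finite F := hF.1
  haveI : Fintype F := Fintype.ofFinite F
  obtain ⟨μ, hμ⟩ := exists_NU_order hF
  obtain ⟨ω, hω⟩ : ∃ ω : F, ω ^ 2 + ω + 1 = 0 := by
    set z : F := (((μ ^ 3 : NU F 8) : Fˣ) : F)
    have hz3 : z ^ 3 = 1 := by
      have h : (μ ^ 3) ^ 3 = 1 := by
        rw [← pow_mul]
        have h9 := pow_orderOf_eq_one μ
        rwa [hμ] at h9
      simpa [z] using congrArg (fun x : NU F 8 => ((x : Fˣ) : F)) h
    have hz1 : z ≠ 1 := fun e => by
      have h : μ ^ 3 = 1 := Subtype.ext (Units.ext (by simpa [z] using e))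
      have := orderOf_dvd_of_pow_eq_one h
      rw [hμ] at this
      norm_num at this
    refine ⟨z, (mul_eq_zero.1 (show (z - 1) * (z ^ 2 + z + 1) = 0 by linear_combination hz3)).resolve_left
      (sub_ne_zero.2 hz1)⟩
  set N : Fin 9 → F := fun i => w i * w i ^ 8
  have hN0 : ∀ i, N i ≠ 0 := fun i => mul_ne_zero (hw0 i) (pow_ne_zero _ (hw0 i))
  have hN7 : ∀ i, N i ^ 7 = 1 := fun i => (hF.fixed_iff (hN0 i)).1 (norm_fixed hF _)
  have hkind : ∀ x : F, x ^ 7 = 1 → x ≠ 1 → x ^ 3 + x + 1 = 0 ∨ (x + 1) ^ 3 + (x + 1) + 1 = 0 :=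
    fun x hx h1 => mul_eq_zero.1 (mul_left_cancel₀ (sub_ne_zero.2 h1)
      (show (x - 1) * ((x ^ 3 + x + 1) * ((x + 1) ^ 3 + (x + 1) + 1)) = (x - 1) * 0 by
        linear_combination hx + (-1 - 2 * x + x ^ 4 + x ^ 5 + x ^ 6) * h2))
  have hR1 : ∀ i j, N i + N j ≠ 1 := fun i j e => by
    have hij : i ≠ j := fun h => one_ne_zero (α := F) (by rw [← e, h]; linear_combination N j * h2)
    have hi1 : N i ≠ 1 := fun h => hN0 j (by linear_combination e - h)
    rcases hkind _ (hN7 i) hi1 with h | h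
    · exact H.false_pair hF h2 hc hwM hw0 hω h hij rfl (by linear_combination e - N i * h2)
    · have hj : N j ^ 3 + N j + 1 = 0 := by
        rw [show N j = N i + 1 by linear_combination e - N i * h2]; exact h
      exact H.false_pair hF h2 hc hwM hw0 hω hj (Ne.symm hij) rfl (by linear_combination e - N j * h2)
  set U : Finset F := Finset.univ.filter fun x => x ^ 7 = 1
  have hU : U.card = 7 := by
    have h : Nat.card {c : F // c ^ (8 - 1) = 1} = 8 - 1 := hF.card_fixed_units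
    rw [Nat.card_eq_fintype_card, Fintype.card_subtype] at h
    exact h
  set S := Finset.univ.image N
  have hSU : S ⊆ U := Finset.image_subset_iff.2 fun i _ => Finset.mem_filter.2 ⟨Finset.mem_univ _, hN7 i⟩
  have hS : ∀ {v}, v ∈ S ↔ ∃ i, N i = v := by simp [S]
  obtain ⟨a, ha, b, hb, hab, hsum⟩ : ∃ a ∈ S, ∃ b ∈ S, a ≠ b ∧ a + b ∈ S := by
    by_contra hno
    push Not at hno
    have hle : S.card ≤ 4 := by
      by_contra h5
      push Not at h5
      obtain ⟨a, ha⟩ := Finset.card_pos.1 (by omega : 0 < S.card)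
      set A := S.erase a
      set B := A.image (a + ·)
      have hAc : A.card + 1 = S.card := Finset.card_erase_add_one ha
      have hBc : B.card = A.card := Finset.card_image_of_injective _ (add_right_injective a)
      have hdisj : Disjoint A B := Finset.disjoint_left.2 fun x hx hxB => by
        obtain ⟨b, hb, rfl⟩ := Finset.mem_image.1 hxB
        exact hno a ha b (Finset.mem_of_mem_erase hb) (Ne.symm (Finset.ne_of_mem_erase hb))
          (Finset.mem_of_mem_erase hx)
      have hsub : A ∪ B ⊆ U.erase a := by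
        refine Finset.union_subset (fun x hx => Finset.mem_erase.2 ⟨Finset.ne_of_mem_erase hx,
          hSU (Finset.mem_of_mem_erase hx)⟩) (Finset.image_subset_iff.2 fun b hb => ?_)
        have hb0 : b ≠ 0 := by
          obtain ⟨i, rfl⟩ := hS.1 (Finset.mem_of_mem_erase hb); exact hN0 i
        have hne : a + b ≠ 0 := fun e => Finset.ne_of_mem_erase hb (by linear_combination e - a * h2)
        refine Finset.mem_erase.2 ⟨fun e => hb0 (by linear_combination e), Finset.mem_filter.2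
          ⟨Finset.mem_univ _, (hF.fixed_iff hne).1 ?_⟩⟩
        obtain ⟨i, rfl⟩ := hS.1 ha
        obtain ⟨j, rfl⟩ := hS.1 (Finset.mem_of_mem_erase hb)
        rw [hF.add_pow, norm_fixed hF, norm_fixed hF]
      have := Finset.card_le_card hsub
      rw [Finset.card_union_of_disjoint hdisj, hBc, Finset.card_erase_of_mem (hSU ha), hU] at this
      omega
    set P := S.filter fun v => Odd (Finset.univ.filter fun i => N i = v).card
    have h9 : Finset.univ.card = ∑ v ∈ S, (Finset.univ.filter fun i => N i = v).card :=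
      Finset.card_eq_sum_card_image N Finset.univ
    have hodd : Odd P.card := by
      rw [Finset.card_univ, Fintype.card_fin] at h9
      have := (Finset.odd_sum_iff_odd_card_odd (s := S)
        (fun v => (Finset.univ.filter fun i => N i = v).card)).1 (h9 ▸ (by decide : Odd 9))
      exact this
    have hzero : ∑ v ∈ P, v = 0 := by
      have e : ∑ i, N i = ∑ v ∈ S, ((Finset.univ.filter fun i => N i = v).card : F) * v := by
        rw [← Finset.sum_fiberwise_of_maps_to (fun i _ => hS.2 ⟨i, rfl⟩) N]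
        refine Finset.sum_congr rfl fun v _ => ?_
        rw [Finset.sum_congr rfl fun i hi => (Finset.mem_filter.1 hi).2, Finset.sum_const, nsmul_eq_mul]
      rw [show ∑ i, N i = 0 by rw [← hc.1, herm_def]] at e
      rw [e, Finset.sum_filter]
      refine Finset.sum_congr rfl fun v _ => ?_
      split_ifs with ho
      · obtain ⟨m, hm⟩ := ho
        rw [hm]; push_cast; linear_combination -(m : F) * v * h2
      · obtain ⟨m, hm⟩ := Nat.not_odd_iff_even.1 ho
        rw [hm]; push_cast; linear_combination -(m : F) * v * h2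
    have hP4 : P.card ≤ 4 := (Finset.card_filter_le _ _).trans hle
    obtain ⟨m, hm⟩ := hodd
    have hm1 : m = 0 ∨ m = 1 := by omega
    rcases hm1 with rfl | rfl
    · obtain ⟨v, hv⟩ := Finset.card_eq_one.1 hm
      rw [hv, Finset.sum_singleton] at hzero
      obtain ⟨i, hi⟩ := hS.1 (Finset.mem_of_mem_filter v (hv ▸ Finset.mem_singleton_self v : v ∈ P))
      exact hN0 i (hi.trans hzero)
    · obtain ⟨x, y, z, hxy, hxz, hyz, hv⟩ := Finset.card_eq_three.1 hm
      rw [hv, Finset.sum_insert (by simp [hxy, hxz]), Finset.sum_pair hyz] at hzero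
      have hmem : ∀ v ∈ ({x, y, z} : Finset F), v ∈ S := fun v h => Finset.mem_of_mem_filter v (hv ▸ h)
      refine hno x (hmem x (by simp)) y (hmem y (by simp)) hxy ?_
      rw [show x + y = z by linear_combination hzero - z * h2]
      exact hmem z (by simp)
  set c := a + b with hc'
  have hS1 : ∀ {u v}, u ∈ S → v ∈ S → u + v ≠ 1 := fun hu hv => by
    obtain ⟨i, rfl⟩ := hS.1 hu
    obtain ⟨j, rfl⟩ := hS.1 hv
    exact hR1 i j
  have hne1 : ∀ u v, u ∈ S → v ∈ S → u + v ∈ S → u ≠ 1 := fun u v _ hv hx h =>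
    hS1 hv hx (by rw [h]; linear_combination v * h2)
  have hb0 : b ≠ 0 := by obtain ⟨i, rfl⟩ := hS.1 hb; exact hN0 i
  have ha0 : a ≠ 0 := by obtain ⟨i, rfl⟩ := hS.1 ha; exact hN0 i
  have hac : a ≠ c := fun e => hb0 (by linear_combination -e - hc')
  have hbc : b ≠ c := fun e => ha0 (by linear_combination -e - hc')
  have hcb : c + b = a := by linear_combination hc' + b * h2
  have hca : c + a = b := by linear_combination hc' + a * h2
  have hpow : ∀ {v}, v ∈ S → v ^ 7 = 1 := fun hv => (Finset.mem_filter.1 (hSU hv)).2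
  have key : ∀ t u v, t ∈ S → u ∈ S → v ∈ S → t ≠ u → t + u = v → t ^ 3 + t + 1 = 0 → False := by
    intro t u v ht hu hv htu e ht3
    obtain ⟨k, hk⟩ := hS.1 ht
    have hsplit : t ^ 2 ∈ S ∨ t ^ 2 + 1 ∈ S ∧ t ^ 4 + 1 ∈ S := by
      have hu1 : u ≠ 1 := hne1 u t hu ht (by rwa [show u + t = v by linear_combination e])
      rcases hkind u (hpow hu) hu1 with h | h
      · rcases cubic_roots h2 ht3 h with rfl | rfl | rfl
        · exact absurd rfl htu
        · exact Or.inl hu
        · refine Or.inl ?_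
          rwa [show t ^ 2 = v by linear_combination e + t * ht3 - (t + t ^ 4) * h2]
      · rcases cubic_roots h2 ht3 h with h' | h' | h'
        · exact absurd (show t + u = 1 by linear_combination h' + t * h2 - h2)
            (hS1 ht hu)
        · refine Or.inr ⟨by rwa [show t ^ 2 + 1 = u by linear_combination -h' + h2], ?_⟩
          rwa [show t ^ 4 + 1 = v by linear_combination e - h' + t * ht3 - (t + t ^ 2) * h2 + h2]
        · refine Or.inr ⟨?_, by rwa [show t ^ 4 + 1 = u by linear_combination -h' + h2]⟩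
          rwa [show t ^ 2 + 1 = v by linear_combination e - h' + t * ht3 - (t + t ^ 4) * h2 + h2]
    rcases hsplit with h | ⟨h, h'⟩
    · obtain ⟨l, hl⟩ := hS.1 h
      have hkl : k ≠ l := fun e => by
        rw [e, hl] at hk
        rcases mul_eq_zero.1 (show t * (t - 1) = 0 by linear_combination hk) with h0 | h0
        · rw [h0] at ht3; norm_num at ht3
        · rw [sub_eq_zero.1 h0] at ht3
          exact one_ne_zero (α := F) (by linear_combination ht3 - h2)
      set T : Finset (Fin 9) := ({k, l} : Finset (Fin 9))ᶜ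
      have hT : T.card = 7 := by rw [Finset.card_compl, Finset.card_pair hkl, Fintype.card_fin]
      have ht1 : t + 1 ∈ U := by
        refine Finset.mem_filter.2 ⟨Finset.mem_univ _, (hF.fixed_iff fun e => hS1 ht (hS.2 ⟨l, hl⟩) ?_).1 ?_⟩
        · rw [show t = 1 by linear_combination e - h2] at ht3
          exact absurd (show (1 : F) = 0 by linear_combination ht3 - h2) one_ne_zero
        · rw [hF.add_pow, one_pow, (t_facts h2 ht3).1]
      obtain ⟨i, hi, j, hj, hij, hN⟩ := Finset.exists_ne_map_eq_of_card_lt_of_maps_to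
        (s := T) (t := U.erase (t + 1)) (f := N)
        (by rw [hT, Finset.card_erase_of_mem ht1, hU]; norm_num)
        (fun i _ => Finset.mem_erase.2 ⟨fun e => hR1 k i (by rw [hk, e]; linear_combination t * h2),
          hSU (hS.2 ⟨i, rfl⟩)⟩)
      simp only [T, Finset.mem_compl, Finset.mem_insert, Finset.mem_singleton, not_or] at hi hj
      exact H.false_quad hF h2 hc hwM hw0 hω ht3 hij hi.1 hi.2 hj.1 hj.2 hkl hN hk hl
    · obtain ⟨l, hl⟩ := hS.1 h
      obtain ⟨l', hl'⟩ := hS.1 h'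
      refine H.false_line hF h2 hc hwM hw0 hω ht3 (a := k) (b := l) (c := l') (fun e => ?_) (fun e => ?_)
        (fun e => ?_) hk hl hl'
      · rw [e, hl] at hk
        exact one_ne_zero (α := F) (by linear_combination hk - (t - 1) * (ht3 - (t + 1) * hk))
      · rw [e, hl'] at hk
        exact one_ne_zero (α := F) (by linear_combination ht3 + t * (hk - t * ht3 + t * h2) - t * h2)
      · rw [e, hl'] at hl
        rcases mul_eq_zero.1 (show t ^ 2 * ((t + 1) * (t + 1)) = 0 by
          linear_combination hl + (t ^ 3 + t ^ 2) * h2) with h0 | h0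
        · rw [(pow_eq_zero_iff two_ne_zero).1 h0] at ht3; norm_num at ht3
        · rw [show t = 1 by linear_combination (mul_self_eq_zero.1 h0) - h2] at ht3
          exact one_ne_zero (α := F) (by linear_combination ht3 - h2)
  rcases hkind a (hpow ha) (hne1 a b ha hb hsum) with h | hσ
  · exact key a b c ha hb hsum hab hc'.symm h
  rcases hkind b (hpow hb) (hne1 b a hb ha (by rwa [show b + a = c by linear_combination -hc'])) with h | hρ
  · exact key b a c hb ha hsum hab.symm (by linear_combination -hc') h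
  rcases hkind c (hpow hsum) (hne1 c b hsum hb (by rwa [hcb])) with h | hτ
  · exact key c b a hsum hb ha hbc.symm hcb h
  rcases cubic_roots h2 hσ hρ with e | e | e
  · exact hab (by linear_combination -e)
  · refine one_ne_zero (α := F) ?_
    rcases cubic_roots h2 hσ hτ with e' | e' | e'
    · exact absurd (add_right_cancel e').symm hac
    · exact absurd (add_right_cancel (e'.trans e.symm)).symm hbc
    · linear_combination e' - hc' + (-e) + (a + 1) * hσ - (3 * a + a ^ 2 + 1) * h2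
  · refine one_ne_zero (α := F) ?_
    rcases cubic_roots h2 hσ hτ with e' | e' | e'
    · exact absurd (add_right_cancel e').symm hac
    · linear_combination e' - hc' + (-e) + (a + 1) * hσ - (5 * a + 6 * a ^ 2 + 4 * a ^ 3 + a ^ 4 + 1) * h2
    · exact absurd (add_right_cancel (e'.trans e.symm)).symm hbc

end Eight

end Cfsg.Agent.DecompMax.UF
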