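import Cfsg.Agent.DecompMax.UnitFrame
import Cfsg.Agent.DecompMax.UnitNineEight

/-!
Stabilisers of orthonormal frames are maximal in the special unitary group of dimension nine.
-/

set_option autoImplicit false
set_option linter.style.haveILetI false
set_option linter.unusedSectionVars false

namespace Cfsg.Agent.DecompMax.UF

open Matrix Cfsg.Geo Module Cfsg.Agent.Classical.U Cfsg.Agent.GeoClasses Cfsg.Agent.ClassicalMax
open Cfsg.Agent.DecompMax.UCount Cfsg.Agent.DecompMax.UN
open scoped MatrixGroups Matrix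

universe u

variable {F : Type u} [Field F] {q : ℕ} (hF : SqField F q)
include hF

/-- Dimension nine, fields of even order. -/
theorem NoFix.eq_mon_nine {M : Subgroup (UG 9 F q)} (H : NoFix M) (hq : ¬ Odd q) :
    ∀ g ∈ M, MonU g := by
  classical
  haveI : Finite F := hF.1
  haveI : Fintype F := Fintype.ofFinite F
  intro g hg
  by_contra hgm
  obtain ⟨p, e, hp, hch, he⟩ := hF.exists_char
  have hp2 : p = 2 := by
    have h2d : 2 ∣ p ^ e := he ▸ even_iff_two_dvd.1 (Nat.not_odd_iff_even.1 hq)
    exact ((Nat.prime_dvd_prime_iff_eq Nat.prime_two hp).1 (Nat.prime_two.dvd_of_dvd_pow h2d)).symm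
  subst hp2
  haveI := hch
  have h2 : (2 : F) = 0 := CharTwo.two_eq_zero
  obtain ⟨w, hw3, hc, hwM⟩ := H.exists_centre hF hg hgm (by omega) h2
  have hw0 : ∀ r, w r ≠ 0 := fun r er => not_monU_trv hF one_ne_zero hc hw3
    (H.nofix _ hwM r 1 (by rw [trv_apply, herm_one_single, er, zero_pow hF.q_ne_zero]; simp))
  by_cases h4 : 4 ≤ q
  · by_cases h8 : q = 8
    · subst h8
      exact H.false_tuple_eight hF h2 hc hwM hw0
    · exact H.false_tuple_large hF h2 he h4 h8 hc hwM hw0
  · have hq2 : q = 2 := by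
      have := hF.one_lt
      rcases Nat.not_odd_iff_even.1 hq with ⟨m, rfl⟩
      omega
    subst hq2
    have h1 : ∀ i, w i * w i ^ 2 = 1 := fun i => by
      have h0 := mul_ne_zero (hw0 i) (pow_ne_zero 2 (hw0 i))
      have h := norm_fixed hF (w i)
      rw [sq (w i * w i ^ 2)] at h
      exact (mul_eq_right₀ h0).1 h
    have h9 : herm 2 w w = 0 := hc.1
    rw [herm_def, Finset.sum_congr rfl fun i _ => h1 i, Finset.sum_const, Finset.card_univ,
      Fintype.card_fin, nsmul_one] at h9
    push_cast at h9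
    exact one_ne_zero (α := F) (by linear_combination h9 - 4 * h2)

/-- Dimension nine. -/
theorem frame_maximal_nine {t : ℕ} {D : Fin t → Submodule F (Fin 9 → F)}
    (hD : IsNondegenerateMDecomposition (Cfsg.hermForm 9 F q) 1 D) :
    IsMaximalIn (suGL 9 F q) (decompositionStabilizer D ⊓ suGL 9 F q) := by
  by_cases hq : Odd q
  · refine frame_maximal_of_case hF (Or.inr ⟨by norm_num, Or.inl ⟨fun hd => ?_, Or.inl hq⟩⟩) hD
    have : 2 ∣ 9 := (even_iff_two_dvd.1 hq.add_one).trans hd
    omega
  · exact frame_maximal_of_noFix hF (by norm_num) (fun _ H => H.eq_mon_nine hF hq) hD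

end Cfsg.Agent.DecompMax.UF
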