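import Cfsg.Agent.DecompMax.UnitMon

/-!
Overgroups of the monomial special unitary group in which only monomial elements fix a frame line:
columns with three zero entries do not occur.
-/

set_option autoImplicit false
set_option linter.style.haveILetI false
set_option linter.unusedSectionVars false

namespace Cfsg.Agent.DecompMax.UF

open Matrix Cfsg.Geo Module Cfsg.Agent.Classical.U Cfsg.Agent.DecompMax.UCount
open scoped MatrixGroups Matrix

universe u

variable {F : Type u} [Field F] {n q : ℕ}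

/-- `M` contains the monomial elements of determinant one, and only monomial elements of `M` fix a
frame line. -/
structure NoFix (M : Subgroup (UG n F q)) : Prop where
  mon : ∀ g ∈ SUG n F q, MonU g → g ∈ M
  nofix : ∀ g ∈ M, ∀ k, ∀ c : F, g.1 (sv F k) = c • sv F k → MonU g

variable (hF : SqField F q)
include hF

theorem exists_norm_one_ne : ∃ μ : NU F q, ((μ : Fˣ) : F) ≠ 1 := by
  haveI : Finite F := hF.1
  by_contra hcon
  push Not at hcon
  have : Subsingleton (NU F q) := ⟨fun a b => Subtype.ext (Units.ext ((hcon a).trans (hcon b).symm))⟩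
  have h := Finite.card_le_one_iff_subsingleton.2 this
  rw [card_NU hF] at h
  have := hF.one_lt
  omega

theorem exists_norm_one_order (hq : 3 ≤ q) :
    ∃ μ : NU F q, ((μ : Fˣ) : F) ^ 2 ≠ 1 ∧ ((μ : Fˣ) : F) ^ 3 ≠ 1 := by
  haveI : Finite F := hF.1
  obtain ⟨μ, hμ⟩ := IsCyclic.exists_generator (α := NU F q)
  have ho : orderOf μ = q + 1 := by
    rw [orderOf_eq_card_of_forall_mem_zpowers hμ, card_NU hF]
  refine ⟨μ, ?_, ?_⟩ <;> intro h
  · have h1 : μ ^ 2 = 1 := Subtype.ext (Units.ext (by simpa using h))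
    have := Nat.le_of_dvd two_pos (orderOf_dvd_of_pow_eq_one h1)
    omega
  · have h1 : μ ^ 3 = 1 := Subtype.ext (Units.ext (by simpa using h))
    have := Nat.le_of_dvd three_pos (orderOf_dvd_of_pow_eq_one h1)
    omega

omit hF in
/-- Scalars at two coordinates with product one. -/
def pairFun (b b' : Fin n) (μ : NU F q) : Fin n → NU F q :=
  fun i => if i = b then μ else if i = b' then μ⁻¹ else 1

omit hF in
theorem prod_pairFun {b b' : Fin n} (h : b ≠ b') (μ : NU F q) : ∏ i, pairFun b b' μ i = 1 := by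
  classical
  rw [Finset.prod_eq_mul_of_mem b b' (Finset.mem_univ _) (Finset.mem_univ _) h
    (fun c _ hc => by simp [pairFun, hc.1, hc.2])]
  simp [pairFun, Ne.symm h]

theorem dia_pair_sub (b b' : Fin n) (h : b ≠ b') (μ : NU F q) (v : Fin n → F) :
    (dia hF (pairFun b b' μ)).1 v - v =
      ((((μ : Fˣ) : F) - 1) * v b) • sv F b + (((((μ⁻¹ : NU F q) : Fˣ) : F) - 1) * v b') • sv F b' := by
  funext x
  rw [Pi.sub_apply, dia_apply, Pi.add_apply, Pi.smul_apply, Pi.smul_apply, smul_eq_mul, smul_eq_mul]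
  rcases eq_or_ne x b with rfl | hxb
  · simp [pairFun, h]; ring
  rcases eq_or_ne x b' with rfl | hxb'
  · simp [pairFun, hxb]; ring
  · simp [pairFun, hxb, hxb']

variable {M : Subgroup (UG n F q)} (H : NoFix M)
include H

theorem NoFix.dia_pair_mem {b b' : Fin n} (h : b ≠ b') (μ : NU F q) : dia hF (pairFun b b' μ) ∈ M :=
  H.mon _ (dia_mem_SUG hF (prod_pairFun h μ)) (monU_mon hF _ _)

/-- A frame line is mapped to one only by monomial elements. -/
theorem NoFix.single {g : UG n F q} (hg : g ∈ M) {k j : Fin n} {c : F}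
    (h : g.1 (sv F k) = c • sv F j) : MonU g := by
  classical
  rcases eq_or_ne j k with rfl | hjk
  · exact H.nofix g hg j c h
  set π := Equiv.swap j k
  set l : Fin n → NU F q := fun i => if i = k then NU.mk (-1) (by rw [hF.neg_pow, one_pow]; ring) else 1
  have hz : UF.mon hF π l ∈ SUG n F q := by
    refine mon_mem_SUG hF ?_
    rw [Equiv.Perm.sign_swap hjk, Finset.prod_eq_single k (fun b _ hb => by simp [l, hb]) (by simp)]
    simp [l]
  have hzM := H.mon _ hz (monU_mon hF _ _)
  have hm : MonU (UF.mon hF π l * g) := H.nofix _ (mul_mem hzM hg) k c (by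
    rw [Subgroup.coe_mul, LinearEquiv.mul_apply, h, map_smul, mon_sv, Equiv.swap_apply_left]
    simp [l, hjk])
  obtain ⟨π', l', he⟩ := hm.exists_eq hF
  intro a
  refine ⟨π.symm (π' a), fun x hx => ?_⟩
  have e : (UF.mon hF π l).1 (g.1 (sv F a)) = (UF.mon hF π' l').1 (sv F a) := by
    rw [← he, Subgroup.coe_mul, LinearEquiv.mul_apply]
  have e2 := congrFun e (π x)
  rw [mon_apply, mon_sv, Pi.smul_apply,
    show sv F (π' a) (π x) = 0 from Pi.single_eq_of_ne (fun e => hx (by
      rw [← e, Equiv.symm_apply_apply])) _, smul_zero] at e2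
  exact (mul_eq_zero.1 e2).resolve_left (NU.ne_zero _)

omit H in
theorem finrank_pair_le (x y : Fin n → F) : finrank F (Submodule.span F ({x, y} : Set (Fin n → F))) ≤ 2 := by
  classical
  have h := finrank_span_finset_le_card (R := F) ({x, y} : Finset (Fin n → F))
  rw [Finset.coe_pair] at h
  exact h.trans Finset.card_le_two

omit H in
theorem eq_span_pair {W : Submodule F (Fin n → F)} (hW : finrank F W ≤ 2) {x y : Fin n → F} (hx : x ∈ W)
    (hy : y ∈ W) {p r : Fin n} (hpx : x p ≠ 0) (hry : y r ≠ 0) (hrx : x r = 0) :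
    ∀ v ∈ W, ∃ a b : F, v = a • x + b • y := by
  have hli : LinearIndependent F ![(⟨x, hx⟩ : W), ⟨y, hy⟩] := by
    rw [LinearIndependent.pair_iff]
    intro a b hab
    have e := congrArg (fun w : W => (w : Fin n → F)) hab
    simp only [Submodule.coe_add, Submodule.coe_smul, Submodule.coe_zero] at e
    have e2 := congrFun e r
    simp only [Pi.add_apply, Pi.smul_apply, smul_eq_mul, hrx, mul_zero, zero_add, Pi.zero_apply,
      mul_eq_zero] at e2
    have hb := e2.resolve_right hry
    have e1 := congrFun e p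
    simp only [hb, zero_smul, add_zero, Pi.smul_apply, smul_eq_mul, Pi.zero_apply, mul_eq_zero] at e1
    exact ⟨e1.resolve_right hpx, hb⟩
  intro v hv
  have h2 : finrank F W = 2 := by
    have := hli.fintype_card_le_finrank
    simp at this
    omega
  let B := basisOfLinearIndependentOfCardEqFinrank hli (by simp [h2])
  have := congrArg (fun w : W => (w : Fin n → F)) (B.sum_repr ⟨v, hv⟩)
  simp [B, Fin.sum_univ_two] at this
  exact ⟨_, _, this.symm⟩

/-- A monomial element with two eigenvectors for `μ` and `μ⁻¹`, the identity off their span, lives on two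
coordinates. -/
theorem NoFix.pair_rows {g : UG n F q} (hg : g ∈ M) (hgm : ¬ MonU g) (hq : 3 ≤ q) {k b b' : Fin n}
    (hbb : b ≠ b') (hb : g.1 (sv F k) b = 0) (hb' : g.1 (sv F k) b' = 0) :
    ∃ i j, i ≠ j ∧ (∀ x, x ≠ i → x ≠ j → (g⁻¹ : UG n F q).1 (sv F b) x = 0) ∧
      (∀ x, x ≠ i → x ≠ j → (g⁻¹ : UG n F q).1 (sv F b') x = 0) := by
  classical
  obtain ⟨μ, hμ2, hμ3⟩ := exists_norm_one_order hF hq
  set ν : F := ((μ : Fˣ) : F) with hν
  set ν' : F := (((μ⁻¹ : NU F q) : Fˣ) : F) with hν'
  have hνν : ν * ν' = 1 := by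
    rw [hν, hν', ← Units.val_mul, ← Subgroup.coe_mul, mul_inv_cancel]; simp
  have hν0 : ν ≠ 0 := NU.ne_zero μ
  have hν1 : ν ≠ 1 := fun e => hμ2 (by rw [e, one_pow])
  have hν'1 : ν' ≠ 1 := fun e => hν1 (by rw [e, mul_one] at hνν; exact hνν)
  have hνne : ν ≠ ν' := fun e => hμ2 (by rw [← hνν, ← e, sq])
  set d := dia hF (pairFun b b' μ) with hd
  set m := g⁻¹ * d * g with hm
  have hmM : m ∈ M := mul_mem (mul_mem (inv_mem hg) (H.dia_pair_mem hF hbb μ)) hg
  have hginv : ∀ v, (g⁻¹ : UG n F q).1 (g.1 v) = v := fun v => by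
    rw [← LinearEquiv.mul_apply, ← Subgroup.coe_mul, inv_mul_cancel]; rfl
  have hgv : ∀ v, g.1 ((g⁻¹ : UG n F q).1 v) = v := fun v => by
    rw [← LinearEquiv.mul_apply, ← Subgroup.coe_mul, mul_inv_cancel]; rfl
  set r := (g⁻¹ : UG n F q).1 (sv F b) with hr
  set r' := (g⁻¹ : UG n F q).1 (sv F b') with hr'
  have hsub : ∀ v, m.1 v - v = ((ν - 1) * g.1 v b) • r + ((ν' - 1) * g.1 v b') • r' := by
    intro v
    have h := congrArg (g⁻¹ : UG n F q).1 (dia_pair_sub hF b b' hbb μ (g.1 v))
    rw [map_sub, map_add, map_smul, map_smul, hginv] at h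
    exact h
  have hmk : m.1 (sv F k) = sv F k := by
    rw [← sub_eq_zero, hsub, hb, hb']; simp
  obtain ⟨π, l, hml⟩ := (H.nofix m hmM k 1 (by rw [one_smul]; exact hmk)).exists_eq hF
  have heig : m.1 r = ν • r := by
    rw [← sub_add_cancel (m.1 r) r, hsub, hr, hgv]
    simp [Pi.single_eq_of_ne (Ne.symm hbb)]
    module
  have heig' : m.1 r' = ν' • r' := by
    rw [← sub_add_cancel (m.1 r') r', hsub, hr', hgv]
    simp [Pi.single_eq_of_ne hbb]
    module
  have hr0 : r ≠ 0 := fun e => by
    have := congrArg g.1 e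
    rw [hr, hgv, map_zero] at this
    simpa using congrFun this b
  have hframe : ∀ (c : Fin n) (x : Fin n), (g⁻¹ : UG n F q).1 (sv F c) = (g⁻¹ : UG n F q).1 (sv F c) x • sv F x →
      False := by
    intro c x e
    refine hgm (H.single hF hg (k := x) (j := c) (c := ((g⁻¹ : UG n F q).1 (sv F c) x)⁻¹) ?_)
    have h2 := congrArg g.1 e
    rw [hgv, map_smul] at h2
    have hne : (g⁻¹ : UG n F q).1 (sv F c) x ≠ 0 := fun e0 => by
      rw [e0, zero_smul] at h2
      simpa using congrFun h2 c
    rw [← inv_smul_smul₀ hne (g.1 (sv F x)), ← h2]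
  set W := Submodule.span F ({r, r'} : Set (Fin n → F))
  have hW2 : finrank F W ≤ 2 := finrank_pair_le hF r r'
  have hrW : r ∈ W := Submodule.subset_span (by simp)
  have hr'W : r' ∈ W := Submodule.subset_span (by simp)
  set a : Fin n → F := fun x => ((l x : Fˣ) : F) with ha
  have hf : ∀ x, a x • sv F (π x) - sv F x ∈ W := fun x => by
    have : m.1 (sv F x) - sv F x ∈ W := by
      rw [hsub]
      exact W.add_mem (W.smul_mem _ hrW) (W.smul_mem _ hr'W)
    rwa [hml, mon_sv] at this
  have hcoord : ∀ v x, m.1 v (π x) = a x * v x := fun v x => by rw [hml, mon_apply]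
  have hrx : ∀ x, ν * r (π x) = a x * r x := fun x => by
    rw [← hcoord, heig, Pi.smul_apply, smul_eq_mul]
  have hr'x : ∀ x, ν' * r' (π x) = a x * r' x := fun x => by
    rw [← hcoord, heig', Pi.smul_apply, smul_eq_mul]
  by_cases hπ : ∃ x, π x ≠ x
  swap
  · push Not at hπ
    exfalso
    have hA : ∀ x, r x ≠ 0 → a x = ν := fun x hx => by
      have := hrx x; rw [hπ] at this; exact (mul_right_cancel₀ hx this).symm
    have hA' : ∀ x, r' x ≠ 0 → a x = ν' := fun x hx => by
      have := hr'x x; rw [hπ] at this; exact (mul_right_cancel₀ hx this).symm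
    obtain ⟨x, hx⟩ : ∃ x, r x ≠ 0 := Function.ne_iff.1 hr0
    obtain ⟨y, hy⟩ : ∃ y, r' y ≠ 0 := by
      refine Function.ne_iff.1 fun e => ?_
      have e' : r' = 0 := e
      have := congrArg g.1 e'
      rw [hr', hgv, map_zero] at this
      simpa using congrFun this b'
    have hxy : x ≠ y := fun e => hνne ((hA x hx).symm.trans (e ▸ hA' y hy))
    have hsv : ∀ z, a z ≠ 1 → sv F z ∈ W := fun z hz => by
      have := W.smul_mem (a z - 1)⁻¹ (hf z)
      rwa [hπ, show a z • sv F z - sv F z = (a z - 1) • sv F z by module,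
        inv_smul_smul₀ (sub_ne_zero.2 hz)] at this
    have hx1 := hsv x (by rw [hA x hx]; exact hν1)
    have hy1 := hsv y (by rw [hA' y hy]; exact hν'1)
    obtain ⟨α, β, e⟩ := eq_span_pair hF hW2 hx1 hy1 (p := x) (r := y) (by simp) (by simp)
      (by simp [Pi.single_eq_of_ne (Ne.symm hxy)]) r hrW
    refine hframe b x ?_
    rw [← hr]
    funext z
    rcases eq_or_ne z x with rfl | hzx
    · simp
    · rw [Pi.smul_apply, show sv F x z = 0 from Pi.single_eq_of_ne hzx _, smul_zero]
      by_contra hz0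
      have hzy : z = y := by
        by_contra hzy
        rw [e] at hz0
        simp [Pi.single_eq_of_ne hzx, Pi.single_eq_of_ne hzy] at hz0
      rw [hzy] at hz0
      exact hνne ((hA y hz0).symm.trans (hA' y hy))
  obtain ⟨i, hij⟩ := hπ
  set j := π i with hj
  have hf1 : (a i • sv F j - sv F i) ∈ W := hf i
  have hi1 : (a i • sv F j - sv F i) i ≠ 0 := by simp [Pi.single_eq_of_ne (Ne.symm hij)]
  have ha0 : ∀ x, a x ≠ 0 := fun x => NU.ne_zero _
  rcases ne_or_eq (π j) i with hl | hl
  · exfalso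
    obtain ⟨x, hx⟩ : ∃ x, x = π j := ⟨_, rfl⟩
    have hfj := hf j
    rw [← hx] at hfj hl
    have hxj : x ≠ j := fun e => hij (π.injective (hx.symm.trans e) ▸ rfl)
    have h2 : (a j • sv F x - sv F j) x ≠ 0 := by
      simp [Pi.single_eq_of_ne hxj, ha0 j]
    have hspan := eq_span_pair hF hW2 hf1 hfj (p := i) (r := x) hi1 h2
      (by simp [Pi.single_eq_of_ne hxj, Pi.single_eq_of_ne hl])
    have hprop : ∀ w ∈ W, (∀ z, z ≠ i → z ≠ j → z ≠ x → w z = 0) ∧
        w i * (a i * a j) + w j * a j + w x = 0 := by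
      intro w hw
      obtain ⟨α, β, rfl⟩ := hspan w hw
      refine ⟨fun z h1 h2 h3 => ?_, ?_⟩
      · simp [Pi.single_eq_of_ne h1, Pi.single_eq_of_ne h2, Pi.single_eq_of_ne h3]
      · simp [Pi.single_eq_of_ne hij, Pi.single_eq_of_ne (Ne.symm hij), Pi.single_eq_of_ne hxj,
          Pi.single_eq_of_ne (Ne.symm hxj), Pi.single_eq_of_ne hl, Pi.single_eq_of_ne (Ne.symm hl)]
        ring
    obtain ⟨hs, hsum⟩ := hprop _ (hf x)
    have hπx : π x = i := by
      by_contra hne
      have h1 : π x ≠ j := fun e => hl (π.injective (e.trans hj))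
      have h3 : π x ≠ x := fun e => hxj (π.injective (e.trans hx))
      have := hs (π x) hne h1 h3
      simp [Pi.single_eq_of_ne h3, ha0 x] at this
    have hprod : a x * (a i * a j) = 1 := by
      rw [hπx] at hsum
      simp [Pi.single_eq_of_ne hij, Pi.single_eq_of_ne (Ne.symm hl), Pi.single_eq_of_ne hl,
        Pi.single_eq_of_ne (Ne.symm hxj)] at hsum
      linear_combination hsum
    obtain ⟨hsr, hsumr⟩ := hprop r hrW
    have e1 := hrx i
    rw [← hj] at e1
    have e2 := hrx j
    rw [← hx] at e2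
    have e3 := hrx x
    rw [hπx] at e3
    have h3 : (ν ^ 3 - 1) * r i = 0 := by
      linear_combination ν ^ 2 * e3 + ν * a x * e2 + a x * a j * e1 + r i * hprod
    have hri := (mul_eq_zero.1 h3).resolve_left (sub_ne_zero.2 hμ3)
    rw [hri, mul_zero] at e1
    have hrj := (mul_eq_zero.1 e1).resolve_left hν0
    rw [hrj, mul_zero] at e2
    have hrxx := (mul_eq_zero.1 e2).resolve_left hν0
    refine hr0 (funext fun z => ?_)
    by_cases h1 : z = i
    · rw [h1, hri]; rfl
    by_cases h2 : z = j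
    · rw [h2, hrj]; rfl
    by_cases h3 : z = x
    · rw [h3, hrxx]; rfl
    exact hsr z h1 h2 h3
  have hμ : ν ^ 2 - 1 ≠ 0 := sub_ne_zero.2 hμ2
  have hji2 : ∀ {s : Fin n → F}, s i + s j * 0 = s i := by intro s; ring
  by_cases hother : ∃ z, z ≠ i ∧ z ≠ j ∧ ¬ (π z = z ∧ a z = 1)
  · exfalso
    obtain ⟨z, hzi, hzj, hz⟩ := hother
    have h2 : (a z • sv F (π z) - sv F z) z ≠ 0 := by
      by_cases hπz : π z = z
      · simp [hπz, sub_eq_zero]
        exact fun e => hz ⟨hπz, e⟩
      · simp [Pi.single_eq_of_ne (Ne.symm hπz)]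
    have hπzi : π z ≠ i := fun e => hzj (π.injective (e.trans hl.symm))
    have hπzj : π z ≠ j := fun e => hzi (π.injective (e.trans hj))
    have hspan := eq_span_pair hF hW2 hf1 (hf z) (p := i) (r := z) hi1 h2
      (by simp [Pi.single_eq_of_ne hzj, Pi.single_eq_of_ne hzi])
    have hprop : ∀ w ∈ W, (∀ y, y ≠ i → y ≠ j → y ≠ z → y ≠ π z → w y = 0) ∧
        w i * a i + w j = 0 := by
      intro w hw
      obtain ⟨α, β, rfl⟩ := hspan w hw
      refine ⟨fun y h1 h2 h3 h4 => ?_, ?_⟩
      · simp [Pi.single_eq_of_ne h1, Pi.single_eq_of_ne h2, Pi.single_eq_of_ne h3, Pi.single_eq_of_ne h4]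
      · simp [Pi.single_eq_of_ne hij, Pi.single_eq_of_ne (Ne.symm hij),
          Pi.single_eq_of_ne (Ne.symm hzi), Pi.single_eq_of_ne (Ne.symm hzj),
          Pi.single_eq_of_ne (Ne.symm hπzi), Pi.single_eq_of_ne (Ne.symm hπzj)]
    have hij1 : a i * a j = 1 := by
      have := (hprop _ (hf j)).2
      rw [hl] at this
      simp [Pi.single_eq_of_ne hij, Pi.single_eq_of_ne (Ne.symm hij)] at this
      linear_combination this
    have e1 := hrx i
    rw [← hj] at e1
    have e2 := hrx j
    rw [hl] at e2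
    have hri : r i = 0 := (mul_eq_zero.1 (show (ν ^ 2 - 1) * r i = 0 by
      linear_combination ν * e2 + a j * e1 + r i * hij1)).resolve_left hμ
    rw [hri, mul_zero] at e1
    have hrj := (mul_eq_zero.1 e1).resolve_left hν0
    by_cases hπz : π z = z
    · refine hframe b z ?_
      rw [← hr]
      funext y
      rcases eq_or_ne y z with rfl | hyz
      · simp
      · rw [Pi.smul_apply, show sv F z y = 0 from Pi.single_eq_of_ne hyz _, smul_zero]
        by_cases h1 : y = i
        · rw [h1, hri]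
        by_cases h2 : y = j
        · rw [h2, hrj]
        exact (hprop r hrW).1 y h1 h2 hyz (hπz.symm ▸ hyz)
    · set y := π z with hy
      have hπy : π y = z := by
        by_contra hne
        have h1 : π y ≠ i := fun e => hπzj (π.injective (e.trans hl.symm))
        have h2' : π y ≠ j := fun e => hπzi (π.injective (e.trans hj))
        have h3 : π y ≠ y := fun e => hπz (π.injective (e.trans hy))
        have := (hprop _ (hf y)).1 (π y) h1 h2' hne h3
        simp [Pi.single_eq_of_ne h3, ha0 y] at this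
      have hzy1 : a z * a y = 1 := by
        obtain ⟨α, β, e⟩ := hspan _ (hf y)
        rw [hπy] at e
        have ez := congrFun e z
        have ey := congrFun e y
        simp [Pi.single_eq_of_ne (Ne.symm hzi), Pi.single_eq_of_ne (Ne.symm hzj), Pi.single_eq_of_ne hzi,
          Pi.single_eq_of_ne hzj, Pi.single_eq_of_ne hπz, Pi.single_eq_of_ne (Ne.symm hπz),
          Pi.single_eq_of_ne hπzi, Pi.single_eq_of_ne hπzj] at ez ey
        linear_combination ey + a z * ez
      have e3 := hrx z
      rw [← hy] at e3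
      have e4 := hrx y
      rw [hπy] at e4
      have hrz : r z = 0 := (mul_eq_zero.1 (show (ν ^ 2 - 1) * r z = 0 by
        linear_combination ν * e4 + a y * e3 + r z * hzy1)).resolve_left hμ
      rw [hrz, mul_zero] at e3
      have hry := (mul_eq_zero.1 e3).resolve_left hν0
      refine hr0 (funext fun w => ?_)
      by_cases h1 : w = i
      · rw [h1, hri]; rfl
      by_cases h2 : w = j
      · rw [h2, hrj]; rfl
      by_cases h3 : w = z
      · rw [h3, hrz]; rfl
      by_cases h4 : w = y
      · rw [h4, hry]; rfl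
      exact (hprop r hrW).1 w h1 h2 h3 h4
  push Not at hother
  refine ⟨i, j, Ne.symm hij, fun z hzi hzj => ?_, fun z hzi hzj => ?_⟩
  · have := hrx z
    rw [(hother z hzi hzj).1, (hother z hzi hzj).2] at this
    exact (mul_eq_zero.1 (show (ν - 1) * r z = 0 by linear_combination this)).resolve_left
      (sub_ne_zero.2 hν1)
  · have := hr'x z
    rw [(hother z hzi hzj).1, (hother z hzi hzj).2] at this
    exact (mul_eq_zero.1 (show (ν' - 1) * r' z = 0 by linear_combination this)).resolve_left
      (sub_ne_zero.2 hν'1)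

/-- Columns have at most two zero entries. -/
theorem NoFix.three_zeros {g : UG n F q} (hg : g ∈ M) (hgm : ¬ MonU g) (hq : 3 ≤ q) {k b₁ b₂ b₃ : Fin n}
    (h12 : b₁ ≠ b₂) (h13 : b₁ ≠ b₃) (h23 : b₂ ≠ b₃) (h1 : g.1 (sv F k) b₁ = 0)
    (h2 : g.1 (sv F k) b₂ = 0) (h3 : g.1 (sv F k) b₃ = 0) : False := by
  classical
  obtain ⟨i, j, hij, hb1, hb2⟩ := H.pair_rows hF hg hgm hq h12 h1 h2
  obtain ⟨i', j', hij', hb1', hb3⟩ := H.pair_rows hF hg hgm hq h13 h1 h3
  have hgv : ∀ v, g.1 ((g⁻¹ : UG n F q).1 v) = v := fun v => by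
    rw [← LinearEquiv.mul_apply, ← Subgroup.coe_mul, mul_inv_cancel]; rfl
  set r : Fin n → F := (g⁻¹ : UG n F q).1 (sv F b₁) with hr
  have hz : ∀ {x}, (∀ y, y ≠ x → r y = 0) → False := fun {x} h => by
    refine hgm (H.single hF hg (k := x) (j := b₁) (c := (r x)⁻¹) ?_)
    have e : r = r x • sv F x := funext fun y => by
      rcases eq_or_ne y x with rfl | hy
      · simp
      · simp [h y hy, Pi.single_eq_of_ne hy]
    have h2 := congrArg g.1 e
    rw [hr, hgv, map_smul, ← hr] at h2
    have hne : r x ≠ 0 := fun e0 => by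
      rw [e0, zero_smul] at h2
      simpa using congrFun h2 b₁
    rw [← inv_smul_smul₀ hne (g.1 (sv F x)), ← h2]
  have hi : i = i' ∨ i = j' := by
    by_contra hc
    push Not at hc
    exact hz (x := j) fun y hy => by
      rcases eq_or_ne y i with rfl | hyi
      · exact hb1' _ hc.1 hc.2
      · exact hb1 _ hyi hy
  have hj : j = i' ∨ j = j' := by
    by_contra hc
    push Not at hc
    exact hz (x := i) fun y hy => by
      rcases eq_or_ne y j with rfl | hyj
      · exact hb1' _ hc.1 hc.2
      · exact hb1 _ hy hyj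
  set S := Submodule.span F ({sv F i, sv F j} : Set (Fin n → F))
  have hS : ∀ v : Fin n → F, (∀ x, x ≠ i → x ≠ j → v x = 0) → v ∈ S := fun v hv => by
    have e : v = v i • sv F i + v j • sv F j := funext fun x => by
      rcases eq_or_ne x i with rfl | hxi
      · simp [Pi.single_eq_of_ne hij]
      rcases eq_or_ne x j with rfl | hxj
      · simp [Pi.single_eq_of_ne hxi]
      · simp [hv x hxi hxj, Pi.single_eq_of_ne hxi, Pi.single_eq_of_ne hxj]
    rw [e]
    exact S.add_mem (S.smul_mem _ (Submodule.subset_span (by simp)))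
      (S.smul_mem _ (Submodule.subset_span (by simp)))
  have hb3' : ∀ x, x ≠ i → x ≠ j → (g⁻¹ : UG n F q).1 (sv F b₃) x = 0 := fun x hxi hxj => by
    refine hb3 x (fun e => ?_) (fun e => ?_)
    · rcases hi with h | h
      · exact hxi (e.trans h.symm)
      · rcases hj with h' | h'
        · exact hxj (e.trans h'.symm)
        · exact hij (h.trans h'.symm)
    · rcases hi with h | h
      · rcases hj with h' | h'
        · exact hij (h.trans h'.symm)
        · exact hxj (e.trans h'.symm)
      · exact hxi (e.trans h.symm)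
  let f : Fin 3 → S := ![⟨_, hS _ hb1⟩, ⟨_, hS _ hb2⟩, ⟨_, hS _ hb3'⟩]
  have hli : LinearIndependent F f := by
    rw [Fintype.linearIndependent_iff]
    intro c hc
    have e := congrArg (fun w : S => g.1 (w : Fin n → F)) hc
    simp only [Fin.sum_univ_three, f, Submodule.coe_add, Submodule.coe_smul, Matrix.cons_val_zero,
      Matrix.cons_val_one, Matrix.cons_val, Submodule.coe_zero, hr, map_add, map_smul, hgv, map_zero] at e
    intro x
    fin_cases x
    · simpa [Pi.single_eq_of_ne h12, Pi.single_eq_of_ne h13] using congrFun e b₁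
    · simpa [Pi.single_eq_of_ne (Ne.symm h12), Pi.single_eq_of_ne h23] using congrFun e b₂
    · simpa [Pi.single_eq_of_ne (Ne.symm h13), Pi.single_eq_of_ne (Ne.symm h23)] using congrFun e b₃
  have h3' := hli.fintype_card_le_finrank
  rw [Fintype.card_fin] at h3'
  have h4 : finrank F S ≤ 2 := finrank_pair_le hF (sv F i) (sv F j)
  omega

end Cfsg.Agent.DecompMax.UF
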