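import Cfsg.Agent.DecompMax.UnitBase

/-!
Transvection centres of an overgroup of the stabiliser of a decomposition into non-degenerate members:
one centre outside the members gives all of them.
-/

set_option autoImplicit false
set_option linter.style.haveILetI false
set_option linter.unusedSectionVars false

namespace Cfsg.Agent.DecompMax.UN

open Matrix Cfsg.Geo Module Cfsg.Agent.Classical.U Cfsg.Agent.GeoClasses
open scoped MatrixGroups Matrix

universe u

variable {F : Type u} [Field F] {n q : ℕ} (hF : SqField F q)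
include hF

/-- A scalar of the subfield other than `0` and `1`. -/
theorem exists_fixed_ne (hq : 3 ≤ q) : ∃ l : F, l ^ q = l ∧ l ≠ 0 ∧ l ≠ 1 := by
  by_contra hcon
  push Not at hcon
  haveI : Finite F := hF.1
  have h := hF.card_fixed_units
  haveI : Subsingleton {c : F // c ^ (q - 1) = 1} := by
    refine ⟨fun a b => Subtype.ext ?_⟩
    have hne : ∀ c : {c : F // c ^ (q - 1) = 1}, c.1 = 1 := fun c => by
      have hc0 : c.1 ≠ 0 := fun e => by
        have := c.2
        rw [e, zero_pow (by omega)] at this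
        exact zero_ne_one this
      exact hcon _ ((hF.fixed_iff hc0).2 c.2) hc0
    rw [hne a, hne b]
  have := Finite.card_le_one_iff_subsingleton.2 this
  omega

variable {t k : ℕ} {D : Fin t → Submodule F (Fin n → F)}

/-- A member other than a given one contains an anisotropic vector orthogonal to `w`. -/
def Good (q : ℕ) (D : Fin t → Submodule F (Fin n → F)) (w : Fin n → F) (i : Fin t) : Prop :=
  ∃ l, l ≠ i ∧ ∃ u ∈ D l, herm q u u ≠ 0 ∧ herm q w u = 0

variable {M : Subgroup (UG n F q)}
  (hM : ∀ g ∈ SUG n F q, (∀ i, ∃ j, ∀ v ∈ D i, g.1 v ∈ D j) → g ∈ M)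
  (H : IsUDec q k D)

include H

theorem IsUDec.herm_proj' (C : Components D) {i : Fin t} {x : Fin n → F} (hx : x ∈ D i)
    (v : Fin n → F) : herm q v x = herm q (C.proj i v) x := by
  rw [← hF.herm_symm, H.herm_proj hF C hx, hF.herm_symm]

theorem IsUDec.good_of (C : Components D) {w : Fin n → F} {i l : Fin t} (hl : l ≠ i)
    (hc : C.proj l w = 0 ∨ herm q (C.proj l w) (C.proj l w) ≠ 0 ∨ 3 ≤ k) : Good q D w i := by
  obtain ⟨v, hv, hvv, hvw⟩ := H.exists_aniso_perp hF l (C.mem l w) hc
  exact ⟨l, hl, v, hv, hvv, Forms.herm_comm_zero hF (by rw [H.herm_proj hF C hv]; exact hvw)⟩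

theorem IsUDec.good_add {w : Fin n → F} {i : Fin t} (h : Good q D w i) {y : Fin n → F} (hy : y ∈ D i) :
    Good q D (w + y) i := by
  obtain ⟨l, hl, u, hu, huu, hwu⟩ := h
  exact ⟨l, hl, u, hu, huu, by rw [herm_add_left, hwu, H.orth i l hl.symm y hy u hu, add_zero]⟩

include hM

theorem ctr_of_mem {i : Fin t} {e : Fin n → F} (he : e ∈ D i) (hee : herm q e e = 0) : e ∈ ctr hF M := by
  refine ⟨hee, fun a h => hM _ (det_uni hF _) fun r => ⟨r, fun v hv => ?_⟩⟩
  rw [trv_apply]
  rcases eq_or_ne r i with rfl | hri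
  · exact (D r).add_mem hv ((D r).smul_mem _ he)
  · rw [H.orth r i hri v hv e he, mul_zero, zero_smul, add_zero]
    exact hv

/-- A pseudo-reflection in a member, its determinant corrected in another one. -/
theorem ctr_href {w : Fin n → F} (hw : w ∈ ctr hF M) {i : Fin t} {x : Fin n → F} (hx : x ∈ D i)
    {c : F} (h : c + c ^ q + c * c ^ q * herm q x x = 0) (hg : Good q D w i) :
    w + (c * herm q w x) • x ∈ ctr hF M := by
  obtain ⟨l, hl, u, hu, huu, hwu⟩ := hg
  set d := 1 + c * herm q x x with hd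
  have hdd : d * d ^ q = 1 := by
    have := det_norm_one hF (href hF h)
    rwa [det_href hF h, ← hd, pow_succ'] at this
  have huq : herm q u u ^ q = herm q u u := hF.herm_symm u u
  have h' : (d ^ q - 1) / herm q u u + ((d ^ q - 1) / herm q u u) ^ q +
      (d ^ q - 1) / herm q u u * ((d ^ q - 1) / herm q u u) ^ q * herm q u u = 0 := by
    rw [div_pow, hF.sub_pow, one_pow, hF.pow_pow, huq]
    field_simp
    linear_combination hdd
  set g := href hF h * href hF h' with hg
  have hgS : g ∈ SUG n F q := by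
    rw [mem_SUG, hg, Subgroup.coe_mul, map_mul]
    refine Units.ext ?_
    rw [Units.val_mul, det_href hF h, det_href hF h', div_mul_cancel₀ _ huu, ← hd, Units.val_one]
    linear_combination hdd
  have hgM : g ∈ M := hM g hgS fun r => ⟨r, fun v hv => by
    rw [hg, Subgroup.coe_mul, LinearEquiv.mul_apply, href_apply, href_apply]
    rcases eq_or_ne r l with rfl | hrl
    · have hv' := (D r).add_mem hv ((D r).smul_mem ((d ^ q - 1) / herm q u u * herm q v u) hu)
      rw [H.orth r i hl _ hv' x hx, mul_zero, zero_smul, add_zero]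
      exact hv'
    · rw [H.orth r l hrl v hv u hu, mul_zero, zero_smul, add_zero]
      rcases eq_or_ne r i with rfl | hri
      · exact (D r).add_mem hv ((D r).smul_mem _ hx)
      · rw [H.orth r i hri v hv x hx, mul_zero, zero_smul, add_zero]
        exact hv⟩
  have := ctr_map hF hw hgM
  rwa [hg, Subgroup.coe_mul, LinearEquiv.mul_apply, href_apply, href_apply, hwu, mul_zero, zero_smul,
    add_zero] at this

theorem ctr_step (C : Components D) {w : Fin n → F} (hw : w ∈ ctr hF M) {i : Fin t} {z : Fin n → F}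
    (hz : z ∈ D i) (hN : herm q z z = herm q (C.proj i w) (C.proj i w)) (hg : Good q D w i)
    (hne : herm q (C.proj i w) z ≠ herm q (C.proj i w) (C.proj i w)) :
    w - C.proj i w + z ∈ ctr hF M := by
  set p := C.proj i w with hp
  set a := herm q p p with ha
  set s := herm q p z with hs
  have haq : a ^ q = a := hF.herm_symm p p
  have hne' : s - a ≠ 0 := sub_ne_zero.2 hne
  have hne'' : s ^ q - a ≠ 0 := fun e => hne' (by
    have := congrArg (· ^ q) e
    simpa [hF.sub_pow, hF.pow_pow, haq, zero_pow hF.q_ne_zero] using this)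
  have hx : z - p ∈ D i := (D i).sub_mem hz (C.mem i w)
  have hwx : herm q w (z - p) = s - a := by rw [H.herm_proj' hF C hx, ← hp, hF.herm_sub_right]
  have hxx : herm q (z - p) (z - p) = 2 * a - s - s ^ q := by
    rw [herm_sub_left, hF.herm_sub_right, hF.herm_sub_right, hN, ← hF.herm_symm p z, ← hs]
    ring
  have := ctr_href hF hM H hw hx (c := (s - a)⁻¹) (by
    rw [hxx, inv_pow, hF.sub_pow, haq]
    field_simp
    ring) hg
  rwa [hwx, inv_mul_cancel₀ hne', one_smul, ← add_sub_assoc, ← sub_add_eq_add_sub] at this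

/-- A component can be replaced by any other one of the same value. -/
theorem ctr_move (C : Components D) {w : Fin n → F} (hw : w ∈ ctr hF M) {i : Fin t} {z : Fin n → F}
    (hz : z ∈ D i) (hz0 : z ≠ 0) (hw0 : C.proj i w ≠ 0)
    (hN : herm q z z = herm q (C.proj i w) (C.proj i w)) (hg : Good q D w i) :
    w - C.proj i w + z ∈ ctr hF M := by
  set p := C.proj i w with hp
  rcases ne_or_eq (herm q p z) (herm q p p) with hne | heq
  · exact ctr_step hF hM H C hw hz hN hg hne
  obtain ⟨y, hy, hyy, h1, h2⟩ : ∃ y ∈ D i, herm q y y = herm q p p ∧ herm q p y ≠ herm q p p ∧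
      herm q y z ≠ herm q p p := by
    rcases ne_or_eq (herm q p p) 0 with ha | ha
    · obtain ⟨ζ, hζ1, hζ⟩ : ∃ c : F, c ≠ 1 ∧ c ^ (q + 1) = 1 := by
        by_contra hcon
        push Not at hcon
        have h3 : Nat.card {x : F // x ^ (q + 1) = 1} = 1 := Nat.card_eq_one_iff_exists.2
          ⟨⟨1, one_pow _⟩, fun x => Subtype.ext (by_contra fun hne => hcon x.1 hne x.2)⟩
        have := hF.card_norm_one
        have := hF.one_lt
        omega
      rw [pow_succ'] at hζ
      refine ⟨ζ • p, (D i).smul_mem _ (C.mem i w), ?_, ?_, ?_⟩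
      · rw [herm_smul_left, herm_smul_right, ← mul_assoc, hζ, one_mul]
      · rw [herm_smul_right]
        intro e
        have e1 := (mul_eq_right₀ ha).1 e
        have := congrArg (· ^ q) e1
        exact hζ1 (by simpa [hF.pow_pow] using this)
      · rw [herm_smul_left, heq]
        exact fun e => hζ1 ((mul_eq_right₀ ha).1 e)
    · rw [ha] at heq ⊢
      obtain ⟨v₀, hv₀, hpv⟩ := H.nd i p (C.mem i w) hw0
      obtain ⟨f, hf, -, hff, hpf⟩ := exists_pair_mem hF (C.mem i w) ha
        ⟨v₀, hv₀, fun e => hpv (Forms.herm_comm_zero hF e)⟩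
      rw [← hp] at hpf
      by_cases hfz : herm q f z = 0
      · have hfp : herm q f p = 1 := by rw [← hF.herm_symm, hpf, one_pow]
        obtain ⟨v, hv, hzv⟩ := H.nd i z hz hz0
        set v' := v - herm q v f • p - herm q v p • f with hv'
        have hv'z : herm q v' z = herm q v z := by
          rw [hv', herm_sub_left, herm_sub_left, herm_smul_left, herm_smul_left, heq, hfz]; ring
        have hv'p : herm q v' p = 0 := by
          rw [hv', herm_sub_left, herm_sub_left, herm_smul_left, herm_smul_left, ha, hfp]; ring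
        have hv'f : herm q v' f = 0 := by
          rw [hv', herm_sub_left, herm_sub_left, herm_smul_left, herm_smul_left, hff, hpf]; ring
        obtain ⟨a, ht⟩ := hF.exists_trace (c := -herm q v' v') (by rw [hF.neg_pow, hF.herm_symm])
        refine ⟨f + v' + a • p, (D i).add_mem ((D i).add_mem hf ((D i).sub_mem ((D i).sub_mem hv
          ((D i).smul_mem _ (C.mem i w))) ((D i).smul_mem _ hf))) ((D i).smul_mem _ (C.mem i w)),
          ?_, ?_, ?_⟩
        · simp only [herm_add_left, hF.herm_add_right, herm_smul_left, herm_smul_right, hff, hpf, hfp,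
            ha, hv'p, hv'f, Forms.herm_comm_zero hF hv'p, Forms.herm_comm_zero hF hv'f]
          linear_combination ht
        · simp only [hF.herm_add_right, herm_smul_right, hpf, ha, Forms.herm_comm_zero hF hv'p]
          simp
        · simp only [herm_add_left, herm_smul_left, hfz, heq, hv'z]
          simpa using fun e => hzv (Forms.herm_comm_zero hF e)
      · exact ⟨f, hf, hff, by rw [hpf]; exact one_ne_zero, hfz⟩
  have hw1 := ctr_step hF hM H C hw hy hyy hg h1
  rw [← hp] at hw1
  have hg1 : Good q D (w - p + y) i := by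
    rw [sub_eq_add_neg, add_assoc]
    exact H.good_add hF hg ((D i).add_mem ((D i).neg_mem (C.mem i w)) hy)
  have e : C.proj i (w - p + y) = y := by
    rw [map_add, map_sub, hp, C.of_mem (C.mem i w), sub_self, zero_add, C.of_mem hy]
  have := ctr_step hF hM H C hw1 hz (by rw [e, hyy, hN]) hg1 (by rw [e, hyy]; exact h2)
  rwa [e, add_sub_cancel_right] at this

/-- The difference of a centre and its image under two moves. -/
theorem ctr_diff (C : Components D) {w : Fin n → F} (hw : w ∈ ctr hF M) {j l : Fin t} (hjl : j ≠ l)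
    (hwj : C.proj j w ≠ 0) (hwl : C.proj l w ≠ 0) (hg1 : Good q D w j)
    (hg2 : ∀ y ∈ D j, Good q D (w + y) l) {y z : Fin n → F} (hy : y ∈ D j) (hy0 : y ≠ 0) (hz : z ∈ D l)
    (hz0 : z ≠ 0) (hNy : herm q y y = herm q (C.proj j w) (C.proj j w))
    (hNz : herm q z z = herm q (C.proj l w) (C.proj l w)) {τ : F} (hτ0 : τ ≠ 0) (hτ : τ ^ q = -τ)
    (hsum : herm q (C.proj j w) y + herm q (C.proj l w) z -
      herm q (C.proj j w) (C.proj j w) - herm q (C.proj l w) (C.proj l w) = τ) :
    C.proj j w - y + (C.proj l w - z) ∈ ctr hF M := by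
  set p := C.proj j w with hp
  set r := C.proj l w with hr
  have h1 := ctr_move hF hM H C hw hy hy0 hwj hNy hg1
  rw [← hp] at h1
  have hgl : Good q D (w - p + y) l := by
    rw [sub_eq_add_neg, add_assoc]
    exact hg2 _ ((D j).add_mem ((D j).neg_mem (C.mem j w)) hy)
  have e : C.proj l (w - p + y) = r := by
    rw [map_add, map_sub, hp, C.of_mem_ne hjl (C.mem j w), C.of_mem_ne hjl hy, sub_zero, add_zero, hr]
  have h2 := ctr_move hF hM H C h1 hz hz0 (by rw [e]; exact hwl) (by rw [e]; exact hNz) hgl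
  rw [e] at h2
  have hval : herm q w (w - p + y - r + z) = τ := by
    rw [hF.herm_add_right, hF.herm_sub_right, hF.herm_add_right, hF.herm_sub_right, hw.1,
      H.herm_proj' hF C (C.mem j w), H.herm_proj' hF C hy, H.herm_proj' hF C (C.mem l w),
      H.herm_proj' hF C hz, ← hp, ← hr, ← hsum]
    ring
  have := ctr_line_sub hF hw h2 (by rw [hval]; exact hτ0) (by rw [hval, hτ]; ring)
  convert this using 1
  abel

omit hM in
theorem IsUDec.good_of_support (C : Components D) (hn : n = k * t) (h6 : 6 ≤ n) {w : Fin n → F} {j l : Fin t}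
    (h : ∀ r, r ≠ j → r ≠ l → C.proj r w = 0) {i : Fin t} (hi : i = j ∨ i = l) : Good q D w i := by
  by_cases hk : 3 ≤ k
  · obtain ⟨l', hl'⟩ := Fintype.exists_ne_of_one_lt_card
      (by rw [Fintype.card_fin]; exact H.dec.two_le) i
    exact H.good_of hF C hl' (Or.inr (Or.inr hk))
  have h3 : 3 ≤ t := by
    have := H.two
    obtain rfl : k = 2 := by omega
    omega
  obtain ⟨r, -, hr⟩ := Finset.exists_mem_notMem_of_card_lt_card
    (s := ({j, l} : Finset (Fin t))) (t := Finset.univ) (by
      refine lt_of_le_of_lt Finset.card_le_two ?_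
      rw [Finset.card_univ, Fintype.card_fin]; omega)
  simp only [Finset.mem_insert, Finset.mem_singleton, not_or] at hr
  have hri : r ≠ i := by
    rcases hi with rfl | rfl
    exacts [hr.1, hr.2]
  exact H.good_of hF C hri (Or.inl (h r hr.1 hr.2))

omit hM in
theorem IsUDec.good_two (C : Components D) (hn : n = k * t) (h6 : 6 ≤ n) {j l : Fin t} {p z : Fin n → F}
    (hp : p ∈ D j) (hz : z ∈ D l) {i : Fin t} (hi : i = j ∨ i = l) : Good q D (p + z) i :=
  H.good_of_support hF C hn h6 (j := j) (l := l) (fun r hj hl => by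
    rw [map_add, C.of_mem_ne hj.symm hp, C.of_mem_ne hl.symm hz, add_zero]) hi

/-- Centres with two components of opposite values, one value determining all. -/
theorem ctr_pair_of (C : Components D) {w : Fin n → F} (hw : w ∈ ctr hF M) {j l : Fin t} (hjl : j ≠ l)
    (hwj : C.proj j w ≠ 0) (hwl : C.proj l w ≠ 0) (hg1 : Good q D w j)
    (hg2 : ∀ y ∈ D j, Good q D (w + y) l) {c : F} (hc : c ^ q = c) (hcq : c ≠ 0 ∨ 3 ≤ q) :
    ∃ p ∈ D j, ∃ z ∈ D l, p ≠ 0 ∧ z ≠ 0 ∧ herm q p p = c ∧ herm q z z = -c ∧ p + z ∈ ctr hF M := by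
  obtain ⟨δ, hδ0, hδ⟩ := hF.exists_skew
  obtain ⟨s, τ, hs, hτ, hτ0, hs0, hsτ⟩ : ∃ s τ : F, s + s ^ q = -c ∧ τ ^ q = -τ ∧ τ ≠ 0 ∧ s ≠ 0 ∧
      τ - s ≠ 0 := by
    rcases ne_or_eq c 0 with hc0 | rfl
    · obtain ⟨s, hs⟩ := hF.exists_trace (c := -c) (by rw [hF.neg_pow, hc])
      refine ⟨s, δ, hs, hδ, hδ0, ?_, ?_⟩
      · rintro rfl
        rw [zero_pow hF.q_ne_zero, add_zero] at hs
        exact hc0 (neg_eq_zero.1 hs.symm)
      · intro e
        rw [← sub_eq_zero.1 e, hδ, add_neg_cancel] at hs
        exact hc0 (neg_eq_zero.1 hs.symm)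
    · obtain ⟨e, he, he0, he1⟩ := exists_fixed_ne hF (hcq.resolve_left (by simp))
      refine ⟨δ, e * δ, by rw [hδ]; simp, by rw [mul_pow, he, hδ]; ring, mul_ne_zero he0 hδ0, hδ0, ?_⟩
      rw [← sub_one_mul]
      exact mul_ne_zero (sub_ne_zero.2 he1) hδ0
  set p := C.proj j w with hp
  set r := C.proj l w with hr
  have haq : herm q p p ^ q = herm q p p := hF.herm_symm p p
  have hbq : herm q r r ^ q = herm q r r := hF.herm_symm r r
  obtain ⟨y, hy, hpy, hyy⟩ := H.exists_affine hF j (C.mem j w) hwj (herm q p p + s) haq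
    (fun e => by rw [e, zero_add]; exact hs0)
  obtain ⟨z, hz, hrz, hzz⟩ := H.exists_affine hF l (C.mem l w) hwl (herm q r r + (τ - s)) hbq
    (fun e => by rw [e, zero_add]; exact hsτ)
  rw [← hp] at hpy
  rw [← hr] at hrz
  have hy0 : y ≠ 0 := fun e => hs0 (by
    rw [e, hF.herm_zero_right] at hpy
    rw [e, herm_zero_left] at hyy
    linear_combination -hpy + hyy)
  have hz0 : z ≠ 0 := fun e => hsτ (by
    rw [e, hF.herm_zero_right] at hrz
    rw [e, herm_zero_left] at hzz
    linear_combination -hrz + hzz)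
  have := ctr_diff hF hM H C hw hjl hwj hwl hg1 hg2 hy hy0 hz hz0 hyy hzz hτ0 hτ (by
    rw [← hp, ← hr, hpy, hrz]; ring)
  refine ⟨p - y, (D j).sub_mem (C.mem j w) hy, r - z, (D l).sub_mem (C.mem l w) hz, ?_, ?_, ?_, ?_, this⟩
  · intro e
    rw [← sub_eq_zero.1 e] at hpy
    exact hs0 (by linear_combination -hpy)
  · intro e
    rw [← sub_eq_zero.1 e] at hrz
    exact hsτ (by linear_combination -hrz)
  · rw [herm_sub_left, hF.herm_sub_right, hF.herm_sub_right, hyy, ← hF.herm_symm p y, hpy, hF.add_pow,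
      haq]
    linear_combination -hs
  · rw [herm_sub_left, hF.herm_sub_right, hF.herm_sub_right, hzz, ← hF.herm_symm r z, hrz, hF.add_pow,
      hbq, hF.sub_pow, hτ]
    linear_combination hs

/-- From one centre, centres with two components of all values. -/
theorem ctr_pair_all (C : Components D) (hn : n = k * t) {w : Fin n → F} (hw : w ∈ ctr hF M)
    {j l : Fin t} (hjl : j ≠ l) (hwj : C.proj j w ≠ 0) (hwl : C.proj l w ≠ 0) (hg1 : Good q D w j)
    (hg2 : ∀ y ∈ D j, Good q D (w + y) l) {c : F} (hc : c ^ q = c) :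
    ∃ p ∈ D j, ∃ z ∈ D l, p ≠ 0 ∧ z ≠ 0 ∧ herm q p p = c ∧ herm q z z = -c ∧ p + z ∈ ctr hF M := by
  by_cases hcq : c ≠ 0 ∨ 3 ≤ q
  · exact ctr_pair_of hF hM H C hw hjl hwj hwl hg1 hg2 hc hcq
  push Not at hcq
  obtain ⟨rfl, hq⟩ := hcq
  have hq2 : q = 2 := by have := hF.one_lt; omega
  have hk := H.three hq2
  have h6 : 6 ≤ n := by
    have := Nat.mul_le_mul hk H.dec.two_le
    omega
  have h11 : (1 : F) + 1 = 0 := by
    obtain ⟨p, e, hp, hc', he⟩ := hF.exists_char
    have hp2 : p = 2 := by
      have hdvd : p ∣ 2 := by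
        rw [← hq2, he]
        exact dvd_pow_self p (by rintro rfl; rw [pow_zero] at he; omega)
      exact (Nat.prime_dvd_prime_iff_eq hp Nat.prime_two).1 hdvd
    subst hp2
    exact CharTwo.add_self_eq_zero 1
  obtain ⟨p, hp, z, hz, hp0, hz0, hpp, hzz, hv⟩ := ctr_pair_of hF hM H C hw hjl hwj hwl hg1 hg2
    (c := 1) (one_pow q) (Or.inl one_ne_zero)
  have hzz' : herm q z z = 1 := by rw [hzz]; linear_combination -h11
  have ej : C.proj j (p + z) = p := by rw [map_add, C.of_mem hp, C.of_mem_ne hjl.symm hz, add_zero]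
  have el : C.proj l (p + z) = z := by rw [map_add, C.of_mem hz, C.of_mem_ne hjl hp, zero_add]
  obtain ⟨e, he, he0, hee⟩ := exists_isotropic_mem hF
    (S := D j ⊓ LinearMap.ker (ClassicalMax.hermDual q p)) (by
      let χ : D j →ₗ[F] F := (ClassicalMax.hermDual q p) ∘ₗ (D j).subtype
      have h1 := LinearMap.finrank_range_add_finrank_ker χ
      have h2 := (LinearMap.range χ).finrank_le
      rw [finrank_self] at h2
      have h3 : finrank F (LinearMap.ker χ) ≤
          finrank F ↥(D j ⊓ LinearMap.ker (ClassicalMax.hermDual q p)) := by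
        rw [LinearMap.ker_comp, (Submodule.equivMapOfInjective (D j).subtype (D j).injective_subtype
          _).finrank_eq, Submodule.map_comap_subtype]
      rw [H.dec.finrank_eq] at h1
      omega)
  have hep : herm q e p = 0 := he.2
  obtain ⟨z', hz', hzz2, hz'z'⟩ := H.exists_affine hF l hz hz0 (0 : F) (β := 1) (one_pow q)
    (fun e => absurd (e.symm.trans hzz') zero_ne_one)
  have hpe0 : p + e ≠ 0 := fun h => by
    have := congrArg (fun v => herm q v p) h
    simp [herm_add_left, hpp, hep] at this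
  have hz'0 : z' ≠ 0 := fun h => by rw [h, herm_zero_left] at hz'z'; exact zero_ne_one hz'z'
  have := ctr_diff hF hM H C hv hjl (by rwa [ej]) (by rwa [el]) (H.good_two hF C hn h6 hp hz (Or.inl rfl))
    (fun y hy => by rw [add_right_comm]; exact H.good_two hF C hn h6 ((D j).add_mem hp hy) hz (Or.inr rfl))
    ((D j).add_mem hp he.1) hpe0 hz' hz'0
    (by rw [ej, herm_add_left, hF.herm_add_right, hF.herm_add_right, hpp, hep, hee,
      Forms.herm_comm_zero hF hep]; ring)
    (by rw [el, hzz', hz'z']) (τ := 1) one_ne_zero (by rw [one_pow]; linear_combination h11) (by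
      rw [ej, el, hF.herm_add_right, hpp, Forms.herm_comm_zero hF hep, hzz2, hzz']
      linear_combination -h11)
  rw [ej, el] at this
  refine ⟨p - (p + e), (D j).sub_mem hp ((D j).add_mem hp he.1), z - z', (D l).sub_mem hz hz', ?_, ?_,
    ?_, ?_, this⟩
  · rwa [sub_add_cancel_left, ne_eq, neg_eq_zero]
  · intro h
    rw [← sub_eq_zero.1 h, hzz'] at hzz2
    exact one_ne_zero hzz2
  · rw [sub_add_cancel_left, herm_neg_left, hF.herm_neg_right, hee, neg_zero, neg_zero]
  · rw [herm_sub_left, hF.herm_sub_right, hF.herm_sub_right, hzz', hzz2, hz'z',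
      Forms.herm_comm_zero hF hzz2]
    linear_combination h11

end Cfsg.Agent.DecompMax.UN
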