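import Cfsg.Agent.DecompMax.UnitNoFix

/-!
A non-monomial element fixing a frame line gives a transvection centre.
-/

set_option autoImplicit false
set_option linter.style.haveILetI false
set_option linter.unusedSectionVars false

namespace Cfsg.Agent.DecompMax.UF

open Matrix Cfsg.Geo Module Cfsg.Agent.Classical.U Cfsg.Agent.DecompMax.UCount Cfsg.Agent.DecompMax.UN
open scoped MatrixGroups Matrix

universe u

variable {F : Type u} [Field F] {n q : ℕ}

/-- `x` is the centre of reflections in `M`, compensated at the coordinate `b`. -/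
def Cen (M : Subgroup (UG n F q)) (b : Fin n) (x : Fin n → F) : Prop :=
  x b = 0 ∧ herm q x x = 1 ∧ ∀ ρ : NU F q, ∃ p ∈ M, ∀ v, p.1 v = v +
    ((((ρ : Fˣ) : F) - 1) * herm q v x) • x + (((((ρ⁻¹ : NU F q) : Fˣ) : F) - 1) * v b) • sv F b

variable {M : Subgroup (UG n F q)} {b : Fin n} (hF : SqField F q)
include hF

theorem add_closed_eq_top (K : AddSubgroup F) (hK : ∀ μ : NU F q, ((μ : Fˣ) : F) ∈ K) : K = ⊤ := by
  classical
  haveI : Finite F := hF.1
  haveI : Fintype F := Fintype.ofFinite F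
  have hdvd : Nat.card K ∣ Nat.card F := K.card_addSubgroup_dvd_card
  refine AddSubgroup.eq_top_of_card_eq K ?_
  by_contra hne
  obtain ⟨j, hj⟩ := hdvd
  have hj1 : j ≠ 1 := fun e => hne (by rw [hj, e, mul_one])
  have hj0 : j ≠ 0 := fun e => by
    rw [e, mul_zero] at hj
    exact Nat.card_pos.ne' hj
  set P := Finset.univ.filter fun p : NU F q × NU F q => ((p.1 : Fˣ) : F) + ((p.2 : Fˣ) : F) ≠ 0
  have hP : q * (q + 1) ≤ P.card := by
    have h1 : (Finset.univ.filter fun p : NU F q × NU F q =>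
        ((p.1 : Fˣ) : F) + ((p.2 : Fˣ) : F) = 0).card ≤ q + 1 := by
      refine le_trans ?_ (Finset.card_univ.trans (fintype_card_NU hF)).le
      refine Finset.card_le_card_of_injOn Prod.fst (fun r _ => Finset.mem_univ _) fun r hr r' hr' e => ?_
      simp only [Finset.coe_filter, Finset.mem_univ, true_and, Set.mem_setOf_eq] at hr hr'
      rw [e] at hr
      exact Prod.ext e (Subtype.ext (Units.ext (by linear_combination hr - hr')))
    have h2 := Finset.card_filter_add_card_filter_not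
      (s := (Finset.univ : Finset (NU F q × NU F q)))
      (fun p => ((p.1 : Fˣ) : F) + ((p.2 : Fˣ) : F) = 0)
    rw [Finset.card_univ, Fintype.card_prod, fintype_card_NU hF] at h2
    have : (q + 1) * (q + 1) = q * (q + 1) + (q + 1) := by ring
    simp only [P, ne_eq]
    omega
  set I := P.image fun p => ((p.1 : Fˣ) : F) + ((p.2 : Fˣ) : F)
  have hI : P.card ≤ 2 * I.card := by
    refine Finset.card_le_mul_card_image P 2 fun a ha => ?_
    obtain ⟨p, hp, rfl⟩ := Finset.mem_image.1 ha
    simp only [P, Finset.mem_filter] at hp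
    refine le_trans (Finset.card_le_card fun r hr => ?_)
      ((pair_fibre hF one_ne_zero p).trans (by rw [if_neg hp.2]))
    rw [Finset.mem_filter] at hr ⊢
    exact ⟨Finset.mem_univ _, by simpa using hr.2.symm⟩
  have hIK : I.card ≤ Nat.card K := by
    rw [Nat.card_eq_fintype_card, Fintype.card_subtype]
    refine Finset.card_le_card fun a ha => ?_
    obtain ⟨p, -, rfl⟩ := Finset.mem_image.1 ha
    exact Finset.mem_filter.2 ⟨Finset.mem_univ _, K.add_mem (hK _) (hK _)⟩
  have : 2 * Nat.card K ≤ Nat.card F := by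
    rw [hj, mul_comm 2]; exact Nat.mul_le_mul_left _ (by omega)
  rw [hF.2] at this
  nlinarith [hF.one_lt]

theorem herm_of_supp {T : Finset (Fin n)} {u : Fin n → F} (h : supp u ⊆ T) (v : Fin n → F) :
    herm q u v = ∑ x ∈ T, u x * v x ^ q := by
  rw [herm_def]
  refine (Finset.sum_subset (Finset.subset_univ T) fun x _ hx => ?_).symm
  have : u x = 0 := by by_contra h'; exact hx (h (mem_supp.2 h'))
  rw [this, zero_mul]

theorem norm_fixed (x : F) : (x * x ^ q) ^ q = x * x ^ q := by rw [mul_pow, hF.pow_pow, mul_comm]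

theorem exists_two_step [Fintype F] (hq : 3 ≤ q) {a c : F} (ha : a ^ q = a) (hc : c ^ q = c) (ha0 : a ≠ 0)
    (hc0 : c ≠ 0) :
    ∃ μ ν : NU F q, ((μ : Fˣ) : F) ≠ 1 ∧ ((ν : Fˣ) : F) ≠ 1 ∧
      a * (((μ : Fˣ) : F) - 1) + c * (((ν : Fˣ) : F) - 1) ≠ 0 ∧
      a * (((μ : Fˣ) : F) - 1) + c * (((ν : Fˣ) : F) - 1) +
        (a * (((μ : Fˣ) : F) - 1) + c * (((ν : Fˣ) : F) - 1)) ^ q = 0 := by
  classical
  set h : NU F q → F := fun μ => 2 - ((μ : Fˣ) : F) - ((μ : Fˣ) : F) ^ q with hh
  have hhfix : ∀ μ, h μ ^ q = h μ := fun μ => by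
    simp only [hh, hF.sub_pow, hF.pow_pow]
    rw [show (2 : F) = 1 + 1 by norm_num, hF.add_pow, one_pow]
    ring
  have hh0 : ∀ μ, h μ = 0 → ((μ : Fˣ) : F) = 1 := fun μ e => by
    have h1 : (((μ : Fˣ) : F) - 1) * (((μ : Fˣ) : F) - 1) = 0 := by
      simp only [hh] at e
      linear_combination -((μ : Fˣ) : F) * e - NU.mul_pow_eq μ
    exact sub_eq_zero.1 (mul_self_eq_zero.1 h1)
  have hh4 : ∀ μ, h μ = 4 → ((μ : Fˣ) : F) = -1 := fun μ e => by
    have h1 : (((μ : Fˣ) : F) + 1) * (((μ : Fˣ) : F) + 1) = 0 := by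
      simp only [hh] at e
      linear_combination -((μ : Fˣ) : F) * e - NU.mul_pow_eq μ
    exact eq_neg_of_add_eq_zero_left (mul_self_eq_zero.1 h1)
  set T := Finset.univ.image h
  set O : Finset (NU F q) := Finset.univ.filter fun μ => ((μ : Fˣ) : F) ≠ 1 ∧ ((μ : Fˣ) : F) ≠ -1
  have hO : O.card ≤ 2 * (O.image h).card := by
    refine Finset.card_le_mul_card_image O 2 fun v hv => ?_
    obtain ⟨μ, -, rfl⟩ := Finset.mem_image.1 hv
    refine (Finset.card_le_card (t := {μ, μ⁻¹}) fun ν hν => ?_).trans Finset.card_le_two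
    have e := (Finset.mem_filter.1 hν).2
    simp only [hh] at e
    have h1 : (((ν : Fˣ) : F) - ((μ : Fˣ) : F)) * (((ν : Fˣ) : F) - ((μ : Fˣ) : F) ^ q) = 0 := by
      linear_combination -((ν : Fˣ) : F) * e - NU.mul_pow_eq ν + NU.mul_pow_eq μ
    simp only [Finset.mem_insert, Finset.mem_singleton]
    rcases mul_eq_zero.1 h1 with h2 | h2
    · exact Or.inl (Subtype.ext (Units.ext (sub_eq_zero.1 h2)))
    · refine Or.inr (Subtype.ext (Units.ext ?_))
      rw [sub_eq_zero.1 h2, Subgroup.coe_inv, Units.val_inv_eq_inv_val]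
      exact eq_inv_of_mul_eq_one_left (by rw [mul_comm]; exact NU.mul_pow_eq μ)
  have hT : O.image h ∪ {0, 4} ⊆ T := by
    intro v hv
    simp only [Finset.mem_union, Finset.mem_insert, Finset.mem_singleton] at hv
    rcases hv with hv | rfl | rfl
    · exact Finset.image_subset_image (Finset.subset_univ _) hv
    · exact Finset.mem_image.2 ⟨1, Finset.mem_univ _, by simp [hh]; norm_num⟩
    · refine Finset.mem_image.2 ⟨NU.mk (-1) (by rw [hF.neg_pow, one_pow]; ring), Finset.mem_univ _, ?_⟩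
      simp only [hh, NU.mk_val, hF.neg_pow, one_pow]; norm_num
  have hdisj : Disjoint (O.image h) {0, 4} := by
    rw [Finset.disjoint_left]
    intro v hv hv'
    obtain ⟨μ, hμ, rfl⟩ := Finset.mem_image.1 hv
    simp only [O, Finset.mem_filter] at hμ
    simp only [Finset.mem_insert, Finset.mem_singleton] at hv'
    rcases hv' with e | e
    · exact hμ.2.1 (hh0 μ e)
    · exact hμ.2.2 (hh4 μ e)
  have hTc : q + 1 + ({0, 4} : Finset F).card ≤ 2 * T.card := by
    have h1 := Finset.card_le_card hT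
    rw [Finset.card_union_of_disjoint hdisj] at h1
    have h2 : (q + 1) ≤ O.card + ({0, 4} : Finset F).card := by
      have hs : (Finset.univ : Finset (NU F q)) ⊆ O ∪ ((Finset.univ : Finset (NU F q)).filter
          fun μ => ((μ : Fˣ) : F) = 1 ∨ ((μ : Fˣ) : F) = -1) := fun μ _ => by
        simp only [O, Finset.mem_union, Finset.mem_filter, Finset.mem_univ, true_and]; tauto
      have h3 := (Finset.card_le_card hs).trans (Finset.card_union_le _ _)
      rw [Finset.card_univ, fintype_card_NU hF] at h3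
      refine h3.trans (Nat.add_le_add_left ?_ _)
      refine Finset.card_le_card_of_injOn (fun μ => h μ) (fun μ hμ => ?_) fun μ hμ ν hν e => ?_
      · simp only [Finset.mem_coe, Finset.mem_filter] at hμ
        simp only [Finset.coe_insert, Finset.coe_singleton, Set.mem_insert_iff, Set.mem_singleton_iff, hh]
        rcases hμ.2 with e | e
        · left; rw [e, one_pow]; norm_num
        · right; rw [e, hF.neg_pow, one_pow]; norm_num
      · simp only [Finset.mem_coe, Finset.mem_filter] at hμ hν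
        refine Subtype.ext (Units.ext ?_)
        rcases hμ.2 with e1 | e1 <;> rcases hν.2 with e2 | e2
        · rw [e1, e2]
        · simp only [hh, e1, e2, one_pow, hF.neg_pow] at e
          rw [e1, e2]
          have h4 : (2 : F) * 2 = 0 := by linear_combination -e
          exact eq_neg_of_add_eq_zero_left (by linear_combination mul_self_eq_zero.1 h4)
        · simp only [hh, e1, e2, one_pow, hF.neg_pow] at e
          rw [e1, e2]
          have h4 : (2 : F) * 2 = 0 := by linear_combination e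
          exact (eq_neg_of_add_eq_zero_left (by linear_combination mul_self_eq_zero.1 h4 :
            (1 : F) + 1 = 0)).symm
        · rw [e1, e2]
    omega
  set F₀ := Finset.univ.filter fun x : F => x ^ q = x
  have hF₀ : F₀.card ≤ q := by
    have : F₀ ⊆ insert 0 (Finset.univ.filter fun x : F => x ^ (q - 1) = 1) := fun x hx => by
      simp only [F₀, Finset.mem_filter] at hx
      rcases eq_or_ne x 0 with rfl | h0
      · simp
      · simp [(hF.fixed_iff h0).1 hx.2]
    refine (Finset.card_le_card this).trans ((Finset.card_insert_le _ _).trans ?_)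
    rw [← Fintype.card_subtype, ← Nat.card_eq_fintype_card, hF.card_fixed_units]
    omega
  set A := T.image (fun v => a * v)
  set B := T.image (fun v => -(c * v))
  have hA : A.card = T.card := Finset.card_image_of_injective _ (mul_right_injective₀ ha0)
  have hB : B.card = T.card := Finset.card_image_of_injective _ fun x y e => mul_right_injective₀ hc0 (neg_injective e)
  have hAB : A ∪ B ⊆ F₀ := by
    intro v hv
    simp only [F₀, Finset.mem_filter, Finset.mem_univ, true_and]
    simp only [A, B, T, Finset.mem_union, Finset.mem_image] at hv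
    rcases hv with ⟨_, ⟨μ, -, rfl⟩, rfl⟩ | ⟨_, ⟨μ, -, rfl⟩, rfl⟩
    · rw [mul_pow, ha, hhfix]
    · rw [hF.neg_pow, mul_pow, hc, hhfix]
  obtain ⟨v, hv, hv'⟩ := Finset.exists_mem_notMem_of_card_lt_card
    (s := ({0, 4} : Finset F).image (fun x => a * x)) (t := A ∩ B) (by
      have := Finset.card_union_add_card_inter A B
      have := (Finset.card_le_card hAB).trans hF₀
      have := Finset.card_image_le (s := ({0, 4} : Finset F)) (f := fun x => a * x)
      have h1 : 1 ≤ ({0, 4} : Finset F).card := Finset.card_pos.2 ⟨0, by simp⟩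
      have h2 : ({0, 4} : Finset F).card ≤ 2 := Finset.card_le_two
      omega)
  simp only [A, B, T, Finset.mem_inter, Finset.mem_image, Finset.mem_univ, true_and] at hv
  obtain ⟨⟨_, ⟨μ, rfl⟩, e1⟩, ⟨_, ⟨ν, rfl⟩, e2⟩⟩ := hv
  simp only [Finset.image_insert, Finset.image_singleton, Finset.mem_insert, Finset.mem_singleton,
    not_or] at hv'
  have hμ1 : ((μ : Fˣ) : F) ≠ 1 := fun e => hv'.1 (by rw [← e1]; simp [hh, e]; right; norm_num)
  have hν1 : ((ν : Fˣ) : F) ≠ 1 := fun e => hv'.1 (by rw [← e2]; simp [hh, e]; right; norm_num)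
  have hμ4 : ((μ : Fˣ) : F) ≠ -1 := fun e => hv'.2 (by
    rw [← e1]; simp only [hh, e, hF.neg_pow, one_pow]; ring)
  have key : a * h μ + c * h ν = 0 := by linear_combination e1 - e2
  have inv_val : ∀ x : NU F q, (((x⁻¹ : NU F q) : Fˣ) : F) = ((x : Fˣ) : F) ^ q := fun x => by
    rw [Subgroup.coe_inv, Units.val_inv_eq_inv_val]
    exact inv_eq_of_mul_eq_one_right (NU.mul_pow_eq x)
  have trz : ∀ (x y : NU F q), a * h x + c * h y = 0 →
      a * (((x : Fˣ) : F) - 1) + c * (((y : Fˣ) : F) - 1) +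
        (a * (((x : Fˣ) : F) - 1) + c * (((y : Fˣ) : F) - 1)) ^ q = 0 := fun x y e => by
    simp only [hh] at e
    rw [hF.add_pow, mul_pow, mul_pow, ha, hc, hF.sub_pow, hF.sub_pow, one_pow]
    linear_combination -e
  have hinv : ∀ x, h x⁻¹ = h x := fun x => by simp only [hh, inv_val, hF.pow_pow]; ring
  by_cases hV : a * (((μ : Fˣ) : F) - 1) + c * (((ν : Fˣ) : F) - 1) ≠ 0
  · exact ⟨μ, ν, hμ1, hν1, hV, trz μ ν key⟩
  push Not at hV
  refine ⟨μ⁻¹, ν, fun e => hμ1 ?_, hν1, fun e => hμ4 ?_, trz μ⁻¹ ν (by rw [hinv]; exact key)⟩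
  · rw [inv_val] at e
    rw [← hF.pow_pow ((μ : Fˣ) : F), e, one_pow]
  · rw [inv_val] at e
    have h1 : ((μ : Fˣ) : F) ^ q = ((μ : Fˣ) : F) :=
      mul_left_cancel₀ ha0 (by linear_combination e - hV)
    have h2 := NU.mul_pow_eq μ
    rw [h1] at h2
    rcases mul_eq_zero.1 (show (((μ : Fˣ) : F) - 1) * (((μ : Fˣ) : F) + 1) = 0 by linear_combination h2)
      with h | h
    · exact absurd (sub_eq_zero.1 h) hμ1
    · exact eq_neg_of_add_eq_zero_left h

theorem Cen.sv_cen (hM : ∀ g ∈ SUG n F q, MonU g → g ∈ M) {a : Fin n} (h : a ≠ b) : Cen M b (sv F a) := by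
  refine ⟨by simp [Pi.single_eq_of_ne (Ne.symm h)], by rw [herm_sv hF]; simp, fun ρ => ?_⟩
  refine ⟨dia hF (pairFun a b ρ), hM _ (dia_mem_SUG hF (prod_pairFun h ρ)) (monU_mon hF _ _), fun v => ?_⟩
  rw [herm_sv hF, add_assoc, ← dia_pair_sub hF a b h ρ v]
  abel

theorem Cen.map {x : Fin n → F} (hx : Cen M b x) {g : UG n F q} (hg : g ∈ M) {c : F}
    (hc : g.1 (sv F b) = c • sv F b) : Cen M b (g.1 x) := by
  have hcc : c ^ q * c = 1 := by
    have := UG_app g (sv F b) (sv F b)
    rw [hc, herm_smul_left, herm_smul_right, herm_sv hF] at this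
    simp only [sv, Pi.single_eq_same, mul_one] at this
    rw [mul_comm]; exact this
  have hcb : ∀ v, g.1 v b * c ^ q = v b := fun v => by
    have := UG_app g v (sv F b)
    rwa [hc, herm_smul_right, herm_sv hF, herm_sv hF, mul_comm] at this
  refine ⟨?_, by rw [UG_app]; exact hx.2.1, fun ρ => ?_⟩
  · have := hcb x
    rw [hx.1] at this
    exact (mul_eq_zero.1 this).resolve_right fun e => by rw [e, zero_mul] at hcc; exact zero_ne_one hcc
  obtain ⟨p, hp, hpv⟩ := hx.2.2 ρ
  refine ⟨g * p * g⁻¹, mul_mem (mul_mem hg hp) (inv_mem hg), fun v => ?_⟩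
  rw [Subgroup.coe_mul, Subgroup.coe_mul, LinearEquiv.mul_apply, LinearEquiv.mul_apply, hpv, map_add,
    map_add, map_smul, map_smul, hc, app_inv hF, ← UG_app g ((g⁻¹ : UG n F q).1 v) x, app_inv hF,
    ← hcb ((g⁻¹ : UG n F q).1 v), app_inv hF, smul_smul]
  congr 2
  linear_combination (((((ρ⁻¹ : NU F q) : Fˣ) : F) - 1) * v b) * hcc

theorem Cen.apply {x y : Fin n → F} (hx : Cen M b x) (hy : Cen M b y) (ρ : NU F q) :
    Cen M b (y + ((((ρ : Fˣ) : F) - 1) * herm q y x) • x) := by
  obtain ⟨p, hp, hpv⟩ := hx.2.2 ρ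
  have e := hpv y
  rw [hy.1, mul_zero, zero_smul, add_zero] at e
  rw [← e]
  refine hy.map hF hp (c := (((ρ⁻¹ : NU F q) : Fˣ) : F)) ?_
  rw [hpv, herm_one_single, hx.1, zero_pow hF.q_ne_zero, mul_zero, zero_smul, add_zero, sv,
    Pi.single_eq_same, mul_one]
  module

/-- Two centres with inner product one give all transvections with their difference as centre. -/
theorem Cen.ctr_sub {x y : Fin n → F} (hx : Cen M b x) (hy : Cen M b y) (hyx : herm q y x = 1) :
    y - x ∈ ctr hF M := by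
  set w := y - x with hw
  have hxy : herm q x y = 1 := by rw [← hF.herm_symm, hyx, one_pow]
  have hww : herm q w w = 0 := by
    rw [hw, herm_sub_left, hF.herm_sub_right, hF.herm_sub_right, hx.2.1, hy.2.1, hxy, hyx]; ring
  have hxw : herm q x w = 0 := by rw [hw, hF.herm_sub_right, hxy, hx.2.1, sub_self]
  have hwx : herm q w x = 0 := by rw [hw, herm_sub_left, hyx, hx.2.1, sub_self]
  have hwb : w b = 0 := by rw [hw, Pi.sub_apply, hx.1, hy.1, sub_self]
  let P : AddSubgroup F :=
    { carrier := {γ | ∃ A, ∃ h : UniCond q w (γ • x) A, uni hF h ∈ M}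
      zero_mem' := ⟨0, by rw [zero_smul]; exact uniCond_zero hF hww, by
        convert one_mem M using 1
        rw [uni_congr hF _ (uniCond_zero hF hww) rfl (zero_smul F x) rfl, uni_zero hF hww]⟩
      add_mem' := fun {γ γ'} hγ hγ' => by
        obtain ⟨A, h, hm⟩ := hγ
        obtain ⟨A', h', hm'⟩ := hγ'
        have h'' := uniCond_mul hF h h'
        rw [← add_smul] at h''
        refine ⟨_, h'', ?_⟩
        convert mul_mem hm hm' using 1
        rw [uni_mul]
        exact uni_congr hF _ _ rfl (add_smul γ γ' x) rfl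
      neg_mem' := fun {γ} hγ => by
        obtain ⟨A, h, hm⟩ := hγ
        obtain ⟨p, hp, hpv⟩ := hx.2.2 (NU.mk (-1) (by rw [hF.neg_pow, one_pow]; ring))
        have e : p.1 w = w := by rw [hpv, hwx, hwb]; simp
        have ex : p.1 x = -x := by
          rw [hpv, hx.2.1, hx.1, NU.mk_val, mul_one, mul_zero, zero_smul, add_zero]; module
        have h1 : UniCond q w ((-γ) • x) A := ⟨hww, by rw [herm_smul_left, hxw, mul_zero], by
          have := h.2.2
          simp only [herm_smul_left, herm_smul_right, hF.neg_pow] at this ⊢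
          linear_combination this⟩
        refine ⟨A, h1, ?_⟩
        have := mul_mem (mul_mem hp hm) (inv_mem hp)
        rw [uni_conj] at this
        convert this using 1
        exact uni_congr hF _ _ e.symm (by rw [map_smul, ex]; module) rfl }
  have hbase : ∀ ρ : NU F q, 1 - ((ρ : Fˣ) : F) ∈ P := fun ρ => by
    obtain ⟨p, hp, hpv⟩ := hx.2.2 ρ
    obtain ⟨p', hp', hpv'⟩ := hy.2.2 ρ⁻¹
    set r := ((ρ : Fˣ) : F) with hr
    set r' := (((ρ⁻¹ : NU F q) : Fˣ) : F) with hr'
    have hrr : r * r' = 1 := by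
      rw [hr, hr', ← Units.val_mul, ← Subgroup.coe_mul, mul_inv_cancel]; simp
    have hrq : r ^ q = r' := by
      have h0 := NU.mul_pow_eq ρ
      rw [← hr] at h0
      exact mul_left_cancel₀ (NU.ne_zero ρ) (h0.trans hrr.symm)
    have hr'q : r' ^ q = r := by rw [← hrq, hF.pow_pow]
    have hcond : UniCond q w ((1 - r) • x) (r' - 1) := ⟨hww, by rw [herm_smul_left, hxw, mul_zero], by
      rw [herm_smul_left, herm_smul_right, hx.2.1, hF.sub_pow, hF.sub_pow, one_pow, hrq, hr'q]
      linear_combination hrr⟩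
    refine ⟨_, hcond, ?_⟩
    convert mul_mem hp hp' using 1
    refine Subtype.ext (LinearEquiv.ext fun v => ?_)
    rw [Subgroup.coe_mul, LinearEquiv.mul_apply, hpv, hpv', uni_apply, inv_inv, ← hr]
    have hey : y = w + x := by rw [hw]; abel
    have hsb : sv F b b = 1 := by simp
    have hxb : herm q (sv F b) x = 0 := by rw [herm_one_single, hx.1, zero_pow hF.q_ne_zero]
    rw [herm_add_left, herm_add_left, herm_smul_left, herm_smul_left, hxb, hyx, herm_smul_right,
      hF.sub_pow, one_pow, hrq, Pi.add_apply, Pi.add_apply, Pi.smul_apply, Pi.smul_apply, hy.1, hey,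
      hF.herm_add_right, smul_eq_mul, smul_eq_mul, hsb]
    match_scalars
    · linear_combination (0 : F) * hrr
    · linear_combination (herm q v w + herm q v x) * hrr * (-1) + (0 : F)
    · ring
    · linear_combination (-(v b)) * hrr
  have hmul : ∀ η : NU F q, ∀ γ ∈ P, ((η : Fˣ) : F) * γ ∈ P := fun η γ hγ => by
    obtain ⟨A, h, hm⟩ := hγ
    obtain ⟨p, hp, hpv⟩ := hx.2.2 η
    have e : p.1 w = w := by rw [hpv, hwx, hwb]; simp
    have ex : p.1 x = ((η : Fˣ) : F) • x := by
      rw [hpv, hx.2.1, hx.1, mul_one, mul_zero, zero_smul, add_zero]; module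
    have h1 : UniCond q w ((((η : Fˣ) : F) * γ) • x) A := ⟨hww, by rw [herm_smul_left, hxw, mul_zero], by
      have := h.2.2
      simp only [herm_smul_left, herm_smul_right, mul_pow] at this ⊢
      linear_combination this + γ * (γ ^ q * herm q x x) * NU.mul_pow_eq η⟩
    refine ⟨A, h1, ?_⟩
    have := mul_mem (mul_mem hp hm) (inv_mem hp)
    rw [uni_conj] at this
    convert this using 1
    exact uni_congr hF _ _ e.symm (by rw [map_smul, ex]; module) rfl
  have hall : ∀ γ, γ ∈ P := by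
    obtain ⟨κ, hκ⟩ := exists_norm_one_ne hF
    set γ₀ := 1 - ((κ : Fˣ) : F) with hγ₀
    have hγ0 : γ₀ ≠ 0 := sub_ne_zero.2 (Ne.symm hκ)
    have hK := add_closed_eq_top hF (P.comap (AddMonoidHom.mulRight γ₀))
      (fun μ => hmul μ γ₀ (hbase κ))
    intro γ
    have : γ / γ₀ ∈ P.comap (AddMonoidHom.mulRight γ₀) := by rw [hK]; trivial
    simpa [div_mul_cancel₀ _ hγ0] using this
  refine ⟨hww, fun a ha => ?_⟩
  obtain ⟨μ, hμ⟩ := hF.exists_trace (c := (1 : F)) (one_pow q)
  set γ := a * μ with hγ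
  obtain ⟨A₁, h1, hm1⟩ := hall γ
  obtain ⟨A₂, h2, hm2⟩ := hall 1
  have hγq : γ ^ q = -(a * μ ^ q) := by rw [hγ, mul_pow, ha.2]; ring
  have hT : trv hF ha = (uni hF h2 * uni hF h1)⁻¹ * (uni hF h1 * uni hF h2) := by
    rw [eq_inv_mul_iff_mul_eq, uni_mul, uni_mul]
    refine (uni_mul hF (uniCond_mul hF h2 h1) (ha.uniCond hF)).trans
      (uni_congr hF _ _ rfl (by module) ?_)
    rw [herm_zero_left, herm_smul_left, herm_smul_right, herm_smul_left, herm_smul_right, hx.2.1, one_pow]
    linear_combination hγ + hγq * (0 : F) - a * hμ + hγq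
  rw [hT]
  exact mul_mem (inv_mem (mul_mem hm2 hm1)) (mul_mem hm1 hm2)

/-- A centre with more non-zero entries. -/
theorem Cen.grow (hM : ∀ g ∈ SUG n F q, MonU g → g ∈ M) (hq : 3 ≤ q) {x : Fin n → F} (hx : Cen M b x)
    (h2 : 2 ≤ (supp x).card) (hlt : (supp x).card + 1 < n) :
    ∃ z, Cen M b z ∧ (supp x).card < (supp z).card := by
  classical
  haveI : Finite F := hF.1
  haveI : Fintype F := Fintype.ofFinite F
  obtain ⟨i, hi, m, hm, him⟩ := Finset.one_lt_card.1 h2
  obtain ⟨j, -, hj⟩ := Finset.exists_mem_notMem_of_card_lt_card (s := insert b (supp x))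
    (t := Finset.univ) ((Finset.card_insert_le _ _).trans_lt (by
      rw [Finset.card_univ, Fintype.card_fin]; omega))
  simp only [Finset.mem_insert, not_or] at hj
  obtain ⟨hjb, hjs⟩ := hj
  rw [mem_supp, not_not] at hjs
  have hib : i ≠ b := fun e => mem_supp.1 hi (e ▸ hx.1)
  have hmb : m ≠ b := fun e => mem_supp.1 hm (e ▸ hx.1)
  have hij : i ≠ j := fun e => mem_supp.1 hi (e ▸ hjs)
  have hmj : m ≠ j := fun e => mem_supp.1 hm (e ▸ hjs)
  set N : Fin n → F := fun l => x l * x l ^ q
  obtain ⟨κ, hκ⟩ : ∃ κ : NU F q, ∑ l ∈ Finset.univ.erase i,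
      N l * (if l = m then ((κ : Fˣ) : F) else 1) ^ q ≠ 0 := by
    by_contra hcon
    push Not at hcon
    obtain ⟨κ, hκ⟩ := exists_norm_one_ne hF
    have e1 := hcon 1
    have e2 := hcon κ
    have hm' : m ∈ Finset.univ.erase i := Finset.mem_erase.2 ⟨Ne.symm him, Finset.mem_univ _⟩
    rw [← Finset.add_sum_erase _ _ hm', Finset.sum_congr rfl
      (fun l hl => by rw [if_neg (Finset.ne_of_mem_erase hl)] :
        ∀ l ∈ (Finset.univ.erase i).erase m, _ = N l * (1 : F) ^ q)] at e1 e2
    simp only [if_true, one_pow, mul_one] at e1 e2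
    have : N m * (((κ : Fˣ) : F) ^ q - 1) = 0 := by
      have h1 : (((1 : NU F q) : Fˣ) : F) = 1 := by simp
      simp only [h1, one_pow, mul_one] at e1
      linear_combination e2 - e1
    rcases mul_eq_zero.1 this with h | h
    · exact mul_ne_zero (mem_supp.1 hm) (pow_ne_zero _ (mem_supp.1 hm)) h
    · exact hκ (by rw [← hF.pow_pow ((κ : Fˣ) : F), sub_eq_zero.1 h, one_pow])
  set π := Equiv.swap i j
  set l₀ : Fin n → NU F q := fun l =>
    if l = b then (NU.mk (-1) (by rw [hF.neg_pow, one_pow]; ring)) * κ⁻¹ else if l = m then κ else 1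
  have hS : UF.mon hF π l₀ ∈ SUG n F q := by
    refine mon_mem_SUG hF ?_
    rw [Equiv.Perm.sign_swap hij, ← Finset.prod_subset (Finset.subset_univ ({b, m} : Finset (Fin n)))
      (fun l _ hl => by
        simp only [Finset.mem_insert, Finset.mem_singleton, not_or] at hl
        simp [l₀, hl.1, hl.2]), Finset.prod_pair (Ne.symm hmb)]
    simp [l₀, hmb]
  have hπb : π b = b := Equiv.swap_apply_of_ne_of_ne (Ne.symm hib) (Ne.symm hjb)
  set x' := (UF.mon hF π l₀).1 x with hx'
  have hcen : Cen M b x' := hx.map hF (hM _ hS (monU_mon hF _ _)) (c := ((l₀ b : Fˣ) : F))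
    (by rw [mon_sv, hπb])
  have hx'v : ∀ l, x' (π l) = ((l₀ l : Fˣ) : F) * x l := fun l => mon_apply hF π l₀ x l
  have hl₀ : ∀ l, x l ≠ 0 → ((l₀ l : Fˣ) : F) = if l = m then ((κ : Fˣ) : F) else 1 := fun l hl => by
    have hlb : l ≠ b := fun e => hl (e ▸ hx.1)
    simp only [l₀, if_neg hlb]
    split_ifs <;> simp
  set s := herm q x x' with hs
  have hs0 : s ≠ 0 := by
    refine ne_of_eq_of_ne ?_ hκ
    rw [hs, herm_def, ← Finset.add_sum_erase _ _ (Finset.mem_univ i),
      show x' i = x' (π j) by rw [Equiv.swap_apply_right], hx'v, hjs, mul_zero,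
      zero_pow hF.q_ne_zero, mul_zero, zero_add]
    refine Finset.sum_congr rfl fun l hl => ?_
    have hli := Finset.ne_of_mem_erase hl
    rcases eq_or_ne (x l) 0 with h | h
    · simp [N, h]
    · have hlj : l ≠ j := fun e => h (e ▸ hjs)
      rw [show x' l = x' (π l) by rw [Equiv.swap_apply_of_ne_of_ne hli hlj], hx'v, hl₀ l h, mul_pow]
      ring
  set bad : Finset F := {1, 1 - s⁻¹, 1 - (s * ((κ : Fˣ) : F))⁻¹}
  obtain ⟨ρ, hρ', hρ⟩ := Finset.exists_mem_notMem_of_card_lt_card
    (s := bad) (t := Finset.univ.image fun μ : NU F q => ((μ : Fˣ) : F)) (by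
      rw [Finset.card_image_of_injective _ (fun a c e => Subtype.ext (Units.ext e)), Finset.card_univ,
        fintype_card_NU hF]
      exact Finset.card_le_three.trans_lt (by omega))
  obtain ⟨ρ, -, rfl⟩ := Finset.mem_image.1 hρ'
  simp only [bad, Finset.mem_insert, Finset.mem_singleton, not_or] at hρ
  set r := ((ρ : Fˣ) : F) - 1 with hr
  have hr0 : r ≠ 0 := sub_ne_zero.2 hρ.1
  set z := x + (r * s) • x' with hz
  refine ⟨z, hcen.apply hF hx ρ, ?_⟩
  have hsub : insert j (supp x) ⊆ supp z := by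
    intro l hl
    rw [mem_supp, hz, Pi.add_apply, Pi.smul_apply, smul_eq_mul]
    rcases Finset.mem_insert.1 hl with rfl | hl
    · rw [hjs, zero_add, show x' l = x' (π i) by rw [Equiv.swap_apply_left], hx'v]
      exact mul_ne_zero (mul_ne_zero hr0 hs0) (mul_ne_zero (NU.ne_zero _) (mem_supp.1 hi))
    have hl0 := mem_supp.1 hl
    rcases eq_or_ne l i with rfl | hli
    · rw [show x' l = x' (π j) by rw [Equiv.swap_apply_right], hx'v, hjs]
      simpa using hl0
    have hlj : l ≠ j := fun e => hl0 (e ▸ hjs)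
    rw [show x' l = x' (π l) by rw [Equiv.swap_apply_of_ne_of_ne hli hlj], hx'v, hl₀ l hl0]
    intro e
    split_ifs at e with h
    · refine hρ.2.2 ?_
      have h1 : 1 + r * (s * ((κ : Fˣ) : F)) = 0 :=
        (mul_eq_zero.1 (show x l * (1 + r * (s * ((κ : Fˣ) : F))) = 0 by linear_combination e)).resolve_left hl0
      have := mul_ne_zero hs0 (NU.ne_zero κ)
      field_simp
      linear_combination h1
    · refine hρ.2.1 ?_
      have h1 : 1 + r * s = 0 :=
        (mul_eq_zero.1 (show x l * (1 + r * s) = 0 by linear_combination e)).resolve_left hl0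
      field_simp
      linear_combination h1
  refine lt_of_lt_of_le ?_ (Finset.card_le_card hsub)
  rw [Finset.card_insert_of_notMem (by rw [mem_supp, not_not]; exact hjs)]
  omega

/-- Scalar multiples of norm one of centres are centres. -/
theorem Cen.smul_unit {x : Fin n → F} (hx : Cen M b x) {c : F} (hc : c * c ^ q = 1) : Cen M b (c • x) := by
  refine ⟨by rw [Pi.smul_apply, hx.1, smul_zero], by
    rw [herm_smul_left, herm_smul_right, hx.2.1, mul_one, hc], fun ρ => ?_⟩
  obtain ⟨p, hp, hpv⟩ := hx.2.2 ρ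
  refine ⟨p, hp, fun v => ?_⟩
  rw [hpv, herm_smul_right]
  match_scalars
  · rfl
  · linear_combination -((((ρ : Fˣ) : F) - 1) * herm q v x) * hc
  · rfl

/-- Two centres with inner product one, from three non-zero entries. -/
theorem Cen.exists_unit (hM : ∀ g ∈ SUG n F q, MonU g → g ∈ M) (hq : 3 ≤ q) {x : Fin n → F}
    (hx : Cen M b x) (h3 : 3 ≤ (supp x).card) : ∃ y, Cen M b y ∧ herm q y x = 1 ∧ y ≠ x := by
  classical
  haveI : Finite F := hF.1
  haveI : Fintype F := Fintype.ofFinite F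
  obtain ⟨i, j, k, hi, hj, hk, hij, hik, hjk⟩ := Finset.two_lt_card_iff.1 (show 2 < (supp x).card by omega)
  rw [mem_supp] at hi hj hk
  have hib : i ≠ b := fun e => hi (e ▸ hx.1)
  have hjb : j ≠ b := fun e => hj (e ▸ hx.1)
  have hkb : k ≠ b := fun e => hk (e ▸ hx.1)
  set A := x i * x i ^ q
  set C := x j * x j ^ q
  have hA : A ^ q = A := norm_fixed hF _
  have hC : C ^ q = C := norm_fixed hF _
  have hA0 : A ≠ 0 := mul_ne_zero hi (pow_ne_zero _ hi)
  have hC0 : C ≠ 0 := mul_ne_zero hj (pow_ne_zero _ hj)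
  set e := 1 - A - C with he
  have he' : e ^ q = e := by rw [he, hF.sub_pow, hF.sub_pow, one_pow, hA, hC]
  obtain ⟨μ, ν, hμ, hV⟩ : ∃ μ ν : NU F q, ((μ : Fˣ) : F) ≠ 1 ∧
      (e + A * ((μ : Fˣ) : F) + C * ((ν : Fˣ) : F)) * (e + A * ((μ : Fˣ) : F) + C * ((ν : Fˣ) : F)) ^ q = 1 := by
    rcases eq_or_ne e 0 with h0 | h0
    · obtain ⟨κ, hκ⟩ := exists_norm_one_ne hF
      refine ⟨κ, κ, hκ, ?_⟩
      have hAC : A + C = 1 := by rw [he] at h0; linear_combination -h0
      rw [h0, zero_add, ← add_mul, hAC, one_mul, NU.mul_pow_eq]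
    obtain ⟨μ, ρ, hμ, -, -, htr⟩ := exists_two_step hF hq
      (a := e * A) (c := C) (by rw [mul_pow, he', hA]) hC (mul_ne_zero h0 hA0) hC0
    set z := e + A * ((μ : Fˣ) : F)
    set s := 1 - C * ((ρ : Fˣ) : F)
    have hzs : z * z ^ q = s * s ^ q := by
      have hm := NU.mul_pow_eq μ
      have hr := NU.mul_pow_eq ρ
      simp only [hF.add_pow, mul_pow, hF.sub_pow, one_pow, he', hA, hC, z, s] at htr ⊢
      linear_combination htr + (A * A) * hm - (C * C) * hr + (e + A + (1 - C)) * he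
    have hinv : ∀ lam : NU F q, (e + A * ((μ : Fˣ) : F) + C * (((lam * ρ : NU F q) : Fˣ) : F)) =
        z + C * ((lam : Fˣ) : F) * ((ρ : Fˣ) : F) := fun lam => by
      rw [Subgroup.coe_mul, Units.val_mul]; ring
    by_cases hs : s = 0
    · refine ⟨μ, 1 * ρ, hμ, ?_⟩
      have hz : z = 0 := by
        have : z * z ^ q = 0 := by rw [hzs, hs, zero_mul]
        exact (mul_eq_zero.1 this).elim id (fun h => (pow_eq_zero_iff hF.q_ne_zero).1 h)
      have hCr : C * ((ρ : Fˣ) : F) = 1 := by linear_combination (-1 : F) * hs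
      rw [hinv, hz, zero_add, OneMemClass.coe_one, Units.val_one, mul_one, hCr, one_pow, mul_one]
    · have hs' := pow_ne_zero q hs
      set lam : NU F q := NU.mk (z / s) (by
        rw [div_pow, div_mul_div_comm, hzs, div_self (mul_ne_zero hs hs')])
      refine ⟨μ, lam * ρ, hμ, ?_⟩
      have e1 : z + C * ((lam : Fˣ) : F) * ((ρ : Fˣ) : F) = ((lam : Fˣ) : F) := by
        simp only [lam, NU.mk_val]
        field_simp
        ring
      rw [hinv, e1, NU.mul_pow_eq]
  set l : Fin n → NU F q := fun t => if t = i then μ else if t = j then ν else if t = b then (μ * ν)⁻¹ else 1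
  have hl : ∏ t, l t = 1 := by
    rw [← Finset.prod_subset (Finset.subset_univ ({i, j, b} : Finset (Fin n))) (fun t _ ht => by
      simp only [Finset.mem_insert, Finset.mem_singleton, not_or] at ht
      simp [l, ht.1, ht.2.1, ht.2.2]), Finset.prod_insert (by simp [hij, hib]), Finset.prod_pair hjb]
    simp [l, Ne.symm hij, Ne.symm hib, Ne.symm hjb]
  set y := (dia hF l).1 x
  have hcy : Cen M b y := hx.map hF (hM _ (dia_mem_SUG hF hl) (monU_mon hF _ _))
    (c := ((l b : Fˣ) : F)) (dia_sv hF l b)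
  have hval : herm q y x = e + A * ((μ : Fˣ) : F) + C * ((ν : Fˣ) : F) := by
    have h1 : herm q (y - x) x = A * (((μ : Fˣ) : F) - 1) + C * (((ν : Fˣ) : F) - 1) := by
      rw [herm_def, ← Finset.sum_subset (Finset.subset_univ ({i, j} : Finset (Fin n))) (fun t _ ht => by
        simp only [Finset.mem_insert, Finset.mem_singleton, not_or] at ht
        simp only [y, Pi.sub_apply, dia_apply, l, if_neg ht.1, if_neg ht.2]
        rcases eq_or_ne t b with rfl | htb
        · rw [hx.1]; ring
        · simp [if_neg htb]), Finset.sum_pair hij]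
      simp only [y, A, C, Pi.sub_apply, dia_apply, l, if_pos, if_neg (Ne.symm hij)]
      ring
    rw [herm_sub_left, hx.2.1] at h1
    rw [he]; linear_combination h1
  set S := e + A * ((μ : Fˣ) : F) + C * ((ν : Fˣ) : F)
  refine ⟨S ^ q • y, hcy.smul_unit hF (by rw [hF.pow_pow, mul_comm]; exact hV),
    by rw [herm_smul_left, hval, mul_comm]; exact hV, fun h => ?_⟩
  have hS1 : S ^ q = 1 := by
    have e2 := congrFun h k
    simp only [y, Pi.smul_apply, smul_eq_mul, dia_apply, l, if_neg (Ne.symm hik), if_neg (Ne.symm hjk),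
      if_neg hkb, OneMemClass.coe_one, Units.val_one, one_mul] at e2
    exact (mul_eq_right₀ hk).1 e2
  have e3 := congrFun h i
  simp only [y, Pi.smul_apply, smul_eq_mul, dia_apply, l, if_pos, hS1, one_mul] at e3
  exact hμ ((mul_eq_right₀ hi).1 e3)

/-- A transvection centre off the coordinate `b`. -/
theorem exists_ctr_of_fix (hn : 6 ≤ n ∨ 4 ≤ n ∧ 3 ≤ q) (hM : ∀ g ∈ SUG n F q, MonU g → g ∈ M) {g : UG n F q}
    (hg : g ∈ M) (hgm : ¬ MonU g) {c : F} (hc : g.1 (sv F b) = c • sv F b) :
    ∃ w ∈ ctr hF M, w b = 0 ∧ 2 ≤ (supp w).card ∧ (q = 2 → (supp w).card = 4) := by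
  classical
  haveI : Finite F := hF.1
  haveI : Fintype F := Fintype.ofFinite F
  obtain ⟨a, hab, ha⟩ : ∃ a, a ≠ b ∧ 2 ≤ (supp (g.1 (sv F a))).card := by
    by_contra hcon
    push Not at hcon
    refine hgm fun a => ?_
    rcases eq_or_ne a b with rfl | hab
    · exact ⟨a, fun l hl => by rw [hc]; simp [Pi.single_eq_of_ne hl]⟩
    · obtain ⟨i, hi⟩ : ∃ i, ∀ l ∈ supp (g.1 (sv F a)), l = i := by
        rcases (supp (g.1 (sv F a))).eq_empty_or_nonempty with e | ⟨i, hi⟩
        · exact ⟨a, fun l hl => by rw [e] at hl; simp at hl⟩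
        · exact ⟨i, fun l hl => Finset.card_le_one.1 (Nat.lt_succ_iff.1 (hcon a hab)) l hl i hi⟩
      exact ⟨i, fun l hl => by_contra fun h => hl (hi l (mem_supp.2 h))⟩
  have hx₀ := (Cen.sv_cen hF hM hab).map hF hg hc
  have hbnot : ∀ {x : Fin n → F}, Cen M b x → supp x ⊆ Finset.univ.erase b := fun {x} hx l hl =>
    Finset.mem_erase.2 ⟨fun e => mem_supp.1 hl (e ▸ hx.1), Finset.mem_univ _⟩
  by_cases hq : q = 2
  · subst hq
    replace hn : 6 ≤ n := hn.resolve_right (by omega)
    set x := g.1 (sv F a)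
    obtain ⟨κ, hκ⟩ := exists_norm_one_ne hF
    have hN : ∀ l, x l ≠ 0 → x l * x l ^ 2 = 1 := fun l hl => by
      have h1 : (x l * x l ^ 2) ^ 2 = x l * x l ^ 2 := by rw [mul_pow, hF.pow_pow]; ring
      have h0 := mul_ne_zero hl (pow_ne_zero 2 hl)
      rw [sq] at h1
      exact (mul_eq_right₀ h0).1 h1
    have h20 : (2 : F) = 0 := by
      obtain ⟨p, e, hp, hc', he⟩ := hF.exists_char
      have hp2 : p = 2 := (Nat.prime_dvd_prime_iff_eq hp Nat.prime_two).1
        (by rw [he]; exact dvd_pow_self p (by rintro rfl; simp at he))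
      subst hp2
      exact CharTwo.two_eq_zero
    have hnorm : ((supp x).card : F) = 1 := by
      rw [← hx₀.2.1, herm_def, ← Finset.sum_subset (Finset.subset_univ (supp x))
        (fun l _ hl => by rw [mem_supp, not_not] at hl; simp [hl]),
        Finset.sum_congr rfl (fun l hl => hN l (mem_supp.1 hl)), Finset.sum_const, nsmul_one]
    rcases Nat.lt_or_ge (supp x).card 5 with h5 | h5
    · have h3 : (supp x).card = 3 := by
        interval_cases h : (supp x).card
        · exfalso; push_cast at hnorm; rw [h20] at hnorm; exact zero_ne_one hnorm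
        · rfl
        · exfalso; push_cast at hnorm
          exact zero_ne_one ((show (4 : F) = 0 by linear_combination 2 * h20).symm.trans hnorm)
      obtain ⟨i₁, i₂, i₃, h12, h13, h23, hS⟩ := Finset.card_eq_three.1 h3
      obtain ⟨j₁, j₂, hj₁, hj₂, hjj⟩ := Finset.one_lt_card_iff.1
        (show 1 < ((Finset.univ.erase b) \ supp x).card by
          rw [Finset.card_sdiff_of_subset (hbnot hx₀), Finset.card_erase_of_mem (Finset.mem_univ _),
            Finset.card_univ, Fintype.card_fin]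
          omega)
      simp only [Finset.mem_sdiff, Finset.mem_erase, Finset.mem_univ, and_true, hS, Finset.mem_insert,
        Finset.mem_singleton, not_or] at hj₁ hj₂
      have hi : ∀ l ∈ supp x, l ≠ b := fun l hl => Finset.ne_of_mem_erase (hbnot hx₀ hl)
      have hb1 := hi i₁ (by rw [hS]; simp)
      have hb2 := hi i₂ (by rw [hS]; simp)
      set π := Equiv.swap i₁ j₁ * Equiv.swap i₂ j₂
      have hsg : UF.mon hF π (fun _ => 1) ∈ SUG n F 2 := by
        refine mon_mem_SUG hF ?_
        rw [Equiv.Perm.sign_mul, Equiv.Perm.sign_swap (Ne.symm hj₁.2.1), Equiv.Perm.sign_swap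
          (Ne.symm hj₂.2.2.1)]
        simp
      have hπb : π b = b := by
        simp [π, Equiv.swap_apply_of_ne_of_ne (Ne.symm hb2) (Ne.symm hj₂.1),
          Equiv.swap_apply_of_ne_of_ne (Ne.symm hb1) (Ne.symm hj₁.1)]
      have hπ3 : π i₃ = i₃ := by
        simp [π, Equiv.swap_apply_of_ne_of_ne (Ne.symm h23) (Ne.symm hj₂.2.2.2),
          Equiv.swap_apply_of_ne_of_ne (Ne.symm h13) (Ne.symm hj₁.2.2.2)]
      have hπ1 : π i₁ = j₁ := by
        simp [π, Equiv.swap_apply_of_ne_of_ne h12 (Ne.symm hj₂.2.1)]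
      have hπ2 : π i₂ = j₂ := by
        simp [π, Equiv.swap_apply_of_ne_of_ne hj₂.2.1 (Ne.symm hjj)]
      set y := (UF.mon hF π (fun _ => (1 : NU F 2))).1 x with hy
      have hcy : Cen M b y := hx₀.map hF (hM _ hsg (monU_mon hF _ _)) (c := (1 : F)) (by
        rw [mon_sv, hπb]; simp)
      have hyv : ∀ l, y (π l) = x l := fun l => by rw [hy, mon_apply]; simp
      have hx0 : ∀ l, l ≠ i₁ → l ≠ i₂ → l ≠ i₃ → x l = 0 := fun l a c d => by
        by_contra h; have := mem_supp.2 h; rw [hS] at this; simp [a, c, d] at this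
      have hy0 : ∀ l, l ≠ j₁ → l ≠ j₂ → l ≠ i₃ → y l = 0 := fun l a c d => by
        obtain ⟨l, rfl⟩ := π.surjective l
        rw [hyv]
        exact hx0 l (fun e => a (e ▸ hπ1)) (fun e => c (e ▸ hπ2)) (fun e => d (e ▸ hπ3))
      have hy3 : y i₃ = x i₃ := by rw [← hπ3, hyv, hπ3]
      have hx3 : x i₃ ≠ 0 := mem_supp.1 (by rw [hS]; simp)
      have hyx : herm 2 y x = 1 := by
        rw [herm_def, Finset.sum_eq_single i₃ (fun l _ hl => ?_) (by simp), hy3, hN _ hx3]
        by_cases h1 : l = i₁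
        · rw [hy0 l (h1 ▸ Ne.symm hj₁.2.1) (h1 ▸ Ne.symm hj₂.2.1) hl, zero_mul]
        by_cases h2' : l = i₂
        · rw [hy0 l (h2' ▸ Ne.symm hj₁.2.2.1) (h2' ▸ Ne.symm hj₂.2.2.1) hl, zero_mul]
        · rw [hx0 l h1 h2' hl]; simp
      refine ⟨y - x, hx₀.ctr_sub hF hcy hyx, by rw [Pi.sub_apply, hcy.1, hx₀.1, sub_self], ?_⟩
      have hsupp : supp (y - x) = {j₁, j₂, i₁, i₂} := by
        ext l
        simp only [mem_supp, Pi.sub_apply, Finset.mem_insert, Finset.mem_singleton]
        constructor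
        · intro h
          by_contra hc'
          push Not at hc'
          by_cases h3' : l = i₃
          · rw [h3', hy3, sub_self] at h; exact h rfl
          · rw [hy0 l hc'.1 hc'.2.1 h3', hx0 l hc'.2.2.1 hc'.2.2.2 h3', sub_self] at h; exact h rfl
        · have hxi : ∀ i ∈ supp x, x i ≠ 0 := fun i hi => mem_supp.1 hi
          rintro (rfl | rfl | rfl | rfl)
          · rw [← hπ1, hyv, hπ1, hx0 l hj₁.2.1 hj₁.2.2.1 hj₁.2.2.2, sub_zero]
            exact hxi _ (by rw [hS]; simp)
          · rw [← hπ2, hyv, hπ2, hx0 l hj₂.2.1 hj₂.2.2.1 hj₂.2.2.2, sub_zero]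
            exact hxi _ (by rw [hS]; simp)
          · rw [hy0 l (Ne.symm hj₁.2.1) (Ne.symm hj₂.2.1) h13, zero_sub, neg_ne_zero]
            exact hxi _ (by rw [hS]; simp)
          · rw [hy0 l (Ne.symm hj₁.2.2.1) (Ne.symm hj₂.2.2.1) h23, zero_sub, neg_ne_zero]
            exact hxi _ (by rw [hS]; simp)
      have h4 : (supp (y - x)).card = 4 := by
        rw [hsupp, Finset.card_insert_of_notMem (by simp [hjj, hj₁.2.1, hj₁.2.2.1]),
          Finset.card_insert_of_notMem (by simp [hj₂.2.1, hj₂.2.2.1]), Finset.card_pair h12]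
      exact ⟨by omega, fun _ => h4⟩
    · obtain ⟨A, hA, hAc⟩ := Finset.exists_subset_card_eq (show 4 ≤ (supp x).card by omega)
      have hAb : b ∉ A := fun h => Finset.ne_of_mem_erase (hbnot hx₀ (hA h)) rfl
      set l₀ : Fin n → NU F 2 := fun l => if l ∈ A then κ else if l = b then (κ ^ 4)⁻¹ else 1
      have hl : ∏ l, l₀ l = 1 := by
        rw [← Finset.prod_subset (Finset.subset_univ (insert b A)) (fun l _ hl => by
          simp only [Finset.mem_insert, not_or] at hl; simp [l₀, hl.1, hl.2]),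
          Finset.prod_insert hAb, Finset.prod_congr rfl (fun l hl => show l₀ l = κ by simp [l₀, hl]),
          Finset.prod_const, hAc]
        simp [l₀, hAb]
      set y := (dia hF l₀).1 x
      have hcy : Cen M b y := hx₀.map hF (hM _ (dia_mem_SUG hF hl) (monU_mon hF _ _))
        (c := ((l₀ b : Fˣ) : F)) (dia_sv hF l₀ b)
      have hyl : ∀ l, y l - x l = if l ∈ A then (((κ : Fˣ) : F) - 1) * x l else 0 := fun l => by
        simp only [y]; rw [dia_apply]
        by_cases hlA : l ∈ A
        · simp [l₀, hlA]; ring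
        by_cases hlb : l = b
        · subst hlb; simp [hlA, hx₀.1]
        · simp [l₀, hlA, hlb]
      have hyx : herm 2 y x = 1 := by
        have h1 : herm 2 (y - x) x = 0 := by
          rw [herm_def, ← Finset.sum_subset (Finset.subset_univ A) (fun l _ hl => by
            rw [Pi.sub_apply, hyl, if_neg hl, zero_mul]), Finset.sum_congr rfl (fun l hl => by
            rw [Pi.sub_apply, hyl, if_pos hl, mul_assoc, hN l (mem_supp.1 (hA hl))] :
            ∀ l ∈ A, (y - x) l * x l ^ 2 = (((κ : Fˣ) : F) - 1) * 1), Finset.sum_const, hAc, nsmul_eq_mul]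
          push_cast
          linear_combination 2 * (((κ : Fˣ) : F) - 1) * h20
        rw [herm_sub_left, hx₀.2.1, sub_eq_zero] at h1
        exact h1
      refine ⟨y - x, hx₀.ctr_sub hF hcy hyx, by rw [Pi.sub_apply, hcy.1, hx₀.1, sub_self], ?_⟩
      have hsupp : supp (y - x) = A := by
        ext l
        rw [mem_supp, Pi.sub_apply, hyl]
        split_ifs with h
        · exact iff_of_true (mul_ne_zero (sub_ne_zero.2 hκ) (mem_supp.1 (hA h))) h
        · exact iff_of_false (not_not.2 rfl) h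
      rw [hsupp, hAc]
      exact ⟨by omega, fun _ => rfl⟩
  · have hq3 : 3 ≤ q := by have := hF.one_lt; omega
    obtain ⟨x, hx, hxs⟩ : ∃ x, Cen M b x ∧ 3 ≤ (supp x).card := by
      by_cases h3 : 3 ≤ (supp (g.1 (sv F a))).card
      · exact ⟨_, hx₀, h3⟩
      · obtain ⟨z, hz, hlt⟩ := hx₀.grow hF hM hq3 ha (by omega)
        exact ⟨z, hz, by omega⟩
    obtain ⟨y, hy, hyx, hne⟩ := hx.exists_unit hF hM hq3 hxs
    refine ⟨y - x, hx.ctr_sub hF hy hyx, by rw [Pi.sub_apply, hy.1, hx.1, sub_self], ?_,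
      fun e => absurd e hq⟩
    by_contra hlt
    push Not at hlt
    obtain ⟨p, hp⟩ := Function.ne_iff.1 (sub_ne_zero.2 hne)
    have h0 := (hx.ctr_sub hF hy hyx).1
    rw [herm_def, Finset.sum_eq_single p (fun l _ hl' => ?_) (by simp)] at h0
    · exact mul_ne_zero hp (pow_ne_zero _ hp) h0
    · have : (y - x) l = 0 := by
        by_contra h'
        exact hl' (Finset.card_le_one.1 (Nat.lt_succ_iff.1 hlt) l (mem_supp.2 h') p (mem_supp.2 hp))
      rw [this, zero_mul]

end Cfsg.Agent.DecompMax.UF
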