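import Cfsg.Agent.DecompMax.UnitRoot

/-!
From one transvection centre all of them, for overgroups of the monomial special unitary group.
-/

set_option autoImplicit false
set_option linter.style.haveILetI false
set_option linter.unusedSectionVars false

namespace Cfsg.Agent.DecompMax.UF

open Matrix Cfsg.Geo Module Cfsg.Agent.Classical.U Cfsg.Agent.DecompMax.UCount Cfsg.Agent.DecompMax.UN
open scoped MatrixGroups Matrix

universe u

variable {F : Type u} [Field F] {n q : ℕ}
variable {M : Subgroup (UG n F q)}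

/-- The extension of a map of the plane of two coordinates. -/
def ext2 (i j : Fin n) (g : (Fin 2 → F) → (Fin 2 → F)) (v : Fin n → F) : Fin n → F :=
  fun x => if x = i then g ![v i, v j] 0 else if x = j then g ![v i, v j] 1 else v x

variable (hF : SqField F q)
include hF

variable (hM : ∀ g ∈ SUG n F q, MonU g → g ∈ M)
include hM

theorem ctr_dia {w : Fin n → F} (hw : w ∈ ctr hF M) {l : Fin n → NU F q} (h : ∏ i, l i = 1) :
    (dia hF l).1 w ∈ ctr hF M := ctr_map hF hw (hM _ (dia_mem_SUG hF h) (monU_mon hF _ _))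

/-- A centre with two non-zero entries. -/
theorem exists_two_supp (hq : 3 ≤ q) {w : Fin n → F} (hw : w ∈ ctr hF M) {b : Fin n} (hb : w b = 0)
    (h2 : 2 ≤ (supp w).card) : ∃ u ∈ ctr hF M, (supp u).card = 2 := by
  classical
  haveI : Finite F := hF.1
  haveI : Fintype F := Fintype.ofFinite F
  obtain ⟨i, hi, j, hj, hij⟩ := Finset.one_lt_card.1 h2
  have hi0 := mem_supp.1 hi
  have hj0 := mem_supp.1 hj
  have hib : i ≠ b := fun e => hi0 (e ▸ hb)
  have hjb : j ≠ b := fun e => hj0 (e ▸ hb)
  obtain ⟨μ, ν, hμ, hν, hV, htr⟩ := exists_two_step hF hq (norm_fixed hF (w i)) (norm_fixed hF (w j))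
    (mul_ne_zero hi0 (pow_ne_zero _ hi0)) (mul_ne_zero hj0 (pow_ne_zero _ hj0))
  set l : Fin n → NU F q := fun x => if x = i then μ else if x = j then ν else
    if x = b then (μ * ν)⁻¹ else 1
  have hl : ∏ x, l x = 1 := by
    rw [← Finset.prod_subset (Finset.subset_univ ({i, j, b} : Finset (Fin n))) (fun x _ hx => by
      simp only [Finset.mem_insert, Finset.mem_singleton, not_or] at hx
      simp [l, hx.1, hx.2.1, hx.2.2]), Finset.prod_insert (by simp [hij, hib]),
      Finset.prod_pair hjb]
    simp [l, Ne.symm hij, Ne.symm hib, Ne.symm hjb]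
  set w' := (dia hF l).1 w with hw'
  have hd : ∀ x, w' x - w x = if x = i then (((μ : Fˣ) : F) - 1) * w i else
      if x = j then (((ν : Fˣ) : F) - 1) * w j else 0 := fun x => by
    rw [hw', dia_apply]
    rcases eq_or_ne x i with rfl | hxi
    · simp [l]; ring
    rcases eq_or_ne x j with rfl | hxj
    · simp [l, hxi]; ring
    rcases eq_or_ne x b with rfl | hxb
    · simp [hxi, hxj, hb]
    · simp [l, hxi, hxj, hxb]
  have hsup : supp (w' - w) = {i, j} := by
    ext x
    rw [mem_supp, Pi.sub_apply, hd, Finset.mem_insert, Finset.mem_singleton]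
    split_ifs with h1 h2'
    · exact iff_of_true (mul_ne_zero (sub_ne_zero.2 hμ) hi0) (Or.inl h1)
    · exact iff_of_true (mul_ne_zero (sub_ne_zero.2 hν) hj0) (Or.inr h2')
    · exact iff_of_false (not_not.2 rfl) (by tauto)
  have hval : herm q w' w = w i * w i ^ q * (((μ : Fˣ) : F) - 1) + w j * w j ^ q * (((ν : Fˣ) : F) - 1) := by
    have h1 : herm q (w' - w) w = herm q w' w := by rw [herm_sub_left, hw.1, sub_zero]
    rw [← h1, herm_of_supp hF hsup.le, Finset.sum_pair hij, Pi.sub_apply, Pi.sub_apply, hd, hd, if_pos rfl,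
      if_neg (Ne.symm hij), if_pos rfl]
    ring
  refine ⟨w' - w, ctr_line_sub hF (ctr_dia hF hM hw hl) hw ?_ ?_, by rw [hsup, Finset.card_pair hij]⟩
  · rw [hval]; exact hV
  · rw [hval]; exact htr

/-- Centres with the same pattern of norms. -/
theorem ctr_transfer {u v : Fin n → F} (hu : u ∈ ctr hF M) (σ : Equiv.Perm (Fin n)) (m : Fin n)
    (hm : u m = 0) (hN : ∀ x, v (σ x) * v (σ x) ^ q = u x * u x ^ q) : v ∈ ctr hF M := by
  classical
  have h0 : ∀ x, u x = 0 → v (σ x) = 0 := fun x h => by
    have := hN x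
    rw [h, zero_mul] at this
    rcases mul_eq_zero.1 this with h' | h'
    · exact h'
    · exact (pow_eq_zero_iff hF.q_ne_zero).1 h'
  let l₀ : Fin n → NU F q := fun x => if hx : u x = 0 then 1 else NU.mk (v (σ x) / u x) (by
    rw [div_pow, div_mul_div_comm, hN, div_self (mul_ne_zero hx (pow_ne_zero _ hx))])
  have hl₀ : ∀ x, ((l₀ x : Fˣ) : F) * u x = v (σ x) := fun x => by
    by_cases hx : u x = 0
    · simp [hx, h0 x hx]
    · simp [l₀, hx]
  set e : NU F q := NU.mk ((Equiv.Perm.sign σ : ℤˣ) : F) (by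
    rcases Int.units_eq_one_or (Equiv.Perm.sign σ) with h | h <;> simp [h, hF.neg_pow]) with he
  set l := Function.update l₀ m (e * (∏ x ∈ Finset.univ.erase m, l₀ x)⁻¹)
  have hprod : ∏ x, l x = e := by
    rw [← Finset.mul_prod_erase _ _ (Finset.mem_univ m)]
    simp only [l, Function.update_self]
    rw [Finset.prod_congr rfl (fun x hx => Function.update_of_ne (Finset.ne_of_mem_erase hx) _ _),
      inv_mul_cancel_right]
  have hS : UF.mon hF σ l ∈ SUG n F q := by
    refine mon_mem_SUG hF ?_
    rw [← NU.coe_prod, hprod, he, NU.mk_val]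
    rcases Int.units_eq_one_or (Equiv.Perm.sign σ) with h | h <;> simp [h]
  have hg : (UF.mon hF σ l).1 u = v := funext fun y => by
    obtain ⟨x, rfl⟩ := σ.surjective y
    rw [mon_apply, ← hl₀ x]
    rcases eq_or_ne x m with rfl | hx
    · rw [hm, mul_zero, mul_zero]
    · simp [l, Function.update_of_ne hx]
  rw [← hg]
  exact ctr_map hF hu (hM _ hS (monU_mon hF _ _))

theorem ctr_zero_of_small {u : Fin n → F} (hu : u ∈ ctr hF M) {v : Fin n → F} (hv : herm q v v = 0)
    (h : (supp v).card ≤ 1) : v ∈ ctr hF M := by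
  have hv0 : v = 0 := funext fun x => by
    by_contra hx
    have hsub : supp v ⊆ {x} := fun y hy =>
      Finset.mem_singleton.2 (Finset.card_le_one.1 h y hy x (mem_supp.2 hx))
    rw [herm_of_supp hF hsub, Finset.sum_singleton] at hv
    exact mul_ne_zero hx (pow_ne_zero _ hx) hv
  rw [hv0]
  simpa using ctr_smul hF hu 0

/-- All centres with two non-zero entries. -/
theorem ctr_two_all (hn : 3 ≤ n) {u : Fin n → F} (hu : u ∈ ctr hF M) (hc : (supp u).card = 2)
    {v : Fin n → F} (hv : herm q v v = 0) (hvc : (supp v).card ≤ 2) : v ∈ ctr hF M := by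
  classical
  rcases Nat.lt_or_ge (supp v).card 2 with h | h
  · exact ctr_zero_of_small hF hM hu hv (by omega)
  obtain ⟨i, j, hij, hu2⟩ := Finset.card_eq_two.1 hc
  obtain ⟨i', j', hij', hv2⟩ := Finset.card_eq_two.1 (le_antisymm hvc h)
  have hi : u i ≠ 0 := mem_supp.1 (by rw [hu2]; simp)
  have hu0 : ∀ x, x ≠ i → x ≠ j → u x = 0 := fun x a b => by
    by_contra h'; have := mem_supp.2 h'; rw [hu2] at this; simp [a, b] at this
  have hv0 : ∀ x, x ≠ i' → x ≠ j' → v x = 0 := fun x a b => by
    by_contra h'; have := mem_supp.2 h'; rw [hv2] at this; simp [a, b] at this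
  obtain ⟨c, hcN⟩ := hF.exists_norm (c := v i' * v i' ^ q / (u i * u i ^ q))
    (by rw [div_pow, norm_fixed hF, norm_fixed hF])
  have hsum : ∀ (z : Fin n → F) (a b : Fin n), a ≠ b → supp z = {a, b} → herm q z z = 0 →
      z b * z b ^ q = -(z a * z a ^ q) := fun z a b hab hs hz => by
    rw [herm_of_supp hF hs.le, Finset.sum_pair hab] at hz
    linear_combination hz
  set σ : Equiv.Perm (Fin n) := Equiv.swap (Equiv.swap i i' j) j' * Equiv.swap i i'
  have hne : Equiv.swap i i' j ≠ i' := fun e => hij (by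
    have := congrArg (Equiv.swap i i') e
    rw [Equiv.swap_apply_self, Equiv.swap_apply_right] at this
    exact this.symm)
  have hσi : σ i = i' := by
    simp only [σ, Equiv.Perm.mul_apply, Equiv.swap_apply_left]
    exact Equiv.swap_apply_of_ne_of_ne hne.symm hij'
  have hσj : σ j = j' := by simp [σ, Equiv.swap_apply_left]
  obtain ⟨m, -, hm⟩ := Finset.exists_mem_notMem_of_card_lt_card (s := ({i, j} : Finset (Fin n)))
    (t := Finset.univ) (Finset.card_le_two.trans_lt (by rw [Finset.card_univ, Fintype.card_fin]; omega))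
  simp only [Finset.mem_insert, Finset.mem_singleton, not_or] at hm
  refine ctr_transfer hF hM (ctr_smul hF hu c) σ m (by simp [hu0 m hm.1 hm.2]) fun x => ?_
  have key : (c • u) i * (c • u) i ^ q = v i' * v i' ^ q := by
    rw [pow_succ', eq_div_iff (mul_ne_zero hi (pow_ne_zero _ hi))] at hcN
    rw [Pi.smul_apply, smul_eq_mul, mul_pow]
    linear_combination hcN
  rcases eq_or_ne x i with rfl | hxi
  · rw [hσi, key]
  rcases eq_or_ne x j with rfl | hxj
  · rw [hσj, hsum v i' j' hij' hv2 hv, ← key]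
    have h1 : (c • u) x * (c • u) x ^ q = -((c • u) i * (c • u) i ^ q) := by
      rw [Pi.smul_apply, Pi.smul_apply, smul_eq_mul, smul_eq_mul, mul_pow, mul_pow]
      linear_combination (c * c ^ q) * hsum u i x hij hu2 hu.1
    rw [h1]
  · have h1 : σ x ≠ i' := fun e => hxi (σ.injective (e.trans hσi.symm))
    have h2 : σ x ≠ j' := fun e => hxj (σ.injective (e.trans hσj.symm))
    simp [hv0 _ h1 h2, hu0 x hxi hxj, hF.q_ne_zero]

end Cfsg.Agent.DecompMax.UF
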